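import Mathlib
import Cfsg.Prelude.Def_GeometricClasses
import Cfsg.Agent.H99.SLConj

set_option autoImplicit false

/-! Facts on 2×2 matrices and normalizers (helper99). -/

namespace Cfsg.Agent.H99

open Module Matrix

section
variable {F V : Type*} [Field F] [AddCommGroup V] [Module F V]

/-- a map for which every vector is an eigenvector is scalar -/
lemma exists_not_eigen [Nontrivial V] (f : V →ₗ[F] V) (hfs : ∀ c : F, ¬ ∀ v, f v = c • v) : ∃ v, ∀ c : F, f v ≠ c • v := by
  by_contra hcon
  push Not at hcon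
  choose c hc using hcon
  have hsc : ∀ u v : V, u ≠ 0 → v ≠ 0 → c u = c v := by
    intro u v hu hv
    by_cases hli : ∃ a : F, a • u = v
    · obtain ⟨a, rfl⟩ := hli
      have h1 := hc (a • u)
      rw [map_smul, hc u, smul_smul, smul_smul] at h1
      have h2 : a * c u = c (a • u) * a := smul_left_injective F hu h1
      have ha : a ≠ 0 := by
        rintro rfl
        exact hv (zero_smul F u)
      have h3 : a * (c u - c (a • u)) = 0 := by linear_combination h2
      exact sub_eq_zero.mp ((mul_eq_zero.mp h3).resolve_left ha)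
    · push Not at hli
      have hli2 : LinearIndependent F ![u, v] := (LinearIndependent.pair_iff' hu).mpr hli
      have h1 := hc (u + v)
      rw [map_add, hc u, hc v, smul_add] at h1
      have h2 : (c u - c (u + v)) • u + (c v - c (u + v)) • v = 0 := by
        rw [sub_smul, sub_smul]
        have : c u • u + c v • v - (c (u + v) • u + c (u + v) • v) = 0 := by rw [h1, sub_self]
        rw [← this]
        abel
      obtain ⟨h3, h4⟩ := LinearIndependent.pair_iff.mp hli2 _ _ h2
      rw [sub_eq_zero.mp h3, sub_eq_zero.mp h4]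
  obtain ⟨v0, hv0⟩ := exists_ne (0 : V)
  apply hfs (c v0)
  intro v
  by_cases hv : v = 0
  · rw [hv, map_zero, smul_zero]
  · rw [hsc _ v hv0 hv]
    exact hc v

end

section
variable {F : Type*} [Field F]

lemma not_scalar_toLin {M : Matrix (Fin 2) (Fin 2) F} (hM : ∀ z : F, M ≠ z • (1 : Matrix (Fin 2) (Fin 2) F)) :
    ∀ c : F, ¬ ∀ v, Matrix.toLin' M v = c • v := by
  intro c hc
  apply hM c
  apply Matrix.toLin'.injective
  apply LinearMap.ext
  intro v
  rw [hc]
  simp

/-- the centralizer of a non-scalar 2×2 matrix is commutative -/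
theorem cent_comm {M A B : Matrix (Fin 2) (Fin 2) F} (hM : ∀ z : F, M ≠ z • (1 : Matrix (Fin 2) (Fin 2) F))
    (hA : A * M = M * A) (hB : B * M = M * B) : A * B = B * A := by
  obtain ⟨v, hv⟩ := exists_not_eigen (Matrix.toLin' M) (not_scalar_toLin hM)
  have hv0 : v ≠ 0 := by
    rintro rfl
    exact hv 0 (by simp)
  have hli : LinearIndependent F ![v, Matrix.toLin' M v] := by
    rw [LinearIndependent.pair_iff' hv0]
    intro a h
    exact hv a h.symm
  let b := basisOfLinearIndependentOfCardEqFinrank hli (by simp)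
  have hb0 : b 0 = v := by simp [b]
  have hb1 : b 1 = M *ᵥ v := by simp [b]
  have key : ∀ A : Matrix (Fin 2) (Fin 2) F, A * M = M * A → ∃ p q : F, A = p • (1 : Matrix (Fin 2) (Fin 2) F) + q • M := by
    intro A hA
    refine ⟨b.repr (A *ᵥ v) 0, b.repr (A *ᵥ v) 1, ?_⟩
    have h1 : A *ᵥ v = b.repr (A *ᵥ v) 0 • v + b.repr (A *ᵥ v) 1 • (M *ᵥ v) := by
      have := b.sum_repr (A *ᵥ v)
      rw [Fin.sum_univ_two, hb0, hb1] at this
      exact this.symm
    set p := b.repr (A *ᵥ v) 0
    set q := b.repr (A *ᵥ v) 1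
    apply Matrix.toLin'.injective
    apply b.ext
    intro i
    fin_cases i
    · simp only [Fin.zero_eta, hb0, Matrix.toLin'_apply, Matrix.add_mulVec, Matrix.smul_mulVec, Matrix.one_mulVec]
      exact h1
    · simp only [Fin.mk_one, hb1, Matrix.toLin'_apply, Matrix.add_mulVec, Matrix.smul_mulVec, Matrix.one_mulVec]
      rw [Matrix.mulVec_mulVec, hA, ← Matrix.mulVec_mulVec, h1, Matrix.mulVec_add, Matrix.mulVec_smul, Matrix.mulVec_smul]
  obtain ⟨p, q, rfl⟩ := key A hA
  obtain ⟨r, s, rfl⟩ := key B hB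
  simp only [add_mul, mul_add, smul_mul_assoc, mul_smul_comm, one_mul, mul_one]
  module

/-- two non-scalar endomorphisms of a plane with the same quadratic relation are conjugate -/
theorem exists_conj_dim_two (f g : (Fin 2 → F) →ₗ[F] (Fin 2 → F)) (a z : F)
    (hf : ∀ v, f (f v) = a • f v + z • v) (hg : ∀ v, g (g v) = a • g v + z • v) (hfs : ∀ c : F, ¬ ∀ v, f v = c • v)
    (hgs : ∀ c : F, ¬ ∀ v, g v = c • v) :
    ∃ e : (Fin 2 → F) ≃ₗ[F] (Fin 2 → F), ∀ v, e (g v) = f (e v) := by
  have key : ∀ f : (Fin 2 → F) →ₗ[F] (Fin 2 → F), (∀ v, f (f v) = a • f v + z • v) → (∀ c : F, ¬ ∀ v, f v = c • v) →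
      ∃ b : Basis (Fin 2) F (Fin 2 → F), f (b 0) = b 1 ∧ f (b 1) = a • b 1 + z • b 0 := by
    intro f hf hfs
    obtain ⟨v, hv⟩ := exists_not_eigen f hfs
    have hv0 : v ≠ 0 := by
      rintro rfl
      exact hv 0 (by simp)
    have hli : LinearIndependent F ![v, f v] := by
      rw [LinearIndependent.pair_iff' hv0]
      intro a h
      exact hv a h.symm
    refine ⟨basisOfLinearIndependentOfCardEqFinrank hli (by simp), ?_, ?_⟩
    · simp
    · simp [hf]
  obtain ⟨b, h1, h2⟩ := key f hf hfs
  obtain ⟨b', h1', h2'⟩ := key g hg hgs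
  refine ⟨b'.equiv b (Equiv.refl _), ?_⟩
  have h3 : (b'.equiv b (Equiv.refl _)).toLinearMap ∘ₗ g = f ∘ₗ (b'.equiv b (Equiv.refl _)).toLinearMap := by
    apply b'.ext
    intro i
    fin_cases i
    · simp only [Fin.zero_eta, LinearMap.comp_apply, LinearEquiv.coe_coe, h1', Basis.equiv_apply, Equiv.refl_apply, h1]
    · simp only [Fin.mk_one, LinearMap.comp_apply, LinearEquiv.coe_coe, h2', map_add, map_smul, Basis.equiv_apply, Equiv.refl_apply, h2]
  intro v
  exact LinearMap.congr_fun h3 v

/-- Cayley–Hamilton for 2×2 matrices of determinant one -/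
lemma sq_eq_trace {M : Matrix (Fin 2) (Fin 2) F} (hd : M.det = 1) :
    M * M = M.trace • M - (1 : Matrix (Fin 2) (Fin 2) F) := by
  rw [Matrix.det_fin_two] at hd
  ext i j
  fin_cases i <;> fin_cases j
  · simp [Matrix.mul_apply, Fin.sum_univ_two, Matrix.trace_fin_two, Matrix.sub_apply]
    linear_combination -hd
  · simp [Matrix.mul_apply, Fin.sum_univ_two, Matrix.trace_fin_two, Matrix.sub_apply]
    ring
  · simp [Matrix.mul_apply, Fin.sum_univ_two, Matrix.trace_fin_two, Matrix.sub_apply]
    ring
  · simp [Matrix.mul_apply, Fin.sum_univ_two, Matrix.trace_fin_two, Matrix.sub_apply]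
    linear_combination -hd

/-- a quadratic relation determines the determinant of a non-scalar 2×2 matrix -/
lemma det_of_relation {M : Matrix (Fin 2) (Fin 2) F} (hM : ∀ z : F, M ≠ z • (1 : Matrix (Fin 2) (Fin 2) F)) (a z : F)
    (h : M * M = a • M + z • (1 : Matrix (Fin 2) (Fin 2) F)) : M.det = -z := by
  have hCH : M * M = M.trace • M - M.det • (1 : Matrix (Fin 2) (Fin 2) F) := by
    ext i j
    fin_cases i <;> fin_cases j <;>
      simp [Matrix.mul_apply, Fin.sum_univ_two, Matrix.trace_fin_two, Matrix.sub_apply, Matrix.det_fin_two] <;> ring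
  rw [h] at hCH
  have h1 : (a - M.trace) • M = (-z - M.det) • (1 : Matrix (Fin 2) (Fin 2) F) := by
    have h2 : a • M + z • (1 : Matrix (Fin 2) (Fin 2) F) - (M.trace • M - M.det • (1 : Matrix (Fin 2) (Fin 2) F)) = 0 := by
      rw [hCH, sub_self]
    rw [sub_smul, sub_smul]
    have h3 : a • M - M.trace • M - (-z • (1 : Matrix (Fin 2) (Fin 2) F) - M.det • (1 : Matrix (Fin 2) (Fin 2) F)) = 0 := by
      rw [← h2, neg_smul]; abel
    exact sub_eq_zero.mp h3
  by_cases h2 : a - M.trace = 0
  · rw [h2, zero_smul] at h1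
    have h3 := congrFun (congrFun h1 0) 0
    simp at h3
    linear_combination h3
  · exfalso
    apply hM ((a - M.trace)⁻¹ * (-z - M.det))
    rw [mul_smul, ← h1, smul_smul, inv_mul_cancel₀ h2, one_smul]

end

section
variable {G : Type*} [Group G]

/-- for a finite subgroup it is enough to conjugate into it -/
lemma mem_normalizer_of_conj_mem {R : Subgroup G} [Finite R] {g : G} (h : ∀ x ∈ R, g * x * g⁻¹ ∈ R) :
    g ∈ Subgroup.normalizer (R : Set G) := by
  let c : R → R := fun x => ⟨g * x * g⁻¹, h x x.2⟩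
  have hc : Function.Injective c := by
    intro a b hab
    have h1 : g * (a : G) * g⁻¹ = g * b * g⁻¹ := congrArg Subtype.val hab
    exact Subtype.ext (by simpa using h1)
  have hs := Finite.surjective_of_injective hc
  rw [Subgroup.mem_normalizer_iff]
  intro x
  constructor
  · intro hx
    exact h x hx
  · intro hx
    obtain ⟨y, hy⟩ := hs ⟨_, hx⟩
    have h1 : g * (y : G) * g⁻¹ = g * x * g⁻¹ := congrArg Subtype.val hy
    have h2 : (y : G) = x := by simpa using h1
    rw [← h2]
    exact y.2

/-- the number of elements of `R` commuting with an element of prime order `r` normalizing `R` is congruent to `|R|` -/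
lemma card_cent_modEq {R : Subgroup G} [Finite R] {g : G} (hg : g ∈ Subgroup.normalizer (R : Set G)) (r : ℕ)
    [Fact r.Prime] (hgr : g ^ r = 1) :
    Nat.card R ≡ Nat.card {x : R // g * x = x * g} [MOD r] := by
  classical
  have hmem : ∀ x : R, g * x * g⁻¹ ∈ R := fun x => (Subgroup.mem_normalizer_iff.mp hg x).mp x.2
  let f : Function.End R := fun x => ⟨g * x * g⁻¹, hmem x⟩
  have hf : ∀ (k : ℕ) (x : R), ((f ^ k : Function.End R) x : G) = g ^ k * x * (g ^ k)⁻¹ := by
    intro k
    induction k with
    | zero =>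
      intro x
      simp only [pow_zero, one_mul, inv_one, mul_one]
      rfl
    | succ k ih =>
      intro x
      rw [pow_succ]
      change ((f ^ k : Function.End R) (f x) : G) = _
      rw [ih]
      change g ^ k * (g * x * g⁻¹) * (g ^ k)⁻¹ = _
      rw [pow_succ]
      group
  have hfr : f ^ r ^ 1 = 1 := by
    funext x
    apply Subtype.ext
    rw [hf, pow_one, hgr, one_mul, inv_one, mul_one]
    rfl
  have := @Fintype.ofFinite R inferInstance
  have h := Equiv.Perm.card_fixedPoints_modEq (f := f) (p := r) (n := 1) hfr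
  rw [← Nat.card_eq_fintype_card, ← Nat.card_eq_fintype_card] at h
  refine h.trans ?_
  have h2 : Nat.card f.fixedPoints = Nat.card {x : R // g * x = x * g} := by
    apply Nat.card_congr
    apply Equiv.subtypeEquivRight
    intro x
    change f x = x ↔ _
    rw [Subtype.ext_iff]
    change g * x * g⁻¹ = x ↔ _
    rw [mul_inv_eq_iff_eq_mul]
  rw [h2]

end

end Cfsg.Agent.H99
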