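import Mathlib
import Cfsg.Prelude.Def_GeometricClasses
import Cfsg.Agent.H99.Dim2
import Cfsg.Agent.H99.OrderEq

set_option autoImplicit false

/-! Kronecker products: ranks and stabilizers of tensor decompositions (helper99). -/

namespace Cfsg.Agent.H99

open Module Matrix
open scoped Kronecker

section
variable {F : Type*} [Field F] {a b : ℕ}

/-- pure tensors -/
def pureT (u : Fin a → F) (w : Fin b → F) : Fin a × Fin b → F := fun p => u p.1 * w p.2

lemma kron_mulVec (A : Matrix (Fin a) (Fin a) F) (B : Matrix (Fin b) (Fin b) F) (u : Fin a → F) (w : Fin b → F) :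
    (A ⊗ₖ B) *ᵥ pureT u w = pureT (A *ᵥ u) (B *ᵥ w) := by
  funext p
  simp only [mulVec, dotProduct, pureT, Fintype.sum_prod_type, kroneckerMap_apply]
  rw [Finset.sum_mul_sum]
  apply Finset.sum_congr rfl
  intro i _
  apply Finset.sum_congr rfl
  intro j _
  ring

/-- the first factor not scalar -/
theorem finrank_ker_kron_left (A : Matrix (Fin a) (Fin a) F) (B : Matrix (Fin b) (Fin b) F)
    (hA : ∀ c : F, A ≠ c • (1 : Matrix (Fin a) (Fin a) F)) (hB : Function.Injective (B.mulVec)) (l : F) :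
    finrank F (LinearMap.ker (Matrix.toLin' (A ⊗ₖ B) - l • (1 : (Fin a × Fin b → F) →ₗ[F] (Fin a × Fin b → F)))) + b ≤ a * b := by
  have ha : 0 < a := by
    rcases Nat.eq_zero_or_pos a with rfl | h
    · exact (hA 0 (Subsingleton.elim _ _)).elim
    · exact h
  have : Nonempty (Fin a) := ⟨⟨0, ha⟩⟩
  obtain ⟨u, hu⟩ := exists_not_eigen (Matrix.toLin' A) (by
    intro c hc
    apply hA c
    apply Matrix.toLin'.injective
    apply LinearMap.ext
    intro v
    rw [hc]
    simp)
  have hu0 : u ≠ 0 := by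
    rintro rfl
    apply hu 0
    rw [map_zero, smul_zero]
  have hli : LinearIndependent F ![u, Matrix.toLin' A u] := (LinearIndependent.pair_iff' hu0).mpr (fun c hc => hu c hc.symm)
  set T := Matrix.toLin' (A ⊗ₖ B) - l • (1 : (Fin a × Fin b → F) →ₗ[F] (Fin a × Fin b → F)) with hT
  let φ : (Fin b → F) →ₗ[F] (Fin a × Fin b → F) :=
    { toFun := fun w => T (pureT u w)
      map_add' := fun w w' => by
        rw [← map_add]
        congr 1
        funext p
        simp only [pureT, Pi.add_apply]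
        ring
      map_smul' := fun c w => by
        rw [RingHom.id_apply, ← map_smul]
        congr 1
        funext p
        simp only [pureT, Pi.smul_apply, smul_eq_mul]
        ring }
  have hφ : Function.Injective φ := by
    rw [injective_iff_map_eq_zero]
    intro w hw
    have h1 : (A ⊗ₖ B) *ᵥ pureT u w - l • pureT u w = 0 := hw
    rw [kron_mulVec] at h1
    apply hB
    rw [mulVec_zero]
    funext j
    have h2 : (-(l * w j)) • u + ((B *ᵥ w) j) • (Matrix.toLin' A u) = 0 := by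
      funext i
      have h3 := congrFun h1 (i, j)
      simp only [pureT, Pi.sub_apply, Pi.smul_apply, smul_eq_mul, Pi.zero_apply] at h3
      simp only [Pi.add_apply, Pi.smul_apply, smul_eq_mul, Pi.zero_apply, Matrix.toLin'_apply]
      linear_combination h3
    exact (LinearIndependent.pair_iff.mp hli _ _ h2).2
  have h1 : b ≤ finrank F (LinearMap.range T) := by
    have h2 : finrank F (LinearMap.range φ) = b := by
      rw [LinearMap.finrank_range_of_inj hφ]
      simp
    refine h2.symm.le.trans (Submodule.finrank_mono ?_)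
    rintro _ ⟨w, rfl⟩
    exact ⟨pureT u w, rfl⟩
  have h2 := T.finrank_range_add_finrank_ker
  have h3 : finrank F (Fin a × Fin b → F) = a * b := by simp
  omega

/-- the second factor not scalar -/
theorem finrank_ker_kron_right (A : Matrix (Fin a) (Fin a) F) (B : Matrix (Fin b) (Fin b) F)
    (hB : ∀ c : F, B ≠ c • (1 : Matrix (Fin b) (Fin b) F)) (hA : Function.Injective (A.mulVec)) (l : F) :
    finrank F (LinearMap.ker (Matrix.toLin' (A ⊗ₖ B) - l • (1 : (Fin a × Fin b → F) →ₗ[F] (Fin a × Fin b → F)))) + a ≤ a * b := by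
  have hb : 0 < b := by
    rcases Nat.eq_zero_or_pos b with rfl | h
    · exact (hB 0 (Subsingleton.elim _ _)).elim
    · exact h
  have : Nonempty (Fin b) := ⟨⟨0, hb⟩⟩
  obtain ⟨u, hu⟩ := exists_not_eigen (Matrix.toLin' B) (by
    intro c hc
    apply hB c
    apply Matrix.toLin'.injective
    apply LinearMap.ext
    intro v
    rw [hc]
    simp)
  have hu0 : u ≠ 0 := by
    rintro rfl
    apply hu 0
    rw [map_zero, smul_zero]
  have hli : LinearIndependent F ![u, Matrix.toLin' B u] := (LinearIndependent.pair_iff' hu0).mpr (fun c hc => hu c hc.symm)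
  set T := Matrix.toLin' (A ⊗ₖ B) - l • (1 : (Fin a × Fin b → F) →ₗ[F] (Fin a × Fin b → F)) with hT
  let φ : (Fin a → F) →ₗ[F] (Fin a × Fin b → F) :=
    { toFun := fun w => T (pureT w u)
      map_add' := fun w w' => by
        rw [← map_add]
        congr 1
        funext p
        simp only [pureT, Pi.add_apply]
        ring
      map_smul' := fun c w => by
        rw [RingHom.id_apply, ← map_smul]
        congr 1
        funext p
        simp only [pureT, Pi.smul_apply, smul_eq_mul]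
        ring }
  have hφ : Function.Injective φ := by
    rw [injective_iff_map_eq_zero]
    intro w hw
    have h1 : (A ⊗ₖ B) *ᵥ pureT w u - l • pureT w u = 0 := hw
    rw [kron_mulVec] at h1
    apply hA
    rw [mulVec_zero]
    funext i
    have h2 : (-(l * w i)) • u + ((A *ᵥ w) i) • (Matrix.toLin' B u) = 0 := by
      funext j
      have h3 := congrFun h1 (i, j)
      simp only [pureT, Pi.sub_apply, Pi.smul_apply, smul_eq_mul, Pi.zero_apply] at h3
      simp only [Pi.add_apply, Pi.smul_apply, smul_eq_mul, Pi.zero_apply, Matrix.toLin'_apply]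
      linear_combination h3
    exact (LinearIndependent.pair_iff.mp hli _ _ h2).2
  have h1 : a ≤ finrank F (LinearMap.range T) := by
    have h2 : finrank F (LinearMap.range φ) = a := by
      rw [LinearMap.finrank_range_of_inj hφ]
      simp
    refine h2.symm.le.trans (Submodule.finrank_mono ?_)
    rintro _ ⟨w, rfl⟩
    exact ⟨pureT w u, rfl⟩
  have h2 := T.finrank_range_add_finrank_ker
  have h3 : finrank F (Fin a × Fin b → F) = a * b := by simp
  omega

lemma one_kron_mulVec (B : Matrix (Fin b) (Fin b) F) (v : Fin a × Fin b → F) (i : Fin a) (j : Fin b) :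
    (((1 : Matrix (Fin a) (Fin a) F) ⊗ₖ B) *ᵥ v) (i, j) = (B *ᵥ (fun j' => v (i, j'))) j := by
  simp only [mulVec, dotProduct, Fintype.sum_prod_type, kroneckerMap_apply]
  rw [Finset.sum_eq_single i]
  · simp
  · intro i' _ hi'
    apply Finset.sum_eq_zero
    intro j' _
    rw [Matrix.one_apply_ne hi'.symm]
    ring
  · intro h
    exact absurd (Finset.mem_univ _) h

lemma kron_one_mulVec (A : Matrix (Fin a) (Fin a) F) (v : Fin a × Fin b → F) (i : Fin a) (j : Fin b) :
    ((A ⊗ₖ (1 : Matrix (Fin b) (Fin b) F)) *ᵥ v) (i, j) = (A *ᵥ (fun i' => v (i', j))) i := by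
  simp only [mulVec, dotProduct, Fintype.sum_prod_type, kroneckerMap_apply]
  apply Finset.sum_congr rfl
  intro i' _
  rw [Finset.sum_eq_single j]
  · simp
  · intro j' _ hj'
    rw [Matrix.one_apply_ne hj'.symm]
    ring
  · intro h
    exact absurd (Finset.mem_univ _) h

/-- kernels when the first factor is the identity -/
theorem finrank_ker_one_kron (B : Matrix (Fin b) (Fin b) F) (l : F) :
    finrank F (LinearMap.ker (Matrix.toLin' ((1 : Matrix (Fin a) (Fin a) F) ⊗ₖ B) - l • (1 : (Fin a × Fin b → F) →ₗ[F] (Fin a × Fin b → F)))) =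
      a * finrank F (LinearMap.ker (Matrix.toLin' B - l • (1 : (Fin b → F) →ₗ[F] (Fin b → F)))) := by
  have key : ∀ v : Fin a × Fin b → F, v ∈ LinearMap.ker (Matrix.toLin' ((1 : Matrix (Fin a) (Fin a) F) ⊗ₖ B) - l • (1 : (Fin a × Fin b → F) →ₗ[F] (Fin a × Fin b → F))) ↔
      ∀ i, (fun j => v (i, j)) ∈ LinearMap.ker (Matrix.toLin' B - l • (1 : (Fin b → F) →ₗ[F] (Fin b → F))) := by
    intro v
    simp only [LinearMap.mem_ker, LinearMap.sub_apply, LinearMap.smul_apply, Module.End.one_apply, Matrix.toLin'_apply, sub_eq_zero]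
    constructor
    · intro h i
      funext j
      have := congrFun h (i, j)
      rw [one_kron_mulVec] at this
      exact this
    · intro h
      funext ⟨i, j⟩
      rw [one_kron_mulVec]
      exact congrFun (h i) j
  let e : LinearMap.ker (Matrix.toLin' ((1 : Matrix (Fin a) (Fin a) F) ⊗ₖ B) - l • (1 : (Fin a × Fin b → F) →ₗ[F] (Fin a × Fin b → F))) ≃ₗ[F]
      (Fin a → LinearMap.ker (Matrix.toLin' B - l • (1 : (Fin b → F) →ₗ[F] (Fin b → F)))) :=
    { toFun := fun v i => ⟨fun j => v.1 (i, j), (key v.1).mp v.2 i⟩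
      map_add' := fun v w => rfl
      map_smul' := fun c v => rfl
      invFun := fun v => ⟨fun p => (v p.1).1 p.2, (key _).mpr (fun i => (v i).2)⟩
      left_inv := fun v => rfl
      right_inv := fun v => rfl }
  rw [e.finrank_eq, finrank_pi_fintype]
  simp

/-- kernels when the second factor is the identity -/
theorem finrank_ker_kron_one (A : Matrix (Fin a) (Fin a) F) (l : F) :
    finrank F (LinearMap.ker (Matrix.toLin' (A ⊗ₖ (1 : Matrix (Fin b) (Fin b) F)) - l • (1 : (Fin a × Fin b → F) →ₗ[F] (Fin a × Fin b → F)))) =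
      b * finrank F (LinearMap.ker (Matrix.toLin' A - l • (1 : (Fin a → F) →ₗ[F] (Fin a → F)))) := by
  have key : ∀ v : Fin a × Fin b → F, v ∈ LinearMap.ker (Matrix.toLin' (A ⊗ₖ (1 : Matrix (Fin b) (Fin b) F)) - l • (1 : (Fin a × Fin b → F) →ₗ[F] (Fin a × Fin b → F))) ↔
      ∀ j, (fun i => v (i, j)) ∈ LinearMap.ker (Matrix.toLin' A - l • (1 : (Fin a → F) →ₗ[F] (Fin a → F))) := by
    intro v
    simp only [LinearMap.mem_ker, LinearMap.sub_apply, LinearMap.smul_apply, Module.End.one_apply, Matrix.toLin'_apply, sub_eq_zero]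
    constructor
    · intro h j
      funext i
      have := congrFun h (i, j)
      rw [kron_one_mulVec] at this
      exact this
    · intro h
      funext ⟨i, j⟩
      rw [kron_one_mulVec]
      exact congrFun (h j) i
  let e : LinearMap.ker (Matrix.toLin' (A ⊗ₖ (1 : Matrix (Fin b) (Fin b) F)) - l • (1 : (Fin a × Fin b → F) →ₗ[F] (Fin a × Fin b → F))) ≃ₗ[F]
      (Fin b → LinearMap.ker (Matrix.toLin' A - l • (1 : (Fin a → F) →ₗ[F] (Fin a → F)))) :=
    { toFun := fun v j => ⟨fun i => v.1 (i, j), (key v.1).mp v.2 j⟩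
      map_add' := fun v w => rfl
      map_smul' := fun c v => rfl
      invFun := fun v => ⟨fun p => (v p.2).1 p.1, (key _).mpr (fun i => (v i).2)⟩
      left_inv := fun v => rfl
      right_inv := fun v => rfl }
  rw [e.finrank_eq, finrank_pi_fintype]
  simp

lemma exists_equiv_of_entries {n : ℕ} (e : Fin n ≃ Fin a × Fin b) (S x : GL (Fin n) F) (M : Matrix (Fin a × Fin b) (Fin a × Fin b) F)
    (h : ∀ i j, ((S⁻¹ * x * S : GL (Fin n) F) : Matrix (Fin n) (Fin n) F) i j = M (e i) (e j)) :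
    ∃ φ : (Fin n → F) ≃ₗ[F] (Fin a × Fin b → F), ∀ v, φ ((x : Matrix (Fin n) (Fin n) F) *ᵥ v) = M *ᵥ (φ v) := by
  have h1 : (S : Matrix (Fin n) (Fin n) F) * ((S⁻¹ : GL (Fin n) F) : Matrix (Fin n) (Fin n) F) = 1 := by
    rw [← Units.val_mul, mul_inv_cancel, Units.val_one]
  have h2 : ((S⁻¹ : GL (Fin n) F) : Matrix (Fin n) (Fin n) F) * (S : Matrix (Fin n) (Fin n) F) = 1 := by
    rw [← Units.val_mul, inv_mul_cancel, Units.val_one]
  refine ⟨(Matrix.toLin'OfInv h1 h2).trans (LinearEquiv.funCongrLeft F F e.symm), ?_⟩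
  intro v
  funext p
  have h5 : (((S⁻¹ * x * S : GL (Fin n) F) : Matrix (Fin n) (Fin n) F) *ᵥ (((S⁻¹ : GL (Fin n) F) : Matrix (Fin n) (Fin n) F) *ᵥ v)) =
      (((S⁻¹ : GL (Fin n) F) : Matrix (Fin n) (Fin n) F) *ᵥ ((x : Matrix (Fin n) (Fin n) F) *ᵥ v)) := by
    rw [Units.val_mul, Units.val_mul, Matrix.mulVec_mulVec, Matrix.mulVec_mulVec, Matrix.mul_assoc, h1, Matrix.mul_one]
  change (((S⁻¹ : GL (Fin n) F) : Matrix (Fin n) (Fin n) F) *ᵥ ((x : Matrix (Fin n) (Fin n) F) *ᵥ v)) (e.symm p) =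
    ∑ p', M p p' * ((((S⁻¹ : GL (Fin n) F) : Matrix (Fin n) (Fin n) F) *ᵥ v) (e.symm p'))
  rw [← h5]
  change ∑ j, ((S⁻¹ * x * S : GL (Fin n) F) : Matrix (Fin n) (Fin n) F) (e.symm p) j * ((((S⁻¹ : GL (Fin n) F) : Matrix (Fin n) (Fin n) F) *ᵥ v) j) = _
  rw [← e.symm.sum_comp]
  apply Finset.sum_congr rfl
  intro p' _
  rw [h, Equiv.apply_symm_apply, Equiv.apply_symm_apply]

/-- elements with a conjugate in the stabilizer of a tensor decomposition -/
theorem exists_kron_of_mem {n : ℕ} (e : Fin n ≃ Fin a × Fin b) (P : GL (Fin n) F) (x g : GL (Fin n) F)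
    (h : g⁻¹ * x * g ∈ Cfsg.Geo.tensorProductSubgroup a b e P) :
    ∃ (A : GL (Fin a) F) (B : GL (Fin b) F) (φ : (Fin n → F) ≃ₗ[F] (Fin a × Fin b → F)),
      ∀ v, φ ((x : Matrix (Fin n) (Fin n) F) *ᵥ v) = (((A : Matrix (Fin a) (Fin a) F) ⊗ₖ (B : Matrix (Fin b) (Fin b) F)) *ᵥ (φ v)) := by
  obtain ⟨y, ⟨z, ⟨A, B, hAB⟩, hz⟩, hy⟩ := h
  have h3 : y = (g * P)⁻¹ * x * (g * P) := by
    have h4 : P * y * P⁻¹ = g⁻¹ * x * g := hy
    have h5 : y = P⁻¹ * (P * y * P⁻¹) * P := by group
    rw [h5, h4]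
    group
  obtain ⟨φ, hφ⟩ := exists_equiv_of_entries e (g * P) x ((A : Matrix (Fin a) (Fin a) F) ⊗ₖ (B : Matrix (Fin b) (Fin b) F)) (by
    intro i j
    rw [← h3, ← hz, ← hAB]
    rfl)
  exact ⟨A, B, φ, hφ⟩

/-- constructing elements of the stabilizer of a tensor decomposition -/
theorem exists_mem_of_kron {n : ℕ} (e : Fin n ≃ Fin a × Fin b) (P : GL (Fin n) F) (A : GL (Fin a) F) (B : GL (Fin b) F) :
    ∃ y ∈ Cfsg.Geo.tensorProductSubgroup a b e P, ∃ φ : (Fin n → F) ≃ₗ[F] (Fin a × Fin b → F),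
      ∀ v, φ ((y : Matrix (Fin n) (Fin n) F) *ᵥ v) = (((A : Matrix (Fin a) (Fin a) F) ⊗ₖ (B : Matrix (Fin b) (Fin b) F)) *ᵥ (φ v)) := by
  have h1 : ((A : Matrix (Fin a) (Fin a) F) ⊗ₖ (B : Matrix (Fin b) (Fin b) F)) *
      (((A⁻¹ : GL (Fin a) F) : Matrix (Fin a) (Fin a) F) ⊗ₖ ((B⁻¹ : GL (Fin b) F) : Matrix (Fin b) (Fin b) F)) = 1 := by
    rw [← Matrix.mul_kronecker_mul, ← Units.val_mul, ← Units.val_mul, mul_inv_cancel, mul_inv_cancel, Units.val_one, Units.val_one,
      Matrix.one_kronecker_one]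
  have h2 : (((A⁻¹ : GL (Fin a) F) : Matrix (Fin a) (Fin a) F) ⊗ₖ ((B⁻¹ : GL (Fin b) F) : Matrix (Fin b) (Fin b) F)) *
      ((A : Matrix (Fin a) (Fin a) F) ⊗ₖ (B : Matrix (Fin b) (Fin b) F)) = 1 := by
    rw [← Matrix.mul_kronecker_mul, ← Units.val_mul, ← Units.val_mul, inv_mul_cancel, inv_mul_cancel, Units.val_one, Units.val_one,
      Matrix.one_kronecker_one]
  let z : GL (Fin a × Fin b) F := ⟨_, _, h1, h2⟩
  let y : GL (Fin n) F := P * (Cfsg.Geo.glReindex e.symm z) * P⁻¹
  have hy2 : y ∈ Cfsg.Geo.tensorProductSubgroup a b e P := ⟨_, ⟨z, ⟨A, B, rfl⟩, rfl⟩, rfl⟩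
  refine ⟨y, hy2, exists_equiv_of_entries e P y _ ?_⟩
  intro i j
  have h3 : P⁻¹ * y * P = Cfsg.Geo.glReindex e.symm z := by
    change P⁻¹ * (P * (Cfsg.Geo.glReindex e.symm z) * P⁻¹) * P = _
    group
  rw [h3]
  rfl

end

end Cfsg.Agent.H99
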