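import Mathlib

set_option autoImplicit false

/-! Basic linear algebra lemmas on invariant subspaces (helper99). -/

namespace Cfsg.Agent.H99

section
variable {F V : Type*} [Field F] [AddCommGroup V] [Module F V]

/-- Inside a subspace `C` there are subspaces of every smaller dimension. -/
lemma exists_le_finrank_eq (C : Submodule F V) {l : ℕ} (hl : l ≤ Module.finrank F C) :
    ∃ C' : Submodule F V, C' ≤ C ∧ Module.finrank F C' = l := by
  obtain ⟨v, hv⟩ := exists_linearIndependent_of_le_finrank hl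
  refine ⟨(Submodule.span F (Set.range v)).map C.subtype, Submodule.map_subtype_le _ _, ?_⟩
  rw [Submodule.finrank_map_subtype_eq, finrank_span_eq_card hv, Fintype.card_fin]

lemma map_sup_le (f : V →ₗ[F] V) {A B : Submodule F V} (hA : A.map f ≤ A) (hB : B.map f ≤ B) :
    (A ⊔ B).map f ≤ A ⊔ B := by
  rw [Submodule.map_sup]
  exact sup_le_sup hA hB

lemma map_inf_le (f : V →ₗ[F] V) {A B : Submodule F V} (hA : A.map f ≤ A) (hB : B.map f ≤ B) :
    (A ⊓ B).map f ≤ A ⊓ B :=
  le_inf ((Submodule.map_mono inf_le_left).trans hA) ((Submodule.map_mono inf_le_right).trans hB)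

/-- One step of the dimension count of an invariant subspace along a chain with irreducible factors. -/
lemma finrank_inf_sup_step [FiniteDimensional F V] (f : V →ₗ[F] V) (W T U : Submodule F V) (a : ℕ)
    (hW : W.map f ≤ W) (hT : T.map f ≤ T) (hU : U.map f ≤ U) (hUdim : Module.finrank F U = a)
    (hUirr : ∀ X : Submodule F V, X ≤ U → X.map f ≤ X → X = ⊥ ∨ X = U)
    (hdisj : Disjoint U T) :
    ∃ e : ℕ, Module.finrank F ↥(W ⊓ (U ⊔ T)) = Module.finrank F ↥(W ⊓ T) + e * a := by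
  set A := W ⊓ (U ⊔ T) with hA
  have hAinv : A.map f ≤ A := map_inf_le f hW (map_sup_le f hU hT)
  have hAT : A ⊓ T = W ⊓ T := by
    rw [hA, inf_assoc, inf_eq_right.mpr (le_sup_right : T ≤ U ⊔ T)]
  have h1 := Submodule.finrank_sup_add_finrank_inf_eq A T
  rw [hAT] at h1
  have hmod : A ⊔ T = (U ⊓ (A ⊔ T)) ⊔ T := by
    have h2 : (A ⊔ T) ≤ U ⊔ T := sup_le inf_le_right le_sup_right
    have h3 : (U ⊓ (A ⊔ T)) ⊔ T = (A ⊔ T) ⊓ (U ⊔ T) := by
      rw [inf_comm U, inf_sup_assoc_of_le U (le_sup_right : T ≤ A ⊔ T)]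
    rw [h3, inf_eq_left.mpr h2]
  have hXinv : (U ⊓ (A ⊔ T)).map f ≤ U ⊓ (A ⊔ T) :=
    map_inf_le f hU (map_sup_le f hAinv hT)
  rcases hUirr _ inf_le_left hXinv with h | h
  · rw [h, bot_sup_eq] at hmod
    rw [hmod] at h1
    exact ⟨0, by omega⟩
  · rw [h] at hmod
    have h4 := Submodule.finrank_sup_add_finrank_inf_eq U T
    rw [disjoint_iff.mp hdisj, finrank_bot, hUdim] at h4
    rw [hmod] at h1
    exact ⟨1, by omega⟩

end

end Cfsg.Agent.H99
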