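import Mathlib
import Cfsg.Agent.H99.Jordan

set_option autoImplicit false

/-! Conjugating by a basis of determinant one (helper99). -/

namespace Cfsg.Agent.H99

open Module Matrix Polynomial

section
variable {F : Type*} [Field F] {n : ℕ}

/-- the matrix with given columns -/
def colMat (b : Fin n → (Fin n → F)) : Matrix (Fin n) (Fin n) F := Matrix.of (fun i j => b j i)

lemma colMat_mulVec (b : Fin n → (Fin n → F)) (v : Fin n → F) : colMat b *ᵥ v = ∑ j, v j • b j := by
  funext i
  rw [Finset.sum_apply]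
  simp only [colMat, Matrix.mulVec, dotProduct, Matrix.of_apply, Pi.smul_apply, smul_eq_mul]
  apply Finset.sum_congr rfl
  intro j _
  ring

lemma colMat_det_ne_zero (b : Basis (Fin n) F (Fin n → F)) : (colMat b).det ≠ 0 := by
  have h1 := (Pi.basisFun F (Fin n)).isUnit_det b
  rw [Module.Basis.det_apply] at h1
  have h2 : (Pi.basisFun F (Fin n)).toMatrix b = colMat b := by
    ext i j
    rw [Module.Basis.toMatrix_apply, Pi.basisFun_repr]
    rfl
  rw [h2] at h1
  exact h1.ne_zero

/-- conjugation by a basis with determinant one -/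
theorem exists_sl_of_basis (x : Matrix.SpecialLinearGroup (Fin n) F) (b : Basis (Fin n) F (Fin n → F)) (hdet : (colMat b).det = 1) :
    ∃ P : Matrix.SpecialLinearGroup (Fin n) F, ∀ i j,
      ((P⁻¹ * x * P : Matrix.SpecialLinearGroup (Fin n) F) : Matrix (Fin n) (Fin n) F) i j =
        b.repr (Matrix.toLin' (x : Matrix (Fin n) (Fin n) F) (b j)) i := by
  let P : Matrix.SpecialLinearGroup (Fin n) F := ⟨colMat b, hdet⟩
  have h1 : ((P⁻¹ : Matrix.SpecialLinearGroup (Fin n) F) : Matrix (Fin n) (Fin n) F) * (P : Matrix (Fin n) (Fin n) F) = 1 := by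
    rw [← Matrix.SpecialLinearGroup.coe_mul, inv_mul_cancel, Matrix.SpecialLinearGroup.coe_one]
  have hP : ∀ v, (P : Matrix (Fin n) (Fin n) F) *ᵥ v = ∑ j, v j • b j := fun v => colMat_mulVec _ _
  have hPi : ∀ w, ((P⁻¹ : Matrix.SpecialLinearGroup (Fin n) F) : Matrix (Fin n) (Fin n) F) *ᵥ w = b.repr w := by
    intro w
    have h2 : (P : Matrix (Fin n) (Fin n) F) *ᵥ (b.repr w) = w := by
      rw [hP]
      exact b.sum_repr w
    nth_rw 1 [← h2]
    rw [Matrix.mulVec_mulVec, h1, Matrix.one_mulVec]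
  refine ⟨P, ?_⟩
  intro i j
  have h2 : ((P⁻¹ * x * P : Matrix.SpecialLinearGroup (Fin n) F) : Matrix (Fin n) (Fin n) F) *ᵥ (Pi.single j 1) =
      b.repr (Matrix.toLin' (x : Matrix (Fin n) (Fin n) F) (b j)) := by
    rw [Matrix.SpecialLinearGroup.coe_mul, Matrix.SpecialLinearGroup.coe_mul, ← Matrix.mulVec_mulVec, ← Matrix.mulVec_mulVec, hPi, hP,
      Finset.sum_eq_single j]
    · rw [Pi.single_eq_same, one_smul, Matrix.toLin'_apply]
    · intro k _ hk
      rw [Pi.single_eq_of_ne hk, zero_smul]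
    · intro h
      exact absurd (Finset.mem_univ _) h
  rw [← h2, Matrix.mulVec_single_one]
  rfl

/-- scaling the vectors of a basis -/
lemma colMat_det_smul (b : Fin n → (Fin n → F)) (u : Fin n → F) : (colMat (fun j => u j • b j)).det = (∏ j, u j) * (colMat b).det := by
  have h1 : colMat (fun j => u j • b j) = colMat b * Matrix.diagonal u := by
    ext i j
    rw [Matrix.mul_diagonal]
    simp [colMat, mul_comm]
  rw [h1, Matrix.det_mul, Matrix.det_diagonal, mul_comm]

end

section
variable {F V : Type*} [Field F] [AddCommGroup V] [Module F V] {N : V →ₗ[F] V} {ι : Type*} {e : ι → ℕ}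

/-- coordinates of the image of a Jordan basis vector -/
lemma jordan_repr [DecidableEq ι] (D : CycDecomp N (fun j => (X : F[X]) ^ e j)) (x y : Σ j, Fin ((X : F[X]) ^ e j).natDegree) :
    D.basis.repr (N (D.basis x)) y = if y.1 = x.1 ∧ (y.2 : ℕ) = x.2 + 1 then 1 else 0 := by
  obtain ⟨j, t⟩ := x
  have h1 := jordan_pow_apply D 1 j t
  rw [pow_one] at h1
  rw [h1]
  split_ifs with h2 h3 h3
  · rw [Basis.repr_self, Finsupp.single_apply, if_pos]
    obtain ⟨j', s⟩ := y
    obtain ⟨rfl, h4⟩ := h3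
    simp only [Sigma.mk.injEq, heq_eq_eq, true_and]
    apply Fin.ext
    exact h4.symm
  · rw [Basis.repr_self, Finsupp.single_apply, if_neg]
    rintro rfl
    exact h3 ⟨rfl, rfl⟩
  · exfalso
    obtain ⟨j', s⟩ := y
    obtain ⟨h3', h4⟩ := h3
    change j' = j at h3'
    subst h3'
    have h6 : (s : ℕ) = t + 1 := h4
    have h5 := s.2
    exact h2 (by rw [← h6]; exact h5)
  · rw [map_zero]
    rfl

end

end Cfsg.Agent.H99
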