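import Mathlib
import Cfsg.Agent.H99.CharTwoQ
import Cfsg.Agent.H99.SympInvol
import Cfsg.Agent.H99.SympCard

set_option autoImplicit false
set_option linter.unusedVariables false
set_option linter.unusedSectionVars false

/-! Invariant quadratic forms of elements of symplectic groups in even characteristic (helper99). -/

namespace Cfsg.Agent.H99

open Module Matrix Polynomial
open QuadraticMap (polar polarBilin)

universe u

section
variable {F : Type u} [Field F]

/-- adding the square of a functional -/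
noncomputable def addSq {V : Type*} [AddCommGroup V] [Module F V] (Q : QuadraticForm F V) (l : V →ₗ[F] F) : QuadraticForm F V :=
  Q + QuadraticMap.linMulLin l l

lemma addSq_apply {V : Type*} [AddCommGroup V] [Module F V] (Q : QuadraticForm F V) (l : V →ₗ[F] F) (v : V) : addSq Q l v = Q v + l v * l v := rfl

lemma polar_addSq [CharP F 2] {V : Type*} [AddCommGroup V] [Module F V] (Q : QuadraticForm F V) (l : V →ₗ[F] F) (u v : V) :
    polar (addSq Q l) u v = polar Q u v := by
  unfold polar
  rw [addSq_apply, addSq_apply, addSq_apply, l.map_add]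
  have h2 : (2 : F) = 0 := CharTwo.two_eq_zero
  linear_combination (l u * l v) * h2

lemma sq_injective [CharP F 2] {a b : F} (h : a * a = b * b) : a = b := by
  have h3 : (a - b) * (a - b) = 0 := by
    have h2 : (2 : F) = 0 := CharTwo.two_eq_zero
    linear_combination h - (a * b - b * b) * h2
  exact sub_eq_zero.mp (mul_self_eq_zero.mp h3)

variable [Finite F]

lemma exists_sq [CharP F 2] (a : F) : ∃ s, a = s * s := Orth.isSquare_of_two_eq_zero CharTwo.two_eq_zero a

/-- the zeros of all forms `Q + s ^ 2 B(u, ·) ^ 2` -/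
theorem card_pairs_addSq [CharP F 2] {V : Type*} [AddCommGroup V] [Module F V] [FiniteDimensional F V] (Q : QuadraticForm F V) {u : V} (hu : Q u ≠ 0) :
    Nat.card (Σ s : F, {v : V // addSq Q (s • polarBilin Q u) v = 0}) = Nat.card V := by
  classical
  have h2 : (2 : F) = 0 := CharTwo.two_eq_zero
  have hBu : polar Q u u = 0 := by rw [Orth.pself, h2, zero_mul]
  have hval : ∀ (s : F) (v : V), addSq Q (s • polarBilin Q u) v = Q v + (s * polar Q u v) * (s * polar Q u v) := fun s v => rfl
  let Φ : (Σ s : F, {v : V // addSq Q (s • polarBilin Q u) v = 0}) → V := fun t => if polar Q u t.2.1 = 0 then t.2.1 + t.1 • u else t.2.1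
  apply Nat.card_congr
  refine Equiv.ofBijective Φ ⟨?_, ?_⟩
  · rintro ⟨s, v, hv⟩ ⟨s', v', hv'⟩ h
    rw [hval] at hv hv'
    simp only [Φ] at h
    by_cases h1 : polar Q u v = 0
    · by_cases h1' : polar Q u v' = 0
      · rw [if_pos h1, if_pos h1'] at h
        rw [h1, mul_zero, mul_zero, add_zero] at hv
        rw [h1', mul_zero, mul_zero, add_zero] at hv'
        have e1 : Q (v + s • u) = s * s * Q u := by rw [Orth.qadd, Orth.qsmul, Orth.psr, hv, Orth.pc, h1]; ring
        have e2 : Q (v' + s' • u) = s' * s' * Q u := by rw [Orth.qadd, Orth.qsmul, Orth.psr, hv', Orth.pc, h1']; ring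
        rw [h, e2] at e1
        have hs : s' = s := sq_injective (mul_right_cancel₀ hu e1)
        subst hs
        have hvv : v = v' := add_right_cancel h
        subst hvv
        rfl
      · exfalso
        rw [if_pos h1, if_neg h1'] at h
        apply h1'
        rw [← h, Orth.par, Orth.psr, h1, hBu]
        ring
    · by_cases h1' : polar Q u v' = 0
      · exfalso
        rw [if_neg h1, if_pos h1'] at h
        apply h1
        rw [h, Orth.par, Orth.psr, h1', hBu]
        ring
      · rw [if_neg h1, if_neg h1'] at h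
        subst h
        have e1 : (s * polar Q u v) * (s * polar Q u v) = (s' * polar Q u v) * (s' * polar Q u v) := by linear_combination hv - hv'
        have hs : s = s' := mul_right_cancel₀ h1 (sq_injective e1)
        subst hs
        rfl
  · intro w
    by_cases h1 : polar Q u w = 0
    · obtain ⟨s, hs⟩ := exists_sq (Q w / Q u)
      refine ⟨⟨s, w - s • u, ?_⟩, ?_⟩
      · rw [hval, Orth.qsub, Orth.qsmul, Orth.psr, Orth.pc Q w u, h1, Orth.pdr, Orth.psr, h1, hBu, ← hs]
        field_simp
        have h3 : Q w + Q w = 0 := by rw [← two_mul, h2, zero_mul]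
        linear_combination h3
      · have h3 : polar Q u (w - s • u) = 0 := by rw [Orth.pdr, Orth.psr, h1, hBu]; ring
        simp only [Φ]
        rw [if_pos h3]
        abel
    · obtain ⟨t, ht⟩ := exists_sq (Q w)
      refine ⟨⟨t / polar Q u w, w, ?_⟩, ?_⟩
      · rw [hval, div_mul_cancel₀ _ h1, ← ht, ← two_mul, h2, zero_mul]
      · simp only [Φ]
        rw [if_neg h1]

/-- both types occur -/
theorem exists_both_types [CharP F 2] {V : Type*} [AddCommGroup V] [Module F V] [FiniteDimensional F V] {m : ℕ} (hm : 1 ≤ m) (hV : finrank F V = 2 * m)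
    {Q : QuadraticForm F V} (hQ : (polarBilin Q).Nondegenerate) {u : V} (hu : Q u ≠ 0) :
    (∃ s : F, ∃ U : Submodule F V, Orth.TS (addSq Q (s • polarBilin Q u)) U ∧ finrank F U = m) ∧
    (∃ s : F, ∀ U : Submodule F V, Orth.TS (addSq Q (s • polarBilin Q u)) U → finrank F U < m) := by
  classical
  have : Finite V := Module.finite_of_finite F
  have : Fintype F := Fintype.ofFinite F
  have hcard := card_pairs_addSq Q hu
  rw [Nat.card_sigma, Module.natCard_eq_pow_finrank (K := F), hV] at hcard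
  have hN : ∀ s : F, (polarBilin (addSq Q (s • polarBilin Q u))).Nondegenerate := by
    intro s
    apply nondegenerate_of_ND
    intro a ha ha2
    apply ND_polar hQ a ha
    intro v hv
    rw [← ha2 v hv]
    exact (polar_addSq Q _ a v).symm
  have hq1 : 1 < Nat.card F := Finite.one_lt_card
  have hpow : Nat.card F ^ m < Nat.card F ^ (m + 1) := Nat.pow_lt_pow_right hq1 (by omega)
  constructor
  · by_contra hcon
    push Not at hcon
    have hall : ∀ s : F, Nat.card F * Nat.card {v // addSq Q (s • polarBilin Q u) v = 0} + Nat.card F ^ (m + 1) = Nat.card F ^ (2 * m) + Nat.card F ^ m := by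
      intro s
      apply zeros_minus' hm hV (hN s)
      intro U hU
      by_contra h
      push Not at h
      obtain ⟨U', hU', hU'm⟩ := exists_sub_finrank U h
      exact hcon s U' (hU.mono hU') hU'm
    have h1 : ∑ s : F, (Nat.card F * Nat.card {v // addSq Q (s • polarBilin Q u) v = 0} + Nat.card F ^ (m + 1)) = ∑ s : F, (Nat.card F ^ (2 * m) + Nat.card F ^ m) :=
      Finset.sum_congr rfl (fun s _ => hall s)
    rw [Finset.sum_add_distrib, ← Finset.mul_sum, hcard, Finset.sum_const, Finset.sum_const, Finset.card_univ, smul_eq_mul, smul_eq_mul, ← Nat.card_eq_fintype_card, mul_add] at h1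
    have h2 := Nat.add_left_cancel h1
    have h3 := Nat.eq_of_mul_eq_mul_left (by omega) h2
    omega
  · by_contra hcon
    push Not at hcon
    have hall : ∀ s : F, Nat.card F * Nat.card {v // addSq Q (s • polarBilin Q u) v = 0} + Nat.card F ^ m = Nat.card F ^ (2 * m) + Nat.card F ^ (m + 1) := by
      intro s
      obtain ⟨U, hU, hUm⟩ := hcon s
      obtain ⟨U', hU', hU'm⟩ := exists_sub_finrank U hUm
      exact zeros_plus' hm hV (hN s) (hU.mono hU') hU'm
    have h1 : ∑ s : F, (Nat.card F * Nat.card {v // addSq Q (s • polarBilin Q u) v = 0} + Nat.card F ^ m) = ∑ s : F, (Nat.card F ^ (2 * m) + Nat.card F ^ (m + 1)) :=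
      Finset.sum_congr rfl (fun s _ => hall s)
    rw [Finset.sum_add_distrib, ← Finset.mul_sum, hcard, Finset.sum_const, Finset.sum_const, Finset.card_univ, smul_eq_mul, smul_eq_mul, ← Nat.card_eq_fintype_card, mul_add] at h1
    have h2 := Nat.add_left_cancel h1
    have h3 := Nat.eq_of_mul_eq_mul_left (by omega) h2
    omega

end

section
variable {F : Type u} [Field F] [Fintype F]

/-- invariant quadratic forms of involutions -/
theorem exists_inv_quad [CharP F 2] {V : Type*} [AddCommGroup V] [Module F V] [FiniteDimensional F V] {Q₀ : QuadraticForm F V}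
    (hQ₀ : (polarBilin Q₀).Nondegenerate) {x : V →ₗ[F] V} (hx : ∀ u v, polar Q₀ (x u) (x v) = polar Q₀ u v) (hxx : ∀ v, x (x v) = v) :
    ∃ w : V, ∀ v, addSq Q₀ (polarBilin Q₀ w) (x v) = addSq Q₀ (polarBilin Q₀ w) v := by
  have h2 : (2 : F) = 0 := CharTwo.two_eq_zero
  -- the semilinear defect
  have hd1 : ∀ u v, Q₀ (x (u + v)) + Q₀ (u + v) = (Q₀ (x u) + Q₀ u) + (Q₀ (x v) + Q₀ v) := by
    intro u v
    rw [map_add, Orth.qadd, Orth.qadd, hx]
    linear_combination (polar Q₀ u v) * h2
  have hd2 : ∀ (c : F) v, Q₀ (x (c • v)) + Q₀ (c • v) = c * c * (Q₀ (x v) + Q₀ v) := by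
    intro c v
    rw [map_smul, Orth.qsmul, Orth.qsmul]
    ring
  choose sq hsq using fun a : F => exists_sq (F := F) a
  let l : V →ₗ[F] F := {
    toFun := fun v => sq (Q₀ (x v) + Q₀ v)
    map_add' := by
      intro u v
      apply sq_injective
      rw [← hsq, hd1]
      have e1 := hsq (Q₀ (x u) + Q₀ u)
      have e2 := hsq (Q₀ (x v) + Q₀ v)
      linear_combination e1 + e2 - (sq (Q₀ (x u) + Q₀ u) * sq (Q₀ (x v) + Q₀ v)) * h2
    map_smul' := by
      intro c v
      apply sq_injective
      rw [← hsq, hd2, RingHom.id_apply, smul_eq_mul]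
      have e1 := hsq (Q₀ (x v) + Q₀ v)
      linear_combination (c * c) * e1 }
  have hl : ∀ v, l v * l v = Q₀ (x v) + Q₀ v := fun v => (hsq _).symm
  -- represent it
  have hsurj : Function.Surjective (polarBilin Q₀) := by
    have hinj : Function.Injective (polarBilin Q₀) := by
      rw [← LinearMap.ker_eq_bot, LinearMap.ker_eq_bot']
      intro u hu
      apply hQ₀.1 u
      intro v
      rw [hu]
      rfl
    exact (LinearMap.injective_iff_surjective_of_finrank_eq_finrank (Subspace.dual_finrank_eq (K := F) (V := V)).symm).mp hinj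
  obtain ⟨w, hw⟩ := hsurj l
  have hw' : ∀ v, polar Q₀ w v = l v := fun v => by rw [← hw]; rfl
  have hE := polar_eform Q₀
  have hN := ND_polar hQ₀
  -- `w` lies in the image of `x - 1`
  have hself : ∀ u v, polar Q₀ ((x - 1) u) v = polar Q₀ u ((x - 1) v) := by
    intro u v
    rw [LinearMap.sub_apply, LinearMap.sub_apply, Module.End.one_apply, Module.End.one_apply, Orth.pdl, Orth.pdr]
    have h3 : polar Q₀ (x u) v = polar Q₀ u (x v) := by rw [← hx (x u) v, hxx]
    rw [h3]
  have hrange : LinearMap.range (x - 1) = orth hE.oform (LinearMap.ker (x - 1)) := by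
    apply Submodule.eq_of_le_of_finrank_eq
    · rintro _ ⟨v, rfl⟩ k hk
      change polar Q₀ ((x - 1) v) k = 0
      rw [hself, LinearMap.mem_ker.mp hk]
      exact hE.zero_right v
    · have h3 := hE.finrank_add_orth hN (LinearMap.ker (x - 1))
      have h4 := LinearMap.finrank_range_add_finrank_ker (x - 1)
      omega
  have hwr : w ∈ LinearMap.range (x - 1) := by
    rw [hrange]
    intro k hk
    have hxk : x k = k := by
      have := LinearMap.mem_ker.mp hk
      rw [LinearMap.sub_apply, Module.End.one_apply, sub_eq_zero] at this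
      exact this
    have h3 := hl k
    rw [hxk, ← two_mul, h2, zero_mul] at h3
    change polar Q₀ w k = 0
    rw [hw']
    exact mul_self_eq_zero.mp h3
  obtain ⟨u, hu⟩ := hwr
  refine ⟨u, ?_⟩
  intro v
  rw [addSq_apply, addSq_apply]
  change Q₀ (x v) + polar Q₀ u (x v) * polar Q₀ u (x v) = Q₀ v + polar Q₀ u v * polar Q₀ u v
  have h3 : polar Q₀ u (x v) = polar Q₀ u v + l v := by
    rw [← hw', ← hu, hself, LinearMap.sub_apply, Module.End.one_apply, Orth.pdr]
    linear_combination (polar Q₀ u (x v) - polar Q₀ u v) * h2 - (polar Q₀ u (x v) - polar Q₀ u v) * h2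
  rw [h3]
  have h4 := hl v
  linear_combination h4 + (polar Q₀ u v * l v + Q₀ (x v)) * h2

/-! ### orders -/

lemma card_spGL (d : ℕ) : Nat.card (Cfsg.spGL d F) = Nat.card (Matrix.symplecticGroup (Fin d) F) := by
  apply Nat.card_congr
  refine Equiv.ofBijective (fun x => ⟨((x : GL (Fin d ⊕ Fin d) F) : Matrix (Fin d ⊕ Fin d) (Fin d ⊕ Fin d) F), ?_⟩) ⟨?_, ?_⟩
  · rw [Cfsg.Agent.ClGeo.mem_symplecticGroup_iff]
    intro u v
    exact x.2 u v
  · intro x y h
    apply Subtype.ext
    apply Units.ext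
    exact congrArg Subtype.val h
  · rintro ⟨A, hA⟩
    have hu : IsUnit A.det := SymplecticGroup.symplectic_det hA
    refine ⟨⟨Matrix.GeneralLinearGroup.mk'' A hu, ?_⟩, ?_⟩
    · intro u v
      exact (Cfsg.Agent.ClGeo.mem_symplecticGroup_iff d).mp hA u v
    · rfl

/-- a quadratic form from a function -/
noncomputable def qOfFun {ι : Type} [Fintype ι] [DecidableEq ι] {Q : (ι → F) → F} (hQ : Cfsg.Geo.IsNondegenerateQuadraticForm Q) : QuadraticForm F (ι → F) where
  toFun := Q
  toFun_smul c v := by rw [hQ.smul]; ring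
  exists_companion' := ⟨LinearMap.mk₂ F (polar Q) hQ.polar_bilinear.add_left (fun c x v => hQ.polar_bilinear.smul_left c x v)
    hQ.polar_bilinear.add_right (fun c v x => hQ.polar_bilinear.smul_right c v x), fun x y => by
      change Q (x + y) = Q x + Q y + polar Q x y
      unfold polar
      ring⟩

lemma coe_qOfFun {ι : Type} [Fintype ι] [DecidableEq ι] {Q : (ι → F) → F} (hQ : Cfsg.Geo.IsNondegenerateQuadraticForm Q) : ⇑(qOfFun hQ) = Q := rfl

lemma qOfFun_nondegenerate {ι : Type} [Fintype ι] [DecidableEq ι] {Q : (ι → F) → F} (hQ : Cfsg.Geo.IsNondegenerateQuadraticForm Q) :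
    (polarBilin (qOfFun hQ)).Nondegenerate := by
  apply nondegenerate_of_ND
  intro u _ hu
  by_contra hne
  obtain ⟨-, v, hv⟩ := hQ.nondegenerate u hne
  exact hv (hu v Submodule.mem_top)

theorem order_of_plus {m : ℕ} (hm : 1 ≤ m) {Q : QuadraticForm F (Fin m ⊕ Fin m → F)} (hQ : (polarBilin Q).Nondegenerate)
    {U : Submodule F (Fin m ⊕ Fin m → F)} (hU : Orth.TS Q U) (hUm : finrank F U = m) :
    Nat.card (Cfsg.isometryGroup F ⇑Q) = 2 * Fintype.card F ^ (m * (m - 1)) * (Fintype.card F ^ m - 1) * ∏ i ∈ Finset.range (m - 1), (Fintype.card F ^ (2 * (i + 1)) - 1) := by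
  obtain ⟨g, hg⟩ := Orth.exists_isom_plus hm (finrank_symp m F) hQ hU hUm
  have h1 := OrthCount.order_plus (F := F) m hm
  rw [Nat.card_eq_fintype_card (α := F)] at h1
  rw [← h1]
  have h2 : Nat.card (Cfsg.isometryGroup F ⇑Q) = Nat.card (OrthCount.OG Q) := OrthCount.card_isometryGroup Q
  have h3 : Nat.card (Cfsg.isometryGroup F (Cfsg.quadFormPlus m F)) = Nat.card (OrthCount.OG (Orth.qfPlus m F)) := OrthCount.card_isometryGroup (Orth.qfPlus m F)
  rw [h2, h3]
  exact OrthCount.card_OG_congr Q (Orth.qfPlus m F) g hg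

theorem order_of_minus {m : ℕ} (hm : 1 ≤ m) {Q : QuadraticForm F (Fin m ⊕ Fin m → F)} (hQ : (polarBilin Q).Nondegenerate)
    (hU : ∀ U : Submodule F (Fin m ⊕ Fin m → F), Orth.TS Q U → finrank F U < m) :
    Nat.card (Cfsg.isometryGroup F ⇑Q) = 2 * Fintype.card F ^ (m * (m - 1)) * (Fintype.card F ^ m + 1) * ∏ i ∈ Finset.range (m - 1), (Fintype.card F ^ (2 * (i + 1)) - 1) := by
  rcases Orth.classify_even hm (finrank_symp m F) hQ with ⟨g, hg⟩ | ⟨ζ, h0, g, hg⟩
  · exfalso
    have h1 := hU _ ((Orth.TS_U0 m F).map_isom g.symm (fun v => by rw [← hg, g.apply_symm_apply]))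
    rw [LinearEquiv.finrank_map_eq, Orth.finrank_U0] at h1
    omega
  · have h1 := OrthCount.order_minus (F := F) (m - 1) (a := 1) (b := ζ) (OrthCount.aniso_of (Orth.aniso_of_root h0))
    rw [Nat.card_eq_fintype_card (α := F), show m - 1 + 1 = m by omega] at h1
    rw [← h1]
    have h2 : Nat.card (Cfsg.isometryGroup F ⇑Q) = Nat.card (OrthCount.OG Q) := OrthCount.card_isometryGroup Q
    have h3 : Nat.card (Cfsg.isometryGroup F (Cfsg.quadFormMinus (m - 1) F 1 ζ)) = Nat.card (OrthCount.OG (Orth.qfMinus (m - 1) F 1 ζ)) := OrthCount.card_isometryGroup (Orth.qfMinus (m - 1) F 1 ζ)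
    rw [h2, h3]
    exact OrthCount.card_OG_congr Q (Orth.qfMinus (m - 1) F 1 ζ) g hg

/-- the index of the orthogonal group -/
theorem index_orth {d : ℕ} (hd : 1 ≤ d) {Q : (Fin d ⊕ Fin d → F) → F} (hQ : Cfsg.Geo.IsNondegenerateQuadraticForm Q)
    (hQf : ∀ u v, QuadraticMap.polar Q u v = Cfsg.sympForm d F u v) {ε : ℕ → ℕ} {ε' : ℕ}
    (hcase : Nat.card (Cfsg.isometryGroup F Q) = 2 * Fintype.card F ^ (d * (d - 1)) * ε (Fintype.card F ^ d) * ∏ i ∈ Finset.range (d - 1), (Fintype.card F ^ (2 * (i + 1)) - 1))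
    (hε : ε (Fintype.card F ^ d) * ε' = Fintype.card F ^ (2 * d) - 1) (hε0 : ε (Fintype.card F ^ d) ≠ 0) :
    (Cfsg.Geo.quadSimilarityGroup Q).relIndex (Cfsg.spGL d F) * 2 = Fintype.card F ^ d * ε' := by
  classical
  have hA := sympForm_altForm (F := F) d
  have h1 := Subgroup.card_mul_index ((Cfsg.Geo.quadSimilarityGroup Q).subgroupOf (Cfsg.spGL d F))
  have h2 : Nat.card ((Cfsg.Geo.quadSimilarityGroup Q).subgroupOf (Cfsg.spGL d F)) = Nat.card (Cfsg.isometryGroup F Q) := by
    apply Nat.card_congr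
    refine Equiv.ofBijective (fun x => ⟨((x : Cfsg.spGL d F) : GL (Fin d ⊕ Fin d) F), ?_⟩) ⟨?_, ?_⟩
    · obtain ⟨⟨x, hx⟩, c, hc⟩ := x
      intro u _
      have hc' : ∀ v, Q ((x : Matrix (Fin d ⊕ Fin d) (Fin d ⊕ Fin d) F) *ᵥ v) = (c : F) * Q v := hc
      have hc1 : (c : F) = 1 := by
        obtain ⟨a, b, hab⟩ := exists_symp_ne_zero (F := F) (d := d) (by omega)
        have h3 : Cfsg.sympForm d F ((x : Matrix (Fin d ⊕ Fin d) (Fin d ⊕ Fin d) F) *ᵥ a) ((x : Matrix (Fin d ⊕ Fin d) (Fin d ⊕ Fin d) F) *ᵥ b) = Cfsg.sympForm d F a b := hx a b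
        rw [← hQf] at h3
        unfold polar at h3
        rw [← Matrix.mulVec_add, hc', hc', hc', ← hQf] at h3
        have h4 : ((c : F) - 1) * polar Q a b = 0 := by
          unfold polar
          unfold polar at h3
          linear_combination h3
        rw [hQf] at h4
        exact sub_eq_zero.mp ((mul_eq_zero.mp h4).resolve_right hab)
      change Q ((x : Matrix (Fin d ⊕ Fin d) (Fin d ⊕ Fin d) F) *ᵥ u) = Q u
      rw [hc', hc1, one_mul]
    · intro x y h
      apply Subtype.ext
      apply Subtype.ext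
      have h3 := congrArg (fun s : Cfsg.isometryGroup F Q => (s : GL (Fin d ⊕ Fin d) F)) h
      exact h3
    · rintro ⟨x, hx⟩
      have hx' : ∀ u, Q ((x : Matrix (Fin d ⊕ Fin d) (Fin d ⊕ Fin d) F) *ᵥ u) = Q u := fun u => hx u u
      have hxs : x ∈ Cfsg.spGL d F := by
        intro u v
        change Cfsg.sympForm d F ((x : Matrix (Fin d ⊕ Fin d) (Fin d ⊕ Fin d) F) *ᵥ u) ((x : Matrix (Fin d ⊕ Fin d) (Fin d ⊕ Fin d) F) *ᵥ v) = Cfsg.sympForm d F u v
        rw [← hQf, ← hQf]
        unfold polar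
        rw [← Matrix.mulVec_add, hx', hx', hx']
      exact ⟨⟨⟨x, hxs⟩, ⟨1, fun v => by rw [Units.val_one, one_mul]; exact hx' v⟩⟩, rfl⟩
  rw [h2, hcase, card_spGL, Cfsg.Agent.ClassSp.card_fin] at h1
  obtain ⟨k, rfl⟩ : ∃ k, d = k + 1 := ⟨d - 1, by omega⟩
  rw [Nat.add_sub_cancel] at h1
  rw [Finset.prod_range_succ, ← hε] at h1
  have hP : 0 < ∏ i ∈ Finset.range k, (Fintype.card F ^ (2 * (i + 1)) - 1) := by
    apply Finset.prod_pos
    intro i _
    have := Nat.one_lt_pow (n := 2 * (i + 1)) (by omega) (Fintype.one_lt_card (α := F))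
    omega
  have hq : 0 < Fintype.card F ^ ((k + 1) * k) := Nat.pow_pos Fintype.card_pos
  have h3 : (Fintype.card F ^ ((k + 1) * k) * ε (Fintype.card F ^ (k + 1)) * ∏ i ∈ Finset.range k, (Fintype.card F ^ (2 * (i + 1)) - 1)) *
      ((Cfsg.Geo.quadSimilarityGroup Q).relIndex (Cfsg.spGL (k + 1) F) * 2) =
      (Fintype.card F ^ ((k + 1) * k) * ε (Fintype.card F ^ (k + 1)) * ∏ i ∈ Finset.range k, (Fintype.card F ^ (2 * (i + 1)) - 1)) * (Fintype.card F ^ (k + 1) * ε') := by
    have e1 : Fintype.card F ^ ((k + 1) ^ 2) = Fintype.card F ^ ((k + 1) * k) * Fintype.card F ^ (k + 1) := by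
      rw [← pow_add]
      congr 1
      ring
    rw [e1] at h1
    unfold Subgroup.relIndex
    linear_combination h1
  exact Nat.eq_of_mul_eq_mul_left (Nat.mul_pos (Nat.mul_pos hq (Nat.pos_of_ne_zero hε0)) hP) h3

end

end Cfsg.Agent.H99
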