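import Mathlib
import Cfsg.Agent.H99.PrimeElt

set_option autoImplicit false

/-! Conjugacy from equality of types (helper99). -/

namespace Cfsg.Agent.H99

open Module Polynomial

/-- a bijection respecting two labellings with equal fibre sizes -/
lemma exists_equiv_of_card_fiber {α α' β : Type*} [Finite α] [Finite α'] (f : α → β) (g : α' → β)
    (h : ∀ b, Nat.card {a // f a = b} = Nat.card {a // g a = b}) : ∃ e : α ≃ α', ∀ a, g (e a) = f a := by
  have h1 : ∀ b, Nonempty ({a // f a = b} ≃ {a // g a = b}) := fun b => Finite.card_eq.mp (h b)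
  let E := fun b => (h1 b).some
  let e1 : (Σ b, {a // f a = b}) ≃ (Σ b, {a // g a = b}) := Equiv.sigmaCongrRight (fun b => (E b))
  refine ⟨(Equiv.sigmaFiberEquiv f).symm.trans (e1.trans (Equiv.sigmaFiberEquiv g)), ?_⟩
  intro a
  exact (E (f a) ⟨a, rfl⟩).2

section
variable {F V W : Type*} [Field F] [AddCommGroup V] [Module F V] [AddCommGroup W] [Module F W]
  {f : V →ₗ[F] V} {g : W →ₗ[F] W} {ι ι' : Type*} [Finite ι] [Finite ι'] {P : ι → F[X]} {P' : ι' → F[X]}

theorem CycDecomp.conj_of_card (D : CycDecomp f P) (D' : CycDecomp g P')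
    (h : ∀ Q, Nat.card {j // P j = Q} = Nat.card {j // P' j = Q}) : ∃ e : V ≃ₗ[F] W, ∀ v, e (f v) = g (e v) := by
  obtain ⟨ε, hε⟩ := exists_equiv_of_card_fiber P P' h
  have D2 := D'.reindex ε
  have hP : (fun j => P' (ε j)) = P := funext hε
  rw [hP] at D2
  obtain ⟨e, he, -⟩ := D.conj D2
  exact ⟨e, he⟩

/-- conjugacy of diagonalizable endomorphisms -/
theorem conj_of_eigenbasis (b : Basis ι F V) (b' : Basis ι' F W) (c : ι → F) (c' : ι' → F)
    (hb : ∀ j, f (b j) = c j • b j) (hb' : ∀ j, g (b' j) = c' j • b' j)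
    (h : ∀ z, Nat.card {j // c j = z} = Nat.card {j // c' j = z}) : ∃ e : V ≃ₗ[F] W, ∀ v, e (f v) = g (e v) := by
  obtain ⟨ε, hε⟩ := exists_equiv_of_card_fiber c c' h
  refine ⟨b.equiv b' ε, ?_⟩
  have h1 : (b.equiv b' ε).toLinearMap ∘ₗ f = g ∘ₗ (b.equiv b' ε).toLinearMap := by
    apply b.ext
    intro j
    simp only [LinearMap.comp_apply, LinearEquiv.coe_coe, Basis.equiv_apply, hb, map_smul, hb', hε]
  exact fun v => LinearMap.congr_fun h1 v

end

universe u

section
variable {F : Type u} [Field F] [Fintype F] {p : ℕ} [Fact p.Prime] [CharP F p] {r : ℕ} [Fact r.Prime]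
variable {V : Type u} [AddCommGroup V] [Module F V] [FiniteDimensional F V]

/-- diagonalizability when `r ∣ q - 1` -/
theorem exists_eigenbasis (hrp : r ≠ p) (hrq : r ∣ Fintype.card F - 1) (f : V →ₗ[F] V) (hf : f ^ r = 1) :
    ∃ (b : Basis (Fin (finrank F V)) F V) (c : Fin (finrank F V) → F), (∀ j, c j ^ r = 1) ∧ ∀ j, f (b j) = c j • b j := by
  obtain ⟨k, P, hP, ⟨D⟩⟩ := exists_decomp_one hrp f hf
  have hi1 : orderOf ((Fintype.card F : ℕ) : ZMod r) = 1 := by
    have h := dvd_pow_sub_one_iff (r := r) (Fintype.card_pos (α := F)) 1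
    rw [pow_one] at h
    rwa [h, Nat.dvd_one] at hrq
  have hdeg : ∀ j, (P j).natDegree = 1 := by
    intro j
    rcases (hP j).2.2 with h | h
    · rw [h, natDegree_X_sub_C]
    · rw [h.2, hi1]
  have hcard : Fintype.card (Σ j, Fin (P j).natDegree) = finrank F V := (finrank_eq_card_basis D.basis).symm
  let ε : (Σ j, Fin (P j).natDegree) ≃ Fin (finrank F V) := Fintype.equivFinOfCardEq hcard
  have hfD : ∀ x, f (D.basis x) = (-(P x.1).coeff 0) • D.basis x := by
    rintro ⟨j, s⟩
    have hs : (s : ℕ) + 1 = (P j).natDegree := by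
      have := s.2
      have := hdeg j
      omega
    rw [D.apply_basis_last j s hs, neg_smul]
    congr 1
    have h1 : ∀ t : Fin (P j).natDegree, t = s := by
      intro t
      apply Fin.ext
      have := t.2
      have := s.2
      have := hdeg j
      omega
    have h2 : (Finset.univ : Finset (Fin (P j).natDegree)) = {s} := by
      ext t
      simp [h1 t]
    rw [h2, Finset.sum_singleton]
    have h3 : (s : ℕ) = 0 := by
      have := hdeg j
      omega
    rw [h3]
  refine ⟨D.basis.reindex ε, fun j => -(P (ε.symm j).1).coeff 0, ?_, ?_⟩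
  · intro j
    have h1 := congrArg (fun g : V →ₗ[F] V => g (D.basis (ε.symm j))) hf
    have h2 : ∀ s : ℕ, (f ^ s) (D.basis (ε.symm j)) = (-(P (ε.symm j).1).coeff 0) ^ s • D.basis (ε.symm j) := by
      intro s
      induction s with
      | zero => simp
      | succ s ih => rw [pow_succ, Module.End.mul_apply, hfD, map_smul, ih, smul_smul, pow_succ, mul_comm]
    simp only [h2, Module.End.one_apply] at h1
    have h3 : ((-(P (ε.symm j).1).coeff 0) ^ r - 1) • D.basis (ε.symm j) = 0 := by
      rw [sub_smul, h1, one_smul, sub_self]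
    exact sub_eq_zero.mp ((smul_eq_zero.mp h3).resolve_right (D.basis.ne_zero _))
  · intro j
    rw [Basis.reindex_apply, hfD]

/-- uniqueness of the type when the order of `q` is `n - 1` -/
theorem conj_of_order_eq_pred {n : ℕ} (hrp : r ≠ p) (hn : 3 ≤ n) (hi : orderOf ((Fintype.card F : ℕ) : ZMod r) = n - 1)
    (hrn : r = n) (f g : V →ₗ[F] V) (hV : finrank F V = n) (hf : f ^ r = 1) (hg : g ^ r = 1) (hf1 : f ≠ 1) (hg1 : g ≠ 1) :
    ∃ e : V ≃ₗ[F] V, ∀ v, e (f v) = g (e v) := by
  classical
  have hcyc : ∀ Q : F[X], Q.Monic → Q ∣ cyclotomic r F → Q.natDegree = n - 1 → Q = cyclotomic r F := by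
    intro Q hQ hQd hQn
    have h1 : (cyclotomic r F).natDegree = n - 1 := by
      rw [natDegree_cyclotomic, Nat.totient_prime Fact.out, hrn]
    exact (eq_of_monic_of_dvd_of_natDegree_le hQ (cyclotomic.monic r F) hQd (by rw [h1, hQn])).symm
  have key : ∀ f : V →ₗ[F] V, f ^ r = 1 → f ≠ 1 → ∃ (k : ℕ) (P : Fin k → F[X]) (_ : CycDecomp f P),
      (Nat.card {j // P j = cyclotomic r F} = 1) ∧ (Nat.card {j // P j = X - C 1} = 1) ∧
      ∀ j, P j = cyclotomic r F ∨ P j = X - C 1 := by
    intro f hf hf1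
    obtain ⟨k, P, hP, ⟨D⟩⟩ := exists_decomp_one hrp f hf
    have h1 : ∀ j, P j = cyclotomic r F ∨ P j = X - C 1 := by
      intro j
      rcases (hP j).2.2 with h | h
      · exact Or.inr h
      · exact Or.inl (hcyc _ (hP j).1 h.1 (by rw [h.2, hi]))
    have hne : cyclotomic r F ≠ X - C 1 := by
      intro h
      have h2 := congrArg natDegree h
      rw [natDegree_cyclotomic, Nat.totient_prime Fact.out, natDegree_X_sub_C] at h2
      omega
    have hsum := D.finrank_eq
    rw [hV, ← Finset.sum_filter_add_sum_filter_not Finset.univ (fun j => P j = cyclotomic r F)] at hsum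
    have h3 : ∀ j ∈ Finset.univ.filter (fun j => P j = cyclotomic r F), (P j).natDegree = n - 1 := by
      intro j hj
      rw [(Finset.mem_filter.mp hj).2, natDegree_cyclotomic, Nat.totient_prime Fact.out, hrn]
    have h4 : ∀ j ∈ Finset.univ.filter (fun j => ¬ P j = cyclotomic r F), (P j).natDegree = 1 := by
      intro j hj
      rw [(h1 j).resolve_left (Finset.mem_filter.mp hj).2, natDegree_X_sub_C]
    rw [Finset.sum_congr rfl h3, Finset.sum_congr rfl h4, Finset.sum_const, Finset.sum_const, smul_eq_mul, smul_eq_mul,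
      mul_one] at hsum
    set a := (Finset.univ.filter (fun j => P j = cyclotomic r F)).card with ha
    set b := (Finset.univ.filter (fun j => ¬ P j = cyclotomic r F)).card with hb
    have ha0 : a ≠ 0 := by
      intro h0
      apply hf1
      rw [ha, Finset.card_eq_zero, Finset.filter_eq_empty_iff] at h0
      have h5 := D.aeval_eq_zero (X - C 1) (fun j => by rw [(h1 j).resolve_left (h0 (Finset.mem_univ j))])
      rw [map_sub, aeval_X, aeval_C, map_one, sub_eq_zero] at h5
      exact h5
    have ha1 : a = 1 := by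
      by_contra hne1
      have h6 : 2 ≤ a := by omega
      have h7 : 2 * (n - 1) ≤ a * (n - 1) := Nat.mul_le_mul_right _ h6
      omega
    have hb1 : b = 1 := by
      rw [ha1] at hsum
      omega
    refine ⟨k, P, D, ?_, ?_, h1⟩
    · rw [Nat.card_eq_fintype_card, Fintype.card_subtype, ← ha, ha1]
    · rw [Nat.card_eq_fintype_card, Fintype.card_subtype, ← hb1, hb]
      congr 1
      ext j
      simp only [Finset.mem_filter, Finset.mem_univ, true_and]
      constructor
      · intro h h'
        exact hne (h'.symm.trans h)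
      · intro h
        exact (h1 j).resolve_left h
  obtain ⟨k, P, D, hD1, hD2, hD3⟩ := key f hf hf1
  obtain ⟨k', P', D', hD1', hD2', hD3'⟩ := key g hg hg1
  apply D.conj_of_card D'
  intro Q
  by_cases h1 : Q = cyclotomic r F
  · rw [h1, hD1, hD1']
  by_cases h2 : Q = X - C 1
  · rw [h2, hD2, hD2']
  have h3 : IsEmpty {j // P j = Q} := ⟨fun j => by
    rcases hD3 j with h | h
    · exact h1 (j.2.symm.trans h)
    · exact h2 (j.2.symm.trans h)⟩
  have h4 : IsEmpty {j // P' j = Q} := ⟨fun j => by
    rcases hD3' j with h | h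
    · exact h1 (j.2.symm.trans h)
    · exact h2 (j.2.symm.trans h)⟩
  rw [Nat.card_of_isEmpty, Nat.card_of_isEmpty]

end

end Cfsg.Agent.H99
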