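import Mathlib
import Cfsg.Prelude.Def_GeometricClasses

set_option autoImplicit false

/-! Primes dividing the number of decompositions (helper99). -/

namespace Cfsg.Agent.H99

open Module

section
variable {F : Type*} [Field F] {n a t : ℕ}

lemma IsMDecomposition.map (e : (Fin n → F) ≃ₗ[F] (Fin n → F)) {D : Fin t → Submodule F (Fin n → F)}
    (hD : Cfsg.Geo.IsMDecomposition a D) : Cfsg.Geo.IsMDecomposition a (fun j => (D j).map e.toLinearMap) where
  two_le := hD.two_le
  pos := hD.pos
  finrank_eq := fun j => by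
    rw [← hD.finrank_eq j]
    exact LinearEquiv.finrank_map_eq e (D j)
  indep := hD.indep.map_orderIso (Submodule.orderIsoMapComap e)
  iSup_eq_top := by
    change ⨆ j, (D j).map e.toLinearMap = ⊤
    rw [← Submodule.map_iSup, hD.iSup_eq_top, Submodule.map_top]
    exact LinearEquiv.range e

lemma IsMDecomposition.perm (σ : Equiv.Perm (Fin t)) {D : Fin t → Submodule F (Fin n → F)}
    (hD : Cfsg.Geo.IsMDecomposition a D) : Cfsg.Geo.IsMDecomposition a (fun j => D (σ j)) where
  two_le := hD.two_le
  pos := hD.pos
  finrank_eq := fun j => hD.finrank_eq (σ j)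
  indep := hD.indep.comp σ.injective
  iSup_eq_top := by
    rw [← hD.iSup_eq_top]
    exact σ.iSup_comp

/-- linear isomorphisms act on decompositions -/
@[reducible] def decompAction : MulAction ((Fin n → F) ≃ₗ[F] (Fin n → F))
    {D : Fin t → Submodule F (Fin n → F) // Cfsg.Geo.IsMDecomposition a D} where
  smul e D := ⟨fun j => (D.1 j).map e.toLinearMap, IsMDecomposition.map e D.2⟩
  one_smul D := by
    apply Subtype.ext
    funext j
    exact Submodule.map_id _
  mul_smul e e' D := by
    apply Subtype.ext
    funext j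
    exact (Submodule.map_comp _ _ _)

/-- permutations act on decompositions -/
@[reducible] def decompPermAction : MulAction (Equiv.Perm (Fin t))
    {D : Fin t → Submodule F (Fin n → F) // Cfsg.Geo.IsMDecomposition a D} where
  smul σ D := ⟨fun j => D.1 (σ⁻¹ j), IsMDecomposition.perm σ⁻¹ D.2⟩
  one_smul D := by
    apply Subtype.ext
    funext j
    rfl
  mul_smul σ τ D := by
    apply Subtype.ext
    funext j
    change D.1 ((σ * τ)⁻¹ j) = D.1 (τ⁻¹ (σ⁻¹ j))
    rw [mul_inv_rev]
    rfl

lemma decomp_ne_bot {D : Fin t → Submodule F (Fin n → F)} (hD : Cfsg.Geo.IsMDecomposition a D) (j : Fin t) : D j ≠ ⊥ := by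
  intro h
  have h1 := hD.finrank_eq j
  rw [h, finrank_bot] at h1
  have := hD.pos
  omega

/-- `t!` divides the number of ordered decompositions -/
theorem factorial_dvd_card [Finite F] :
    Nat.factorial t ∣ Nat.card {D : Fin t → Submodule F (Fin n → F) // Cfsg.Geo.IsMDecomposition a D} := by
  let _ := decompPermAction (F := F) (n := n) (a := a) (t := t)
  have hfree : ∀ D : {D : Fin t → Submodule F (Fin n → F) // Cfsg.Geo.IsMDecomposition a D},
      MulAction.stabilizer (Equiv.Perm (Fin t)) D = ⊥ := by
    intro D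
    rw [eq_bot_iff]
    intro σ hσ
    rw [MulAction.mem_stabilizer_iff] at hσ
    rw [Subgroup.mem_bot]
    have h1 : ∀ j, D.1 (σ⁻¹ j) = D.1 j := fun j => congrFun (congrArg Subtype.val hσ) j
    have h2 : Function.Injective D.1 := iSupIndep.injective D.2.indep (decomp_ne_bot D.2)
    have h3 : σ⁻¹ = 1 := by
      ext j
      rw [h2 (h1 j)]
      rfl
    rwa [inv_eq_one] at h3
  have h1 := Nat.card_congr (MulAction.selfEquivOrbitsQuotientProd hfree)
  rw [h1, Nat.card_prod]
  have h2 : Nat.card (Equiv.Perm (Fin t)) = Nat.factorial t := by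
    rw [Nat.card_eq_fintype_card, Fintype.card_perm, Fintype.card_fin]
  rw [h2]
  exact dvd_mul_left _ _

/-- the number of ordered decompositions divides the order of the linear group -/
theorem card_decomp_dvd [Finite F] :
    Nat.card {D : Fin t → Submodule F (Fin n → F) // Cfsg.Geo.IsMDecomposition a D} = 0 ∨
    Nat.card {D : Fin t → Submodule F (Fin n → F) // Cfsg.Geo.IsMDecomposition a D} ∣ Nat.card ((Fin n → F) ≃ₗ[F] (Fin n → F)) := by
  classical
  by_cases hne : IsEmpty {D : Fin t → Submodule F (Fin n → F) // Cfsg.Geo.IsMDecomposition a D}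
  · left
    exact Nat.card_of_isEmpty
  right
  rw [not_isEmpty_iff] at hne
  obtain ⟨D₀⟩ := hne
  let _ := decompAction (F := F) (n := n) (a := a) (t := t)
  have htrans : MulAction.IsPretransitive ((Fin n → F) ≃ₗ[F] (Fin n → F))
      {D : Fin t → Submodule F (Fin n → F) // Cfsg.Geo.IsMDecomposition a D} := by
    refine ⟨fun D D' => ?_⟩
    have h1 := DirectSum.isInternal_submodule_of_iSupIndep_of_iSup_eq_top D.2.indep D.2.iSup_eq_top
    have h2 := DirectSum.isInternal_submodule_of_iSupIndep_of_iSup_eq_top D'.2.indep D'.2.iSup_eq_top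
    let v : ∀ j, Basis (Fin a) F (D.1 j) := fun j => (finBasis F (D.1 j)).reindex (finCongr (D.2.finrank_eq j))
    let v' : ∀ j, Basis (Fin a) F (D'.1 j) := fun j => (finBasis F (D'.1 j)).reindex (finCongr (D'.2.finrank_eq j))
    let b := h1.collectedBasis v
    let b' := h2.collectedBasis v'
    let e := b.equiv b' (Equiv.refl _)
    refine ⟨e, ?_⟩
    apply Subtype.ext
    funext j
    change (D.1 j).map e.toLinearMap = D'.1 j
    have hspan : ∀ (W : Submodule F (Fin n → F)) (v : Basis (Fin a) F W), W = Submodule.span F (Set.range (fun s => (v s : Fin n → F))) := by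
      intro W v
      have h3 := congrArg (Submodule.map W.subtype) v.span_eq
      rw [Submodule.map_span, ← Set.range_comp] at h3
      rw [Submodule.map_subtype_top] at h3
      exact h3.symm
    rw [hspan (D.1 j) (v j), hspan (D'.1 j) (v' j), Submodule.map_span, ← Set.range_comp]
    congr 2
    funext s
    change e ((v j s : Fin n → F)) = (v' j s : Fin n → F)
    have h4 : (v j s : Fin n → F) = b ⟨j, s⟩ := by rw [h1.collectedBasis_coe]
    have h5 : (v' j s : Fin n → F) = b' ⟨j, s⟩ := by rw [h2.collectedBasis_coe]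
    rw [h4, h5, Basis.equiv_apply, Equiv.refl_apply]
  have h6 := MulAction.index_stabilizer_of_transitive ((Fin n → F) ≃ₗ[F] (Fin n → F)) D₀
  rw [← h6]
  exact Subgroup.index_dvd_card _

end

end Cfsg.Agent.H99
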