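import Mathlib
import Cfsg.Agent.H99.Dim2
import Cfsg.Agent.H99.BasisConj
import Cfsg.Agent.H99.ConjType

set_option autoImplicit false
set_option linter.unusedVariables false
set_option linter.unusedSectionVars false

/-! Extraspecial groups of order 27 in dimension three (helper99). -/

namespace Cfsg.Agent.H99

open Module Matrix

section
variable {G : Type*} [Group G]

lemma comm_of_card_nine {G : Type*} [Group G] (h : Nat.card G = 1 ∨ Nat.card G = 3 ∨ Nat.card G = 9) (a b : G) : a * b = b * a := by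
  rcases h with h | h | h
  · have := (Nat.card_eq_one_iff_unique.mp h).1
    exact Subsingleton.elim _ _
  · have : Fact (Nat.Prime 3) := ⟨Nat.prime_three⟩
    have hc := isCyclic_of_prime_card h
    obtain ⟨g, hg⟩ := hc.exists_generator
    obtain ⟨m, rfl⟩ := hg a
    obtain ⟨n, rfl⟩ := hg b
    simp only
    rw [← _root_.zpow_add, ← _root_.zpow_add, add_comm]
  · have : Fact (Nat.Prime 3) := ⟨Nat.prime_three⟩
    exact IsPGroup.commutative_of_card_eq_prime_sq (p := 3) (by rw [h]; norm_num) a b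

/-- two elements that do not commute generate a group of order 27 -/
lemma closure_of_card_27 (hG : Nat.card G = 27) {a b : G} (hab : a * b ≠ b * a) : Subgroup.closure {a, b} = ⊤ := by
  have hfin : Finite G := Nat.finite_of_card_ne_zero (by rw [hG]; norm_num)
  set H := Subgroup.closure {a, b} with hH
  have ha : a ∈ H := Subgroup.subset_closure (by simp)
  have hb : b ∈ H := Subgroup.subset_closure (by simp)
  have h1 := Subgroup.card_subgroup_dvd_card H
  rw [hG] at h1
  have h2 : Nat.card H ∈ Nat.divisors 27 := Nat.mem_divisors.mpr ⟨h1, by norm_num⟩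
  rw [show Nat.divisors 27 = {1, 3, 9, 27} by decide] at h2
  simp only [Finset.mem_insert, Finset.mem_singleton] at h2
  by_cases h27 : Nat.card H = 27
  · exact Subgroup.eq_top_of_card_eq H (by rw [h27, hG])
  · exfalso
    apply hab
    have h3 := comm_of_card_nine (G := H) (by tauto) ⟨a, ha⟩ ⟨b, hb⟩
    exact congrArg Subtype.val h3

/-- commutators of groups of order 27 are central -/
lemma comm_central_of_card_27 (hG : Nat.card G = 27) (a b g : G) :
    (a * b * a⁻¹ * b⁻¹) * g = g * (a * b * a⁻¹ * b⁻¹) := by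
  have hfin : Finite G := Nat.finite_of_card_ne_zero (by rw [hG]; norm_num)
  have : Fact (Nat.Prime 3) := ⟨Nat.prime_three⟩
  have hG3 : IsPGroup 3 G := IsPGroup.of_card (n := 3) (by rw [hG]; norm_num)
  have hnt : Nontrivial G := Finite.one_lt_card_iff_nontrivial.mp (by rw [hG]; norm_num)
  have hZ := hG3.center_nontrivial
  have h1 := Subgroup.card_mul_index (Subgroup.center G)
  have h2 : 1 < Nat.card (Subgroup.center G) := Finite.one_lt_card
  rw [hG] at h1
  have h3 : Nat.card (G ⧸ Subgroup.center G) ∣ 27 := by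
    change (Subgroup.center G).index ∣ 27
    exact Dvd.intro_left _ h1
  have h4 : Nat.card (G ⧸ Subgroup.center G) ∈ Nat.divisors 27 := Nat.mem_divisors.mpr ⟨h3, by norm_num⟩
  rw [show Nat.divisors 27 = {1, 3, 9, 27} by decide] at h4
  simp only [Finset.mem_insert, Finset.mem_singleton] at h4
  have h5 : Nat.card (G ⧸ Subgroup.center G) ≠ 27 := by
    intro h5
    have h6 : (Subgroup.center G).index = 27 := h5
    rw [h6] at h1
    omega
  have h6 := comm_of_card_nine (G := G ⧸ Subgroup.center G) (by tauto) (a : G ⧸ Subgroup.center G) b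
  have h7 : a * b * a⁻¹ * b⁻¹ ∈ Subgroup.center G := by
    rw [← QuotientGroup.eq_one_iff]
    change (a : G ⧸ Subgroup.center G) * b * (a : G ⧸ Subgroup.center G)⁻¹ * (b : G ⧸ Subgroup.center G)⁻¹ = 1
    rw [h6]
    group
  exact ((Subgroup.mem_center_iff.mp h7) g).symm

end

section
variable {F : Type*} [Field F]

lemma cube_root {η : F} (h : η ^ 2 + η + 1 = 0) : η ^ 3 = 1 := by linear_combination (η - 1) * h

lemma cube_root_ne_one (h3 : (3 : F) ≠ 0) {η : F} (h : η ^ 2 + η + 1 = 0) : η ≠ 1 := by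
  rintro rfl
  apply h3
  linear_combination h

/-- eigenvectors of elements of order three -/
lemma exists_eigen_cube {V : Type*} [AddCommGroup V] [Module F V] (h3 : (3 : F) ≠ 0) {η : F} (h : η ^ 2 + η + 1 = 0)
    (f : V →ₗ[F] V) (hf : ∀ v, f (f (f v)) = v) {w : V} (hw : w ≠ 0) : ∃ (k : ℕ) (u : V), u ≠ 0 ∧ f u = η ^ k • u := by
  by_contra hcon
  push Not at hcon
  have hη := cube_root h
  have e0 : w + f w + f (f w) = 0 := by
    by_contra h0
    apply hcon 0 _ h0
    rw [map_add, map_add, hf, pow_zero, one_smul]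
    abel
  have e1 : w + η ^ 2 • f w + η • f (f w) = 0 := by
    by_contra h0
    apply hcon 1 _ h0
    rw [map_add, map_add, map_smul, map_smul, hf, pow_one, smul_add, smul_add, smul_smul, smul_smul, ← pow_succ', hη, one_smul, ← pow_two]
    abel
  have e2 : w + η • f w + η ^ 2 • f (f w) = 0 := by
    by_contra h0
    apply hcon 2 _ h0
    rw [map_add, map_add, map_smul, map_smul, hf, smul_add, smul_add, smul_smul, smul_smul, ← pow_succ, hη, one_smul, ← pow_add,
      show η ^ (2 + 2) = η by rw [show 2 + 2 = 3 + 1 from rfl, pow_succ, hη, one_mul]]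
    abel
  apply hw
  have h4 : (3 : F) • w = 0 := by
    have h5 : (3 : F) • w + (η ^ 2 + η + 1) • f w + (η ^ 2 + η + 1) • f (f w) = 0 := by
      have h6 : (w + f w + f (f w)) + (w + η ^ 2 • f w + η • f (f w)) + (w + η • f w + η ^ 2 • f (f w)) = 0 := by
        rw [e0, e1, e2, add_zero, add_zero]
      rw [← h6]
      module
    rw [h, zero_smul, zero_smul, add_zero, add_zero] at h5
    exact h5
  exact (smul_eq_zero.mp h4).resolve_left h3

/-- the commutator is a scalar -/
theorem comm_scalar (h3 : (3 : F) ≠ 0) {ω : F} (hω : ω ^ 2 + ω + 1 = 0) {a b c : Matrix (Fin 3) (Fin 3) F} (ha : a ^ 3 = 1) (hb : b ^ 3 = 1) (hc : c ^ 3 = 1)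
    (hc1 : c ≠ 1) (hca : c * a = a * c) (hcb : c * b = b * c) (hab : a * b = c * (b * a)) :
    ∃ η : F, η ^ 2 + η + 1 = 0 ∧ c = η ^ 2 • (1 : Matrix (Fin 3) (Fin 3) F) := by
  have hη := cube_root hω
  set f := Matrix.toLin' c with hf
  have hpow3 : ∀ m : Matrix (Fin 3) (Fin 3) F, m ^ 3 = 1 → ∀ v, Matrix.toLin' m (Matrix.toLin' m (Matrix.toLin' m v)) = v := by
    intro m hm v
    rw [← LinearMap.comp_apply, ← LinearMap.comp_apply, ← Matrix.toLin'_mul, ← Matrix.toLin'_mul]
    have : m * m * m = 1 := by rw [← hm]; noncomm_ring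
    rw [this, Matrix.toLin'_one]
    rfl
  have hf3 := hpow3 c hc
  -- an eigenvector with a nontrivial eigenvalue
  obtain ⟨w, hw⟩ : ∃ w, f w ≠ w := by
    by_contra hcon
    push Not at hcon
    apply hc1
    apply Matrix.toLin'.injective
    rw [Matrix.toLin'_one]
    exact LinearMap.ext hcon
  have hw0 : f w - w ≠ 0 := sub_ne_zero.mpr hw
  obtain ⟨lam, u, hlam, hu0, hu⟩ : ∃ (lam : F) (u : Fin 3 → F), lam ^ 2 + lam + 1 = 0 ∧ u ≠ 0 ∧ f u = lam • u := by
    -- `u = f w - w` is killed by `1 + f + f ^ 2`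
    set u₀ := f w - w with hu₀
    have h0 : u₀ + f u₀ + f (f u₀) = 0 := by
      rw [hu₀, map_sub, map_sub, hf3]
      abel
    by_cases h1 : f u₀ = ω ^ 2 • u₀
    · exact ⟨ω ^ 2, u₀, by linear_combination (ω ^ 2 - ω + 1) * hω, hw0, h1⟩
    · refine ⟨ω, f u₀ - ω ^ 2 • u₀, hω, sub_ne_zero.mpr h1, ?_⟩
      rw [map_sub, map_smul, smul_sub, smul_smul, ← pow_succ', hη, one_smul]
      have h2 : f (f u₀) = - u₀ - f u₀ := by
        rw [← sub_eq_zero]
        rw [← h0]
        abel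
      rw [h2]
      have h3 : -u₀ - f u₀ - ω ^ 2 • f u₀ - (ω • f u₀ - u₀) = -((ω ^ 2 + ω + 1) • f u₀) := by module
      have h4 := h3
      rw [hω, zero_smul, neg_zero] at h4
      exact sub_eq_zero.mp h4
  -- the eigenspace
  set W := LinearMap.ker (f - lam • (1 : (Fin 3 → F) →ₗ[F] (Fin 3 → F))) with hW
  have hmem : ∀ v, v ∈ W ↔ f v = lam • v := by
    intro v
    rw [hW, LinearMap.mem_ker, LinearMap.sub_apply, LinearMap.smul_apply, Module.End.one_apply, sub_eq_zero]
  have hinv : ∀ m : Matrix (Fin 3) (Fin 3) F, c * m = m * c → ∀ v ∈ W, Matrix.toLin' m v ∈ W := by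
    intro m hm v hv
    rw [hmem] at hv ⊢
    rw [hf, ← LinearMap.comp_apply, ← Matrix.toLin'_mul, hm, Matrix.toLin'_mul, LinearMap.comp_apply, ← hf, hv, map_smul]
  have hdet : ∀ (m : Matrix (Fin 3) (Fin 3) F) (hm : m ^ 3 = 1) (hcm : c * m = m * c), LinearMap.det ((Matrix.toLin' m).restrict (hinv m hcm)) ≠ 0 := by
    intro m hm hcm h0
    have h1 : ((Matrix.toLin' m).restrict (hinv m hcm)) ^ 3 = 1 := by
      ext1 v
      apply Subtype.ext
      exact hpow3 m hm v
    have h2 := congrArg LinearMap.det h1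
    rw [map_pow, h0, map_one, zero_pow (by norm_num)] at h2
    exact zero_ne_one h2
  have h1 : ((Matrix.toLin' a).restrict (hinv a hca)) ∘ₗ ((Matrix.toLin' b).restrict (hinv b hcb)) =
      lam • (((Matrix.toLin' b).restrict (hinv b hcb)) ∘ₗ ((Matrix.toLin' a).restrict (hinv a hca))) := by
    ext1 v
    apply Subtype.ext
    change Matrix.toLin' a (Matrix.toLin' b v) = lam • Matrix.toLin' b (Matrix.toLin' a v)
    rw [← LinearMap.comp_apply, ← Matrix.toLin'_mul, hab, Matrix.toLin'_mul, LinearMap.comp_apply, ← hf, Matrix.toLin'_mul, LinearMap.comp_apply]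
    exact (hmem _).mp (hinv b hcb _ (hinv a hca _ v.2))
  have h2 := congrArg LinearMap.det h1
  rw [LinearMap.det_comp, LinearMap.det_smul, LinearMap.det_comp, mul_comm (LinearMap.det ((Matrix.toLin' b).restrict (hinv b hcb)))] at h2
  have h4 : lam ^ finrank F W = 1 := by
    have h5 : LinearMap.det ((Matrix.toLin' a).restrict (hinv a hca)) * LinearMap.det ((Matrix.toLin' b).restrict (hinv b hcb)) ≠ 0 :=
      mul_ne_zero (hdet a ha hca) (hdet b hb hcb)
    exact mul_right_cancel₀ h5 (by rw [one_mul]; exact h2.symm)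
  have h5 : finrank F W ≤ 3 := by
    have := Submodule.finrank_le W
    rwa [finrank_fintype_fun_eq_card, Fintype.card_fin] at this
  have h6 : 0 < finrank F W := by
    rw [Module.finrank_pos_iff_exists_ne_zero]
    exact ⟨⟨u, (hmem u).mpr hu⟩, fun h => hu0 (congrArg Subtype.val h)⟩
  have hl1 := cube_root_ne_one h3 hlam
  have h7 : finrank F W = 3 := by
    have h8 : finrank F W = 1 ∨ finrank F W = 2 ∨ finrank F W = 3 := by omega
    rcases h8 with h8 | h8 | h8
    · rw [h8, pow_one] at h4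
      exact absurd h4 hl1
    · rw [h8] at h4
      exfalso
      have h9 := cube_root hlam
      rw [pow_succ, h4, one_mul] at h9
      exact hl1 h9
    · exact h8
  have h8 : W = ⊤ := Submodule.eq_top_of_finrank_eq (by rw [h7, finrank_fintype_fun_eq_card, Fintype.card_fin])
  refine ⟨lam ^ 2, by linear_combination (lam ^ 2 - lam + 1) * hlam, ?_⟩
  apply Matrix.toLin'.injective
  apply LinearMap.ext
  intro v
  have h9 : v ∈ W := by rw [h8]; exact Submodule.mem_top
  rw [← hf, (hmem v).mp h9]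
  have h10 : (lam ^ 2) ^ 2 = lam := by
    have := cube_root hlam
    rw [← pow_mul, show 2 * 2 = 3 + 1 from rfl, pow_succ, this, one_mul]
  rw [h10]
  simp

/-- structure of extraspecial subgroups of order 27 -/
theorem extraThree (h3 : (3 : F) ≠ 0) {ω : F} (hω : ω ^ 2 + ω + 1 = 0) (R : Subgroup (GL (Fin 3) F)) (hR : Nat.card R = 27) (hRe : Monoid.exponent R = 3)
    (hRna : ¬ IsMulCommutative R) :
    ∃ (a b : GL (Fin 3) F) (η : F) (v : Fin 3 → F), a ∈ R ∧ b ∈ R ∧ Subgroup.closure {a, b} = R ∧ η ^ 2 + η + 1 = 0 ∧ a ^ 3 = 1 ∧ b ^ 3 = 1 ∧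
      (b : Matrix (Fin 3) (Fin 3) F) * a = η • ((a : Matrix (Fin 3) (Fin 3) F) * b) ∧ v ≠ 0 ∧ (b : Matrix (Fin 3) (Fin 3) F) *ᵥ v = v := by
  obtain ⟨a, b, hab⟩ : ∃ a b : R, a * b ≠ b * a := by
    by_contra hcon
    push Not at hcon
    exact hRna ⟨⟨hcon⟩⟩
  have hexp : ∀ x : R, x ^ 3 = 1 := fun x => by
    have := Monoid.pow_exponent_eq_one x
    rwa [hRe] at this
  set c : R := a * b * a⁻¹ * b⁻¹ with hc
  have hcc := comm_central_of_card_27 hR a b
  rw [← hc] at hcc
  have hc1 : c ≠ 1 := by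
    intro h
    apply hab
    rw [hc] at h
    calc a * b = (a * b * a⁻¹ * b⁻¹) * (b * a) := by group
      _ = b * a := by rw [h, one_mul]
  have hval : ∀ x : R, (((x ^ 3 : R) : GL (Fin 3) F) : Matrix (Fin 3) (Fin 3) F) = (((x : R) : GL (Fin 3) F) : Matrix (Fin 3) (Fin 3) F) ^ 3 := by
    intro x
    rw [SubmonoidClass.coe_pow, Units.val_pow_eq_pow_val]
  have hone : ∀ x : R, (((x : R) : GL (Fin 3) F) : Matrix (Fin 3) (Fin 3) F) ^ 3 = 1 := by
    intro x
    rw [← hval, hexp]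
    rfl
  have habc : a * b = c * (b * a) := by rw [hc]; group
  obtain ⟨η, hη, hcη⟩ := comm_scalar h3 hω (a := ((a : GL (Fin 3) F) : Matrix (Fin 3) (Fin 3) F)) (b := ((b : GL (Fin 3) F) : Matrix (Fin 3) (Fin 3) F))
    (c := ((c : GL (Fin 3) F) : Matrix (Fin 3) (Fin 3) F)) (hone a) (hone b) (hone c) (fun h => hc1 (Subtype.ext (Units.ext h)))
    (congrArg (fun t : R => ((t : GL (Fin 3) F) : Matrix (Fin 3) (Fin 3) F)) (hcc a))
    (congrArg (fun t : R => ((t : GL (Fin 3) F) : Matrix (Fin 3) (Fin 3) F)) (hcc b))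
    (congrArg (fun t : R => ((t : GL (Fin 3) F) : Matrix (Fin 3) (Fin 3) F)) habc)
  have hη3 := cube_root hη
  have hab' : (((a : GL (Fin 3) F) : Matrix (Fin 3) (Fin 3) F)) * ((b : GL (Fin 3) F) : Matrix (Fin 3) (Fin 3) F) =
      ((c : GL (Fin 3) F) : Matrix (Fin 3) (Fin 3) F) * (((b : GL (Fin 3) F) : Matrix (Fin 3) (Fin 3) F) * ((a : GL (Fin 3) F) : Matrix (Fin 3) (Fin 3) F)) :=
    congrArg (fun t : R => ((t : GL (Fin 3) F) : Matrix (Fin 3) (Fin 3) F)) habc
  rw [hcη, smul_mul_assoc, one_mul] at hab'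
  have hba : ((b : GL (Fin 3) F) : Matrix (Fin 3) (Fin 3) F) * ((a : GL (Fin 3) F) : Matrix (Fin 3) (Fin 3) F) =
      η • (((a : GL (Fin 3) F) : Matrix (Fin 3) (Fin 3) F) * ((b : GL (Fin 3) F) : Matrix (Fin 3) (Fin 3) F)) := by
    rw [hab', smul_smul, ← pow_succ', hη3, one_smul]
  -- closure
  have hcl : Subgroup.closure {(a : GL (Fin 3) F), (b : GL (Fin 3) F)} = R := by
    have h1 := closure_of_card_27 hR hab
    have h2 := congrArg (Subgroup.map R.subtype) h1
    rw [MonoidHom.map_closure, ← MonoidHom.range_eq_map, Subgroup.range_subtype, Set.image_pair] at h2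
    exact h2
  -- eigenvector
  have hb3 : ∀ v, Matrix.toLin' ((b : GL (Fin 3) F) : Matrix (Fin 3) (Fin 3) F) (Matrix.toLin' ((b : GL (Fin 3) F) : Matrix (Fin 3) (Fin 3) F) (Matrix.toLin' ((b : GL (Fin 3) F) : Matrix (Fin 3) (Fin 3) F) v)) = v := by
    intro v
    rw [← LinearMap.comp_apply, ← LinearMap.comp_apply, ← Matrix.toLin'_mul, ← Matrix.toLin'_mul]
    have : ((b : GL (Fin 3) F) : Matrix (Fin 3) (Fin 3) F) * ((b : GL (Fin 3) F) : Matrix (Fin 3) (Fin 3) F) * ((b : GL (Fin 3) F) : Matrix (Fin 3) (Fin 3) F) = 1 := by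
      rw [← hone b]; noncomm_ring
    rw [this, Matrix.toLin'_one]
    rfl
  obtain ⟨k, u, hu0, hu⟩ := exists_eigen_cube h3 hη _ hb3 (w := Pi.single 0 1) (by simp)
  rw [Matrix.toLin'_apply] at hu
  have hstep : ∀ (k : ℕ) (u : Fin 3 → F), u ≠ 0 → ((b : GL (Fin 3) F) : Matrix (Fin 3) (Fin 3) F) *ᵥ u = η ^ k • u →
      ((a : GL (Fin 3) F) : Matrix (Fin 3) (Fin 3) F) *ᵥ u ≠ 0 ∧
      ((b : GL (Fin 3) F) : Matrix (Fin 3) (Fin 3) F) *ᵥ (((a : GL (Fin 3) F) : Matrix (Fin 3) (Fin 3) F) *ᵥ u) = η ^ (k + 1) • (((a : GL (Fin 3) F) : Matrix (Fin 3) (Fin 3) F) *ᵥ u) := by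
    intro k u hu0 hu
    constructor
    · intro h0
      apply hu0
      have h1 : (((a⁻¹ : R) : GL (Fin 3) F) : Matrix (Fin 3) (Fin 3) F) *ᵥ (((a : GL (Fin 3) F) : Matrix (Fin 3) (Fin 3) F) *ᵥ u) = u := by
        rw [Matrix.mulVec_mulVec, ← Units.val_mul, ← Subgroup.coe_mul, inv_mul_cancel]
        simp
      rw [h0, Matrix.mulVec_zero] at h1
      exact h1.symm
    · rw [Matrix.mulVec_mulVec, hba, Matrix.smul_mulVec, ← Matrix.mulVec_mulVec, hu, Matrix.mulVec_smul, smul_smul, ← pow_succ']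
  have hall : ∀ j : ℕ, ∃ u' : Fin 3 → F, u' ≠ 0 ∧ ((b : GL (Fin 3) F) : Matrix (Fin 3) (Fin 3) F) *ᵥ u' = η ^ (k + j) • u' := by
    intro j
    induction j with
    | zero => exact ⟨u, hu0, hu⟩
    | succ j ih =>
      obtain ⟨u', h1, h2⟩ := ih
      obtain ⟨h4, h5⟩ := hstep _ _ h1 h2
      exact ⟨_, h4, h5⟩
  obtain ⟨v, hv0, hv⟩ := hall (2 * k)
  refine ⟨a, b, η, v, a.2, b.2, hcl, hη, ?_, ?_, hba, hv0, ?_⟩
  · have := congrArg Subtype.val (hexp a)
    exact this
  · have := congrArg Subtype.val (hexp b)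
    exact this
  · rw [hv, show k + 2 * k = 3 * k by ring, pow_mul, hη3, one_pow, one_smul]

end

end Cfsg.Agent.H99
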