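import Mathlib
import Cfsg.Agent.H99.ExtraThree
import Cfsg.Agent.H99.SLConj

set_option autoImplicit false
set_option linter.unusedVariables false
set_option linter.unusedSectionVars false

/-! Normalizers of extraspecial groups of order 27 in dimension three (helper99). -/

namespace Cfsg.Agent.H99

open Module Matrix

section
variable {F : Type*} [Field F]

lemma mul_colMat (M : Matrix (Fin 3) (Fin 3) F) (b : Fin 3 → (Fin 3 → F)) : M * colMat b = colMat (fun j => M *ᵥ b j) := by
  ext i j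
  rfl

lemma colMat_mul (M : Matrix (Fin 3) (Fin 3) F) (b : Fin 3 → (Fin 3 → F)) : colMat b * M = colMat (fun j => ∑ i, M i j • b i) := by
  ext i j
  simp only [colMat, Matrix.mul_apply, Matrix.of_apply, Finset.sum_apply, Pi.smul_apply, smul_eq_mul]
  apply Finset.sum_congr rfl
  intro k _
  ring

/-- the permutation matrix -/
def matP (F : Type*) [Field F] : Matrix (Fin 3) (Fin 3) F := !![0, 0, 1; 1, 0, 0; 0, 1, 0]

/-- the standard basis -/
theorem extraThree_basis (h3 : (3 : F) ≠ 0) {a b : GL (Fin 3) F} {η : F} {v : Fin 3 → F} (hη : η ^ 2 + η + 1 = 0) (ha : a ^ 3 = 1)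
    (hba : (b : Matrix (Fin 3) (Fin 3) F) * a = η • ((a : Matrix (Fin 3) (Fin 3) F) * b)) (hv0 : v ≠ 0) (hbv : (b : Matrix (Fin 3) (Fin 3) F) *ᵥ v = v) :
    ∃ g : GL (Fin 3) F, (g : Matrix (Fin 3) (Fin 3) F) = colMat ![v, (a : Matrix (Fin 3) (Fin 3) F) *ᵥ v, (a : Matrix (Fin 3) (Fin 3) F) *ᵥ ((a : Matrix (Fin 3) (Fin 3) F) *ᵥ v)] ∧
      (a : Matrix (Fin 3) (Fin 3) F) * g = g * matP F ∧ (b : Matrix (Fin 3) (Fin 3) F) * g = g * Matrix.diagonal ![1, η, η ^ 2] := by
  have hη3 := cube_root hη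
  have hη1 := cube_root_ne_one h3 hη
  set A := (a : Matrix (Fin 3) (Fin 3) F) with hA
  set B := (b : Matrix (Fin 3) (Fin 3) F) with hB
  have hA3 : A * (A * A) = 1 := by
    have := congrArg Units.val ha
    rw [Units.val_pow_eq_pow_val] at this
    rw [← pow_two, ← pow_succ']
    exact this
  have hb1 : B *ᵥ (A *ᵥ v) = η • (A *ᵥ v) := by
    rw [Matrix.mulVec_mulVec, hba, Matrix.smul_mulVec, ← Matrix.mulVec_mulVec, hbv]
  have hb2 : B *ᵥ (A *ᵥ (A *ᵥ v)) = η ^ 2 • (A *ᵥ (A *ᵥ v)) := by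
    rw [Matrix.mulVec_mulVec, hba, Matrix.smul_mulVec, ← Matrix.mulVec_mulVec, hb1, Matrix.mulVec_smul, smul_smul, pow_two]
  have ha3 : A *ᵥ (A *ᵥ (A *ᵥ v)) = v := by
    rw [Matrix.mulVec_mulVec, Matrix.mulVec_mulVec, Matrix.mul_assoc, hA3, Matrix.one_mulVec]
  have hv1 : A *ᵥ v ≠ 0 := by
    intro h
    rw [h, Matrix.mulVec_zero, Matrix.mulVec_zero] at ha3
    exact hv0 ha3.symm
  have hv2 : A *ᵥ (A *ᵥ v) ≠ 0 := by
    intro h
    rw [h, Matrix.mulVec_zero] at ha3
    exact hv0 ha3.symm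
  have hη2 : η ^ 2 ≠ 1 := by
    intro h
    rw [pow_succ, h, one_mul] at hη3
    exact hη1 hη3
  have hη12 : η ≠ η ^ 2 := by
    intro h
    apply hη1
    have h0 : η ≠ 0 := by
      rintro rfl
      rw [zero_pow (by norm_num)] at hη3
      exact zero_ne_one hη3
    have h4 : η * 1 = η * η := by rw [mul_one, ← pow_two]; exact h
    exact (mul_left_cancel₀ h0 h4).symm
  have hli : LinearIndependent F ![v, A *ᵥ v, A *ᵥ (A *ᵥ v)] := by
    apply Module.End.eigenvectors_linearIndependent' (Matrix.toLin' B) ![1, η, η ^ 2]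
    · intro i j hij
      fin_cases i <;> fin_cases j <;> simp at hij ⊢
      · exact hη1 hij.symm
      · exact hη2 hij.symm
      · exact hη1 hij
      · exact hη12 hij
      · exact hη2 (by rcases hij with h | h <;> rw [h] <;> norm_num)
      · exact hη12 hij.symm
    · intro i
      constructor
      · rw [Module.End.mem_eigenspace_iff, Matrix.toLin'_apply]
        fin_cases i
        · simpa using hbv
        · exact hb1
        · exact hb2
      · fin_cases i
        · exact hv0
        · exact hv1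
        · exact hv2
  let bs := basisOfLinearIndependentOfCardEqFinrank hli (by rw [finrank_fintype_fun_eq_card])
  have hbs : (bs : Fin 3 → (Fin 3 → F)) = ![v, A *ᵥ v, A *ᵥ (A *ᵥ v)] := coe_basisOfLinearIndependentOfCardEqFinrank hli _
  have hdet : (colMat ![v, A *ᵥ v, A *ᵥ (A *ᵥ v)]).det ≠ 0 := by
    rw [← hbs]
    exact colMat_det_ne_zero bs
  refine ⟨Matrix.GeneralLinearGroup.mkOfDetNeZero _ hdet, rfl, ?_, ?_⟩
  · change A * colMat _ = colMat _ * matP F
    rw [mul_colMat, colMat_mul]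
    congr 1
    funext j
    rw [Fin.sum_univ_three]
    fin_cases j
    · simp [matP]
    · simp [matP]
    · simp [matP, ha3, -Matrix.mulVec_mulVec]
  · change B * colMat _ = colMat _ * _
    rw [mul_colMat, colMat_mul]
    congr 1
    funext j
    rw [Fin.sum_univ_three]
    fin_cases j
    · simp [hbv]
    · simp [hb1]
    · simp [hb2, -Matrix.mulVec_mulVec]

/-- membership in the normalizer -/
lemma mem_normalizer_of_gens {R : Subgroup (GL (Fin 3) F)} [Finite R] {a b y : GL (Fin 3) F} (hcl : Subgroup.closure {a, b} = R)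
    (ha : y * a * y⁻¹ ∈ R) (hb : y * b * y⁻¹ ∈ R) : y ∈ Cfsg.Geo.subgroupNormalizer R := by
  apply mem_normalizer_of_conj_mem
  intro x hx
  rw [← hcl] at hx
  induction hx using Subgroup.closure_induction with
  | mem x hx =>
    rcases hx with rfl | hx
    · exact ha
    · rw [Set.mem_singleton_iff] at hx
      rw [hx]
      exact hb
  | one => rw [mul_one, mul_inv_cancel]; exact R.one_mem
  | mul x z _ _ h1 h2 =>
    have : y * (x * z) * y⁻¹ = (y * x * y⁻¹) * (y * z * y⁻¹) := by group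
    rw [this]
    exact R.mul_mem h1 h2
  | inv x _ h1 =>
    have : y * x⁻¹ * y⁻¹ = (y * x * y⁻¹)⁻¹ := by group
    rw [this]
    exact R.inv_mem h1

/-- the inverting element -/
def matT (F : Type*) [Field F] : Matrix (Fin 3) (Fin 3) F := !![-1, 0, 0; 0, 0, -1; 0, -1, 0]

lemma matT_sq : matT F * matT F = 1 := by
  ext i j
  fin_cases i <;> fin_cases j <;> simp [matT, Matrix.mul_apply, Fin.sum_univ_three]

lemma matT_P : matT F * matP F = matP F * matP F * matT F := by
  ext i j
  fin_cases i <;> fin_cases j <;> simp [matT, matP, Matrix.mul_apply, Fin.sum_univ_three]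

lemma matT_D {η : F} (hη : η ^ 3 = 1) : matT F * Matrix.diagonal ![1, η, η ^ 2] = Matrix.diagonal ![1, η, η ^ 2] * Matrix.diagonal ![1, η, η ^ 2] * matT F := by
  have h4 : η ^ 2 * η ^ 2 = η := by rw [← pow_add, show 2 + 2 = 3 + 1 from rfl, pow_succ, hη, one_mul]
  have h5 : η * η = η ^ 2 := (pow_two η).symm
  ext i j
  fin_cases i <;> fin_cases j <;> simp [matT, Matrix.mul_apply, Fin.sum_univ_three, Matrix.diagonal, h4, h5]

end

end Cfsg.Agent.H99
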