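import Mathlib
import Cfsg.Prelude.Def_GeometricClasses
import Cfsg.Agent.AschCases.FieldSub
import Cfsg.Agent.H99.SympElt
import Cfsg.Agent.H99.SympTrans
import Cfsg.Agent.H99.CharTwoSp

set_option autoImplicit false
set_option linter.unusedSectionVars false

/-! Field extension subgroups of the symplectic groups (helper99). -/

namespace Cfsg.Agent.H99

open Module Matrix

section trace
variable (F : Type*) {E : Type*} [Field F] [Finite F] [Field E] [Algebra F E] [FiniteDimensional F E]

theorem trE_nd {a : E} (h : ∀ k : E, Algebra.trace F E (a * k) = 0) : a = 0 :=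
  (traceForm_nondegenerate F E).1 a h

theorem trE_ext {a b : E} (h : ∀ k : E, Algebra.trace F E (a * k) = Algebra.trace F E (b * k)) : a = b := by
  rw [← sub_eq_zero]
  apply trE_nd F
  intro k
  rw [sub_mul, map_sub, h, sub_self]

theorem trE_exists (l : E →ₗ[F] F) : ∃ c : E, ∀ k, l k = Algebra.trace F E (c * k) := by
  obtain ⟨c, hc⟩ := ((Algebra.traceForm F E).toDual (traceForm_nondegenerate F E)).surjective l
  refine ⟨c, fun k => ?_⟩
  rw [← hc]
  rfl

end trace

section
variable {F E V : Type*} [Field F] [Finite F] [Field E] [Algebra F E] [FiniteDimensional F E] [AddCommGroup V] [Module F V] [Module E V]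
  [IsScalarTower F E V]

/-- the form over the extension field -/
theorem exists_trace_form {B : V → V → F} (hB : AltForm B) (hND : ND B (⊤ : Submodule F V)) (σ : E ≃ₐ[F] E) (hσ : ∀ e, σ (σ e) = e)
    (hadj : ∀ (e : E) u v, B u (e • v) = B (σ e • u) v) :
    ∃ g : V → V → E, (∀ (e : E) u v, B (e • u) v = Algebra.trace F E (g u v * e)) ∧ EForm ((σ : E →+* E)) (-1) g ∧
      ND g (⊤ : Submodule E V) := by
  have hex : ∀ u v : V, ∃ c : E, ∀ e : E, B (e • u) v = Algebra.trace F E (c * e) := by
    intro u v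
    exact trE_exists F
      { toFun := fun e => B (e • u) v
        map_add' := fun k l => by rw [add_smul, hB.add_left]
        map_smul' := fun c k => by rw [smul_assoc, hB.smul_left]; rfl }
  choose g hg using hex
  refine ⟨g, fun e u v => hg u v e, ⟨?_, ?_, ?_, by ring⟩, ?_⟩
  · intro x y v
    apply trE_ext F
    intro k
    rw [← hg, add_mul, map_add, ← hg, ← hg, smul_add, hB.add_left]
  · intro c x v
    apply trE_ext F
    intro k
    rw [← hg, smul_smul, hg]
    congr 1
    ring
  · intro x y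
    apply trE_ext F
    intro k
    rw [← hg, hB.skew, hadj, hg]
    have h1 : -1 * ((σ : E →+* E)) (g x y) * k = -(σ (g x y * σ.symm k)) := by
      rw [map_mul, AlgEquiv.apply_symm_apply]
      change -1 * (σ (g x y)) * k = _
      ring
    rw [h1, map_neg, Algebra.trace_eq_of_algEquiv]
    have h3 : σ.symm k = σ k := by
      rw [AlgEquiv.symm_apply_eq, hσ]
    rw [h3]
  · intro u _ hu
    apply hND u Submodule.mem_top
    intro v _
    have h1 := hg u v 1
    rw [one_smul, hu v Submodule.mem_top, zero_mul, map_zero] at h1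
    exact h1

end

/-! ### matrix setting -/

section matrix
variable {ι : Type} [Fintype ι] [DecidableEq ι] {F : Type*} [Field F]

/-- the module structure given by an embedded field -/
@[reducible] noncomputable def modOf {E : Type*} [Field E] [Algebra F E] (φ : E →ₐ[F] Matrix ι ι F) : Module E (ι → F) :=
  Module.compHom (ι → F) (((Matrix.toLinAlgEquiv' : Matrix ι ι F ≃ₐ[F] _).toAlgHom.comp φ : E →ₐ[F] _) : E →+* Module.End F (ι → F))

theorem modOf_smul {E : Type*} [Field E] [Algebra F E] (φ : E →ₐ[F] Matrix ι ι F) (k : E) (v : ι → F) :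
    letI := modOf φ
    k • v = φ k *ᵥ v := rfl

theorem modOf_tower {E : Type*} [Field E] [Algebra F E] (φ : E →ₐ[F] Matrix ι ι F) :
    letI := modOf φ
    IsScalarTower F E (ι → F) := by
  letI := modOf φ
  refine ⟨fun c k v => ?_⟩
  rw [modOf_smul, modOf_smul, map_smul, Matrix.smul_mulVec]

/-- a group acting on an E-space gives a matrix group commuting with E -/
theorem exists_hom_of_act {E : Type*} [Field E] [Algebra F E] (φ : E →ₐ[F] Matrix ι ι F) {X : Type*} [AddCommGroup X] [Module E X]
    {L : Type*} [Group L] (act : L →* Module.End E X) (hinj : Function.Injective act)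
    (T : letI := modOf φ; X ≃ₗ[E] (ι → F)) :
    ∃ ψ : L →* GL ι F, Function.Injective ψ ∧ (∀ l x, ((ψ l : GL ι F) : Matrix ι ι F) *ᵥ (T x) = T (act l x)) ∧
      ∀ l e, ((ψ l : GL ι F) : Matrix ι ι F) * φ e = φ e * ((ψ l : GL ι F) : Matrix ι ι F) := by
  letI := modOf φ
  haveI := modOf_tower φ
  letI : Module F X := Module.compHom X (algebraMap F E)
  haveI : IsScalarTower F E X := by
    refine ⟨fun c k v => ?_⟩
    change (c • k) • v = (algebraMap F E c) • (k • v)
    rw [Algebra.smul_def, mul_smul]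
  let TF : X ≃ₗ[F] (ι → F) := T.restrictScalars F
  let M : L → Matrix ι ι F := fun l => LinearMap.toMatrix' ((TF : X →ₗ[F] (ι → F)) ∘ₗ ((act l).restrictScalars F) ∘ₗ (TF.symm : (ι → F) →ₗ[F] X))
  have hM : ∀ l v, M l *ᵥ v = T (act l (T.symm v)) := by
    intro l v
    change LinearMap.toMatrix' _ *ᵥ v = _
    rw [← Matrix.toLin'_apply, Matrix.toLin'_toMatrix']
    rfl
  have hext : ∀ A B : Matrix ι ι F, (∀ v, A *ᵥ v = B *ᵥ v) → A = B := by
    intro A B h
    apply Matrix.toLin'.injective
    apply LinearMap.ext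
    intro v
    exact h v
  let Mh : L →* Matrix ι ι F :=
    { toFun := M
      map_one' := by
        apply hext
        intro v
        rw [hM, map_one, Matrix.one_mulVec]
        exact T.apply_symm_apply v
      map_mul' := by
        intro a b
        apply hext
        intro v
        rw [hM, map_mul, ← Matrix.mulVec_mulVec, hM, hM, T.symm_apply_apply]
        rfl }
  have hval : ∀ l, ((MonoidHom.toHomUnits Mh l : GL ι F) : Matrix ι ι F) = M l := fun l => MonoidHom.coe_toHomUnits Mh l
  refine ⟨MonoidHom.toHomUnits Mh, ?_, ?_, ?_⟩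
  · intro a b hab
    apply hinj
    apply LinearMap.ext
    intro x
    apply T.injective
    have h1 : M a = M b := by rw [← hval, hab, hval]
    have h2 := hM a (T x)
    rw [h1, hM, T.symm_apply_apply] at h2
    exact h2.symm
  · intro l x
    rw [hval, hM, T.symm_apply_apply]
  · intro l e
    rw [hval]
    apply hext
    intro v
    rw [← Matrix.mulVec_mulVec, ← Matrix.mulVec_mulVec, hM, hM, ← modOf_smul φ e v, ← modOf_smul φ e, map_smul, map_smul, map_smul]

theorem mat_ext' {A B : Matrix ι ι F} (h : ∀ v, A *ᵥ v = B *ᵥ v) : A = B := by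
  apply Matrix.toLin'.injective
  apply LinearMap.ext
  intro v
  exact h v

theorem alg_inj {E : Type*} [Field E] [Algebra F E] (φ : E →ₐ[F] Matrix ι ι F) {e : E} (he : e ≠ 0) {v : ι → F} (h : φ e *ᵥ v = 0) : v = 0 := by
  have h1 : φ e⁻¹ *ᵥ (φ e *ᵥ v) = v := by
    rw [Matrix.mulVec_mulVec, ← map_mul, inv_mul_cancel₀ he, map_one, Matrix.one_mulVec]
  rw [← h1, h, Matrix.mulVec_zero]

/-- semilinear or linear -/
theorem norm_dichotomy {E : Type*} [Field E] [Algebra F E] (φ : E →ₐ[F] Matrix ι ι F) (y : GL ι F)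
    (hy : ∀ e : E, ∃ e' : E, (y : Matrix ι ι F) * φ e = φ e' * (y : Matrix ι ι F)) (c : F) :
    (∀ e : E, (y : Matrix ι ι F) * φ e = φ e * (y : Matrix ι ι F)) ∨
      2 * finrank F (LinearMap.ker (Matrix.toLin' (y : Matrix ι ι F) - c • 1)) ≤ Fintype.card ι := by
  by_cases hcomm : ∀ e : E, (y : Matrix ι ι F) * φ e = φ e * (y : Matrix ι ι F)
  · exact Or.inl hcomm
  right
  push Not at hcomm
  obtain ⟨e, he⟩ := hcomm
  obtain ⟨e', he'⟩ := hy e
  have hne : e' ≠ e := by
    rintro rfl
    exact he he'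
  have he0 : e ≠ 0 := by
    rintro rfl
    apply he
    rw [map_zero, mul_zero, zero_mul]
  set C := LinearMap.ker (Matrix.toLin' (y : Matrix ι ι F) - c • 1) with hC
  have hmem : ∀ v, v ∈ C ↔ (y : Matrix ι ι F) *ᵥ v = c • v := by
    intro v
    rw [hC, LinearMap.mem_ker, LinearMap.sub_apply, LinearMap.smul_apply, Module.End.one_apply, Matrix.toLin'_apply, sub_eq_zero]
  have hinj : Function.Injective (Matrix.toLin' (φ e)) := by
    rw [← LinearMap.ker_eq_bot, LinearMap.ker_eq_bot']
    intro v hv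
    exact alg_inj φ he0 hv
  have hyinv : ∀ v, (y : Matrix ι ι F) *ᵥ v = 0 → v = 0 := by
    intro v hv
    have h1 : ((y⁻¹ : GL ι F) : Matrix ι ι F) *ᵥ ((y : Matrix ι ι F) *ᵥ v) = v := by
      rw [Matrix.mulVec_mulVec, ← Units.val_mul, inv_mul_cancel, Units.val_one, Matrix.one_mulVec]
    rw [← h1, hv, Matrix.mulVec_zero]
  have hd : C ⊓ C.map (Matrix.toLin' (φ e)) = ⊥ := by
    rw [eq_bot_iff]
    rintro v ⟨h1, w, hw, rfl⟩
    rw [SetLike.mem_coe, hmem, Matrix.toLin'_apply] at h1
    rw [SetLike.mem_coe, hmem] at hw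
    rw [Submodule.mem_bot, Matrix.toLin'_apply]
    have h2 : (y : Matrix ι ι F) *ᵥ (φ e *ᵥ w) = c • (φ e' *ᵥ w) := by
      rw [Matrix.mulVec_mulVec, he', ← Matrix.mulVec_mulVec, hw, Matrix.mulVec_smul]
    rw [h1] at h2
    by_cases hc : c = 0
    · rw [hc, zero_smul] at hw
      rw [hyinv w hw, Matrix.mulVec_zero]
    · have h3 : φ e *ᵥ w = φ e' *ᵥ w := smul_right_injective _ hc h2
      have h4 : φ (e' - e) *ᵥ w = 0 := by rw [map_sub, Matrix.sub_mulVec, h3, sub_self]
      rw [alg_inj φ (sub_ne_zero.mpr hne) h4, Matrix.mulVec_zero]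
  have h1 := Submodule.finrank_sup_add_finrank_inf_eq C (C.map (Matrix.toLin' (φ e)))
  rw [hd, finrank_bot, add_zero, ← (Submodule.equivMapOfInjective _ hinj C).finrank_eq] at h1
  have h2 := Submodule.finrank_le (C ⊔ C.map (Matrix.toLin' (φ e)))
  rw [h1, finrank_fintype_fun_eq_card] at h2
  omega

/-- an element of prime order normalizing but not centralizing the field -/
theorem norm_aut [Finite F] [Nonempty ι] {E : Type*} [Field E] [Algebra F E] [FiniteDimensional F E] (φ : E →ₐ[F] Matrix ι ι F) (y : GL ι F)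
    (hy : ∀ e : E, ∃ e' : E, (y : Matrix ι ι F) * φ e = φ e' * (y : Matrix ι ι F)) {r : ℕ} (hr : r.Prime) (hyr : y ^ r = 1)
    {k : ℕ} (hk : k.Prime) (hkE : finrank F E = k) (hrk : r ≠ k) :
    ∀ e : E, (y : Matrix ι ι F) * φ e = φ e * (y : Matrix ι ι F) := by
  have hφ : Function.Injective φ := φ.toRingHom.injective
  choose α hα using hy
  have hcan : ∀ a b : Matrix ι ι F, a * (y : Matrix ι ι F) = b * (y : Matrix ι ι F) → a = b := by
    intro a b h
    have h1 := congrArg (fun m => m * ((y⁻¹ : GL ι F) : Matrix ι ι F)) h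
    simp only [mul_assoc] at h1
    rw [← Units.val_mul, mul_inv_cancel, Units.val_one, mul_one, mul_one] at h1
    exact h1
  let A : E →ₐ[F] E :=
    { toFun := α
      map_one' := by
        apply hφ
        apply hcan
        rw [← hα, map_one, mul_one, one_mul]
      map_mul' := by
        intro a b
        apply hφ
        apply hcan
        rw [← hα, map_mul, map_mul, ← mul_assoc, hα, mul_assoc, hα, mul_assoc]
      map_zero' := by
        apply hφ
        apply hcan
        rw [← hα, map_zero, mul_zero, zero_mul]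
      map_add' := by
        intro a b
        apply hφ
        apply hcan
        rw [← hα, map_add, map_add, mul_add, add_mul, hα, hα]
      commutes' := by
        intro c
        apply hφ
        apply hcan
        rw [← hα, AlgHom.commutes, Algebra.algebraMap_eq_smul_one, Matrix.mul_smul, Matrix.smul_mul, mul_one, one_mul] }
  have hA : ∀ e, A e = α e := fun _ => rfl
  have hbij : Function.Bijective A := by
    have h1 : Function.Injective A := A.toRingHom.injective
    exact ⟨h1, (LinearMap.injective_iff_surjective (f := A.toLinearMap)).mp h1⟩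
  let β : E ≃ₐ[F] E := AlgEquiv.ofBijective A hbij
  have hβ : ∀ e, β e = α e := fun _ => rfl
  have hpow : ∀ (m : ℕ) (e : E), ((y ^ m : GL ι F) : Matrix ι ι F) * φ e = φ ((β ^ m) e) * ((y ^ m : GL ι F) : Matrix ι ι F) := by
    intro m
    induction m with
    | zero => intro e; simp
    | succ m ih =>
      intro e
      rw [pow_succ', Units.val_mul, mul_assoc, ih, ← mul_assoc, hα, mul_assoc, pow_succ', AlgEquiv.mul_apply, hβ]
  have hβr : β ^ r = 1 := by
    apply AlgEquiv.ext
    intro e
    apply hφ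
    have h1 := hpow r e
    rw [hyr, Units.val_one, one_mul, mul_one] at h1
    rw [← h1]
    rfl
  have h1 : orderOf β ∣ r := orderOf_dvd_of_pow_eq_one hβr
  have hfinE : Finite E := Module.finite_of_finite F
  have h2 : orderOf β ∣ k := by
    rw [← hkE, ← IsGalois.card_aut_eq_finrank F E]
    exact orderOf_dvd_natCard β
  have h3 : Nat.Coprime r k := (Nat.coprime_primes hr hk).mpr hrk
  have h4 : orderOf β = 1 := Nat.eq_one_of_dvd_coprimes h3 h1 h2
  rw [orderOf_eq_one_iff] at h4
  intro e
  rw [hα, ← hβ, h4]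
  rfl

end matrix

section symp
variable {F : Type*} [Field F] [Fintype F] {p : ℕ} [Fact p.Prime] [CharP F p] {d : ℕ}

theorem mem_spGL' {g : GL (Fin d ⊕ Fin d) F} : g ∈ Cfsg.spGL d F ↔ ∀ u v, Cfsg.sympForm d F ((g : Matrix (Fin d ⊕ Fin d) (Fin d ⊕ Fin d) F) *ᵥ u)
    ((g : Matrix (Fin d ⊕ Fin d) (Fin d ⊕ Fin d) F) *ᵥ v) = Cfsg.sympForm d F u v := Iff.rfl

variable {E : Type*} [Field E] [Algebra F E] [FiniteDimensional F E]

/-- the alternating form over the extension field -/
theorem exists_alt_trace (φ : E →ₐ[F] Matrix (Fin d ⊕ Fin d) (Fin d ⊕ Fin d) F)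
    (hsa : ∀ (e : E) u v, Cfsg.sympForm d F u (φ e *ᵥ v) = Cfsg.sympForm d F (φ e *ᵥ u) v) (halt : ∀ (e : E) v, Cfsg.sympForm d F (φ e *ᵥ v) v = 0) :
    letI := modOf φ
    ∃ g : (Fin d ⊕ Fin d → F) → (Fin d ⊕ Fin d → F) → E, (∀ (e : E) u v, Cfsg.sympForm d F (φ e *ᵥ u) v = Algebra.trace F E (g u v * e)) ∧ AltForm g ∧
      ND g (⊤ : Submodule E (Fin d ⊕ Fin d → F)) := by
  letI := modOf φ
  haveI := modOf_tower φ
  obtain ⟨g, h1, h2, h3⟩ := exists_trace_form (E := E) (sympForm_altForm (F := F) d) (sympForm_ND d) AlgEquiv.refl (fun _ => rfl) (fun e u v => hsa e u v)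
  refine ⟨g, h1, ⟨h2.add_left, h2.smul_left, ?_, ?_⟩, h3⟩
  · intro x
    apply trE_nd F
    intro k
    rw [← h1]
    exact halt k x
  · intro x y
    have := h2.symm y x
    rw [this]
    change -1 * g y x = _
    ring

end symp

end Cfsg.Agent.H99
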