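import Mathlib
import Cfsg.Agent.H99.FieldExtA

set_option autoImplicit false
set_option linter.unusedSectionVars false
set_option linter.style.haveILetI false

/-! Field extension subgroups of the symplectic groups, self-adjoint case (helper99). -/

namespace Cfsg.Agent.H99

open Module Matrix

section
variable {F : Type*} [Field F] [Fintype F] {p : ℕ} [Fact p.Prime] [CharP F p] {d : ℕ}
variable {E : Type*} [Field E] [Algebra F E] [FiniteDimensional F E]

theorem prod_split (k m : ℕ) (hk : 0 < k) (h : ℕ → ℕ) :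
    (∏ i ∈ Finset.range m, h (k * (i + 1))) * ∏ i ∈ (Finset.range (k * m)).filter (fun i => ¬ k ∣ i + 1), h (i + 1) = ∏ i ∈ Finset.range (k * m), h (i + 1) := by
  rw [← Finset.prod_filter_mul_prod_filter_not (Finset.range (k * m)) (fun i => k ∣ i + 1)]
  congr 1
  symm
  apply Finset.prod_nbij' (fun i => (i + 1) / k - 1) (fun i => k * (i + 1) - 1)
  · intro i hi
    rw [Finset.mem_filter, Finset.mem_range] at hi
    obtain ⟨hi1, c, hc⟩ := hi
    rw [Finset.mem_range, hc, Nat.mul_div_cancel_left _ hk]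
    have h1 : k * c ≤ k * m := by omega
    have h2 := Nat.le_of_mul_le_mul_left h1 hk
    have h3 : c ≠ 0 := by
      rintro rfl
      simp at hc
    omega
  · intro i hi
    rw [Finset.mem_range] at hi
    rw [Finset.mem_filter, Finset.mem_range]
    have h1 : k * (i + 1) ≤ k * m := Nat.mul_le_mul_left _ hi
    have h2 : 0 < k * (i + 1) := Nat.mul_pos hk (by omega)
    refine ⟨by omega, ⟨i + 1, by omega⟩⟩
  · intro i hi
    rw [Finset.mem_filter, Finset.mem_range] at hi
    obtain ⟨hi1, c, hc⟩ := hi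
    have h3 : c ≠ 0 := by
      rintro rfl
      simp at hc
    simp only [hc]
    rw [Nat.mul_div_cancel_left _ hk, Nat.sub_add_cancel (by omega), ← hc]
    omega
  · intro i hi
    have h2 : 0 < k * (i + 1) := Nat.mul_pos hk (by omega)
    rw [Nat.sub_add_cancel h2, Nat.mul_div_cancel_left _ hk]
    omega
  · intro i hi
    rw [Finset.mem_filter, Finset.mem_range] at hi
    obtain ⟨hi1, c, hc⟩ := hi
    have h3 : c ≠ 0 := by
      rintro rfl
      simp at hc
    simp only [hc]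
    rw [Nat.mul_div_cancel_left _ hk, Nat.sub_add_cancel (by omega)]

theorem core_index_sa (hd : 0 < d) (φ : E →ₐ[F] Matrix (Fin d ⊕ Fin d) (Fin d ⊕ Fin d) F)
    (hsa : ∀ (e : E) u v, Cfsg.sympForm d F u (φ e *ᵥ v) = Cfsg.sympForm d F (φ e *ᵥ u) v) (halt : ∀ (e : E) v, Cfsg.sympForm d F (φ e *ᵥ v) v = 0)
    {r : ℕ} [Fact r.Prime] (hrp : r ≠ p) (H : Subgroup (GL (Fin d ⊕ Fin d) F))
    (hH : ∀ g : GL (Fin d ⊕ Fin d) F, (∀ e : E, (g : Matrix (Fin d ⊕ Fin d) (Fin d ⊕ Fin d) F) * φ e = φ e * (g : Matrix (Fin d ⊕ Fin d) (Fin d ⊕ Fin d) F)) → g ∈ H)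
    (hΩ : r ∣ H.relIndex (Cfsg.spGL d F)) {k : ℕ} (hk : finrank F E = k) :
    ∃ j, 0 < j ∧ j ≤ d ∧ ¬ k ∣ j ∧ r ∣ Fintype.card F ^ (2 * j) - 1 := by
  classical
  have hr : r.Prime := Fact.out
  have hk0 : 0 < k := by rw [← hk]; exact finrank_pos
  have hEfin : Finite E := Module.finite_of_finite F
  have : Fintype E := Fintype.ofFinite E
  letI := modOf φ
  haveI := modOf_tower φ
  haveI : FiniteDimensional E (Fin d ⊕ Fin d → F) := FiniteDimensional.right F E (Fin d ⊕ Fin d → F)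
  obtain ⟨g, hg1, hg2, hg3⟩ := exists_alt_trace φ hsa halt
  obtain ⟨m, hm⟩ := hg2.even_finrank hg3
  have hdim := Module.finrank_mul_finrank F E (Fin d ⊕ Fin d → F)
  rw [hk, hm, finrank_fintype_fun_eq_card, Fintype.card_sum, Fintype.card_fin] at hdim
  have hdk : d = k * m := by
    have : 2 * d = 2 * (k * m) := by rw [two_mul, ← hdim]; ring
    omega
  obtain ⟨T, hT⟩ := exists_equiv_sympForm hg2 hg3 (m := m) (by omega)
  let act : Matrix.symplecticGroup (Fin m) E →* Module.End E (Fin m ⊕ Fin m → E) :=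
    { toFun := fun A => Matrix.toLin' (A : Matrix (Fin m ⊕ Fin m) (Fin m ⊕ Fin m) E)
      map_one' := Matrix.toLin'_one
      map_mul' := fun A B => Matrix.toLin'_mul _ _ }
  have hact : Function.Injective act := by
    intro A B hAB
    apply Subtype.ext
    exact Matrix.toLin'.injective hAB
  obtain ⟨ψ, hψ1, hψ2, hψ3⟩ := exists_hom_of_act φ act hact T
  have hform : ∀ u v, Cfsg.sympForm d F (T u) (T v) = Algebra.trace F E (Cfsg.sympForm m E u v) := by
    intro u v
    have h1 := hg1 1 (T u) (T v)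
    rw [map_one, Matrix.one_mulVec, mul_one, hT] at h1
    exact h1
  have hψG : ∀ A, ψ A ∈ Cfsg.spGL d F := by
    intro A
    rw [mem_spGL']
    intro u v
    obtain ⟨u', rfl⟩ := T.surjective u
    obtain ⟨v', rfl⟩ := T.surjective v
    rw [hψ2, hψ2, hform, hform]
    congr 1
    exact sympForm_toLin' m A.2 u' v'
  let ψ' : Matrix.symplecticGroup (Fin m) E →* Cfsg.spGL d F := ψ.codRestrict _ hψG
  set q := Fintype.card F with hq
  have hcE : Fintype.card E = q ^ k := by
    have := Module.card_eq_pow_finrank (K := F) (V := E)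
    rw [this, hk]
  have hdvd : r ∣ q ^ (d ^ 2 - k * m ^ 2) * ∏ i ∈ (Finset.range d).filter (fun i => ¬ k ∣ i + 1), (q ^ (2 * (i + 1)) - 1) := by
    apply dvd_of_dvd_index (H.subgroupOf (Cfsg.spGL d F)) ψ'
    · intro A B hAB
      apply hψ1
      exact congrArg Subtype.val hAB
    · intro A
      exact hH _ (fun e => hψ3 A e)
    · exact hΩ
    · rw [card_spGL, Cfsg.Agent.ClassSp.card_fin, Cfsg.Agent.ClassSp.card_fin, hcE, ← hq]
      have h1 := prod_split k m hk0 (fun j => q ^ (2 * j) - 1)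
      rw [← hdk] at h1
      have h2 : ∏ i ∈ Finset.range m, ((q ^ k) ^ (2 * (i + 1)) - 1) = ∏ i ∈ Finset.range m, (q ^ (2 * (k * (i + 1))) - 1) := by
        apply Finset.prod_congr rfl
        intro i _
        rw [← pow_mul]
        congr 2
        ring
      rw [h2, ← h1]
      have h3 : q ^ d ^ 2 = q ^ (d ^ 2 - k * m ^ 2) * (q ^ k) ^ m ^ 2 := by
        rw [← pow_mul, ← pow_add, Nat.sub_add_cancel]
        rw [hdk, mul_pow]
        exact Nat.mul_le_mul_right _ (Nat.le_self_pow (by norm_num) k)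
      rw [h3]
      ring
  have hQ : ¬ r ∣ q := prime_not_dvd_card hrp
  rcases hr.dvd_mul.mp hdvd with h | h
  · exact absurd (hr.dvd_of_dvd_pow h) hQ
  · obtain ⟨i, hi, h1⟩ := (Prime.dvd_finsetProd_iff hr.prime _).mp h
    rw [Finset.mem_filter, Finset.mem_range] at hi
    exact ⟨i + 1, by omega, by omega, hi.2, h1⟩

/-- the fixed space of a linear isometry of prime order has even dimension over the extension field -/
theorem core_even_sa (φ : E →ₐ[F] Matrix (Fin d ⊕ Fin d) (Fin d ⊕ Fin d) F)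
    (hsa : ∀ (e : E) u v, Cfsg.sympForm d F u (φ e *ᵥ v) = Cfsg.sympForm d F (φ e *ᵥ u) v) (halt : ∀ (e : E) v, Cfsg.sympForm d F (φ e *ᵥ v) v = 0)
    {r : ℕ} [Fact r.Prime] (hrp : r ≠ p) {y : GL (Fin d ⊕ Fin d) F} (hy : y ∈ Cfsg.spGL d F) (hyr : y ^ r = 1)
    (hcomm : ∀ e : E, (y : Matrix (Fin d ⊕ Fin d) (Fin d ⊕ Fin d) F) * φ e = φ e * (y : Matrix (Fin d ⊕ Fin d) (Fin d ⊕ Fin d) F)) :
    2 * finrank F E ∣ finrank F (LinearMap.ker (Matrix.toLin' (y : Matrix (Fin d ⊕ Fin d) (Fin d ⊕ Fin d) F) - 1)) := by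
  classical
  have hr : r.Prime := Fact.out
  have hEfin : Finite E := Module.finite_of_finite F
  have : Fintype E := Fintype.ofFinite E
  letI := modOf φ
  haveI := modOf_tower φ
  haveI : FiniteDimensional E (Fin d ⊕ Fin d → F) := FiniteDimensional.right F E (Fin d ⊕ Fin d → F)
  obtain ⟨g, hg1, hg2, hg3⟩ := exists_alt_trace φ hsa halt
  have : CharP E p := charP_of_injective_algebraMap (algebraMap F E).injective p
  let f : (Fin d ⊕ Fin d → F) →ₗ[E] (Fin d ⊕ Fin d → F) :=
    { toFun := fun v => (y : Matrix (Fin d ⊕ Fin d) (Fin d ⊕ Fin d) F) *ᵥ v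
      map_add' := fun u v => Matrix.mulVec_add _ _ _
      map_smul' := fun e v => by
        rw [modOf_smul, RingHom.id_apply, modOf_smul, Matrix.mulVec_mulVec, Matrix.mulVec_mulVec, hcomm] }
  have hf : ∀ v, f v = (y : Matrix (Fin d ⊕ Fin d) (Fin d ⊕ Fin d) F) *ᵥ v := fun _ => rfl
  have hfr : f ^ r = 1 := by
    have hk : ∀ (k : ℕ) v, (f ^ k) v = ((y ^ k : GL (Fin d ⊕ Fin d) F) : Matrix (Fin d ⊕ Fin d) (Fin d ⊕ Fin d) F) *ᵥ v := by
      intro k
      induction k with
      | zero => intro v; rw [pow_zero, pow_zero, Units.val_one, Matrix.one_mulVec]; rfl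
      | succ k ih =>
        intro v
        rw [pow_succ', pow_succ', Units.val_mul, ← Matrix.mulVec_mulVec, ← ih]
        rfl
    apply LinearMap.ext
    intro v
    rw [hk, hyr, Units.val_one, Matrix.one_mulVec]
    rfl
  have hgf : ∀ u v, g (f u) (f v) = g u v := by
    intro u v
    apply trE_ext F
    intro k
    rw [← hg1, ← hg1, hf, hf, Matrix.mulVec_mulVec, ← hcomm, ← Matrix.mulVec_mulVec]
    exact mem_spGL'.mp hy _ _
  have hND := (split_fixed (p := p) (r := r) hrp hg2.eform hgf hfr (W := ⊤) (fun _ _ => Submodule.mem_top) hg3).1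
  rw [top_inf_eq] at hND
  obtain ⟨m, hm⟩ := hg2.even_finrank_sub hND
  have h1 : finrank F (LinearMap.ker (Matrix.toLin' (y : Matrix (Fin d ⊕ Fin d) (Fin d ⊕ Fin d) F) - 1)) = finrank F (LinearMap.ker (f - 1)) := by
    let e : LinearMap.ker (Matrix.toLin' (y : Matrix (Fin d ⊕ Fin d) (Fin d ⊕ Fin d) F) - 1) ≃ₗ[F] LinearMap.ker (f - 1) :=
      { toFun := fun v => ⟨v.1, v.2⟩
        invFun := fun v => ⟨v.1, v.2⟩
        map_add' := fun _ _ => rfl
        map_smul' := fun _ _ => rfl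
        left_inv := fun _ => rfl
        right_inv := fun _ => rfl }
    exact e.finrank_eq
  have h2 := Module.finrank_mul_finrank F E (LinearMap.ker (f - 1))
  rw [h1, ← h2, hm]
  exact ⟨m, by ring⟩

end

end Cfsg.Agent.H99
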