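import Mathlib
import Cfsg.Agent.H99.FieldExtA
import Cfsg.Agent.H99.HypSys

set_option autoImplicit false
set_option linter.unusedSectionVars false

/-! Conjugacy of involutions of the projective symplectic groups in odd characteristic (helper99). -/

namespace Cfsg.Agent.H99

open Module Matrix

section
variable {F : Type*} [Field F] [Fintype F] {d : ℕ}

theorem exists_spGL_of_symp (g : Matrix.symplecticGroup (Fin d) F) : ∃ g' ∈ Cfsg.spGL d F,
    (g' : Matrix (Fin d ⊕ Fin d) (Fin d ⊕ Fin d) F) = g := by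
  have hu : IsUnit (g : Matrix (Fin d ⊕ Fin d) (Fin d ⊕ Fin d) F).det := SymplecticGroup.symplectic_det g.2
  refine ⟨Matrix.GeneralLinearGroup.mk'' (g : Matrix (Fin d ⊕ Fin d) (Fin d ⊕ Fin d) F) hu, ?_, rfl⟩
  intro u v
  exact (Cfsg.Agent.ClGeo.mem_symplecticGroup_iff d).mp g.2 u v

/-- an isometry as an element of the group -/
theorem exists_spGL_of_equiv (e : (Fin d ⊕ Fin d → F) ≃ₗ[F] (Fin d ⊕ Fin d → F))
    (he : ∀ u v, Cfsg.sympForm d F (e u) (e v) = Cfsg.sympForm d F u v) : ∃ g ∈ Cfsg.spGL d F,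
    ∀ v, (g : Matrix (Fin d ⊕ Fin d) (Fin d ⊕ Fin d) F) *ᵥ v = e v := by
  let g : GL (Fin d ⊕ Fin d) F := ⟨LinearMap.toMatrix' (e : (Fin d ⊕ Fin d → F) →ₗ[F] (Fin d ⊕ Fin d → F)),
    LinearMap.toMatrix' (e.symm : (Fin d ⊕ Fin d → F) →ₗ[F] (Fin d ⊕ Fin d → F)), by
      rw [← LinearMap.toMatrix'_comp, LinearEquiv.comp_coe, LinearEquiv.symm_trans_self]
      exact LinearMap.toMatrix'_id, by
      rw [← LinearMap.toMatrix'_comp, LinearEquiv.comp_coe, LinearEquiv.self_trans_symm]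
      exact LinearMap.toMatrix'_id⟩
  have hg : ∀ v, (g : Matrix (Fin d ⊕ Fin d) (Fin d ⊕ Fin d) F) *ᵥ v = e v := by
    intro v
    change LinearMap.toMatrix' _ *ᵥ v = _
    rw [← Matrix.toLin'_apply, Matrix.toLin'_toMatrix']
    rfl
  refine ⟨g, ?_, hg⟩
  rw [mem_spGL']
  intro u v
  rw [hg, hg, he]

/-- eigenspaces of an involution -/
theorem invol_eig (h2 : (2 : F) ≠ 0) {x : GL (Fin d ⊕ Fin d) F} (hx : x ∈ Cfsg.spGL d F)
    (hxx : ∀ v, (x : Matrix (Fin d ⊕ Fin d) (Fin d ⊕ Fin d) F) *ᵥ ((x : Matrix (Fin d ⊕ Fin d) (Fin d ⊕ Fin d) F) *ᵥ v) = v) :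
    IsCompl (LinearMap.ker (Matrix.toLin' (x : Matrix (Fin d ⊕ Fin d) (Fin d ⊕ Fin d) F) - (1 : F) • 1))
      (LinearMap.ker (Matrix.toLin' (x : Matrix (Fin d ⊕ Fin d) (Fin d ⊕ Fin d) F) - (-1 : F) • 1)) ∧
    ND (Cfsg.sympForm d F) (LinearMap.ker (Matrix.toLin' (x : Matrix (Fin d ⊕ Fin d) (Fin d ⊕ Fin d) F) - (1 : F) • 1)) ∧
    ND (Cfsg.sympForm d F) (LinearMap.ker (Matrix.toLin' (x : Matrix (Fin d ⊕ Fin d) (Fin d ⊕ Fin d) F) - (-1 : F) • 1)) ∧
    ∀ u ∈ LinearMap.ker (Matrix.toLin' (x : Matrix (Fin d ⊕ Fin d) (Fin d ⊕ Fin d) F) - (1 : F) • 1),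
      ∀ v ∈ LinearMap.ker (Matrix.toLin' (x : Matrix (Fin d ⊕ Fin d) (Fin d ⊕ Fin d) F) - (-1 : F) • 1), Cfsg.sympForm d F u v = 0 := by
  have hA := sympForm_altForm (F := F) d
  have hND := sympForm_ND (F := F) d
  have hmem : ∀ (c : F) v, v ∈ LinearMap.ker (Matrix.toLin' (x : Matrix (Fin d ⊕ Fin d) (Fin d ⊕ Fin d) F) - c • 1) ↔
      (x : Matrix (Fin d ⊕ Fin d) (Fin d ⊕ Fin d) F) *ᵥ v = c • v := by
    intro c v
    rw [LinearMap.mem_ker, LinearMap.sub_apply, LinearMap.smul_apply, Module.End.one_apply, Matrix.toLin'_apply, sub_eq_zero]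
  have hcomp : IsCompl (LinearMap.ker (Matrix.toLin' (x : Matrix (Fin d ⊕ Fin d) (Fin d ⊕ Fin d) F) - (1 : F) • 1))
      (LinearMap.ker (Matrix.toLin' (x : Matrix (Fin d ⊕ Fin d) (Fin d ⊕ Fin d) F) - (-1 : F) • 1)) := by
    constructor
    · rw [Submodule.disjoint_def]
      intro v h3 h4
      rw [hmem] at h3 h4
      rw [h3, one_smul, neg_smul, one_smul] at h4
      have h5 : (2 : F) • v = 0 := by
        rw [two_smul]
        nth_rewrite 1 [h4]
        exact neg_add_cancel _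
      exact (smul_eq_zero.mp h5).resolve_left h2
    · rw [codisjoint_iff, eq_top_iff]
      intro v _
      have h3 : v = (2⁻¹ : F) • (v + ((x : Matrix (Fin d ⊕ Fin d) (Fin d ⊕ Fin d) F) *ᵥ v)) + (2⁻¹ : F) • (v - ((x : Matrix (Fin d ⊕ Fin d) (Fin d ⊕ Fin d) F) *ᵥ v)) := by
        rw [← smul_add, add_add_sub_cancel, ← two_smul F, smul_smul, inv_mul_cancel₀ h2, one_smul]
      rw [h3]
      apply Submodule.add_mem_sup
      · apply Submodule.smul_mem
        rw [hmem, Matrix.mulVec_add, hxx, one_smul, add_comm]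
      · apply Submodule.smul_mem
        rw [hmem, Matrix.mulVec_sub, hxx, neg_smul, one_smul]
        abel
  have horth : ∀ u ∈ LinearMap.ker (Matrix.toLin' (x : Matrix (Fin d ⊕ Fin d) (Fin d ⊕ Fin d) F) - (1 : F) • 1),
      ∀ v ∈ LinearMap.ker (Matrix.toLin' (x : Matrix (Fin d ⊕ Fin d) (Fin d ⊕ Fin d) F) - (-1 : F) • 1), Cfsg.sympForm d F u v = 0 := by
    intro u hu v hv
    rw [hmem] at hu hv
    have h3 := mem_spGL'.mp hx u v
    rw [hu, hv, hA.smul_left, hA.smul_right] at h3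
    have h4 : 2 * Cfsg.sympForm d F u v = 0 := by linear_combination -h3
    exact (mul_eq_zero.mp h4).resolve_left h2
  refine ⟨hcomp, ?_, ?_, horth⟩
  · intro u hu h3
    apply hND u Submodule.mem_top
    intro v _
    have h4 := hcomp.sup_eq_top ▸ (Submodule.mem_top : v ∈ ⊤)
    obtain ⟨a, ha, b, hb, rfl⟩ := Submodule.mem_sup.mp h4
    rw [hA.add_right, h3 a ha, horth u hu b hb, add_zero]
  · intro u hu h3
    apply hND u Submodule.mem_top
    intro v _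
    have h4 := hcomp.sup_eq_top ▸ (Submodule.mem_top : v ∈ ⊤)
    obtain ⟨a, ha, b, hb, rfl⟩ := Submodule.mem_sup.mp h4
    rw [hA.add_right, h3 b hb, hA.skew, horth a ha u hu, neg_zero, add_zero]

/-- isometry between nondegenerate subspaces of equal dimension -/
theorem exists_isom_sub {A A' : Submodule F (Fin d ⊕ Fin d → F)} (hA : ND (Cfsg.sympForm d F) A) (hA' : ND (Cfsg.sympForm d F) A')
    (hdim : finrank F A = finrank F A') : ∃ e : A ≃ₗ[F] A', ∀ u v, Cfsg.sympForm d F (e u : Fin d ⊕ Fin d → F) (e v : Fin d ⊕ Fin d → F) =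
      Cfsg.sympForm d F (u : Fin d ⊕ Fin d → F) (v : Fin d ⊕ Fin d → F) := by
  have hB := sympForm_altForm (F := F) d
  obtain ⟨m, hm⟩ := hB.even_finrank_sub hA
  have key : ∀ (C : Submodule F (Fin d ⊕ Fin d → F)), ND (Cfsg.sympForm d F) C → finrank F C = m + m →
      ∃ T : (Fin m ⊕ Fin m → F) ≃ₗ[F] C, ∀ u v, Cfsg.sympForm d F (T u : Fin d ⊕ Fin d → F) (T v : Fin d ⊕ Fin d → F) = Cfsg.sympForm m F u v := by
    intro C hC hCd
    obtain ⟨T, hT⟩ := exists_equiv_sympForm (hB.comp C.subtype) (by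
      intro u _ hu
      apply Subtype.ext
      apply hC u u.2
      intro v hv
      exact hu ⟨v, hv⟩ Submodule.mem_top) (m := m) (by omega)
    exact ⟨T, hT⟩
  obtain ⟨T, hT⟩ := key A hA hm
  obtain ⟨T', hT'⟩ := key A' hA' (by omega)
  refine ⟨T.symm.trans T', fun u v => ?_⟩
  rw [LinearEquiv.trans_apply, LinearEquiv.trans_apply, hT', ← hT, T.apply_symm_apply, T.apply_symm_apply]

theorem sp_conj_involution (h2 : (2 : F) ≠ 0) {x y : GL (Fin d ⊕ Fin d) F} (hx : x ∈ Cfsg.spGL d F) (hy : y ∈ Cfsg.spGL d F)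
    (hxx : x * x = 1) (hyy : y * y = 1)
    (hdim : finrank F (LinearMap.ker (Matrix.toLin' (x : Matrix (Fin d ⊕ Fin d) (Fin d ⊕ Fin d) F) - (-1 : F) • 1)) =
      finrank F (LinearMap.ker (Matrix.toLin' (y : Matrix (Fin d ⊕ Fin d) (Fin d ⊕ Fin d) F) - (-1 : F) • 1))) :
    ∃ g ∈ Cfsg.spGL d F, g⁻¹ * x * g = y := by
  have hB := sympForm_altForm (F := F) d
  have hxv : ∀ {z : GL (Fin d ⊕ Fin d) F}, z * z = 1 → ∀ v, (z : Matrix (Fin d ⊕ Fin d) (Fin d ⊕ Fin d) F) *ᵥ ((z : Matrix (Fin d ⊕ Fin d) (Fin d ⊕ Fin d) F) *ᵥ v) = v := by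
    intro z hz v
    rw [Matrix.mulVec_mulVec, ← Units.val_mul, hz, Units.val_one, Matrix.one_mulVec]
  have hmem : ∀ (z : GL (Fin d ⊕ Fin d) F) (c : F) v, v ∈ LinearMap.ker (Matrix.toLin' (z : Matrix (Fin d ⊕ Fin d) (Fin d ⊕ Fin d) F) - c • 1) ↔
      (z : Matrix (Fin d ⊕ Fin d) (Fin d ⊕ Fin d) F) *ᵥ v = c • v := by
    intro z c v
    rw [LinearMap.mem_ker, LinearMap.sub_apply, LinearMap.smul_apply, Module.End.one_apply, Matrix.toLin'_apply, sub_eq_zero]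
  obtain ⟨hc, hA1, hA2, ho⟩ := invol_eig h2 hx (hxv hxx)
  obtain ⟨hc', hA1', hA2', ho'⟩ := invol_eig h2 hy (hxv hyy)
  have hd1 := Submodule.finrank_add_eq_of_isCompl hc
  have hd2 := Submodule.finrank_add_eq_of_isCompl hc'
  obtain ⟨e₂, he₂⟩ := exists_isom_sub hA2 hA2' hdim
  obtain ⟨e₁, he₁⟩ := exists_isom_sub hA1 hA1' (by omega)
  let e : (Fin d ⊕ Fin d → F) ≃ₗ[F] (Fin d ⊕ Fin d → F) :=
    (Submodule.prodEquivOfIsCompl _ _ hc).symm ≪≫ₗ (e₁.prodCongr e₂) ≪≫ₗ (Submodule.prodEquivOfIsCompl _ _ hc')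
  have he : ∀ (a : LinearMap.ker (Matrix.toLin' (x : Matrix (Fin d ⊕ Fin d) (Fin d ⊕ Fin d) F) - (1 : F) • 1))
      (b : LinearMap.ker (Matrix.toLin' (x : Matrix (Fin d ⊕ Fin d) (Fin d ⊕ Fin d) F) - (-1 : F) • 1)),
      e ((a : Fin d ⊕ Fin d → F) + (b : Fin d ⊕ Fin d → F)) = (e₁ a : Fin d ⊕ Fin d → F) + (e₂ b : Fin d ⊕ Fin d → F) := by
    intro a b
    have h1 : (Submodule.prodEquivOfIsCompl _ _ hc).symm ((a : Fin d ⊕ Fin d → F) + (b : Fin d ⊕ Fin d → F)) = (a, b) := by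
      rw [LinearEquiv.symm_apply_eq]
      rfl
    change (Submodule.prodEquivOfIsCompl _ _ hc') ((e₁.prodCongr e₂) ((Submodule.prodEquivOfIsCompl _ _ hc).symm _)) = _
    rw [h1]
    rfl
  have hsurj : ∀ v : Fin d ⊕ Fin d → F, ∃ (a : LinearMap.ker (Matrix.toLin' (x : Matrix (Fin d ⊕ Fin d) (Fin d ⊕ Fin d) F) - (1 : F) • 1))
      (b : LinearMap.ker (Matrix.toLin' (x : Matrix (Fin d ⊕ Fin d) (Fin d ⊕ Fin d) F) - (-1 : F) • 1)), v = (a : Fin d ⊕ Fin d → F) + (b : Fin d ⊕ Fin d → F) := by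
    intro v
    have h4 := hc.sup_eq_top ▸ (Submodule.mem_top : v ∈ ⊤)
    obtain ⟨a, ha, b, hb, rfl⟩ := Submodule.mem_sup.mp h4
    exact ⟨⟨a, ha⟩, ⟨b, hb⟩, rfl⟩
  obtain ⟨g₀, hg₀, hg₀v⟩ := exists_spGL_of_equiv e (by
    intro u v
    obtain ⟨a, b, rfl⟩ := hsurj u
    obtain ⟨a', b', rfl⟩ := hsurj v
    rw [he, he, hB.add_left, hB.add_right, hB.add_right, hB.add_left, hB.add_right, hB.add_right, he₁, he₂, ho _ a.2 _ b'.2, ho' _ (e₁ a).2 _ (e₂ b').2,
      hB.skew (b : Fin d ⊕ Fin d → F) (a' : Fin d ⊕ Fin d → F), ho _ a'.2 _ b.2, hB.skew (e₂ b : Fin d ⊕ Fin d → F) (e₁ a' : Fin d ⊕ Fin d → F), ho' _ (e₁ a').2 _ (e₂ b).2])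
  have hcomm : g₀ * x = y * g₀ := by
    apply Units.ext
    apply mat_ext'
    intro v
    obtain ⟨a, b, rfl⟩ := hsurj v
    rw [Units.val_mul, Units.val_mul, ← Matrix.mulVec_mulVec, ← Matrix.mulVec_mulVec, hg₀v, hg₀v, Matrix.mulVec_add,
      (hmem x 1 a).mp a.2, (hmem x (-1) b).mp b.2, he, Matrix.mulVec_add, (hmem y 1 _).mp (e₁ a).2, (hmem y (-1) _).mp (e₂ b).2]
    have h1 := he ((1 : F) • a) ((-1 : F) • b)
    rw [map_smul, map_smul] at h1
    exact h1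
  refine ⟨g₀⁻¹, Subgroup.inv_mem _ hg₀, ?_⟩
  rw [inv_inv, hcomm, mul_inv_cancel_right]

/-- normal form for elements of square -1 -/
theorem sp_neg_normal (h2 : (2 : F) ≠ 0) {x : GL (Fin d ⊕ Fin d) F} (hx : x ∈ Cfsg.spGL d F) (hxx : x * x = -1) :
    ∃ g ∈ Cfsg.spGL d F, (∀ i, (x : Matrix (Fin d ⊕ Fin d) (Fin d ⊕ Fin d) F) *ᵥ ((g : Matrix (Fin d ⊕ Fin d) (Fin d ⊕ Fin d) F) *ᵥ Pi.single (Sum.inr i) 1) =
      (g : Matrix (Fin d ⊕ Fin d) (Fin d ⊕ Fin d) F) *ᵥ Pi.single (Sum.inl i) 1) ∧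
      ∀ i, (x : Matrix (Fin d ⊕ Fin d) (Fin d ⊕ Fin d) F) *ᵥ ((g : Matrix (Fin d ⊕ Fin d) (Fin d ⊕ Fin d) F) *ᵥ Pi.single (Sum.inl i) 1) =
      -((g : Matrix (Fin d ⊕ Fin d) (Fin d ⊕ Fin d) F) *ᵥ Pi.single (Sum.inr i) 1) := by
  classical
  have hA := sympForm_altForm (F := F) d
  set f := Matrix.toLin' (x : Matrix (Fin d ⊕ Fin d) (Fin d ⊕ Fin d) F) with hf
  have hiso : ∀ u v, Cfsg.sympForm d F (f u) (f v) = Cfsg.sympForm d F u v := fun u v => mem_spGL'.mp hx u v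
  have hxo : ∀ u v, Cfsg.sympForm d F u v = 0 → Cfsg.sympForm d F (f u) (f v) = 0 := fun u v h => by rw [hiso, h]
  have hsq : ∀ v, f (f v) = -v := by
    intro v
    rw [hf, Matrix.toLin'_apply, Matrix.toLin'_apply, Matrix.mulVec_mulVec, ← Units.val_mul, hxx, Units.val_neg, Units.val_one, Matrix.neg_mulVec, Matrix.one_mulVec]
  obtain ⟨ι, _, _, v, u, hS, hc⟩ := exists_hypSys hA (fun v u => Cfsg.sympForm d F v u = 1 ∧ u = f v) f hxo (by
    intro W hW hND hinv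
    obtain ⟨v, hv, hvv⟩ : ∃ v ∈ W, Cfsg.sympForm d F v (f v) ≠ 0 := by
      by_contra hcon
      push Not at hcon
      obtain ⟨w, hw, hw0⟩ := (Submodule.ne_bot_iff W).mp hW
      apply hw0
      apply hND w hw
      intro v hv
      have hfv := hinv v hv
      have h1 := hcon (w + f v) (W.add_mem hw hfv)
      have h2' := hcon w hw
      have h3 := hcon (f v) hfv
      rw [map_add, hA.add_left, hA.add_right, hA.add_right, h2', h3, hsq, hiso] at h1
      have h4 : Cfsg.sympForm d F w (-v) = - Cfsg.sympForm d F w v := by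
        have := hA.smul_right (-1) w v
        rwa [neg_smul, one_smul, neg_one_mul] at this
      have h5 : Cfsg.sympForm d F v w = - Cfsg.sympForm d F w v := hA.skew v w
      rw [h4, h5] at h1
      have h6 : 2 * Cfsg.sympForm d F w v = 0 := by linear_combination -h1
      exact (mul_eq_zero.mp h6).resolve_left h2
    obtain ⟨a, b, hab⟩ : ∃ a b : F, a ^ 2 + b ^ 2 = (Cfsg.sympForm d F v (f v))⁻¹ := by
      have hchar : ringChar F ≠ 2 := by
        intro h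
        apply h2
        have h3 : CharP F 2 := by rw [← h]; infer_instance
        exact CharTwo.two_eq_zero
      obtain ⟨α, γ, hαγ⟩ := FiniteField.exists_root_sum_quadratic (R := F) (f := (Polynomial.X : Polynomial F) ^ 2)
        (g := (Polynomial.X : Polynomial F) ^ 2 - Polynomial.C (Cfsg.sympForm d F v (f v))⁻¹)
        (by simp) (by
          rw [Polynomial.degree_X_pow_sub_C (by norm_num)]; rfl) (by
          have := FiniteField.odd_card_of_char_ne_two hchar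
          exact this)
      simp only [Polynomial.eval_pow, Polynomial.eval_X, Polynomial.eval_sub, Polynomial.eval_C] at hαγ
      exact ⟨α, γ, by linear_combination hαγ⟩
    set v' := a • v + b • f v with hv'
    have hfv' : f v' = a • f v - b • v := by
      rw [hv', map_add, map_smul, map_smul, hsq, smul_neg, sub_eq_add_neg]
    have hv'W : v' ∈ W := W.add_mem (W.smul_mem _ hv) (W.smul_mem _ (hinv v hv))
    have hone : Cfsg.sympForm d F v' (f v') = 1 := by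
      rw [hfv', hv', sub_eq_add_neg, ← neg_smul, hA.add_left, hA.add_right, hA.add_right, hA.smul_left, hA.smul_left, hA.smul_right, hA.smul_right, hA.smul_left, hA.smul_left,
        hA.smul_right, hA.smul_right, hA.alt, hA.alt, hA.skew (f v) v]
      have h3 := mul_inv_cancel₀ hvv
      rw [← hab] at h3
      linear_combination h3
    refine ⟨v', hv'W, f v', hinv v' hv'W, by rw [hone]; exact one_ne_zero, ⟨hone, rfl⟩, ?_⟩
    rw [Submodule.span_le]
    intro y hy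
    rcases hy with rfl | hy
    · exact mem_of_smul_mem (c := (-1 : F)) (by exact neg_ne_zero.mpr one_ne_zero) (y := f (f v')) (by rw [hsq, neg_smul, one_smul]) ⟨f v', Submodule.subset_span (by simp), rfl⟩
    · rw [Set.mem_singleton_iff.mp hy]
      exact ⟨v', Submodule.subset_span (by simp), rfl⟩)
    _ ⊤ (finrank_top F _) (sympForm_ND d) (fun _ _ => Submodule.mem_top)
  rw [finrank_fintype_fun_eq_card, Fintype.card_sum, Fintype.card_fin] at hc
  obtain ⟨e⟩ : Nonempty (Fin d ≃ ι) := ⟨(Fintype.equivFinOfCardEq (by omega)).symm⟩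
  obtain ⟨g, hg1, hg2⟩ := exists_symp_of_family (fun i => f (v (e i))) (fun i => v (e i)) (by
    intro i j
    rw [hiso]
    by_cases hij : i = j
    · rw [hij, hA.alt]
    · exact hS.vv _ _ (fun h => hij (e.injective h))) (by
    intro i j
    by_cases hij : i = j
    · rw [hij, hA.alt]
    · exact hS.vv _ _ (fun h => hij (e.injective h))) (by
    intro i j
    by_cases hij : i = j
    · rw [if_pos hij, hij, ← (hS.rel (e j)).2]
      exact (hS.rel (e j)).1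
    · rw [if_neg hij, ← (hS.rel (e j)).2]
      exact hS.vu _ _ (fun h => hij (e.injective h)))
  obtain ⟨g', hg', hgg⟩ := exists_spGL_of_symp g
  refine ⟨g', hg', ?_, ?_⟩
  · intro i
    rw [hgg, hg1, hg2]
    rfl
  · intro i
    rw [hgg, hg1, hg2]
    exact hsq _

theorem sp_conj_neg (h2 : (2 : F) ≠ 0) {x y : GL (Fin d ⊕ Fin d) F} (hx : x ∈ Cfsg.spGL d F) (hy : y ∈ Cfsg.spGL d F)
    (hxx : x * x = -1) (hyy : y * y = -1) : ∃ g ∈ Cfsg.spGL d F, g⁻¹ * x * g = y := by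
  obtain ⟨g, hg, h1, h3⟩ := sp_neg_normal h2 hx hxx
  obtain ⟨g', hg', h1', h3'⟩ := sp_neg_normal h2 hy hyy
  have key : ∀ {x g : GL (Fin d ⊕ Fin d) F} (v : Fin d ⊕ Fin d → F), ((g⁻¹ * x * g : GL (Fin d ⊕ Fin d) F) : Matrix (Fin d ⊕ Fin d) (Fin d ⊕ Fin d) F) *ᵥ v =
      ((g⁻¹ : GL (Fin d ⊕ Fin d) F) : Matrix (Fin d ⊕ Fin d) (Fin d ⊕ Fin d) F) *ᵥ ((x : Matrix (Fin d ⊕ Fin d) (Fin d ⊕ Fin d) F) *ᵥ ((g : Matrix (Fin d ⊕ Fin d) (Fin d ⊕ Fin d) F) *ᵥ v)) := by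
    intro x g v
    rw [Matrix.mulVec_mulVec, Matrix.mulVec_mulVec, Units.val_mul, Units.val_mul, mul_assoc]
  have hinv : ∀ (g : GL (Fin d ⊕ Fin d) F) (v : Fin d ⊕ Fin d → F), ((g⁻¹ : GL (Fin d ⊕ Fin d) F) : Matrix (Fin d ⊕ Fin d) (Fin d ⊕ Fin d) F) *ᵥ
      ((g : Matrix (Fin d ⊕ Fin d) (Fin d ⊕ Fin d) F) *ᵥ v) = v := by
    intro g v
    rw [Matrix.mulVec_mulVec, ← Units.val_mul, inv_mul_cancel, Units.val_one, Matrix.one_mulVec]
  have heq : g⁻¹ * x * g = g'⁻¹ * y * g' := by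
    apply Units.ext
    apply Matrix.toLin'.injective
    apply (Pi.basisFun F (Fin d ⊕ Fin d)).ext
    intro s
    rw [Pi.basisFun_apply, Matrix.toLin'_apply, Matrix.toLin'_apply, key, key]
    rcases s with i | i
    · rw [h3, h3', Matrix.mulVec_neg, Matrix.mulVec_neg, hinv, hinv]
    · rw [h1, h1', hinv, hinv]
  refine ⟨g * g'⁻¹, Subgroup.mul_mem _ hg (Subgroup.inv_mem _ hg'), ?_⟩
  have h4 : (g * g'⁻¹)⁻¹ * x * (g * g'⁻¹) = g' * (g⁻¹ * x * g) * g'⁻¹ := by group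
  rw [h4, heq]
  group

end

end Cfsg.Agent.H99
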