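import Cfsg.Agent.H99.PauliL
import Cfsg.Agent.H99.OrderEq

set_option autoImplicit false
set_option linter.all false

/-!
Facts used for `SL₄` and `SU₄`.
-/

namespace Cfsg.Agent.H99

open Module
open scoped Matrix MatrixGroups

lemma order_zmod_five {m : ℕ} (h : m = 2 ∨ m = 3) : orderOf ((m : ℕ) : ZMod 5) = 4 := by
  have hpp : ∀ u : ZMod 5, u ^ 2 ≠ 1 → u ^ 4 = 1 → orderOf u = 4 := by
    intro u hu1 hu2
    have h11 := orderOf_dvd_of_pow_eq_one hu2
    have h12 : orderOf u ∈ Nat.divisors 4 := Nat.mem_divisors.mpr ⟨h11, by norm_num⟩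
    have h13 : Nat.divisors 4 = {1, 2, 4} := by decide +kernel
    rw [h13] at h12
    simp only [Finset.mem_insert, Finset.mem_singleton] at h12
    rcases h12 with h12 | h12 | h12
    · exfalso; apply hu1; rw [orderOf_eq_one_iff.mp h12, one_pow]
    · exfalso; apply hu1; rw [← h12, pow_orderOf_eq_one]
    · exact h12
  rcases h with rfl | rfl
  · exact hpp _ (by decide) (by decide)
  · exact hpp _ (by decide) (by decide)

lemma order_zmod_five_zero : orderOf (0 : ZMod 5) ≠ 4 := by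
  intro h
  have h7 := pow_orderOf_eq_one (0 : ZMod 5)
  rw [h] at h7
  exact absurd h7 (by decide)

lemma order_zmod_three {m : ℕ} (h : m % 3 = 2) : orderOf ((m : ℕ) : ZMod 3) = 2 := by
  have h1 : ((m : ℕ) : ZMod 3) = 2 := by
    rw [← ZMod.natCast_mod m 3, h]; rfl
  rw [h1]
  have h3 : (2 : ZMod 3) ^ 2 = 1 := by decide
  rcases (Nat.dvd_prime Nat.prime_two).mp (orderOf_dvd_of_pow_eq_one h3) with h4 | h4
  · exfalso
    have := orderOf_eq_one_iff.mp h4
    exact absurd this (by decide)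
  · exact h4

lemma order_zmod_two {m : ℕ} (h : Odd m) : orderOf ((m : ℕ) : ZMod 2) = 2 - 1 := by
  have h1 : ((m : ℕ) : ZMod 2) = 1 := by
    rw [← ZMod.natCast_mod m 2, Nat.odd_iff.mp h]; rfl
  rw [h1, orderOf_one]

/-- which primes congruences -/
lemma mod_five_of_order {p : ℕ} (h5 : p % 5 ≠ 0) (h : orderOf ((p : ℕ) : ZMod 5) ≠ 4) : p % 5 = 1 ∨ p % 5 = 4 := by
  have h6 : ((p : ℕ) : ZMod 5) = ((p % 5 : ℕ) : ZMod 5) := by rw [ZMod.natCast_mod]
  rw [h6] at h
  have h7 := Nat.mod_lt p (show 5 > 0 by norm_num)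
  by_contra h9
  exact h (order_zmod_five (by omega))

lemma mod_five_of_order_four {p : ℕ} (h : orderOf ((p : ℕ) : ZMod 5) = 4) : p % 5 = 2 ∨ p % 5 = 3 := by
  have h6 : ((p : ℕ) : ZMod 5) = ((p % 5 : ℕ) : ZMod 5) := by rw [ZMod.natCast_mod]
  rw [h6] at h
  have h7 := Nat.mod_lt p (show 5 > 0 by norm_num)
  have h8 : ∀ u : ZMod 5, u ^ 2 = 1 → orderOf u ≠ 4 := by
    intro u hu h9
    have := orderOf_dvd_of_pow_eq_one hu
    rw [h9] at this
    norm_num at this
  interval_cases h9 : p % 5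
  · exact absurd h (by simpa using order_zmod_five_zero)
  · exact absurd h (h8 _ (by decide))
  · left; rfl
  · right; rfl
  · exact absurd h (h8 _ (by decide))

variable {F : Type*} [Field F]

lemma GL_conj_scalar {ι : Type} [Fintype ι] [DecidableEq ι] {x g : GL ι F} {z : F}
    (h : ((g⁻¹ * x * g : GL ι F) : Matrix ι ι F) = z • (1 : Matrix ι ι F)) : (x : Matrix ι ι F) = z • (1 : Matrix ι ι F) := by
  have h1 := comm_of_val_smul h g
  have h2 : g⁻¹ * x * g = x := by
    have h3 : g * (g⁻¹ * x * g) * g⁻¹ = g⁻¹ * x * g := by rw [← h1, mul_inv_cancel_right]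
    rw [← h3]; group
  rw [← h, h2]

lemma GL_conj_trace {ι : Type} [Fintype ι] [DecidableEq ι] (x g : GL ι F) : ((g⁻¹ * x * g : GL ι F) : Matrix ι ι F).trace =
      (x : Matrix ι ι F).trace := by
  rw [mul_assoc, Units.val_mul, Matrix.trace_mul_comm, ← Units.val_mul, mul_assoc, mul_inv_cancel, mul_one]

lemma GL_conj_trace' {ι : Type} [Fintype ι] [DecidableEq ι] (x g : GL ι F) : (((g⁻¹ * x * g)⁻¹ : GL ι F) : Matrix ι ι F).trace =
      ((x⁻¹ : GL ι F) : Matrix ι ι F).trace := by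
  have h3 : (g⁻¹ * x * g)⁻¹ = g⁻¹ * x⁻¹ * g := by group
  rw [h3, GL_conj_trace]

lemma GL_conj_pow {G : Type*} [Group G] {x g : G} {r : ℕ} (hxr : x ^ r = 1) : (g⁻¹ * x * g) ^ r = 1 := by
  have h3 : g⁻¹ * x * g = g⁻¹ * x * g⁻¹⁻¹ := by rw [inv_inv]
  rw [h3, conj_pow, hxr, mul_one, mul_inv_cancel]

lemma GL_conj_ker {ι : Type} [Fintype ι] [DecidableEq ι] (x g : GL ι F) :
    finrank F (LinearMap.ker (((g⁻¹ * x * g : GL ι F) : Matrix ι ι F).toLin' - 1)) = finrank F (LinearMap.ker ((x : Matrix ι ι F).toLin' - 1)) := by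
  have h4 := finrank_ker_conj (F := F) (V := ι → F) (W := ι → F)
    (((g⁻¹ * x * g : GL ι F) : Matrix ι ι F).toLin') ((x : Matrix ι ι F).toLin')
    (LinearEquiv.ofBijective (Matrix.toLin' (g : Matrix ι ι F)) (by
      rw [Function.bijective_iff_has_inverse]
      refine ⟨Matrix.toLin' ((g⁻¹ : GL ι F) : Matrix ι ι F), ?_, ?_⟩
      · intro v
        rw [Matrix.toLin'_apply, Matrix.toLin'_apply, Matrix.mulVec_mulVec, ← Units.val_mul, inv_mul_cancel, Units.val_one, Matrix.one_mulVec]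
      · intro v
        rw [Matrix.toLin'_apply, Matrix.toLin'_apply, Matrix.mulVec_mulVec, ← Units.val_mul, mul_inv_cancel, Units.val_one, Matrix.one_mulVec]))
    (by
      intro v
      simp only [LinearEquiv.ofBijective_apply, Matrix.toLin'_apply]
      rw [Matrix.mulVec_mulVec, Matrix.mulVec_mulVec, ← Units.val_mul, ← Units.val_mul]
      congr 2
      group) 1
  rw [one_smul] at h4
  exact h4

lemma mem_SL {ι : Type} [Fintype ι] [DecidableEq ι] {x : GL ι F} : x ∈ Cfsg.Geo.specialLinear ι F ↔ (x : Matrix ι ι F).det = 1 := by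
  rw [Cfsg.Geo.specialLinear, MonoidHom.mem_ker]
  constructor
  · intro h
    exact congrArg Units.val h
  · intro h
    exact Units.ext h

lemma SL4_scalar_eq_one {x : GL (Fin 4) F} (hx : x ∈ Cfsg.Geo.specialLinear (Fin 4) F) {r : ℕ} (hr : Odd r) (hxr : x ^ r = 1) {z : F}
    (hz : (x : Matrix (Fin 4) (Fin 4) F) = z • (1 : Matrix (Fin 4) (Fin 4) F)) : x = 1 := by
  rw [mem_SL, hz, Matrix.det_smul, Matrix.det_one, mul_one, Fintype.card_fin] at hx
  have h3 : z ^ r = 1 := by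
    have h4 := congrArg (fun y : GL (Fin 4) F => (y : Matrix (Fin 4) (Fin 4) F)) hxr
    simp only [Units.val_pow_eq_pow_val, hz, smul_pow, one_pow, Units.val_one] at h4
    apply GL_smul_one_inj (ι := Fin 4)
    rw [h4, one_smul]
  have h4 : z = 1 := eq_one_of_coprime_pow hr hx h3
  apply Units.ext
  rw [hz, h4, one_smul]; rfl

/-- the embedding of `SL₂` in `SL₄` -/
def psiM (M : Matrix (Fin 2) (Fin 2) F) : Matrix (Fin 4) (Fin 4) F :=
  Matrix.reindexAlgEquiv F F (finSumFinEquiv : Fin 2 ⊕ Fin 2 ≃ Fin 4) (Matrix.fromBlocks M 0 0 1)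

lemma psiM_one : psiM (1 : Matrix (Fin 2) (Fin 2) F) = 1 := by
  rw [psiM, Matrix.fromBlocks_one, map_one]

lemma psiM_mul (M N : Matrix (Fin 2) (Fin 2) F) : psiM (M * N) = psiM M * psiM N := by
  rw [psiM, psiM, psiM, ← map_mul, Matrix.fromBlocks_multiply]
  simp

lemma psiM_pow (M : Matrix (Fin 2) (Fin 2) F) (k : ℕ) : psiM (M ^ k) = psiM M ^ k := by
  induction k with
  | zero => rw [pow_zero, pow_zero, psiM_one]
  | succ k ih => rw [pow_succ, pow_succ, psiM_mul, ih]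

lemma psiM_trace (M : Matrix (Fin 2) (Fin 2) F) : (psiM M).trace = M.trace + 2 := by
  rw [psiM, Matrix.coe_reindexAlgEquiv, Matrix.reindex_apply, Matrix.trace]
  simp only [Matrix.diag_apply, Matrix.submatrix_apply]
  rw [Fintype.sum_equiv (finSumFinEquiv : Fin 2 ⊕ Fin 2 ≃ Fin 4).symm _ (fun i => (Matrix.fromBlocks M 0 0 (1 : Matrix (Fin 2) (Fin 2) F)) i i) (fun i => rfl)]
  rw [Fintype.sum_sum_type]
  simp [Matrix.trace, Fin.sum_univ_two]

lemma psiM_det (M : Matrix (Fin 2) (Fin 2) F) : (psiM M).det = M.det := by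
  rw [psiM, Matrix.det_reindexAlgEquiv, Matrix.det_fromBlocks_zero₂₁, Matrix.det_one, mul_one]

lemma psiM_injective {M : Matrix (Fin 2) (Fin 2) F} (h : psiM M = 1) : M = 1 := by
  rw [← psiM_one, psiM, psiM] at h
  have h1 := (Matrix.reindexAlgEquiv F F (finSumFinEquiv : Fin 2 ⊕ Fin 2 ≃ Fin 4)).injective h
  exact (Matrix.fromBlocks_inj.mp h1).1

lemma exists_psiGL {M : Matrix (Fin 2) (Fin 2) F} (hd : M.det = 1) : ∃ x : GL (Fin 4) F, x ∈ Cfsg.Geo.specialLinear (Fin 4) F ∧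
    (x : Matrix (Fin 4) (Fin 4) F) = psiM M ∧ ((x⁻¹ : GL (Fin 4) F) : Matrix (Fin 4) (Fin 4) F) = psiM M.adjugate := by
  refine ⟨⟨psiM M, psiM M.adjugate, ?_, ?_⟩, ?_, rfl, rfl⟩
  · rw [← psiM_mul, Matrix.mul_adjugate, hd, one_smul, psiM_one]
  · rw [← psiM_mul, Matrix.adjugate_mul, hd, one_smul, psiM_one]
  · rw [mem_SL]
    exact (psiM_det M).trans hd

lemma exists_transvectionGL : ∃ x : GL (Fin 4) F, x ∈ Cfsg.Geo.specialLinear (Fin 4) F ∧
    (x : Matrix (Fin 4) (Fin 4) F) = Matrix.transvection 0 1 1 := by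
  have h1 : (Matrix.transvection 0 1 (1 : F) : Matrix (Fin 4) (Fin 4) F) * Matrix.transvection 0 1 (-1) = 1 := by
    rw [Matrix.transvection_mul_transvection_same (0 : Fin 4) 1 (by decide)]; simp
  have h2 : (Matrix.transvection 0 1 (-1 : F) : Matrix (Fin 4) (Fin 4) F) * Matrix.transvection 0 1 1 = 1 := by
    rw [Matrix.transvection_mul_transvection_same (0 : Fin 4) 1 (by decide)]; simp
  refine ⟨⟨_, _, h1, h2⟩, ?_, rfl⟩
  rw [mem_SL]
  exact Matrix.det_transvection_of_ne _ _ (by decide) _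

lemma transvection_pow (k : ℕ) : (Matrix.transvection 0 1 (1 : F) : Matrix (Fin 4) (Fin 4) F) ^ k = Matrix.transvection 0 1 (k : F) := by
  induction k with
  | zero => rw [pow_zero]; simp
  | succ k ih => rw [pow_succ, ih, Matrix.transvection_mul_transvection_same (0 : Fin 4) 1 (by decide)]; push_cast; rfl

lemma finrank_ker_transvection : finrank F (LinearMap.ker ((Matrix.transvection 0 1 (1 : F) : Matrix (Fin 4) (Fin 4) F).toLin' - 1)) = 3 := by
  have h1 : LinearMap.ker ((Matrix.transvection 0 1 (1 : F) : Matrix (Fin 4) (Fin 4) F).toLin' - 1) =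
      LinearMap.ker (LinearMap.proj 1 : (Fin 4 → F) →ₗ[F] F) := by
    ext v
    rw [LinearMap.mem_ker, LinearMap.mem_ker, LinearMap.sub_apply, sub_eq_zero, Matrix.toLin'_apply, Module.End.one_apply, LinearMap.proj_apply,
      Matrix.transvection, Matrix.add_mulVec, Matrix.one_mulVec]
    constructor
    · intro h
      have := congrFun h 0
      simpa [Matrix.single_mulVec] using this
    · intro h
      ext k
      fin_cases k <;> simp [Matrix.single_mulVec, h]
  rw [h1]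
  have h3 := LinearMap.finrank_range_add_finrank_ker (LinearMap.proj 1 : (Fin 4 → F) →ₗ[F] F)
  have h4 : LinearMap.range (LinearMap.proj 1 : (Fin 4 → F) →ₗ[F] F) = ⊤ := by
    rw [LinearMap.range_eq_top]
    intro c
    exact ⟨fun _ => c, rfl⟩
  rw [h4, finrank_top, finrank_self, finrank_fintype_fun_eq_card, Fintype.card_fin] at h3
  omega

lemma exists_diagGL {ι : Type} [Fintype ι] [DecidableEq ι] {f : ι → F} (hf : ∀ i, f i ≠ 0) : ∃ x : GL ι F, (x : Matrix ι ι F) = Matrix.diagonal f ∧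
    ((x⁻¹ : GL ι F) : Matrix ι ι F) = Matrix.diagonal (fun i => (f i)⁻¹) := by
  refine ⟨⟨Matrix.diagonal f, Matrix.diagonal (fun i => (f i)⁻¹), ?_, ?_⟩, rfl, rfl⟩
  · rw [Matrix.diagonal_mul_diagonal]
    simp [hf]
  · rw [Matrix.diagonal_mul_diagonal]
    simp [hf]

lemma exists_root [Fintype F] {r : ℕ} (hr : r.Prime) (h : ¬ r ∣ Fintype.card F - 1) {z : F} (hz : z ≠ 0) : ∃ w : F, w ≠ 0 ∧ w ^ r = z := by
  have hc : (Nat.card Fˣ).Coprime r := by
    rw [Nat.card_units, Nat.card_eq_fintype_card, Nat.coprime_comm, hr.coprime_iff_not_dvd]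
    exact h
  obtain ⟨w, hw⟩ := (powCoprime hc).surjective (Units.mk0 z hz)
  refine ⟨w, w.ne_zero, ?_⟩
  have := congrArg Units.val hw
  simpa using this

end Cfsg.Agent.H99
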