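import Cfsg.Agent.H99.ConjType
import Cfsg.Agent.Uni.SU
import Cfsg.Agent.Uni.Iso

/-!
# Orthonormal eigenbases of unitary elements of order dividing `q + 1`; conjugacy in `SU`
-/

set_option autoImplicit false
set_option linter.unusedSectionVars false
set_option maxHeartbeats 1000000

namespace Cfsg.Agent.H99

open Module Matrix Uni

variable {F : Type*} [Field F] [Fintype F] {q n : ℕ}

/-- extension of an orthonormal system of eigenvectors -/
theorem exists_ON_step (hF : Fintype.card F = q ^ 2) {p : ℕ} [Fact p.Prime] [CharP F p] {r : ℕ} [Fact r.Prime] (hrp : r ≠ p) (hrq : r ∣ q + 1)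
    {M : Matrix (Fin n) (Fin n) F} (hM : Pres q M) (hMr : M ^ r = 1) {k : ℕ} (hk : k < n) {v : Fin k → Fin n → F} {c : Fin k → F}
    (hv : IsON q v) (hvc : ∀ i, M *ᵥ v i = c i • v i) :
    ∃ (u : Fin n → F) (d : F), hermForm n F q u u = 1 ∧ (∀ i, hermForm n F q u (v i) = 0) ∧ M *ᵥ u = d • u ∧ d ^ r = 1 := by
  classical
  have hq1 : 0 < q := q_pos hF
  have hrF : r ∣ Fintype.card F - 1 := by
    rw [hF]
    have : q ^ 2 - 1 = (q + 1) * (q - 1) := by
      obtain ⟨t, rfl⟩ : ∃ t, q = t + 1 := ⟨q - 1, by omega⟩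
      have : (t + 1) ^ 2 = (t + 1 + 1) * t + 1 := by ring
      rw [this]
      simp
    rw [this]
    exact Dvd.dvd.mul_right hrq _
  have hf : (Matrix.toLin' M) ^ r = 1 := by
    rw [← Matrix.toLin'_pow, hMr, Matrix.toLin'_one]
    rfl
  obtain ⟨b, e, he1, he2⟩ := exists_eigenbasis hrp hrF (Matrix.toLin' M) hf
  have he2' : ∀ j, M *ᵥ b j = e j • b j := fun j => by rw [← Matrix.toLin'_apply, he2]
  have hpow : ∀ d : F, d ^ r = 1 → d ^ (q + 1) = 1 := by
    intro d hd
    obtain ⟨m, hm⟩ := hrq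
    rw [hm, pow_mul, hd, one_pow]
  have hcne : ∀ i, c i ≠ 0 := by
    intro i h
    have h1 : M *ᵥ v i = 0 := by rw [hvc, h, zero_smul]
    have h2 := hM (v i) (v i)
    rw [h1, hermForm_zero_left, hv i i, if_pos rfl] at h2
    exact zero_ne_one h2
  have hcn : ∀ i, c i ^ (q + 1) = 1 := by
    intro i
    have h2 := hM (v i) (v i)
    rw [hvc, hermForm_smul_left, hermForm_smul_right, hv i i, if_pos rfl, mul_one, ← pow_succ'] at h2
    exact h2
  -- the projection
  let π : (Fin n → F) → (Fin n → F) := fun x => x - ∑ i, hermForm n F q x (v i) • v i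
  have hπv : ∀ x j, hermForm n F q (π x) (v j) = 0 := by
    intro x j
    change hermForm n F q (x - ∑ i, hermForm n F q x (v i) • v i) (v j) = 0
    rw [hermForm_sub_left, hermForm_sum_left, Finset.sum_eq_single j]
    · rw [hermForm_smul_left, hv j j, if_pos rfl, mul_one, sub_self]
    · intro i _ hij
      rw [hermForm_smul_left, hv i j, if_neg hij, mul_zero]
    · intro h; exact absurd (Finset.mem_univ j) h
  have hπM : ∀ (x : Fin n → F) (d : F), M *ᵥ x = d • x → M *ᵥ π x = d • π x := by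
    intro x d hx
    change M *ᵥ (x - ∑ i, hermForm n F q x (v i) • v i) = d • (x - ∑ i, hermForm n F q x (v i) • v i)
    rw [Matrix.mulVec_sub, Matrix.mulVec_sum, hx, smul_sub, Finset.smul_sum]
    congr 1
    apply Finset.sum_congr rfl
    intro i _
    rw [Matrix.mulVec_smul, hvc, smul_smul, smul_smul]
    have h2 := hM x (v i)
    rw [hx, hvc, hermForm_smul_left, hermForm_smul_right] at h2
    have h3 : d * hermForm n F q x (v i) = c i * hermForm n F q x (v i) := by
      have h4 := hcn i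
      rw [pow_succ'] at h4
      calc d * hermForm n F q x (v i) = (c i * c i ^ q) * (d * hermForm n F q x (v i)) := by rw [h4, one_mul]
        _ = c i * (d * (c i ^ q * hermForm n F q x (v i))) := by ring
        _ = c i * hermForm n F q x (v i) := by rw [h2]
    rw [h3, mul_comm]
  -- find a non-isotropic eigenvector
  obtain ⟨u0, hu0, hu0v⟩ := hv.exists_extend hF hk
  have hexp : u0 = ∑ j, b.repr u0 j • π (b j) := by
    have h1 : π u0 = u0 := by
      change u0 - ∑ i, hermForm n F q u0 (v i) • v i = u0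
      rw [Finset.sum_eq_zero, sub_zero]
      intro i _
      rw [hu0v, zero_smul]
    have h2 : π u0 = ∑ j, b.repr u0 j • π (b j) := by
      have h3 : u0 = ∑ j, b.repr u0 j • b j := (b.sum_repr u0).symm
      change u0 - ∑ i, hermForm n F q u0 (v i) • v i = _
      nth_rw 1 [h3]
      have h4 : ∀ i, hermForm n F q u0 (v i) = ∑ j, b.repr u0 j * hermForm n F q (b j) (v i) := by
        intro i
        nth_rw 1 [h3]
        rw [hermForm_sum_left]
        apply Finset.sum_congr rfl
        intro j _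
        rw [hermForm_smul_left]
      change _ = ∑ j, b.repr u0 j • (b j - ∑ i, hermForm n F q (b j) (v i) • v i)
      simp only [smul_sub, Finset.sum_sub_distrib, Finset.smul_sum, smul_smul]
      congr 1
      rw [Finset.sum_comm]
      apply Finset.sum_congr rfl
      intro i _
      rw [h4, Finset.sum_smul]
    exact h1.symm.trans h2
  have hex : ∃ (w : Fin n → F) (d : F), d ^ r = 1 ∧ M *ᵥ w = d • w ∧ (∀ i, hermForm n F q w (v i) = 0) ∧ hermForm n F q w w ≠ 0 := by
    by_contra hcon
    push Not at hcon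
    have hzero : ∀ i j, hermForm n F q (π (b i)) (π (b j)) = 0 := by
      intro i j
      by_cases hij : e i = e j
      · let W : Submodule F (Fin n → F) :=
          { carrier := {x | M *ᵥ x = e i • x ∧ ∀ l, hermForm n F q x (v l) = 0}
            add_mem' := by
              rintro x y ⟨h1, h2⟩ ⟨h3, h4⟩
              refine ⟨by rw [Matrix.mulVec_add, h1, h3, smul_add], fun l => by rw [hermForm_add_left, h2, h4, add_zero]⟩
            zero_mem' := ⟨by rw [Matrix.mulVec_zero, smul_zero], fun l => hermForm_zero_left _⟩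
            smul_mem' := by
              rintro a x ⟨h1, h2⟩
              refine ⟨by rw [Matrix.mulVec_smul, h1, smul_comm], fun l => by rw [hermForm_smul_left, h2, mul_zero]⟩ }
        apply hermForm_eq_zero_of_self hF W
        · rintro x ⟨h1, h2⟩
          exact hcon x (e i) (he1 i) h1 h2
        · exact ⟨hπM _ _ (he2' i), hπv _⟩
        · refine ⟨?_, hπv _⟩
          rw [hij]
          exact hπM _ _ (he2' j)
      · have h1 := hM (π (b i)) (π (b j))
        rw [hπM _ _ (he2' i), hπM _ _ (he2' j), hermForm_smul_left, hermForm_smul_right] at h1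
        by_contra hne
        apply hij
        have h2 : e i * e j ^ q = 1 := by
          apply mul_right_cancel₀ hne
          rw [one_mul, ← h1]
          rw [h1]
          linear_combination h1
        have h3 := hpow _ (he1 j)
        rw [pow_succ'] at h3
        have h4 : e j ^ q ≠ 0 := by
          intro h
          rw [h, mul_zero] at h2
          exact zero_ne_one h2
        exact mul_right_cancel₀ h4 (h2.trans h3.symm)
    have h1 : hermForm n F q u0 u0 = 0 := by
      rw [hexp, hermForm_sum_left]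
      apply Finset.sum_eq_zero
      intro i _
      rw [hermForm_smul_left, hermForm_sum_right hF, Finset.sum_eq_zero, mul_zero]
      intro j _
      rw [hermForm_smul_right, hzero, mul_zero]
    rw [hu0] at h1
    exact one_ne_zero h1
  obtain ⟨w, d, hd, hMw, hwv, hww⟩ := hex
  obtain ⟨s, hs0, -, hs1⟩ := exists_unit_of_ne_zero hF (⊤ : Submodule F (Fin n → F)) (Submodule.mem_top (x := w)) hww
  refine ⟨s • w, d, hs1, fun i => ?_, ?_, hd⟩
  · rw [hermForm_smul_left, hwv, mul_zero]
  · rw [Matrix.mulVec_smul, hMw, smul_comm]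

/-- orthonormal eigenbases -/
theorem exists_ON_eigen (hF : Fintype.card F = q ^ 2) {p : ℕ} [Fact p.Prime] [CharP F p] {r : ℕ} [Fact r.Prime] (hrp : r ≠ p) (hrq : r ∣ q + 1)
    {M : Matrix (Fin n) (Fin n) F} (hM : Pres q M) (hMr : M ^ r = 1) (k : ℕ) (hk : k ≤ n) :
    ∃ (v : Fin k → Fin n → F) (c : Fin k → F), IsON q v ∧ (∀ i, M *ᵥ v i = c i • v i) ∧ ∀ i, c i ^ r = 1 := by
  induction k with
  | zero => exact ⟨fun i => i.elim0, fun i => i.elim0, fun i => i.elim0, fun i => i.elim0, fun i => i.elim0⟩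
  | succ k ih =>
    obtain ⟨v, c, hv, hvc, hc⟩ := ih (by omega)
    obtain ⟨u, d, hu, huv, hMu, hd⟩ := exists_ON_step hF hrp hrq hM hMr (by omega : k < n) hv hvc
    refine ⟨Fin.snoc v u, Fin.snoc c d, hv.snoc hF hu huv, fun i => ?_, fun i => ?_⟩
    · induction i using Fin.lastCases with
      | last => rw [Fin.snoc_last, Fin.snoc_last, hMu]
      | cast i => rw [Fin.snoc_castSucc, Fin.snoc_castSucc, hvc]
    · induction i using Fin.lastCases with
      | last => rw [Fin.snoc_last, hd]
      | cast i => rw [Fin.snoc_castSucc, hc]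

/-- the matrix form -/
theorem exists_GU_diag (hF : Fintype.card F = q ^ 2) {p : ℕ} [Fact p.Prime] [CharP F p] {r : ℕ} [Fact r.Prime] (hrp : r ≠ p) (hrq : r ∣ q + 1)
    {M : Matrix (Fin n) (Fin n) F} (hM : Pres q M) (hMr : M ^ r = 1) :
    ∃ (g : GL (Fin n) F) (c : Fin n → F), g ∈ GU n F q ∧ M * g = g * Matrix.diagonal c ∧ ∀ i, c i ^ r = 1 := by
  obtain ⟨v, c, hv, hvc, hc⟩ := exists_ON_eigen hF hrp hrq hM hMr n le_rfl
  refine ⟨ofON hF v hv, c, (ofON hF v hv).2, ?_, hc⟩
  rw [ofON_coe]
  ext i j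
  rw [Matrix.mul_diagonal, Matrix.of_apply]
  have := congrFun (hvc j) i
  rw [Pi.smul_apply, smul_eq_mul, mul_comm] at this
  rw [← this]
  rfl

/-- conjugacy in `SU` of simultaneously "diagonal" matrices -/
theorem conj_SU (hF : Fintype.card F = q ^ 2) (hn : 0 < n) {M N : Matrix (Fin n) (Fin n) F} {g h : GL (Fin n) F} (hg : g ∈ GU n F q) (hh : h ∈ GU n F q)
    {c d : Fin n → F} (hMg : M * g = g * Matrix.diagonal c) (hNh : N * h = h * Matrix.diagonal d)
    (hcd : ∀ z, Nat.card {j // c j = z} = Nat.card {j // d j = z}) :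
    ∃ u : GL (Fin n) F, u ∈ GU n F q ∧ (u : Matrix (Fin n) (Fin n) F).det = 1 ∧ M * u = u * N := by
  classical
  obtain ⟨ε, hε⟩ := exists_equiv_of_card_fiber c d hcd
  -- permute the columns of `h`
  set P : Matrix (Fin n) (Fin n) F := (ε.toPEquiv.toMatrix : Matrix (Fin n) (Fin n) F)ᵀ with hP
  have hPent : ∀ i j, P i j = if i = ε j then 1 else 0 := by
    intro i j
    rw [hP, Matrix.transpose_apply, PEquiv.toMatrix_apply]
    by_cases hij : i = ε j
    · subst hij
      simp
    · rw [if_neg hij, if_neg]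
      intro h'
      apply hij
      simpa [eq_comm] using h'
  have hPpres : Pres q P := by
    rw [hP, ← PEquiv.toMatrix_symm, ← Equiv.toPEquiv_symm]
    exact pres_perm ε.symm
  have hPd : Matrix.diagonal d * P = P * Matrix.diagonal c := by
    ext i j
    rw [Matrix.diagonal_mul, Matrix.mul_diagonal, hPent]
    by_cases hij : i = ε j
    · rw [if_pos hij, mul_one, one_mul, hij, hε]
    · rw [if_neg hij, mul_zero, zero_mul]
  let i0 : Fin n := ⟨0, hn⟩
  have hgu : IsUnit (g : Matrix (Fin n) (Fin n) F).det := by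
    rw [← Matrix.isUnit_iff_isUnit_det]; exact g.isUnit
  have hB : Pres q ((h : Matrix (Fin n) (Fin n) F) * P) := Pres.mul hh hPpres
  let B : GL (Fin n) F := (mkGU hF _ hB : GL (Fin n) F)
  have hBmem : B ∈ GU n F q := (mkGU hF _ hB).2
  have hBv : (B : Matrix (Fin n) (Fin n) F) = (h : Matrix (Fin n) (Fin n) F) * P := rfl
  have hNB : N * (B : Matrix (Fin n) (Fin n) F) = B * Matrix.diagonal c := by
    rw [hBv, ← mul_assoc, hNh, mul_assoc, hPd, ← mul_assoc]
  set δ : F := (B : Matrix (Fin n) (Fin n) F).det * ((g : Matrix (Fin n) (Fin n) F).det)⁻¹ with hδ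
  have hδn : δ ^ (q + 1) = 1 := by
    have e1 : (g : Matrix (Fin n) (Fin n) F).det ^ (q + 1) = 1 := Pres.det_norm hF hg
    have e2 : (B : Matrix (Fin n) (Fin n) F).det ^ (q + 1) = 1 := Pres.det_norm hF hBmem
    rw [hδ, mul_pow, inv_pow, e1, e2, inv_one, mul_one]
  have hDpres : Pres q (Matrix.diagonal (Function.update (1 : Fin n → F) i0 δ)) := by
    apply pres_diagonal
    intro i
    by_cases hi : i = i0
    · rw [hi, Function.update_self, hδn]
    · rw [Function.update_of_ne hi]; simp
  let D : GL (Fin n) F := (mkGU hF _ hDpres : GL (Fin n) F)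
  have hDmem : D ∈ GU n F q := (mkGU hF _ hDpres).2
  have hDv : (D : Matrix (Fin n) (Fin n) F) = Matrix.diagonal (Function.update (1 : Fin n → F) i0 δ) := rfl
  have hDdet : (D : Matrix (Fin n) (Fin n) F).det = δ := by
    rw [hDv, Matrix.det_diagonal, Finset.prod_update_of_mem (Finset.mem_univ i0)]
    simp
  have hBdet : IsUnit (B : Matrix (Fin n) (Fin n) F).det := by
    rw [← Matrix.isUnit_iff_isUnit_det]; exact B.isUnit
  refine ⟨g * D * B⁻¹, (GU n F q).mul_mem ((GU n F q).mul_mem hg hDmem) ((GU n F q).inv_mem hBmem), ?_, ?_⟩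
  · have h1 : ((g * D * B⁻¹ : GL (Fin n) F) : Matrix (Fin n) (Fin n) F) * B = (g : Matrix (Fin n) (Fin n) F) * D := by
      rw [← Units.val_mul, ← Units.val_mul, inv_mul_cancel_right]
    have h2 := congrArg Matrix.det h1
    rw [Matrix.det_mul, Matrix.det_mul, hDdet, hδ] at h2
    have h3 : (g : Matrix (Fin n) (Fin n) F).det * ((B : Matrix (Fin n) (Fin n) F).det * ((g : Matrix (Fin n) (Fin n) F).det)⁻¹) = 1 * (B : Matrix (Fin n) (Fin n) F).det := by
      rw [one_mul, mul_comm (B : Matrix (Fin n) (Fin n) F).det, ← mul_assoc, mul_inv_cancel₀ hgu.ne_zero, one_mul]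
    rw [h3] at h2
    exact mul_right_cancel₀ hBdet.ne_zero h2
  · have h1 : M * ((g : Matrix (Fin n) (Fin n) F) * D) = (g : Matrix (Fin n) (Fin n) F) * D * Matrix.diagonal c := by
      rw [← mul_assoc, hMg, hDv, mul_assoc, mul_assoc, Matrix.diagonal_mul_diagonal, Matrix.diagonal_mul_diagonal]
      congr 2
      funext i
      exact mul_comm _ _
    have hinv : Matrix.diagonal c * ((B⁻¹ : GL (Fin n) F) : Matrix (Fin n) (Fin n) F) = ((B⁻¹ : GL (Fin n) F) : Matrix (Fin n) (Fin n) F) * N := by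
      have h2 := congrArg (fun t => ((B⁻¹ : GL (Fin n) F) : Matrix (Fin n) (Fin n) F) * t * ((B⁻¹ : GL (Fin n) F) : Matrix (Fin n) (Fin n) F)) hNB
      have e1 : ((B⁻¹ : GL (Fin n) F) : Matrix (Fin n) (Fin n) F) * (N * (B : Matrix (Fin n) (Fin n) F)) * ((B⁻¹ : GL (Fin n) F) : Matrix (Fin n) (Fin n) F) = ((B⁻¹ : GL (Fin n) F) : Matrix (Fin n) (Fin n) F) * N := by
        rw [mul_assoc, mul_assoc, ← Units.val_mul, mul_inv_cancel, Units.val_one, mul_one]
      have e2 : ((B⁻¹ : GL (Fin n) F) : Matrix (Fin n) (Fin n) F) * ((B : Matrix (Fin n) (Fin n) F) * Matrix.diagonal c) * ((B⁻¹ : GL (Fin n) F) : Matrix (Fin n) (Fin n) F) = Matrix.diagonal c * ((B⁻¹ : GL (Fin n) F) : Matrix (Fin n) (Fin n) F) := by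
        rw [← mul_assoc, ← Units.val_mul, inv_mul_cancel, Units.val_one, one_mul]
      rw [e1, e2] at h2
      exact h2.symm
    rw [Units.val_mul, Units.val_mul, ← mul_assoc, h1, mul_assoc, hinv, ← mul_assoc]

end Cfsg.Agent.H99
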