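import Mathlib
import Cfsg.Prelude.Def_GeometricClasses
import Cfsg.Agent.H99.UniEig
import Cfsg.Agent.H99.SympTrans
import Cfsg.Agent.H99.OrderEq
import Cfsg.Agent.Uni.Stab
import Cfsg.Agent.Uni.Prod

set_option autoImplicit false

namespace Cfsg.Agent.H99

open Module Matrix Uni

section general

/-- the special linear part of an index divides the index -/
theorem relIndex_inf_SL_dvd {ι : Type} [Fintype ι] [DecidableEq ι] {F : Type*} [Field F] [Fintype F] (H K : Subgroup (GL ι F)) :
    H.relIndex (K ⊓ Cfsg.Geo.specialLinear ι F) ∣ H.relIndex K := by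
  classical
  let S : Subgroup (GL ι F) := Cfsg.Geo.specialLinear ι F
  have hS : ∀ K : Subgroup (GL ι F), S.relIndex K = Nat.card (K.map (Matrix.GeneralLinearGroup.det : GL ι F →* Fˣ)) := fun K =>
    Subgroup.relIndex_ker K _
  have h1 : H.relIndex (S ⊓ K) * S.relIndex K = (H ⊓ S).relIndex K := Subgroup.relIndex_inf_mul_relIndex H S K
  have h2 : S.relIndex (H ⊓ K) * H.relIndex K = (S ⊓ H).relIndex K := Subgroup.relIndex_inf_mul_relIndex S H K
  rw [inf_comm S H] at h2
  have h3 : S.relIndex (H ⊓ K) ∣ S.relIndex K := by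
    rw [hS, hS]
    exact Subgroup.card_dvd_of_le (Subgroup.map_mono inf_le_right)
  obtain ⟨t, ht⟩ := h3
  have hpos : 0 < S.relIndex (H ⊓ K) := by
    rw [hS]
    exact Nat.card_pos
  refine ⟨t, ?_⟩
  apply Nat.eq_of_mul_eq_mul_left hpos
  rw [h2, ← h1, ht, inf_comm K S]
  ring

end general

section
variable {F : Type*} [Field F] [Fintype F] {q n : ℕ}

/-- dual basis of a complementary totally isotropic pair -/
theorem uni_exists_dual (hF : Fintype.card F = q ^ 2) {k : ℕ} {W W' : Submodule F (Fin n → F)} (hc : IsCompl W W')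
    (hW' : ∀ u ∈ W', ∀ v ∈ W', hermForm n F q u v = 0) (hWd : finrank F W = k) (hWd' : finrank F W' = k) (b : Basis (Fin k) F W) :
    ∃ v : Fin k → Fin n → F, (∀ j, v j ∈ W') ∧ ∀ i j, hermForm n F q (b i : Fin n → F) (v j) = if i = j then 1 else 0 := by
  let T : W' →ₗ[F] (Fin k → F) :=
    { toFun := fun w j => hermForm n F q (w : Fin n → F) (b j : Fin n → F)
      map_add' := fun a c => by
        funext j
        exact hermForm_add_left _ _ _
      map_smul' := fun a c => by
        funext j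
        exact hermForm_smul_left _ _ _ }
  have hT : ∀ w j, T w j = hermForm n F q (w : Fin n → F) (b j : Fin n → F) := fun _ _ => rfl
  have hinj : Function.Injective T := by
    rw [← LinearMap.ker_eq_bot, LinearMap.ker_eq_bot']
    intro w hw
    have h1 : ∀ x ∈ W, hermForm n F q (w : Fin n → F) x = 0 := by
      intro x hx
      have h2 : x = ((∑ i, b.repr ⟨x, hx⟩ i • b i : W) : Fin n → F) := by rw [b.sum_repr]
      rw [h2, Submodule.coe_sum, hermForm_sum_right hF]
      apply Finset.sum_eq_zero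
      intro i _
      rw [Submodule.coe_smul, hermForm_smul_right, ← hT, hw]
      simp
    apply Subtype.ext
    apply hermForm_nondeg hF
    intro v
    have h7 : v ∈ W ⊔ W' := by rw [hc.sup_eq_top]; exact Submodule.mem_top
    obtain ⟨a, ha, c, hc', rfl⟩ := Submodule.mem_sup.mp h7
    rw [hermForm_add_right hF, h1 a ha, hW' _ w.2 _ hc', add_zero]
  have hsurj : Function.Surjective T :=
    (LinearMap.injective_iff_surjective_of_finrank_eq_finrank (by rw [hWd', finrank_fintype_fun_eq_card, Fintype.card_fin])).mp hinj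
  choose w hw using fun j => hsurj (Pi.single j 1)
  refine ⟨fun j => (w j : Fin n → F), fun j => (w j).2, ?_⟩
  intro i j
  have h1 : hermForm n F q (w j : Fin n → F) (b i : Fin n → F) = if i = j then 1 else 0 := by
    rw [← hT, hw j, Pi.single_apply]
  rw [← hermForm_symm hF, h1]
  split_ifs
  · exact one_pow _
  · exact zero_pow (q_ne_zero hF)

/-- the family made of a basis of W and its dual in W' is independent -/
theorem uni_dual_indep (hF : Fintype.card F = q ^ 2) {k : ℕ} {W W' : Submodule F (Fin n → F)} (hc : IsCompl W W')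
    (hW : ∀ u ∈ W, ∀ v ∈ W, hermForm n F q u v = 0) (b : Basis (Fin k) F W) {v : Fin k → Fin n → F}
    (hv : ∀ j, v j ∈ W') (hbv : ∀ i j, hermForm n F q (b i : Fin n → F) (v j) = if i = j then 1 else 0) :
    LinearIndependent F (fun s : Fin k ⊕ Fin k => Sum.elim (fun i => (b i : Fin n → F)) v s) := by
  have hb : LinearIndependent F (fun i => (b i : Fin n → F)) := by
    have := b.linearIndependent.map' W.subtype (Submodule.ker_subtype W)
    exact this
  have hvi : LinearIndependent F v := by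
    rw [Fintype.linearIndependent_iff]
    intro g hg i
    have h1 : hermForm n F q (b i : Fin n → F) (∑ j, g j • v j) = (g i) ^ q := by
      rw [hermForm_sum_right hF, Finset.sum_eq_single i]
      · rw [hermForm_smul_right, hbv, if_pos rfl, mul_one]
      · intro j _ hj
        rw [hermForm_smul_right, hbv, if_neg (Ne.symm hj), mul_zero]
      · intro h
        exact absurd (Finset.mem_univ i) h
    rw [hg, hermForm_zero_right hF] at h1
    exact (pow_q_eq_zero hF).mp h1.symm
  apply hb.sum_type hvi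
  apply hc.disjoint.mono
  · rw [Submodule.span_le]
    rintro _ ⟨i, rfl⟩
    exact (b i).2
  · rw [Submodule.span_le]
    rintro _ ⟨i, rfl⟩
    exact hv i

/-- Witt extension for complementary totally isotropic pairs -/
theorem exists_GU_pair (hF : Fintype.card F = q ^ 2) {k : ℕ} {W W' Y Y' : Submodule F (Fin n → F)} (hc : IsCompl W W') (hd : IsCompl Y Y')
    (hW : ∀ u ∈ W, ∀ v ∈ W, hermForm n F q u v = 0) (hW' : ∀ u ∈ W', ∀ v ∈ W', hermForm n F q u v = 0)
    (hY : ∀ u ∈ Y, ∀ v ∈ Y, hermForm n F q u v = 0) (hY' : ∀ u ∈ Y', ∀ v ∈ Y', hermForm n F q u v = 0)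
    (hWd : finrank F W = k) (hWd' : finrank F W' = k) (hYd : finrank F Y = k) (hYd' : finrank F Y' = k) (φ : W ≃ₗ[F] Y) :
    ∃ g : GU n F q, (∀ w : W, gact g (w : Fin n → F) = φ w) ∧ W'.map (gmap g) = Y' := by
  let b : Basis (Fin k) F W := (Module.finBasis F W).reindex (finCongr hWd)
  let c : Basis (Fin k) F Y := b.map φ
  obtain ⟨v, hv1, hv2⟩ := uni_exists_dual hF hc hW' hWd hWd' b
  obtain ⟨w, hw1, hw2⟩ := uni_exists_dual hF hd hY' hYd hYd' c
  have hx := uni_dual_indep hF hc hW b hv1 hv2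
  have hy := uni_dual_indep hF hd hY c hw1 hw2
  have hgram : ∀ s t : Fin k ⊕ Fin k, hermForm n F q (Sum.elim (fun i => (b i : Fin n → F)) v s) (Sum.elim (fun i => (b i : Fin n → F)) v t) =
      hermForm n F q (Sum.elim (fun i => (c i : Fin n → F)) w s) (Sum.elim (fun i => (c i : Fin n → F)) w t) := by
    rintro (i | i) (j | j)
    · simp only [Sum.elim_inl]
      rw [hW _ (b i).2 _ (b j).2, hY _ (c i).2 _ (c j).2]
    · simp only [Sum.elim_inl, Sum.elim_inr]
      rw [hv2, hw2]
    · simp only [Sum.elim_inl, Sum.elim_inr]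
      rw [← hermForm_symm hF, hv2, ← hermForm_symm hF, hw2]
    · simp only [Sum.elim_inr]
      rw [hW' _ (hv1 i) _ (hv1 j), hY' _ (hw1 i) _ (hw1 j)]
  obtain ⟨g, hg⟩ := exists_GU_of_family hF (x := fun i => Sum.elim (fun i => (b i : Fin n → F)) v (finSumFinEquiv.symm i))
    (y := fun i => Sum.elim (fun i => (c i : Fin n → F)) w (finSumFinEquiv.symm i))
    (hx.comp _ finSumFinEquiv.symm.injective) (hy.comp _ finSumFinEquiv.symm.injective) (fun i j => hgram _ _)
  have hg1 : ∀ i, gact g (b i : Fin n → F) = (c i : Fin n → F) := by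
    intro i
    have := hg (finSumFinEquiv (Sum.inl i))
    simp only [Equiv.symm_apply_apply, Sum.elim_inl] at this
    exact this
  have hg2 : ∀ i, gact g (v i) = w i := by
    intro i
    have := hg (finSumFinEquiv (Sum.inr i))
    simp only [Equiv.symm_apply_apply, Sum.elim_inr] at this
    exact this
  refine ⟨g, ?_, ?_⟩
  · have h1 : (gmap g) ∘ₗ W.subtype = Y.subtype ∘ₗ (φ : W →ₗ[F] Y) := by
      apply b.ext
      intro i
      rw [LinearMap.comp_apply, LinearMap.comp_apply]
      change gact g (b i : Fin n → F) = _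
      rw [hg1]
      rfl
    intro w
    exact LinearMap.congr_fun h1 w
  · apply Submodule.eq_of_le_of_finrank_eq
    · have hspan : Submodule.span F (Set.range v) = W' := by
        apply Submodule.eq_of_le_of_finrank_eq
        · rw [Submodule.span_le]
          rintro _ ⟨i, rfl⟩
          exact hv1 i
        · have : LinearIndependent F v := by
            have := hx.comp Sum.inr Sum.inr_injective
            exact this
          rw [finrank_span_eq_card this, Fintype.card_fin, hWd']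
      rw [← hspan, Submodule.map_span, Submodule.span_le]
      rintro _ ⟨_, ⟨i, rfl⟩, rfl⟩
      change gact g (v i) ∈ Y'
      rw [hg2]
      exact hw1 i
    · rw [finrank_map_gmap, hWd', hYd']

/-- an element trivial on W and stabilizing W' is trivial -/
theorem uni_eq_one_of_trivial (hF : Fintype.card F = q ^ 2) {W W' : Submodule F (Fin n → F)} (hc : IsCompl W W')
    (hW' : ∀ u ∈ W', ∀ v ∈ W', hermForm n F q u v = 0) {f : (Fin n → F) →ₗ[F] (Fin n → F)}
    (hf : ∀ u v, hermForm n F q (f u) (f v) = hermForm n F q u v) (h1 : ∀ w ∈ W, f w = w) (h2 : ∀ w ∈ W', f w ∈ W') : f = 1 := by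
  have h3 : ∀ w ∈ W', f w = w := by
    intro w hw
    rw [← sub_eq_zero]
    apply hermForm_nondeg hF
    intro v
    have h7 : v ∈ W ⊔ W' := by rw [hc.sup_eq_top]; exact Submodule.mem_top
    obtain ⟨a, ha, c, hc', rfl⟩ := Submodule.mem_sup.mp h7
    rw [hermForm_add_right hF, hW' _ (W'.sub_mem (h2 w hw) hw) _ hc', add_zero, hermForm_sub_left, sub_eq_zero]
    have h8 := hf w a
    rwa [h1 a ha] at h8
  apply LinearMap.ext
  intro v
  have h7 : v ∈ W ⊔ W' := by rw [hc.sup_eq_top]; exact Submodule.mem_top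
  obtain ⟨a, ha, c, hc', rfl⟩ := Submodule.mem_sup.mp h7
  rw [map_add, h1 a ha, h3 c hc']
  rfl

/-- the Levi subgroup of a polar pair -/
theorem uni_exists_levi (hF : Fintype.card F = q ^ 2) {k : ℕ} {W W' : Submodule F (Fin n → F)} (hc : IsCompl W W')
    (hW : ∀ u ∈ W, ∀ v ∈ W, hermForm n F q u v = 0) (hW' : ∀ u ∈ W', ∀ v ∈ W', hermForm n F q u v = 0)
    (hWd : finrank F W = k) (hWd' : finrank F W' = k) :
    ∃ ψ : (Module.End F W)ˣ →* GU n F q, Function.Injective ψ ∧ ∀ A, W.map (gmap (ψ A)) = W ∧ W'.map (gmap (ψ A)) = W' := by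
  have key : ∀ A : (Module.End F W)ˣ, ∃ g : GU n F q, (∀ w : W, gact g (w : Fin n → F) = ((A : Module.End F W) w : W)) ∧ W'.map (gmap g) = W' := by
    intro A
    obtain ⟨g, h1, h2⟩ := exists_GU_pair hF hc hc hW hW' hW hW' hWd hWd' hWd hWd' (LinearMap.GeneralLinearGroup.toLinearEquiv A)
    exact ⟨g, h1, h2⟩
  choose ψ h1 h2 using key
  have huniq : ∀ g h : GU n F q, (∀ w : W, gact g (w : Fin n → F) = gact h (w : Fin n → F)) → W'.map (gmap g) = W' → W'.map (gmap h) = W' → g = h := by
    intro g h h3 h4 h5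
    have h6 : gmap (h⁻¹ * g) = 1 := by
      apply uni_eq_one_of_trivial hF hc hW' (fun u v => gact_form _ _ _)
      · intro w hw
        change gact (h⁻¹ * g) w = w
        rw [gact_mul, h3 ⟨w, hw⟩, gact_inv_gact]
      · intro w hw
        have h7 : W'.map (gmap g) = W'.map (gmap h) := by rw [h4, h5]
        rw [map_gmap_eq_iff] at h7
        rw [← h7]
        exact ⟨w, hw, rfl⟩
    have h7 : h⁻¹ * g = 1 := by
      apply gact_ext
      intro x
      rw [gact_one]
      exact LinearMap.congr_fun h6 x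
    exact (inv_mul_eq_one.mp h7).symm
  refine ⟨MonoidHom.mk' ψ (fun A B => huniq _ _ ?_ (h2 _) ?_), ?_, ?_⟩
  · intro w
    rw [h1, gact_mul, h1, h1]
    rfl
  · rw [map_gmap_mul, h2, h2]
  · intro A B hAB
    apply Units.ext
    apply LinearMap.ext
    intro w
    apply Subtype.ext
    have h3 : ψ A = ψ B := hAB
    rw [← h1, ← h1, h3]
  · intro A
    refine ⟨?_, h2 A⟩
    apply Submodule.eq_of_le_of_finrank_eq
    · rintro _ ⟨w, hw, rfl⟩
      change gact (ψ A) w ∈ W
      rw [h1 A ⟨w, hw⟩]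
      exact Subtype.property _
    · exact finrank_map_gmap _ _

theorem card_GU_even (hF : Fintype.card F = q ^ 2) (k : ℕ) :
    Nat.card (GU (2 * k) F q) = q ^ (k ^ 2) * (∏ i ∈ Finset.range k, (q ^ (2 * i + 1) + 1)) * Nat.card (GL (Fin k) F) := by
  have hprod : ∀ k : ℕ, ∏ i ∈ Finset.range (2 * k), (if Even i then q ^ (i + 1) + 1 else q ^ (i + 1) - 1) =
      (∏ i ∈ Finset.range k, (q ^ (2 * i + 1) + 1)) * ∏ i ∈ Finset.range k, ((q ^ 2) ^ (i + 1) - 1) := by
    intro k
    induction k with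
    | zero => simp
    | succ k ih =>
      rw [show 2 * (k + 1) = 2 * k + 1 + 1 by ring, Finset.prod_range_succ, Finset.prod_range_succ, ih, Finset.prod_range_succ, Finset.prod_range_succ,
        if_pos (even_two_mul k), if_neg (by rw [Nat.not_even_iff_odd]; exact odd_two_mul_add_one k)]
      rw [show (q ^ 2) ^ (k + 1) = q ^ (2 * k + 1 + 1) by rw [← pow_mul]; ring_nf]
      ring
  rw [card_GU hF, hprod, card_GL_qfac, hF]
  have h1 : qfac (q ^ 2) k = ∏ i ∈ Finset.range k, ((q ^ 2) ^ (i + 1) - 1) := rfl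
  rw [h1]
  have h2 : 2 * k * (2 * k - 1) / 2 = k ^ 2 + 2 * ∑ j ∈ Finset.range k, j := by
    have h3 := Finset.sum_range_id_mul_two k
    have h4 : 2 * k * (2 * k - 1) / 2 = k * (2 * k - 1) := by
      rw [mul_assoc, Nat.mul_div_cancel_left _ (by norm_num)]
    rw [h4, mul_comm 2 (∑ j ∈ Finset.range k, j), h3]
    rcases Nat.eq_zero_or_pos k with rfl | hk
    · simp
    · obtain ⟨m, rfl⟩ : ∃ m, k = m + 1 := ⟨k - 1, by omega⟩
      rw [show 2 * (m + 1) - 1 = 2 * m + 1 by omega, Nat.add_sub_cancel]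
      ring
  rw [h2, pow_add, pow_mul]
  ring

/-- a prime dividing the number of polar pairs -/
theorem uni_pair_index (hF : Fintype.card F = q ^ 2) {r : ℕ} (hr : r.Prime) {k : ℕ} (hn : n = 2 * k) {W W' : Submodule F (Fin n → F)} (hc : IsCompl W W')
    (hW : ∀ u ∈ W, ∀ v ∈ W, hermForm n F q u v = 0) (hW' : ∀ u ∈ W', ∀ v ∈ W', hermForm n F q u v = 0)
    (hWd : finrank F W = k) (hWd' : finrank F W' = k) (hrq : ¬ r ∣ q) (H : Subgroup (GL (Fin n) F))
    (hH : ∀ g : GU n F q, W.map (gmap g) = W → W'.map (gmap g) = W' → (g : GL (Fin n) F) ∈ H)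
    (hΩ : r ∣ H.relIndex (Cfsg.GU n F q ⊓ Cfsg.Geo.specialLinear (Fin n) F)) :
    ∃ i < k, r ∣ q ^ (2 * i + 1) + 1 := by
  classical
  subst hn
  have h1 : r ∣ (H.subgroupOf (GU (2 * k) F q)).index := hΩ.trans (relIndex_inf_SL_dvd H _)
  obtain ⟨ψ, hψ, hψ2⟩ := uni_exists_levi hF hc hW hW' hWd hWd'
  have hcard : Nat.card (Module.End F W)ˣ = Nat.card (GL (Fin k) F) :=
    Nat.card_congr (Units.mapEquiv (LinearMap.toMatrixAlgEquiv ((Module.finBasis F W).reindex (finCongr hWd))).toMulEquiv).toEquiv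
  have h2 : r ∣ q ^ (k ^ 2) * (∏ i ∈ Finset.range k, (q ^ (2 * i + 1) + 1)) := by
    apply dvd_of_dvd_index (H.subgroupOf (GU (2 * k) F q)) ψ hψ _ h1
    · rw [hcard, card_GU_even hF]
    · intro A
      exact hH _ (hψ2 A).1 (hψ2 A).2
  rcases hr.dvd_mul.mp h2 with h3 | h3
  · exact absurd (hr.dvd_of_dvd_pow h3) hrq
  · obtain ⟨i, hi, h4⟩ := (Prime.dvd_finsetProd_iff hr.prime _).mp h3
    exact ⟨i, Finset.mem_range.mp hi, h4⟩

theorem finrank_map_add_inf_ker {K V V' : Type*} [Field K] [AddCommGroup V] [Module K V] [FiniteDimensional K V] [AddCommGroup V'] [Module K V']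
    (T : V →ₗ[K] V') (W : Submodule K V) :
    finrank K (W.map T) + finrank K (W ⊓ LinearMap.ker T : Submodule K V) = finrank K W := by
  have h1 := LinearMap.finrank_range_add_finrank_ker (T.domRestrict W)
  rw [LinearMap.range_domRestrict] at h1
  have h2 : (LinearMap.ker (T.domRestrict W)).map W.subtype = W ⊓ LinearMap.ker T := by
    ext v
    constructor
    · rintro ⟨w, hw, rfl⟩
      exact ⟨w.2, hw⟩
    · rintro ⟨h3, h4⟩
      exact ⟨⟨v, h3⟩, h4, rfl⟩
  rw [← h2, Submodule.finrank_map_subtype_eq]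
  exact h1

/-- in a polar pair fixed by an isometry the two eigenspaces have equal dimensions -/
theorem uni_pair_ker (hF : Fintype.card F = q ^ 2) {k : ℕ} (hn : n = 2 * k) {W W' : Submodule F (Fin n → F)} (hc : IsCompl W W')
    (hW' : ∀ u ∈ W', ∀ v ∈ W', hermForm n F q u v = 0)
    (hWd : finrank F W = k) (hWd' : finrank F W' = k) {f : (Fin n → F) →ₗ[F] (Fin n → F)}
    (hf : ∀ u v, hermForm n F q (f u) (f v) = hermForm n F q u v) (h1 : ∀ w ∈ W, f w ∈ W) (h2 : ∀ w ∈ W', f w ∈ W')
    {c : F} (hcq : c ^ (q + 1) = 1) :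
    finrank F (W' ⊓ LinearMap.ker (f - c • 1) : Submodule F (Fin n → F)) = finrank F (W ⊓ LinearMap.ker (f - c • 1) : Submodule F (Fin n → F)) := by
  have hc0 : c ≠ 0 := by
    rintro rfl
    rw [zero_pow (by omega)] at hcq
    exact zero_ne_one hcq
  have hmem : ∀ v, v ∈ LinearMap.ker (f - c • 1) ↔ f v = c • v := by
    intro v
    rw [LinearMap.mem_ker, LinearMap.sub_apply, LinearMap.smul_apply, Module.End.one_apply, sub_eq_zero]
  let X := W.map (f - c • 1)
  have hXW : X ≤ W := by
    rintro _ ⟨w, hw, rfl⟩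
    rw [LinearMap.sub_apply, LinearMap.smul_apply, Module.End.one_apply]
    exact W.sub_mem (h1 w hw) (W.smul_mem _ hw)
  have h3 : finrank F X + finrank F (W ⊓ LinearMap.ker (f - c • 1) : Submodule F (Fin n → F)) = k := by
    rw [finrank_map_add_inf_ker, hWd]
  -- W' is its own perp
  have hperp : perp q W' = W' := by
    symm
    apply Submodule.eq_of_le_of_finrank_eq
    · intro v hv w hw
      exact hW' v hv w hw
    · have := finrank_perp hF W'
      omega
  have hK : W' ⊓ LinearMap.ker (f - c • 1) = perp q (X ⊔ W') := by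
    have e : c * c ^ q = 1 := by rw [← pow_succ']; exact hcq
    have hinj : Function.Injective f := by
      intro a b hab
      rw [← sub_eq_zero]
      apply hermForm_nondeg hF
      intro v
      rw [← hf, map_sub, hab, sub_self, hermForm_zero_left]
    have hsurj : Function.Surjective f := LinearMap.injective_iff_surjective.mp hinj
    ext u
    rw [mem_perp]
    constructor
    · rintro ⟨hu1, hu2⟩ x hx
      rw [SetLike.mem_coe, hmem] at hu2
      obtain ⟨y, hy, z, hz, rfl⟩ := Submodule.mem_sup.mp hx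
      obtain ⟨w, hw, rfl⟩ := hy
      rw [hermForm_add_right hF, hW' u hu1 z hz, add_zero, LinearMap.sub_apply, LinearMap.smul_apply, Module.End.one_apply,
        hermForm_sub_right hF, hermForm_smul_right]
      have h5 := hf u w
      rw [hu2, hermForm_smul_left] at h5
      rw [← h5]
      linear_combination (-(hermForm n F q u (f w))) * e
    · intro h
      have hu1 : u ∈ W' := by
        rw [← hperp, mem_perp]
        intro w hw
        exact h w (Submodule.mem_sup_right hw)
      refine ⟨hu1, ?_⟩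
      rw [SetLike.mem_coe, hmem, ← sub_eq_zero]
      apply hermForm_nondeg hF
      intro v
      obtain ⟨v', rfl⟩ := hsurj v
      have h7 : v' ∈ W ⊔ W' := by rw [hc.sup_eq_top]; exact Submodule.mem_top
      obtain ⟨a, ha, b, hb, rfl⟩ := Submodule.mem_sup.mp h7
      rw [hermForm_sub_left, hf, hermForm_smul_left, map_add, hermForm_add_right hF, hermForm_add_right hF, hW' u hu1 b hb,
        hW' u hu1 _ (h2 b hb)]
      have h8 := h _ (Submodule.mem_sup_left (⟨a, ha, rfl⟩ : (f - c • 1) a ∈ X))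
      rw [LinearMap.sub_apply, LinearMap.smul_apply, Module.End.one_apply, hermForm_sub_right hF, hermForm_smul_right] at h8
      linear_combination (-c) * h8 - hermForm n F q u a * e
  rw [hK]
  have h4 := finrank_perp hF (X ⊔ W')
  have h5 := Submodule.finrank_sup_add_finrank_inf_eq X W'
  have h6 : X ⊓ W' = ⊥ := by
    rw [← disjoint_iff]
    exact hc.disjoint.mono_left hXW
  rw [h6, finrank_bot, hWd'] at h5
  omega

theorem uni_pair_even (hF : Fintype.card F = q ^ 2) {k : ℕ} (hn : n = 2 * k) {W W' : Submodule F (Fin n → F)} (hc : IsCompl W W')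
    (hW' : ∀ u ∈ W', ∀ v ∈ W', hermForm n F q u v = 0)
    (hWd : finrank F W = k) (hWd' : finrank F W' = k) {f : (Fin n → F) →ₗ[F] (Fin n → F)}
    (hf : ∀ u v, hermForm n F q (f u) (f v) = hermForm n F q u v) (h1 : ∀ w ∈ W, f w ∈ W) (h2 : ∀ w ∈ W', f w ∈ W')
    {c : F} (hcq : c ^ (q + 1) = 1) : Even (finrank F (LinearMap.ker (f - c • 1))) := by
  have h3 := uni_pair_ker hF hn hc hW' hWd hWd' hf h1 h2 hcq
  have hmem : ∀ v, v ∈ LinearMap.ker (f - c • 1) ↔ f v = c • v := by
    intro v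
    rw [LinearMap.mem_ker, LinearMap.sub_apply, LinearMap.smul_apply, Module.End.one_apply, sub_eq_zero]
  have h4 := Submodule.finrank_sup_add_finrank_inf_eq (W ⊓ LinearMap.ker (f - c • 1)) (W' ⊓ LinearMap.ker (f - c • 1))
  have h5 : (W ⊓ LinearMap.ker (f - c • 1)) ⊓ (W' ⊓ LinearMap.ker (f - c • 1)) = ⊥ := by
    rw [← disjoint_iff]
    exact hc.disjoint.mono inf_le_left inf_le_left
  have h6 : (W ⊓ LinearMap.ker (f - c • 1)) ⊔ (W' ⊓ LinearMap.ker (f - c • 1)) = LinearMap.ker (f - c • 1) := by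
    apply le_antisymm (sup_le inf_le_right inf_le_right)
    intro v hv
    have h7 : v ∈ W ⊔ W' := by rw [hc.sup_eq_top]; exact Submodule.mem_top
    obtain ⟨u, hu, w, hw, rfl⟩ := Submodule.mem_sup.mp h7
    rw [hmem, map_add, smul_add] at hv
    have h8 : f u - c • u = c • w - f w := by
      rw [sub_eq_sub_iff_add_eq_add, hv, add_comm]
    have h9 : f u - c • u = 0 := by
      apply (Submodule.disjoint_def.mp hc.disjoint) _ (W.sub_mem (h1 u hu) (W.smul_mem _ hu))
      rw [h8]
      exact W'.sub_mem (W'.smul_mem _ hw) (h2 w hw)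
    have h10 : c • w - f w = 0 := by rw [← h8, h9]
    apply Submodule.add_mem_sup
    · exact ⟨hu, (hmem u).mpr (sub_eq_zero.mp h9)⟩
    · exact ⟨hw, (hmem w).mpr (sub_eq_zero.mp h10).symm⟩
  rw [h5, h6, finrank_bot, add_zero, h3] at h4
  exact ⟨_, h4⟩

theorem uni_swap_ker {W W' : Submodule F (Fin n → F)} (hc : IsCompl W W') {f : (Fin n → F) →ₗ[F] (Fin n → F)}
    (hinj : Function.Injective f) (hf : ∀ w ∈ W, f w ∈ W') (c : F) : finrank F W + finrank F (LinearMap.ker (f - c • 1)) ≤ n := by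
  have hd : W ⊓ LinearMap.ker (f - c • 1) = ⊥ := by
    rw [eq_bot_iff]
    rintro v ⟨h1, h2⟩
    rw [SetLike.mem_coe, LinearMap.mem_ker, LinearMap.sub_apply, LinearMap.smul_apply, Module.End.one_apply, sub_eq_zero] at h2
    have h3 : f v = 0 := by
      apply (Submodule.disjoint_def.mp hc.disjoint) _ _ (hf v h1)
      rw [h2]
      exact W.smul_mem _ h1
    rw [Submodule.mem_bot]
    exact hinj (by rw [h3, map_zero])
  have h1 := Submodule.finrank_sup_add_finrank_inf_eq W (LinearMap.ker (f - c • 1))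
  rw [hd, finrank_bot, add_zero] at h1
  rw [← h1]
  have h2 := Submodule.finrank_le (W ⊔ LinearMap.ker (f - c • 1))
  rwa [finrank_fintype_fun_eq_card, Fintype.card_fin] at h2

theorem gmap_eq_toLin' (g : GU n F q) : gmap g = Matrix.toLin' ((g : GL (Fin n) F) : Matrix (Fin n) (Fin n) F) := rfl

/-- SU is transitive on polar pairs -/
theorem exists_SU_pair (hF : Fintype.card F = q ^ 2) {k : ℕ} (hk : 0 < k) {W W' Y Y' : Submodule F (Fin n → F)} (hc : IsCompl W W') (hd : IsCompl Y Y')
    (hW : ∀ u ∈ W, ∀ v ∈ W, hermForm n F q u v = 0) (hW' : ∀ u ∈ W', ∀ v ∈ W', hermForm n F q u v = 0)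
    (hY : ∀ u ∈ Y, ∀ v ∈ Y, hermForm n F q u v = 0) (hY' : ∀ u ∈ Y', ∀ v ∈ Y', hermForm n F q u v = 0)
    (hWd : finrank F W = k) (hWd' : finrank F W' = k) (hYd : finrank F Y = k) (hYd' : finrank F Y' = k) :
    ∃ g : GL (Fin n) F, g ∈ Cfsg.GU n F q ⊓ Cfsg.Geo.specialLinear (Fin n) F ∧
      W.map (Matrix.toLin' (g : Matrix (Fin n) (Fin n) F)) = Y ∧ W'.map (Matrix.toLin' (g : Matrix (Fin n) (Fin n) F)) = Y' := by
  obtain ⟨g, hg1, hg2⟩ := exists_GU_pair hF hc hd hW hW' hY hY' hWd hWd' hYd hYd' (LinearEquiv.ofFinrankEq W Y (by rw [hWd, hYd]))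
  have hg3 : W.map (gmap g) = Y := by
    apply Submodule.eq_of_le_of_finrank_eq
    · rintro _ ⟨w, hw, rfl⟩
      change gact g w ∈ Y
      rw [hg1 ⟨w, hw⟩]
      exact Subtype.property _
    · rw [finrank_map_gmap, hWd, hYd]
  let b : Basis (Fin k) F Y := (Module.finBasis F Y).reindex (finCongr hYd)
  obtain ⟨v, hv1, hv2⟩ := uni_exists_dual hF hd hY' hYd hYd' b
  let i₀ : Fin k := ⟨0, hk⟩
  have hhyp : Hyp q (b i₀ : Fin n → F) (v i₀) := ⟨hY _ (b i₀).2 _ (b i₀).2, hY' _ (hv1 _) _ (hv1 _), by rw [hv2, if_pos rfl]⟩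
  have hdet : (((detHom hF n g : Fˣ) : F))⁻¹ ^ (q + 1) = 1 := by
    have h1 := (detHom hF n g).2
    rw [MonoidHom.mem_ker] at h1
    have h2 := congrArg Units.val h1
    simp only [powMonoidHom_apply, Units.val_pow_eq_pow_val, Units.val_one] at h2
    rw [inv_pow, h2, inv_one]
  obtain ⟨a, ha0, ha⟩ := exists_hilbert90 hF hdet
  obtain ⟨t, ht, htd⟩ := exists_gtorus hF hhyp ha0
  have ht1 : Y.map (gmap t) = Y := by
    apply Submodule.eq_of_le_of_finrank_eq
    · rintro _ ⟨x, hx, rfl⟩
      change gact t x ∈ Y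
      rw [ht, hY x hx _ (b i₀).2, mul_zero, zero_smul, add_zero]
      exact Y.add_mem hx (Y.smul_mem _ (b i₀).2)
    · exact finrank_map_gmap _ _
  have ht2 : Y'.map (gmap t) = Y' := by
    apply Submodule.eq_of_le_of_finrank_eq
    · rintro _ ⟨x, hx, rfl⟩
      change gact t x ∈ Y'
      rw [ht, hY' x hx _ (hv1 i₀), mul_zero, zero_smul, add_zero]
      exact Y'.add_mem hx (Y'.smul_mem _ (hv1 i₀))
    · exact finrank_map_gmap _ _
  refine ⟨((t * g : GU n F q) : GL (Fin n) F), ⟨(t * g).2, ?_⟩, ?_, ?_⟩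
  · change _ ∈ (Matrix.GeneralLinearGroup.det : GL (Fin n) F →* Fˣ).ker
    rw [MonoidHom.mem_ker]
    apply Units.ext
    have h1 : ((Matrix.GeneralLinearGroup.det ((t * g : GU n F q) : GL (Fin n) F) : Fˣ) : F) = ((detHom hF n (t * g) : Fˣ) : F) := by
      rw [detHom_coe]
      rfl
    rw [h1, map_mul]
    change ((detHom hF n t : Fˣ) : F) * ((detHom hF n g : Fˣ) : F) = 1
    rw [htd]
    have haq : a ^ q ≠ 0 := pow_ne_zero _ ha0
    have hg0 : ((detHom hF n g : Fˣ) : F) ≠ 0 := Units.ne_zero _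
    have h2 : a * (a ^ q)⁻¹ = (((detHom hF n g : Fˣ) : F))⁻¹ := by
      nth_rewrite 1 [ha]
      rw [mul_assoc, mul_inv_cancel₀ haq, mul_one]
    rw [h2, inv_mul_cancel₀ hg0]
  · rw [← gmap_eq_toLin', map_gmap_mul, hg3, ht1]
  · rw [← gmap_eq_toLin', map_gmap_mul, hg2, ht2]

/-- hyperbolic decomposition of a nondegenerate subspace of even dimension -/
theorem uni_hyperbolic (hF : Fintype.card F = q ^ 2) (m : ℕ) : ∀ {W : Submodule F (Fin n → F)} (_ : Uni.ND q W) (_ : finrank F W = 2 * m),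
    ∃ W₁ W₂ : Submodule F (Fin n → F), (∀ u ∈ W₁, ∀ v ∈ W₁, hermForm n F q u v = 0) ∧ (∀ u ∈ W₂, ∀ v ∈ W₂, hermForm n F q u v = 0) ∧
      W₁ ⊔ W₂ = W ∧ finrank F W₁ = m ∧ finrank F W₂ = m := by
  induction m with
  | zero =>
    intro W hW hd
    have h1 : W = ⊥ := Submodule.finrank_eq_zero.mp (by omega)
    refine ⟨⊥, ⊥, ?_, ?_, by rw [h1, sup_bot_eq], finrank_bot _ _, finrank_bot _ _⟩
    all_goals
      intro u hu v _
      rw [Submodule.mem_bot] at hu
      rw [hu, hermForm_zero_left]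
  | succ m ih =>
    intro W hW hd
    obtain ⟨u, huW, hu0, huu⟩ := hW.exists_isotropic hF (by omega)
    have h1 : ∃ x ∈ W, hermForm n F q u x ≠ 0 := by
      by_contra hcon
      push Not at hcon
      exact hu0 (hW u huW hcon)
    obtain ⟨x, hxW, hx⟩ := h1
    obtain ⟨c, d, hc, h2, h3⟩ := exists_hyp hF huu hx
    set v := c • x + d • u with hv
    have hvW : v ∈ W := W.add_mem (W.smul_mem _ hxW) (W.smul_mem _ huW)
    have hH : Hyp q u v := ⟨huu, h2, h3⟩
    have hU := hH.nd hF
    have hUW : Submodule.span F {u, v} ≤ W := by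
      rw [Submodule.span_le]
      intro z hz
      rcases hz with rfl | rfl
      · exact huW
      · exact hvW
    have hfr := finrank_inf_perp hF hU hUW
    rw [hH.finrank hF] at hfr
    obtain ⟨W₁, W₂, a1, a2, a3, a4, a5⟩ := ih (hW.inf_perp hF hU hUW) (by omega)
    have hperp : ∀ z ∈ W₁ ⊔ W₂, hermForm n F q z u = 0 ∧ hermForm n F q z v = 0 := by
      intro z hz
      rw [a3] at hz
      exact (Hyp.mem_perp_iff hF).mp hz.2
    have hTI : ∀ (z : Fin n → F) (Z : Submodule F (Fin n → F)), hermForm n F q z z = 0 → (∀ u ∈ Z, ∀ v ∈ Z, hermForm n F q u v = 0) →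
        (∀ y ∈ Z, hermForm n F q y z = 0) → ∀ a ∈ Submodule.span F {z} ⊔ Z, ∀ b ∈ Submodule.span F {z} ⊔ Z, hermForm n F q a b = 0 := by
      intro z Z hz hZ hyz a ha b hb
      obtain ⟨a1, ha1, a2, ha2, rfl⟩ := Submodule.mem_sup.mp ha
      obtain ⟨b1, hb1, b2, hb2, rfl⟩ := Submodule.mem_sup.mp hb
      obtain ⟨s, rfl⟩ := Submodule.mem_span_singleton.mp ha1
      obtain ⟨t, rfl⟩ := Submodule.mem_span_singleton.mp hb1
      rw [hermForm_add_left, hermForm_add_right hF, hermForm_add_right hF, hermForm_smul_left, hermForm_smul_right, hz,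
        hermForm_smul_left, (hermForm_eq_zero_comm hF).mp (hyz b2 hb2), hermForm_smul_right, hyz a2 ha2, hZ a2 ha2 b2 hb2]
      ring
    have hsup : (Submodule.span F {u} ⊔ W₁) ⊔ (Submodule.span F {v} ⊔ W₂) = W := by
      apply le_antisymm
      · refine sup_le (sup_le ?_ ?_) (sup_le ?_ ?_)
        · rw [Submodule.span_singleton_le_iff_mem]
          exact huW
        · exact (le_sup_left.trans a3.le).trans inf_le_left
        · rw [Submodule.span_singleton_le_iff_mem]
          exact hvW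
        · exact (le_sup_right.trans a3.le).trans inf_le_left
      · intro w hw
        obtain ⟨y, hy, z, hz, rfl⟩ := hU.exists_add hF w
        have hzW : z ∈ W ⊓ perp q (Submodule.span F {u, v}) := by
          refine ⟨?_, hz⟩
          have h4 := W.sub_mem hw (hUW hy)
          rwa [add_sub_cancel_left] at h4
        rw [← a3] at hzW
        have hy2 : y ∈ Submodule.span F {u} ⊔ Submodule.span F {v} := by
          rwa [← Submodule.span_insert]
        have h5 : Submodule.span F {u} ⊔ Submodule.span F {v} ≤ (Submodule.span F {u} ⊔ W₁) ⊔ (Submodule.span F {v} ⊔ W₂) :=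
          sup_le_sup le_sup_left le_sup_left
        have h6 : W₁ ⊔ W₂ ≤ (Submodule.span F {u} ⊔ W₁) ⊔ (Submodule.span F {v} ⊔ W₂) := sup_le_sup le_sup_right le_sup_right
        exact Submodule.add_mem _ (h5 hy2) (h6 hzW)
    have hle : ∀ (z : Fin n → F) (Z : Submodule F (Fin n → F)), finrank F (Submodule.span F {z} ⊔ Z : Submodule F (Fin n → F)) ≤ 1 + finrank F Z := by
      intro z Z
      have h4 := Submodule.finrank_add_le_finrank_add_finrank (Submodule.span F {z}) Z
      have h5 : finrank F (Submodule.span F {z}) ≤ 1 := by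
        have h6 := finrank_span_le_card (R := F) ({z} : Set (Fin n → F))
        simpa using h6
      omega
    have h7 := hle u W₁
    have h8 := hle v W₂
    have h9 := Submodule.finrank_add_le_finrank_add_finrank (Submodule.span F {u} ⊔ W₁) (Submodule.span F {v} ⊔ W₂)
    rw [hsup] at h9
    refine ⟨_, _, hTI u W₁ huu a1 (fun y hy => (hperp y (Submodule.mem_sup_left hy)).1), hTI v W₂ h2 a2 (fun y hy => (hperp y (Submodule.mem_sup_right hy)).2),
      hsup, by omega, by omega⟩

end

end Cfsg.Agent.H99
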