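import Mathlib
import Cfsg.Agent.H99.UniPair
import Cfsg.Agent.H99.PauliM

set_option autoImplicit false

namespace Cfsg.Agent.H99

open Module Matrix Uni

section
variable {F : Type*} [Field F] [Fintype F] {q n : ℕ}

theorem nd_span_ON (hF : Fintype.card F = q ^ 2) {k : ℕ} {v : Fin k → Fin n → F} (hv : Uni.IsON q v) :
    Uni.ND q (Submodule.span F (Set.range v)) := by
  intro x hx h
  rw [← embF_coordF_of_mem hF hv hx]
  have h1 : coordF q v x = 0 := by
    funext j
    rw [coordF_apply, h _ (Submodule.subset_span ⟨j, rfl⟩)]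
    rfl
  rw [h1, map_zero]

/-- a block element of order r -/
theorem exists_GU_block (hF : Fintype.card F = q ^ 2) {p : ℕ} [Fact p.Prime] [CharP F p] {r : ℕ} [Fact r.Prime] (hrp : r ≠ p)
    {b : ℕ} (hbn : b ≤ n) (hbo : Odd b) (hrb : r ∣ q ^ b + 1) (hord : orderOf ((Fintype.card F : ℕ) : ZMod r) = b) :
    ∃ x : GU n F q, x ^ r = 1 ∧ finrank F (LinearMap.ker (gmap x - 1)) + b = n := by
  classical
  have hr : r.Prime := Fact.out
  have hb0 : 0 < b := hbo.pos
  have hcard : r ∣ Nat.card (GU b F q) := by
    rw [card_GU hF]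
    apply Dvd.dvd.mul_left
    have h1 : (if Even (b - 1) then q ^ (b - 1 + 1) + 1 else q ^ (b - 1 + 1) - 1) ∣
        ∏ i ∈ Finset.range b, (if Even i then q ^ (i + 1) + 1 else q ^ (i + 1) - 1) :=
      Finset.dvd_prod_of_mem (fun i => if Even i then q ^ (i + 1) + 1 else q ^ (i + 1) - 1) (Finset.mem_range.mpr (by omega))
    have h2 : Even (b - 1) := by
      obtain ⟨m, hm⟩ := hbo
      exact ⟨m, by omega⟩
    rw [if_pos h2, Nat.sub_add_cancel hb0] at h1
    exact hrb.trans h1
  obtain ⟨x₀, hx₀⟩ := exists_prime_orderOf_dvd_card' r hcard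
  have hx₀r : x₀ ^ r = 1 := by rw [← hx₀]; exact pow_orderOf_eq_one _
  have hx₀1 : x₀ ≠ 1 := by
    intro h
    rw [h, orderOf_one] at hx₀
    exact hr.one_lt.ne hx₀
  have hgp : ∀ (m : ℕ) (g : GU m F q) (k : ℕ), gmap g ^ k = gmap (g ^ k) := by
    intro m g k
    induction k with
    | zero =>
      apply LinearMap.ext
      intro v
      exact (gact_one v).symm
    | succ k ih =>
      rw [pow_succ, pow_succ, ih]
      apply LinearMap.ext
      intro v
      exact (gact_mul _ _ v).symm
  have hf₀ : gmap x₀ ^ r = 1 := by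
    rw [hgp, hx₀r]
    apply LinearMap.ext
    intro v
    exact gact_one v
  have hmod := finrank_modEq_fixed hrp (gmap x₀) hf₀
  rw [hord, finrank_fintype_fun_eq_card, Fintype.card_fin] at hmod
  have hker : LinearMap.ker (gmap x₀ - 1) = ⊥ := by
    have h1 := Submodule.finrank_le (LinearMap.ker (gmap x₀ - 1))
    rw [finrank_fintype_fun_eq_card, Fintype.card_fin] at h1
    have h2 : finrank F (LinearMap.ker (gmap x₀ - 1)) ≠ b := by
      intro h
      have h3 : LinearMap.ker (gmap x₀ - 1) = ⊤ := by
        apply Submodule.eq_top_of_finrank_eq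
        rw [h, finrank_fintype_fun_eq_card, Fintype.card_fin]
      rw [LinearMap.ker_eq_top, sub_eq_zero] at h3
      apply hx₀1
      apply gact_ext
      intro v
      rw [gact_one]
      exact LinearMap.congr_fun h3 v
    have h3 : b ∣ finrank F (LinearMap.ker (gmap x₀ - 1)) := by
      have h4 : finrank F (LinearMap.ker (gmap x₀ - 1)) ≡ 0 [MOD b] := hmod.symm.trans (by simp [Nat.ModEq])
      exact (Nat.modEq_zero_iff_dvd).mp h4
    have h4 : finrank F (LinearMap.ker (gmap x₀ - 1)) = 0 := by
      by_contra h5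
      have h6 := Nat.le_of_dvd (Nat.pos_of_ne_zero h5) h3
      omega
    exact Submodule.finrank_eq_zero.mp h4
  obtain ⟨b₀, hb₀, -, -⟩ := (nd_top (n := n) hF).exists_ON hF n (by rw [finrank_top, finrank_fintype_fun_eq_card, Fintype.card_fin])
  have hON : Uni.IsON q (fun i : Fin b => b₀ (Fin.castLE hbn i)) := by
    intro i j
    rw [hb₀]
    simp [Fin.ext_iff]
  have hW := nd_span_ON hF hON
  have hWd : finrank F (Submodule.span F (Set.range (fun i : Fin b => b₀ (Fin.castLE hbn i)))) = b := by
    rw [finrank_span_eq_card (hON.linearIndependent hF), Fintype.card_fin]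
  set W := Submodule.span F (Set.range (fun i : Fin b => b₀ (Fin.castLE hbn i))) with hWdef
  have hl := Uni.finrank_perp hF W
  obtain ⟨u, c, hcompl, hu, hc⟩ := hW.exists_compl hF (l := n - b) hWd (by omega)
  refine ⟨blkHom hF hcompl (x₀, 1), ?_, ?_⟩
  · rw [← map_pow, Prod.pow_mk, hx₀r, one_pow]
    exact map_one _
  · have hK : LinearMap.ker (gmap (blkHom hF hcompl (x₀, 1)) - 1) = Uni.perp q W := by
      have hcb : ∀ x, coordF q u x = 0 ↔ x ∈ Uni.perp q W := by
        intro x
        rw [← hu, mem_perp_span hF]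
        constructor
        · rintro h _ ⟨i, rfl⟩
          exact congrFun h i
        · intro h
          funext i
          exact h _ ⟨i, rfl⟩
      ext x
      rw [LinearMap.mem_ker, LinearMap.sub_apply, sub_eq_zero, Module.End.one_apply, gmap_apply, blkHom_apply, gact_blk, gact_one, ← hcb]
      constructor
      · intro h
        have h1 := congrArg (coordF q u) h
        rw [map_add, coordF_embF hcompl.onb, coordF_embF_zero hcompl.cb, add_zero] at h1
        have h2 : coordF q u x ∈ LinearMap.ker (gmap x₀ - 1) := by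
          rw [LinearMap.mem_ker, LinearMap.sub_apply, sub_eq_zero]
          exact h1
        rw [hker, Submodule.mem_bot] at h2
        exact h2
      · intro h
        rw [h, gact_zero, map_zero, zero_add]
        have h1 := hcompl.sum x
        rwa [h, map_zero, zero_add] at h1
    rw [hK]
    omega

/-- a transvection of SU -/
theorem exists_transv_SU' (hF : Fintype.card F = q ^ 2) {p : ℕ} [Fact p.Prime] [CharP F p] (hn : 2 ≤ n) :
    ∃ x ∈ Cfsg.GU n F q ⊓ Cfsg.Geo.specialLinear (Fin n) F, x ^ p = 1 ∧
    finrank F (LinearMap.ker (Matrix.toLin' (x : Matrix (Fin n) (Fin n) F) - 1)) + 1 = n := by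
  obtain ⟨u, hu0, huu⟩ := Uni.exists_isotropic (n := n) hF hn
  obtain ⟨a, ha0, haq⟩ := exists_skew (q := q) hF
  obtain ⟨g, -, hg⟩ := exists_transv hF huu haq
  set x : GL (Fin n) F := Matrix.SpecialLinearGroup.toGL (g : Matrix.SpecialLinearGroup (Fin n) F) with hx
  have hxv : ∀ z, (x : Matrix (Fin n) (Fin n) F) *ᵥ z = z + (a * Cfsg.hermForm n F q z u) • u := fun z => hg z
  have hxG : x ∈ Cfsg.GU n F q := by
    rw [mem_GU]
    intro w z
    exact act_form g w z
  have hxS : x ∈ Cfsg.Geo.specialLinear (Fin n) F := mem_SL.mpr (g : Matrix.SpecialLinearGroup (Fin n) F).2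
  have hker : LinearMap.ker (Matrix.toLin' (x : Matrix (Fin n) (Fin n) F) - 1) = perp q (Submodule.span F {u}) := by
    ext z
    rw [LinearMap.mem_ker, LinearMap.sub_apply, sub_eq_zero, Matrix.toLin'_apply, Module.End.one_apply, hxv, mem_perp_span hF]
    simp only [Set.mem_singleton_iff, forall_eq]
    constructor
    · intro h
      have h1 : (a * Cfsg.hermForm n F q z u) • u = 0 := by
        have := congrArg (fun t => t - z) h
        simpa using this
      rcases smul_eq_zero.mp h1 with h2 | h2
      · exact (mul_eq_zero.mp h2).resolve_left ha0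
      · exact absurd h2 hu0
    · intro h
      rw [h, mul_zero, zero_smul, add_zero]
  refine ⟨x, ⟨hxG, hxS⟩, ?_, ?_⟩
  · have hk : ∀ k : ℕ, ∀ z, ((x ^ k : GL (Fin n) F) : Matrix (Fin n) (Fin n) F) *ᵥ z = z + ((k : F) * (a * Cfsg.hermForm n F q z u)) • u := by
      intro k
      induction k with
      | zero => intro z; simp
      | succ k ih =>
        intro z
        rw [pow_succ, Units.val_mul, ← Matrix.mulVec_mulVec, hxv, ih, hermForm_add_left, hermForm_smul_left, huu, mul_zero, add_zero, add_assoc, ← add_smul]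
        congr 2
        push_cast
        ring
    apply Units.ext
    apply ext_single
    intro i
    rw [hk, CharP.cast_eq_zero, zero_mul, zero_smul, add_zero, Units.val_one, Matrix.one_mulVec]
  · rw [hker]
    have h1 := Uni.finrank_perp hF (Submodule.span F {u})
    rwa [finrank_span_singleton hu0] at h1

end

/-- eigenspaces of diagonal matrices -/
theorem finrank_ker_diagonal {ι : Type*} [Fintype ι] [DecidableEq ι] {F : Type*} [Field F] (d : ι → F) (c : F) :
    finrank F (LinearMap.ker (Matrix.toLin' (Matrix.diagonal d) - c • 1)) = Nat.card {i // d i = c} := by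
  classical
  have h1 : Matrix.toLin' (Matrix.diagonal d) - c • 1 = (Matrix.diagonal (fun i => d i - c)).mulVecLin := by
    apply LinearMap.ext
    intro v
    funext i
    rw [LinearMap.sub_apply, LinearMap.smul_apply, Module.End.one_apply, Matrix.toLin'_apply, Matrix.mulVecLin_apply, Pi.sub_apply, Pi.smul_apply,
      Matrix.mulVec_diagonal, Matrix.mulVec_diagonal, sub_mul, smul_eq_mul]
  have h2 := LinearMap.finrank_range_add_finrank_ker (Matrix.toLin' (Matrix.diagonal d) - c • (1 : (ι → F) →ₗ[F] (ι → F)))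
  have h3 : finrank F (LinearMap.range (Matrix.toLin' (Matrix.diagonal d) - c • (1 : (ι → F) →ₗ[F] (ι → F)))) = Fintype.card {i // d i - c ≠ 0} := by
    rw [h1]
    exact Matrix.rank_diagonal _
  rw [h3, finrank_fintype_fun_eq_card] at h2
  have h4 := Fintype.card_subtype_compl (fun i : ι => d i = c)
  have h5 : Fintype.card {i // d i - c ≠ 0} = Fintype.card {i // ¬ d i = c} := by
    apply Fintype.card_congr
    exact Equiv.subtypeEquivRight (fun i => by rw [Ne, sub_eq_zero])
  have h6 : Fintype.card {i // d i = c} ≤ Fintype.card ι := Fintype.card_subtype_le _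
  rw [Nat.card_eq_fintype_card]
  omega

end Cfsg.Agent.H99
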