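import Mathlib
import Cfsg.Agent.H99.FieldExtB
import Cfsg.Agent.H99.SympConj
import Cfsg.Agent.H99.UniElt

set_option autoImplicit false
set_option linter.unusedSectionVars false

/-! Elements of the symplectic groups for the field extension subgroups (helper99). -/

namespace Cfsg.Agent.H99.FX

open Module Matrix Cfsg.Agent.H99

set_option linter.style.haveILetI false
set_option linter.unusedSectionVars false

section
variable {F : Type*} [Field F] [Fintype F] {p : ℕ} [Fact p.Prime] [CharP F p] {d : ℕ}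

theorem mem_ker_iff {ι : Type} [Fintype ι] [DecidableEq ι] (y : Matrix ι ι F) (c : F) (v : ι → F) : v ∈ LinearMap.ker (Matrix.toLin' y - c • 1) ↔ y *ᵥ v = c • v := by
  rw [LinearMap.mem_ker, LinearMap.sub_apply, LinearMap.smul_apply, Module.End.one_apply, Matrix.toLin'_apply, sub_eq_zero]

/-- kernels of conjugates -/
theorem conj_ker {ι : Type} [Fintype ι] [DecidableEq ι] (x g : GL ι F) (c : F) :
    finrank F (LinearMap.ker (Matrix.toLin' ((g⁻¹ * x * g : GL ι F) : Matrix ι ι F) - c • 1)) =
    finrank F (LinearMap.ker (Matrix.toLin' (x : Matrix ι ι F) - c • 1)) := by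
  exact finrank_ker_conj (F := F) (V := ι → F) (W := ι → F)
    (Matrix.toLin' ((g⁻¹ * x * g : GL ι F) : Matrix ι ι F)) (Matrix.toLin' (x : Matrix ι ι F))
    (LinearEquiv.ofBijective (Matrix.toLin' (g : Matrix ι ι F)) (by
      rw [Function.bijective_iff_has_inverse]
      refine ⟨Matrix.toLin' ((g⁻¹ : GL ι F) : Matrix ι ι F), ?_, ?_⟩
      · intro v
        rw [Matrix.toLin'_apply, Matrix.toLin'_apply, Matrix.mulVec_mulVec, ← Units.val_mul, inv_mul_cancel, Units.val_one, Matrix.one_mulVec]
      · intro v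
        rw [Matrix.toLin'_apply, Matrix.toLin'_apply, Matrix.mulVec_mulVec, ← Units.val_mul, mul_inv_cancel, Units.val_one, Matrix.one_mulVec]))
    (by
      intro v
      simp only [LinearEquiv.ofBijective_apply, Matrix.toLin'_apply]
      rw [Matrix.mulVec_mulVec, Matrix.mulVec_mulVec, ← Units.val_mul, ← Units.val_mul]
      congr 2
      group) c

theorem not_scalar_of_ker {ι : Type} [Fintype ι] [DecidableEq ι] {x : Matrix ι ι F} {c : F} (h0 : 0 < finrank F (LinearMap.ker (Matrix.toLin' x - c • 1)))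
    (h1 : finrank F (LinearMap.ker (Matrix.toLin' x - c • 1)) < Fintype.card ι) : ∀ z : F, x ≠ z • (1 : Matrix ι ι F) := by
  intro z hz
  have h2 : Matrix.toLin' x - c • 1 = (z - c) • 1 := by
    rw [hz]
    apply LinearMap.ext
    intro v
    rw [LinearMap.sub_apply, LinearMap.smul_apply, LinearMap.smul_apply, Module.End.one_apply, Matrix.toLin'_apply, Matrix.smul_mulVec, Matrix.one_mulVec, sub_smul]
  rw [h2] at h0 h1
  by_cases h3 : z - c = 0
  · rw [h3, zero_smul, LinearMap.ker_zero, finrank_top, finrank_fintype_fun_eq_card] at h1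
    exact lt_irrefl _ h1
  · rw [LinearMap.ker_smul _ _ h3] at h0
    have h4 : LinearMap.ker (1 : (ι → F) →ₗ[F] (ι → F)) = ⊥ := LinearMap.ker_id
    rw [h4, finrank_bot] at h0
    exact lt_irrefl _ h0

/-- a symplectic transvection -/
theorem exists_transvection (hd : 0 < d) : ∃ x ∈ Cfsg.spGL d F, x ^ p = 1 ∧
    finrank F (LinearMap.ker (Matrix.toLin' (x : Matrix (Fin d ⊕ Fin d) (Fin d ⊕ Fin d) F) - (1 : F) • 1)) + 1 = 2 * d := by
  classical
  have hA := sympForm_altForm (F := F) d
  have hND := sympForm_ND (F := F) d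
  let u : Fin d ⊕ Fin d → F := Pi.single (Sum.inl ⟨0, hd⟩) 1
  have hu0 : u ≠ 0 := by
    intro h
    have := congrFun h (Sum.inl ⟨0, hd⟩)
    simp [u] at this
  let T : F → (Fin d ⊕ Fin d → F) →ₗ[F] (Fin d ⊕ Fin d → F) := fun c =>
    { toFun := fun v => v + (c * Cfsg.sympForm d F v u) • u
      map_add' := fun v w => by rw [hA.add_left, mul_add, add_smul]; abel
      map_smul' := fun a v => by
        rw [hA.smul_left, RingHom.id_apply, smul_add, smul_smul]
        congr 2
        ring }
  have hT : ∀ c v, T c v = v + (c * Cfsg.sympForm d F v u) • u := fun _ _ => rfl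
  have hBT : ∀ c v, Cfsg.sympForm d F (T c v) u = Cfsg.sympForm d F v u := by
    intro c v
    rw [hT, hA.add_left, hA.smul_left, hA.alt, mul_zero, add_zero]
  have hTT : ∀ a b v, T a (T b v) = T (a + b) v := by
    intro a b v
    rw [hT a, hBT, hT, hT, add_mul, add_smul, add_assoc, add_comm ((b * _) • u)]
  have hT0 : ∀ v, T 0 v = v := by
    intro v
    rw [hT, zero_mul, zero_smul, add_zero]
  let e : (Fin d ⊕ Fin d → F) ≃ₗ[F] (Fin d ⊕ Fin d → F) :=
    LinearEquiv.ofLinear (T 1) (T (-1)) (by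
      apply LinearMap.ext
      intro v
      rw [LinearMap.comp_apply, hTT, add_neg_cancel, hT0]
      rfl) (by
      apply LinearMap.ext
      intro v
      rw [LinearMap.comp_apply, hTT, neg_add_cancel, hT0]
      rfl)
  have he : ∀ v, e v = T 1 v := fun _ => rfl
  obtain ⟨x, hx, hxv⟩ := exists_spGL_of_equiv e (by
    intro a b
    rw [he, he, hT 1 a, hT 1 b, hA.add_left, hA.add_right, hA.add_right, hA.smul_left, hA.smul_left, hA.smul_right, hA.smul_right, hA.alt, hA.skew u b]
    ring)
  refine ⟨x, hx, ?_, ?_⟩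
  · have hk : ∀ (k : ℕ) v, ((x ^ k : GL (Fin d ⊕ Fin d) F) : Matrix (Fin d ⊕ Fin d) (Fin d ⊕ Fin d) F) *ᵥ v = T k v := by
      intro k
      induction k with
      | zero =>
        intro v
        rw [pow_zero, Units.val_one, Matrix.one_mulVec, Nat.cast_zero, hT0]
      | succ k ih =>
        intro v
        rw [pow_succ', Units.val_mul, ← Matrix.mulVec_mulVec, ih, hxv, he, hTT]
        congr 2
        push_cast
        ring
    apply Units.ext
    apply mat_ext'
    intro v
    rw [hk, CharP.cast_eq_zero, hT0, Units.val_one, Matrix.one_mulVec]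
  · have h1 : LinearMap.ker (Matrix.toLin' (x : Matrix (Fin d ⊕ Fin d) (Fin d ⊕ Fin d) F) - (1 : F) • 1) = orth hA.eform.oform (Submodule.span F {u}) := by
      ext v
      rw [mem_ker_iff, one_smul, hxv, he, hT, mem_orth_span]
      simp only [Set.mem_singleton_iff, forall_eq, one_mul]
      constructor
      · intro h
        have h3 : (Cfsg.sympForm d F v u) • u = 0 := by
          have := congrArg (fun w => w - v) h
          simpa using this
        exact (smul_eq_zero.mp h3).resolve_right hu0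
      · intro h
        rw [h, zero_smul, add_zero]
    rw [h1]
    have h2 := hA.eform.finrank_add_orth hND (Submodule.span F {u})
    rw [finrank_span_singleton hu0, finrank_fintype_fun_eq_card, Fintype.card_sum, Fintype.card_fin] at h2
    omega

/-- minus one on a plane -/
theorem exists_plane (h2 : (2 : F) ≠ 0) (hd : 0 < d) : ∃ x ∈ Cfsg.spGL d F, x ^ 2 = 1 ∧
    finrank F (LinearMap.ker (Matrix.toLin' (x : Matrix (Fin d ⊕ Fin d) (Fin d ⊕ Fin d) F) - (-1 : F) • 1)) = 2 ∧
    finrank F (LinearMap.ker (Matrix.toLin' (x : Matrix (Fin d ⊕ Fin d) (Fin d ⊕ Fin d) F) - (1 : F) • 1)) + 2 = 2 * d := by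
  classical
  let i₀ : Fin d := ⟨0, hd⟩
  let δ : Fin d ⊕ Fin d → F := Sum.elim (fun i => if i = i₀ then -1 else 1) (fun i => if i = i₀ then -1 else 1)
  have hδ : ∀ s, δ s * δ s = 1 := by
    rintro (i | i)
    · change (if i = i₀ then (-1 : F) else 1) * (if i = i₀ then (-1 : F) else 1) = 1
      split_ifs <;> ring
    · change (if i = i₀ then (-1 : F) else 1) * (if i = i₀ then (-1 : F) else 1) = 1
      split_ifs <;> ring
  have hδ0 : ∀ s, δ s ≠ 0 := by
    intro s h
    have := hδ s
    rw [h, zero_mul] at this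
    exact zero_ne_one this
  let x : GL (Fin d ⊕ Fin d) F := ⟨Matrix.diagonal δ, Matrix.diagonal δ, by rw [Matrix.diagonal_mul_diagonal]; simp [hδ], by rw [Matrix.diagonal_mul_diagonal]; simp [hδ]⟩
  have hx : (x : Matrix (Fin d ⊕ Fin d) (Fin d ⊕ Fin d) F) = Matrix.diagonal δ := rfl
  have hne : (-1 : F) ≠ 1 := by
    intro h
    apply h2
    linear_combination -h
  have hxG : x ∈ Cfsg.spGL d F := by
    rw [mem_spGL', hx]
    intro u v
    rw [sympForm_eq, sympForm_eq]
    apply Finset.sum_congr rfl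
    intro i _
    rw [Matrix.mulVec_diagonal, Matrix.mulVec_diagonal, Matrix.mulVec_diagonal, Matrix.mulVec_diagonal]
    have h3 := hδ (Sum.inl i)
    have h4 : δ (Sum.inr i) = δ (Sum.inl i) := rfl
    rw [h4]
    linear_combination (u (Sum.inr i) * v (Sum.inl i) - u (Sum.inl i) * v (Sum.inr i)) * h3
  have hx2 : x ^ 2 = 1 := by
    apply Units.ext
    rw [pow_two, Units.val_mul, hx, Matrix.diagonal_mul_diagonal, Units.val_one]
    simp [hδ]
  have hker : finrank F (LinearMap.ker (Matrix.toLin' (x : Matrix (Fin d ⊕ Fin d) (Fin d ⊕ Fin d) F) - (-1 : F) • 1)) = 2 := by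
    rw [hx, finrank_ker_diagonal]
    have h3 : Nat.card {s // δ s = -1} = Nat.card (Unit ⊕ Unit) := by
      apply Nat.card_congr
      refine
        { toFun := fun s => Sum.map (fun _ => ()) (fun _ => ()) s.1
          invFun := fun s => ⟨Sum.map (fun _ => i₀) (fun _ => i₀) s, by
            rcases s with i | i
            · change (if i₀ = i₀ then (-1 : F) else 1) = -1
              exact if_pos rfl
            · change (if i₀ = i₀ then (-1 : F) else 1) = -1
              exact if_pos rfl⟩
          left_inv := ?_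
          right_inv := ?_ }
      · rintro ⟨i | i, hi⟩
        · apply Subtype.ext
          change Sum.inl i₀ = Sum.inl i
          by_contra hcon
          have h4 : i ≠ i₀ := fun h => hcon (by rw [h])
          change (if i = i₀ then (-1 : F) else 1) = -1 at hi
          rw [if_neg h4] at hi
          exact hne hi.symm
        · apply Subtype.ext
          change Sum.inr i₀ = Sum.inr i
          by_contra hcon
          have h4 : i ≠ i₀ := fun h => hcon (by rw [h])
          change (if i = i₀ then (-1 : F) else 1) = -1 at hi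
          rw [if_neg h4] at hi
          exact hne hi.symm
      · rintro (i | i) <;> rfl
    rw [h3]
    simp
  refine ⟨x, hxG, hx2, hker, ?_⟩
  have h3 := (invol_eig h2 hxG (fun v => by
    rw [Matrix.mulVec_mulVec, ← pow_two, ← Units.val_pow_eq_pow_val, hx2, Units.val_one, Matrix.one_mulVec])).1
  have h4 := Submodule.finrank_add_eq_of_isCompl h3
  rw [hker, finrank_fintype_fun_eq_card, Fintype.card_sum, Fintype.card_fin] at h4
  omega

variable {E : Type*} [Field E] [Algebra F E] [FiniteDimensional F E]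

/-- eigenspaces of linear elements -/
theorem dvd_ker (φ : E →ₐ[F] Matrix (Fin d ⊕ Fin d) (Fin d ⊕ Fin d) F) {y : GL (Fin d ⊕ Fin d) F}
    (hcomm : ∀ e : E, (y : Matrix (Fin d ⊕ Fin d) (Fin d ⊕ Fin d) F) * φ e = φ e * (y : Matrix (Fin d ⊕ Fin d) (Fin d ⊕ Fin d) F)) (c : F) :
    finrank F E ∣ finrank F (LinearMap.ker (Matrix.toLin' (y : Matrix (Fin d ⊕ Fin d) (Fin d ⊕ Fin d) F) - c • 1)) := by
  letI := modOf φ
  haveI := modOf_tower φ
  let C : Submodule E (Fin d ⊕ Fin d → F) :=
    { carrier := {v | (y : Matrix (Fin d ⊕ Fin d) (Fin d ⊕ Fin d) F) *ᵥ v = c • v}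
      add_mem' := by
        intro a b ha hb
        change _ *ᵥ (a + b) = c • (a + b)
        rw [Matrix.mulVec_add, ha, hb, smul_add]
      zero_mem' := by
        change _ *ᵥ 0 = c • (0 : Fin d ⊕ Fin d → F)
        rw [Matrix.mulVec_zero, smul_zero]
      smul_mem' := by
        intro e v hv
        change _ *ᵥ (e • v) = c • (e • v)
        rw [modOf_smul, Matrix.mulVec_mulVec, hcomm, ← Matrix.mulVec_mulVec, hv, Matrix.mulVec_smul] }
  let e : LinearMap.ker (Matrix.toLin' (y : Matrix (Fin d ⊕ Fin d) (Fin d ⊕ Fin d) F) - c • 1) ≃ₗ[F] C :=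
    { toFun := fun v => ⟨v.1, (mem_ker_iff _ _ _).mp v.2⟩
      invFun := fun v => ⟨v.1, (mem_ker_iff _ _ _).mpr v.2⟩
      map_add' := fun _ _ => rfl
      map_smul' := fun _ _ => rfl
      left_inv := fun _ => rfl
      right_inv := fun _ => rfl }
  rw [e.finrank_eq, ← Module.finrank_mul_finrank F E C]
  exact Dvd.intro _ rfl

end

section
variable {F : Type*} [Field F] [Fintype F] {p : ℕ} [Fact p.Prime] [CharP F p] {d : ℕ}

/-- the one-block element -/
theorem exists_block {r : ℕ} [Fact r.Prime] (hr2 : r ≠ 2) (hrp : r ≠ p) (hb : blk r (Fintype.card F) ≤ 2 * d) :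
    ∃ x ∈ Cfsg.spGL d F, x ^ r = 1 ∧
      finrank F (LinearMap.ker (Matrix.toLin' (x : Matrix (Fin d ⊕ Fin d) (Fin d ⊕ Fin d) F) - (1 : F) • 1)) + blk r (Fintype.card F) = 2 * d := by
  obtain ⟨x, hx1, hx2⟩ := exists_symp_elt (F := F) (d := d) hr2 hrp 1 (by rw [one_mul]; exact hb)
  obtain ⟨x', hx', hxx⟩ := exists_spGL_of_symp x
  refine ⟨x', hx', ?_, ?_⟩
  · apply Units.ext
    rw [Units.val_pow_eq_pow_val, hxx, ← symp_coe_pow, hx1]
    rfl
  · rw [hxx, one_smul]
    rw [one_mul] at hx2
    exact hx2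

theorem blk_le {r : ℕ} [Fact r.Prime] {Q : ℕ} (hQ : ¬ r ∣ Q) (hr2 : r ≠ 2) : blk r Q ≤ r - 1 := by
  have hr : r.Prime := Fact.out
  have h1 := orderOf_dvd_sub_one hQ
  have hro : Odd r := hr.odd_of_ne_two hr2
  have hr1 := hr.two_le
  unfold blk
  split_ifs with h
  · exact Nat.le_of_dvd (by omega) h1
  · rw [Nat.not_even_iff_odd] at h
    have h2 : 2 ∣ r - 1 := by
      obtain ⟨m, hm⟩ := hro
      exact ⟨m, by omega⟩
    have h3 : 2 * orderOf ((Q : ℕ) : ZMod r) ∣ r - 1 :=
      Nat.Coprime.mul_dvd_of_dvd_of_dvd ((Nat.coprime_two_left).mpr h) h2 h1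
    exact Nat.le_of_dvd (by omega) h3

end

end Cfsg.Agent.H99.FX
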