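import Cfsg.Agent.H99.FieldExtC
import Cfsg.Agent.AschCases.FieldSub

set_option autoImplicit false
open scoped Matrix MatrixGroups
open Module Matrix

namespace Cfsg.Agent.H99.FX

section
variable {ι : Type} [Fintype ι] [DecidableEq ι] {F : Type*} [Field F] {K : Subalgebra F (Matrix ι ι F)}

/-- criterion for membership in the normalizer of a subalgebra -/
theorem mem_normalizer_iff (g : GL ι F) : g ∈ Cfsg.Geo.subalgebraNormalizer K ↔
    ∀ k : K, ∃ k' : K, (g : Matrix ι ι F) * (k : Matrix ι ι F) = (k' : Matrix ι ι F) * (g : Matrix ι ι F) := by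
  constructor
  · intro h k
    refine ⟨⟨_, (h k).mp k.2⟩, ?_⟩
    change (g : Matrix ι ι F) * (k : Matrix ι ι F) = (g : Matrix ι ι F) * (k : Matrix ι ι F) * ((g⁻¹ : GL ι F) : Matrix ι ι F) * (g : Matrix ι ι F)
    rw [mul_assoc ((g : Matrix ι ι F) * (k : Matrix ι ι F)), ← Units.val_mul, inv_mul_cancel, Units.val_one, mul_one]
  intro h
  have h1 : ∀ k ∈ K, (g : Matrix ι ι F) * k * ((g⁻¹ : GL ι F) : Matrix ι ι F) ∈ K := by
    intro k hk
    obtain ⟨⟨k', hk'⟩, h2⟩ := h ⟨k, hk⟩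
    simp only at h2
    rw [h2, mul_assoc, ← Units.val_mul, mul_inv_cancel, Units.val_one, mul_one]
    exact hk'
  let c : K →ₗ[F] K :=
    { toFun := fun k => ⟨_, h1 k k.2⟩
      map_add' := fun a b => by
        apply Subtype.ext
        change _ * ((a : Matrix ι ι F) + b) * _ = _ * (a : Matrix ι ι F) * _ + _ * (b : Matrix ι ι F) * _
        rw [mul_add, add_mul]
      map_smul' := fun r a => by
        apply Subtype.ext
        change _ * (r • (a : Matrix ι ι F)) * _ = r • (_ * (a : Matrix ι ι F) * _)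
        rw [mul_smul_comm, smul_mul_assoc] }
  have hci : Function.Injective c := by
    intro a b hab
    apply Subtype.ext
    have h2 : (g : Matrix ι ι F) * (a : Matrix ι ι F) * ((g⁻¹ : GL ι F) : Matrix ι ι F)
      = (g : Matrix ι ι F) * (b : Matrix ι ι F) * ((g⁻¹ : GL ι F) : Matrix ι ι F) :=
      congrArg Subtype.val hab
    have h3 := congrArg (fun M => ((g⁻¹ : GL ι F) : Matrix ι ι F) * M * (g : Matrix ι ι F)) h2
    simpa [mul_assoc, ← Units.val_mul, ← mul_assoc] using h3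
  have hcs : Function.Surjective c := (LinearMap.injective_iff_surjective).mp hci
  intro k
  constructor
  · exact h1 k
  · intro hk
    obtain ⟨k', hk'⟩ := hcs ⟨_, hk⟩
    have h2 : (g : Matrix ι ι F) * (k' : Matrix ι ι F) * ((g⁻¹ : GL ι F) : Matrix ι ι F)
      = (g : Matrix ι ι F) * k * ((g⁻¹ : GL ι F) : Matrix ι ι F) :=
      congrArg Subtype.val hk'
    have h3 := congrArg (fun M => ((g⁻¹ : GL ι F) : Matrix ι ι F) * M * (g : Matrix ι ι F)) h2
    have h4 : (k' : Matrix ι ι F) = k := by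
      simpa [mul_assoc, ← Units.val_mul, ← mul_assoc] using h3
    rw [← h4]
    exact k'.2

end

universe u
/-- A field subalgebra of the matrix algebra as an abstract extension field. -/
theorem exists_field {ι : Type} [Fintype ι] [DecidableEq ι] [Nonempty ι] {F : Type u} [Field F] {r : ℕ} {K : Subalgebra F (Matrix ι ι F)}
    (hK : Cfsg.Geo.IsFieldSubalgebra r K) : ∃ (E : Type u) (_ : Field E) (_ : Algebra F E) (φ : E →ₐ[F] Matrix ι ι F),
      FiniteDimensional F E ∧ finrank F E = r ∧ ∀ m, m ∈ K ↔ ∃ e, φ e = m := by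
  refine ⟨K, AschCases.fieldOf hK, (inferInstanceAs (Algebra F K)), K.val, ?_, hK.finrank_eq, ?_⟩
  · exact (inferInstance : FiniteDimensional F K)
  · intro m
    exact ⟨fun h => ⟨⟨m, h⟩, rfl⟩, fun ⟨e, he⟩ => he ▸ e.2⟩

/-- membership in the normalizer in terms of an abstract field -/
theorem mem_normalizer_iff_of {ι : Type} [Fintype ι] [DecidableEq ι] {F : Type u} [Field F] {K : Subalgebra F (Matrix ι ι F)}
    {E : Type*} [Field E] [Algebra F E] {φ : E →ₐ[F] Matrix ι ι F} (hφ : ∀ m, m ∈ K ↔ ∃ e, φ e = m) (g : GL ι F) :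
    g ∈ Cfsg.Geo.subalgebraNormalizer K ↔ ∀ e : E, ∃ e' : E, (g : Matrix ι ι F) * φ e = φ e' * (g : Matrix ι ι F) := by
  rw [mem_normalizer_iff]
  constructor
  · intro h e
    obtain ⟨⟨k', hk'⟩, h1⟩ := h ⟨φ e, (hφ _).mpr ⟨e, rfl⟩⟩
    obtain ⟨e', rfl⟩ := (hφ _).mp hk'
    exact ⟨e', h1⟩
  · rintro h ⟨k, hk⟩
    obtain ⟨e, rfl⟩ := (hφ _).mp hk
    obtain ⟨e', he'⟩ := h e
    exact ⟨⟨φ e', (hφ _).mpr ⟨e', rfl⟩⟩, he'⟩

end Cfsg.Agent.H99.FX
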