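import Mathlib
import Cfsg.Agent.H99.FieldExtD
import Cfsg.Agent.H98.UniSim
import Cfsg.Agent.H99.UniEig
import Cfsg.Agent.H99.IsoSub

set_option autoImplicit false
set_option linter.unusedVariables false
set_option linter.style.haveILetI false

/-! Field extension subgroups of unitary type in symplectic groups (helper99). -/

namespace Cfsg.Agent.H99.FX

open Module Matrix Cfsg.Agent.H99

section adj
variable {F : Type*} [Field F]
variable {E : Type*} [Field E] [Algebra F E]

/-- The adjoint map on a field closed under adjoints. -/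
theorem exists_adj_aut {ι : Type} [Fintype ι] [DecidableEq ι] [Nonempty ι] {B : (ι → F) → (ι → F) → F} (hA : AltForm B) (hND : ND B (⊤ : Submodule F (ι → F)))
    (φ : E →ₐ[F] Matrix ι ι F)
    (hac : ∀ e : E, ∃ e' : E, ∀ u v, B (φ e *ᵥ u) v = B u (φ e' *ᵥ v)) :
    ∃ σ : E ≃ₐ[F] E, (∀ e, σ (σ e) = e) ∧ ∀ (e : E) u v, B u (φ e *ᵥ v) = B (φ (σ e) *ᵥ u) v := by
  choose s hs using hac
  have hinj : Function.Injective φ := φ.toRingHom.injective
  have huniq : ∀ a b : E, (∀ u v, B u (φ a *ᵥ v) = B u (φ b *ᵥ v)) → a = b := by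
    intro a b h
    apply hinj
    apply mat_ext'
    intro v
    rw [← sub_eq_zero]
    apply hND _ Submodule.mem_top
    intro u _
    rw [hA.skew, hA.eform.sub_right, h, sub_self, neg_zero]
  have h1 : s 1 = 1 := by
    apply huniq
    intro u v
    rw [← hs, map_one, Matrix.one_mulVec, Matrix.one_mulVec]
  have hmul : ∀ a b, s (a * b) = s a * s b := by
    intro a b
    apply huniq
    intro u v
    rw [← hs, mul_comm (s a), map_mul, map_mul, ← Matrix.mulVec_mulVec, ← Matrix.mulVec_mulVec, hs, hs]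
  have hadd : ∀ a b, s (a + b) = s a + s b := by
    intro a b
    apply huniq
    intro u v
    rw [← hs, map_add, map_add, Matrix.add_mulVec, Matrix.add_mulVec, hA.add_left, hs, hs, hA.add_right]
  have halg : ∀ c : F, s (algebraMap F E c) = algebraMap F E c := by
    intro c
    apply huniq
    intro u v
    rw [← hs, AlgHom.commutes, Algebra.algebraMap_eq_smul_one, Matrix.smul_mulVec, Matrix.smul_mulVec, Matrix.one_mulVec, Matrix.one_mulVec,
      hA.smul_left, hA.smul_right]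
  have hss : ∀ a, s (s a) = a := by
    intro a
    apply huniq
    intro u v
    rw [← hs, hA.skew, ← hs, ← hA.skew]
  let s' : E →ₐ[F] E :=
    { toFun := s
      map_one' := h1
      map_mul' := hmul
      map_zero' := by
        have := hadd 0 0
        rw [add_zero] at this
        exact left_eq_add.mp this
      map_add' := hadd
      commutes' := halg }
  refine ⟨AlgEquiv.ofAlgHom s' s' (by ext a; exact hss a) (by ext a; exact hss a), hss, ?_⟩
  intro e u v
  change _ = B (φ (s e) *ᵥ u) v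
  rw [hs, hss]

end adj

section
variable {F : Type*} [Field F] [Fintype F]
variable {E : Type*} [Field E] [Algebra F E] [FiniteDimensional F E]

theorem aut_frob (hkE : finrank F E = 2) {σ : E ≃ₐ[F] E} (hσ2 : ∀ e, σ (σ e) = e) (hσ : ∃ a, σ a ≠ a) (a : E) : σ a = a ^ Fintype.card F := by
  have hEfin : Finite E := Module.finite_of_finite F
  have : Fintype E := Fintype.ofFinite E
  obtain ⟨q, hq, hs⟩ := Asch.invol_eq_pow (F := E) (σ := σ.toRingEquiv) hσ hσ2
  have h1 := Module.card_eq_pow_finrank (K := F) (V := E)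
  rw [hkE, hq] at h1
  have h2 : q = Fintype.card F := Nat.pow_left_injective (n := 2) (by norm_num) h1
  rw [← h2]
  exact hs a

theorem exists_anti {σ : E ≃ₐ[F] E} (hσ2 : ∀ e, σ (σ e) = e) (hσ : ∃ a, σ a ≠ a) : ∃ ε : E, ε ≠ 0 ∧ σ ε = -ε := by
  obtain ⟨a, ha⟩ := hσ
  refine ⟨a - σ a, sub_ne_zero.mpr (Ne.symm ha), ?_⟩
  rw [map_sub, hσ2]
  ring

/-- A non-degenerate skew-hermitian form is a multiple of the standard hermitian form in a suitable basis. -/
theorem exists_herm_equiv {V : Type*} [AddCommGroup V] [Module E V] [FiniteDimensional E V] {g : V → V → E} {σ : E ≃ₐ[F] E}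
    (hg : EForm (σ : E →+* E) (-1) g) (hnd : ND g (⊤ : Submodule E V)) (hσ2 : ∀ e, σ (σ e) = e) (hσ : ∃ a, σ a ≠ a)
    {n : ℕ} (hd : finrank E V = n) (hkE : finrank F E = 2) :
    ∃ (ε : E) (T : (Fin n → E) ≃ₗ[E] V), ε ≠ 0 ∧ σ ε = -ε ∧ ∀ u v, g (T u) (T v) = ε * Cfsg.hermForm n E (Fintype.card F) u v := by
  classical
  have hEfin : Finite E := Module.finite_of_finite F
  have : Fintype E := Fintype.ofFinite E
  obtain ⟨ε, hε0, hε⟩ := exists_anti hσ2 hσ
  let T₀ : (Fin n → E) ≃ₗ[E] V := (finBasisOfFinrankEq E V hd).equivFun.symm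
  have hf : Cfsg.Geo.IsUnitaryForm (σ.toRingEquiv) (fun u v => ε * g (T₀ u) (T₀ v)) := by
    refine ⟨?_, hσ2, ?_, ?_, ?_, ?_⟩
    · intro h
      obtain ⟨a, ha⟩ := hσ
      apply ha
      exact congrArg (fun s : E ≃+* E => s a) h
    · intro x y v
      rw [map_add, hg.add_left, mul_add]
    · intro c x v
      rw [map_smul, hg.smul_left]
      ring
    · intro v w
      change _ = σ (ε * g (T₀ w) (T₀ v))
      rw [map_mul, hε, hg.symm (T₀ w) (T₀ v)]
      change _ = -ε * σ (g (T₀ w) (T₀ v))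
      change ε * (-1 * σ (g (T₀ w) (T₀ v))) = _
      ring
    · intro v hv
      constructor
      · by_contra h
        push Not at h
        apply hv
        have h1 : T₀ v = 0 := by
          apply hnd _ Submodule.mem_top
          intro w _
          obtain ⟨w', rfl⟩ := T₀.surjective w
          rw [hg.symm (T₀ w') (T₀ v), (mul_eq_zero.mp (h w')).resolve_left hε0, map_zero, mul_zero]
        exact (LinearEquiv.map_eq_zero_iff _).mp h1
      · by_contra h
        push Not at h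
        apply hv
        have h1 : T₀ v = 0 := by
          apply hnd _ Submodule.mem_top
          intro w _
          obtain ⟨w', rfl⟩ := T₀.surjective w
          exact (mul_eq_zero.mp (h w')).resolve_left hε0
        exact (LinearEquiv.map_eq_zero_iff _).mp h1
  obtain ⟨q, hq, hs, S, hS⟩ := H98.UniMax.exists_std_form hf
  have h1 := Module.card_eq_pow_finrank (K := F) (V := E)
  rw [hkE, hq] at h1
  have h2 : q = Fintype.card F := Nat.pow_left_injective (n := 2) (by norm_num) h1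
  rw [h2] at hS
  have hu : Function.Bijective (Matrix.toLin' (S : Matrix (Fin n) (Fin n) E)) := by
    refine ⟨?_, ?_⟩
    · intro a b hab
      have h3 := congrArg (fun v => ((S⁻¹ : GL (Fin n) E) : Matrix (Fin n) (Fin n) E) *ᵥ v) hab
      simp only [Matrix.toLin'_apply, Matrix.mulVec_mulVec] at h3
      rw [← Units.val_mul, inv_mul_cancel, Units.val_one, Matrix.one_mulVec, Matrix.one_mulVec] at h3
      exact h3
    · intro b
      refine ⟨((S⁻¹ : GL (Fin n) E) : Matrix (Fin n) (Fin n) E) *ᵥ b, ?_⟩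
      rw [Matrix.toLin'_apply, Matrix.mulVec_mulVec, ← Units.val_mul, mul_inv_cancel, Units.val_one, Matrix.one_mulVec]
  refine ⟨ε⁻¹, (LinearEquiv.ofBijective _ hu).trans T₀, inv_ne_zero hε0, by rw [map_inv₀, hε, inv_neg], ?_⟩
  intro u v
  rw [← hS u v, inv_mul_cancel_left₀ hε0]
  rfl

end

section
variable {F : Type*} [Field F] [Fintype F] {p : ℕ} [Fact p.Prime] [CharP F p] {d : ℕ}
variable {E : Type*} [Field E] [Algebra F E] [FiniteDimensional F E]

/-- The space over the extension field as a trace of a multiple of the standard hermitian form. -/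
theorem exists_uni_model (φ : E →ₐ[F] Matrix (Fin d ⊕ Fin d) (Fin d ⊕ Fin d) F) {σ : E ≃ₐ[F] E} (hσ2 : ∀ e, σ (σ e) = e) (hσ : ∃ a, σ a ≠ a)
    (hkE : finrank F E = 2)
    (hadj : ∀ (e : E) u v, Cfsg.sympForm d F u (φ e *ᵥ v) = Cfsg.sympForm d F (φ (σ e) *ᵥ u) v) :
    letI := modOf φ
    ∃ (ε : E) (T : (Fin d → E) ≃ₗ[E] (Fin d ⊕ Fin d → F)), ε ≠ 0 ∧ σ ε = -ε ∧
      ∀ u v, Cfsg.sympForm d F (T u) (T v) = Algebra.trace F E (ε * Cfsg.hermForm d E (Fintype.card F) u v) := by
  letI := modOf φ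
  haveI := modOf_tower φ
  haveI : FiniteDimensional E (Fin d ⊕ Fin d → F) := FiniteDimensional.right F E (Fin d ⊕ Fin d → F)
  obtain ⟨g, hg1, hg2, hg3⟩ := exists_trace_form (E := E) (sympForm_altForm (F := F) d) (sympForm_ND d) σ hσ2
    (fun e u v => by rw [modOf_smul, modOf_smul]; exact hadj e u v)
  have hdim := Module.finrank_mul_finrank F E (Fin d ⊕ Fin d → F)
  rw [hkE, finrank_fintype_fun_eq_card, Fintype.card_sum, Fintype.card_fin] at hdim
  obtain ⟨ε, T, h0, h1, h2⟩ := exists_herm_equiv hg2 hg3 hσ2 hσ (n := d) (by omega) hkE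
  refine ⟨ε, T, h0, h1, ?_⟩
  intro u v
  have h3 := hg1 1 (T u) (T v)
  rw [one_smul, mul_one, h2] at h3
  exact h3

theorem core_index_ac (hd : 0 < d) (φ : E →ₐ[F] Matrix (Fin d ⊕ Fin d) (Fin d ⊕ Fin d) F) {σ : E ≃ₐ[F] E} (hσ2 : ∀ e, σ (σ e) = e) (hσ : ∃ a, σ a ≠ a)
    (hkE : finrank F E = 2)
    (hadj : ∀ (e : E) u v, Cfsg.sympForm d F u (φ e *ᵥ v) = Cfsg.sympForm d F (φ (σ e) *ᵥ u) v)
    {r : ℕ} [Fact r.Prime] (hrp : r ≠ p) (H : Subgroup (GL (Fin d ⊕ Fin d) F))
    (hH : ∀ g : GL (Fin d ⊕ Fin d) F, (∀ e : E, (g : Matrix (Fin d ⊕ Fin d) (Fin d ⊕ Fin d) F) * φ e = φ e * (g : Matrix (Fin d ⊕ Fin d) (Fin d ⊕ Fin d) F)) → g ∈ H)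
    (hΩ : r ∣ H.relIndex (Cfsg.spGL d F)) :
    ∃ i < d, r ∣ (if Even i then Fintype.card F ^ (i + 1) - 1 else Fintype.card F ^ (i + 1) + 1) := by
  classical
  have hr : r.Prime := Fact.out
  have hEfin : Finite E := Module.finite_of_finite F
  have : Fintype E := Fintype.ofFinite E
  set q := Fintype.card F with hq
  have hcE : Fintype.card E = q ^ 2 := by
    have := Module.card_eq_pow_finrank (K := F) (V := E)
    rw [this, hkE]
  obtain ⟨ε, T, hε0, hε, hform⟩ := exists_uni_model φ hσ2 hσ hkE hadj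
  letI := modOf φ
  haveI := modOf_tower φ
  let act : Cfsg.GU d E q →* Module.End E (Fin d → E) :=
    { toFun := fun A => Matrix.toLin' ((A : GL (Fin d) E) : Matrix (Fin d) (Fin d) E)
      map_one' := Matrix.toLin'_one
      map_mul' := fun A B => Matrix.toLin'_mul _ _ }
  have hact : Function.Injective act := by
    intro A B hAB
    apply Subtype.ext
    apply Units.ext
    exact Matrix.toLin'.injective hAB
  obtain ⟨ψ, hψ1, hψ2, hψ3⟩ := exists_hom_of_act φ act hact T
  have hψG : ∀ A, ψ A ∈ Cfsg.spGL d F := by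
    intro A
    rw [mem_spGL']
    intro u v
    obtain ⟨u', rfl⟩ := T.surjective u
    obtain ⟨v', rfl⟩ := T.surjective v
    rw [hψ2, hψ2, hform, hform]
    congr 2
    exact A.2 u' v'
  let ψ' : Cfsg.GU d E q →* Cfsg.spGL d F := ψ.codRestrict _ hψG
  have hq1 : 1 < q := Fintype.one_lt_card
  have hdvd : r ∣ q ^ (d ^ 2 - d * (d - 1) / 2) * ∏ i ∈ Finset.range d, (if Even i then q ^ (i + 1) - 1 else q ^ (i + 1) + 1) := by
    apply dvd_of_dvd_index (H.subgroupOf (Cfsg.spGL d F)) ψ'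
    · intro A B hAB
      apply hψ1
      exact congrArg Subtype.val hAB
    · intro A
      exact hH _ (fun e => hψ3 A e)
    · exact hΩ
    · rw [card_spGL, Cfsg.Agent.ClassSp.card_fin, Uni.card_GU hcE, ← hq]
      have h2 : ∏ i ∈ Finset.range d, (q ^ (2 * (i + 1)) - 1) = (∏ i ∈ Finset.range d, (if Even i then q ^ (i + 1) + 1 else q ^ (i + 1) - 1)) *
          ∏ i ∈ Finset.range d, (if Even i then q ^ (i + 1) - 1 else q ^ (i + 1) + 1) := by
        rw [← Finset.prod_mul_distrib]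
        apply Finset.prod_congr rfl
        intro i _
        have h3 : q ^ (2 * (i + 1)) - 1 = (q ^ (i + 1) + 1) * (q ^ (i + 1) - 1) := by
          rw [mul_comm 2, pow_mul]
          exact Nat.sq_sub_sq (q ^ (i + 1)) 1
        split_ifs
        · exact h3
        · rw [h3, mul_comm]
      have h4 : q ^ d ^ 2 = q ^ (d ^ 2 - d * (d - 1) / 2) * q ^ (d * (d - 1) / 2) := by
        rw [← pow_add, Nat.sub_add_cancel]
        calc d * (d - 1) / 2 ≤ d * (d - 1) := Nat.div_le_self _ _
          _ ≤ d * d := Nat.mul_le_mul_left _ (Nat.sub_le _ _)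
          _ = d ^ 2 := (sq d).symm
      rw [h2, h4]
      ring
  have hQ : ¬ r ∣ q := prime_not_dvd_card hrp
  rcases hr.dvd_mul.mp hdvd with h | h
  · exact absurd (hr.dvd_of_dvd_pow h) hQ
  · obtain ⟨i, hi, h1⟩ := (Prime.dvd_finsetProd_iff hr.prime _).mp h
    exact ⟨i, Finset.mem_range.mp hi, h1⟩

/-- An isometry of odd prime order commuting with the field in the non-self-dual case: the moved space is a sum of pairs. -/
theorem core_four_ac (φ : E →ₐ[F] Matrix (Fin d ⊕ Fin d) (Fin d ⊕ Fin d) F) {σ : E ≃ₐ[F] E} (hσ2 : ∀ e, σ (σ e) = e) (hσ : ∃ a, σ a ≠ a)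
    (hkE : finrank F E = 2)
    (hadj : ∀ (e : E) u v, Cfsg.sympForm d F u (φ e *ᵥ v) = Cfsg.sympForm d F (φ (σ e) *ᵥ u) v)
    {r : ℕ} [Fact r.Prime] (hrp : r ≠ p) (hsd : ¬ SelfDual r (Fintype.card F) (Fintype.card F ^ 2)) {y : GL (Fin d ⊕ Fin d) F} (hy : y ∈ Cfsg.spGL d F) (hyr : y ^ r = 1)
    (hcomm : ∀ e : E, (y : Matrix (Fin d ⊕ Fin d) (Fin d ⊕ Fin d) F) * φ e = φ e * (y : Matrix (Fin d ⊕ Fin d) (Fin d ⊕ Fin d) F)) :
    ∃ m, finrank F (LinearMap.ker (Matrix.toLin' (y : Matrix (Fin d ⊕ Fin d) (Fin d ⊕ Fin d) F) - 1)) +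
      m * (4 * orderOf ((Fintype.card F ^ 2 : ℕ) : ZMod r)) = 2 * d := by
  classical
  have hr : r.Prime := Fact.out
  have hEfin : Finite E := Module.finite_of_finite F
  have : Fintype E := Fintype.ofFinite E
  set q := Fintype.card F with hq
  have hcE : Fintype.card E = q ^ 2 := by
    have := Module.card_eq_pow_finrank (K := F) (V := E)
    rw [this, hkE]
  letI := modOf φ
  haveI := modOf_tower φ
  haveI : FiniteDimensional E (Fin d ⊕ Fin d → F) := FiniteDimensional.right F E (Fin d ⊕ Fin d → F)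
  obtain ⟨g, hg1, hg2, hg3⟩ := exists_trace_form (E := E) (sympForm_altForm (F := F) d) (sympForm_ND d) σ hσ2
    (fun e u v => by rw [modOf_smul, modOf_smul]; exact hadj e u v)
  have : CharP E p := charP_of_injective_algebraMap (algebraMap F E).injective p
  let f : (Fin d ⊕ Fin d → F) →ₗ[E] (Fin d ⊕ Fin d → F) :=
    { toFun := fun v => (y : Matrix (Fin d ⊕ Fin d) (Fin d ⊕ Fin d) F) *ᵥ v
      map_add' := fun u v => Matrix.mulVec_add _ _ _
      map_smul' := fun e v => by
        rw [modOf_smul, RingHom.id_apply, modOf_smul, Matrix.mulVec_mulVec, Matrix.mulVec_mulVec, hcomm] }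
  have hf : ∀ v, f v = (y : Matrix (Fin d ⊕ Fin d) (Fin d ⊕ Fin d) F) *ᵥ v := fun _ => rfl
  have hfr : f ^ r = 1 := by
    have hk : ∀ (k : ℕ) v, (f ^ k) v = ((y ^ k : GL (Fin d ⊕ Fin d) F) : Matrix (Fin d ⊕ Fin d) (Fin d ⊕ Fin d) F) *ᵥ v := by
      intro k
      induction k with
      | zero => intro v; rw [pow_zero, pow_zero, Units.val_one, Matrix.one_mulVec]; rfl
      | succ k ih =>
        intro v
        rw [pow_succ', pow_succ', Units.val_mul, ← Matrix.mulVec_mulVec, ← ih]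
        rfl
    apply LinearMap.ext
    intro v
    rw [hk, hyr, Units.val_one, Matrix.one_mulVec]
    rfl
  have hgf : ∀ u v, g (f u) (f v) = g u v := by
    intro u v
    apply trE_ext F
    intro k
    rw [← hg1, ← hg1, modOf_smul, modOf_smul, hf, hf, Matrix.mulVec_mulVec, ← hcomm, ← Matrix.mulVec_mulVec]
    exact mem_spGL'.mp hy _ _
  obtain ⟨-, hinv, hND2, hfix, hsum⟩ := split_fixed (p := p) (r := r) hrp hg2 hgf hfr (W := ⊤) (fun _ _ => Submodule.mem_top) hg3
  obtain ⟨hp, hpr, hpm⟩ := FiniteField.card F p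
  obtain ⟨S, hS1, hS2, hS3, hS4⟩ := exists_max_iso' (p := p) hrp hg2 (N := q) ⟨_, hpm⟩ (fun a => aut_frob hkE hσ2 hσ a) (by rw [hcE]; exact hsd)
    hgf hfr _ hinv hND2 hfix rfl
  obtain ⟨m, hm⟩ := dvd_finrank_of_fix (p := p) hrp hfr hS2 (fun v hv h => hfix v (hS1 hv) h)
  rw [hS4, hm, hcE, top_inf_eq] at hsum
  have h1 : finrank F (LinearMap.ker (Matrix.toLin' (y : Matrix (Fin d ⊕ Fin d) (Fin d ⊕ Fin d) F) - 1)) = finrank F (LinearMap.ker (f - 1)) := by
    let e : LinearMap.ker (Matrix.toLin' (y : Matrix (Fin d ⊕ Fin d) (Fin d ⊕ Fin d) F) - 1) ≃ₗ[F] LinearMap.ker (f - 1) :=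
      { toFun := fun v => ⟨v.1, v.2⟩
        invFun := fun v => ⟨v.1, v.2⟩
        map_add' := fun _ _ => rfl
        map_smul' := fun _ _ => rfl
        left_inv := fun _ => rfl
        right_inv := fun _ => rfl }
    exact e.finrank_eq
  have h2 := Module.finrank_mul_finrank F E (LinearMap.ker (f - 1))
  have hdim := Module.finrank_mul_finrank F E (Fin d ⊕ Fin d → F)
  rw [hkE, finrank_fintype_fun_eq_card, Fintype.card_sum, Fintype.card_fin] at hdim
  refine ⟨m, ?_⟩
  rw [h1, ← h2, hkE]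
  rw [finrank_top] at hsum
  rw [two_mul d, ← hdim, ← hsum]
  ring

end

end Cfsg.Agent.H99.FX
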