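import Mathlib
import Cfsg.Agent.H99.SubCount

set_option autoImplicit false

/-! Counting flags and complementary pairs (helper99). -/

namespace Cfsg.Agent.H99

open Module

section
variable {F V : Type*} [Field F] [Finite F] [AddCommGroup V] [Module F V] [FiniteDimensional F V]

omit [Finite F] [FiniteDimensional F V] in
/-- flags with top `W` -/
noncomputable def flagFiberEquiv (m k : ℕ) (W : {W : Submodule F V // finrank F W = k}) :
    {P : {P : Submodule F V × Submodule F V // P.1 ≤ P.2 ∧ finrank F P.1 = m ∧ finrank F P.2 = k} // P.1.2 = W.1} ≃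
      {U : Submodule F W.1 // finrank F U = m} where
  toFun P := ⟨P.1.1.1.comap W.1.subtype, by
    have h1 : P.1.1.1 ≤ W.1 := P.1.2.1.trans P.2.le
    have h2 : (P.1.1.1.comap W.1.subtype).map W.1.subtype = P.1.1.1 := by
      rw [Submodule.map_comap_subtype, inf_eq_right.mpr h1]
    have h3 := LinearEquiv.finrank_eq (Submodule.equivMapOfInjective W.1.subtype W.1.injective_subtype
      (P.1.1.1.comap W.1.subtype))
    rw [h3, h2, P.1.2.2.1]⟩
  invFun U := ⟨⟨(U.1.map W.1.subtype, W.1), Submodule.map_subtype_le _ _, by
    rw [← LinearEquiv.finrank_eq (Submodule.equivMapOfInjective W.1.subtype W.1.injective_subtype U.1)]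
    exact U.2, W.2⟩, rfl⟩
  left_inv P := by
    apply Subtype.ext
    apply Subtype.ext
    have h1 : P.1.1.1 ≤ W.1 := P.1.2.1.trans P.2.le
    apply Prod.ext
    · change (P.1.1.1.comap W.1.subtype).map W.1.subtype = P.1.1.1
      rw [Submodule.map_comap_subtype, inf_eq_right.mpr h1]
    · exact P.2.symm
  right_inv U := by
    apply Subtype.ext
    exact Submodule.comap_map_eq_of_injective W.1.injective_subtype U.1

/-- number of flags `U ≤ W` of dimensions `m ≤ k` -/
theorem card_flags_mul (m k : ℕ) (hmk : m ≤ k) (hk : k ≤ finrank F V) :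
    Nat.card {P : Submodule F V × Submodule F V // P.1 ≤ P.2 ∧ finrank F P.1 = m ∧ finrank F P.2 = k} *
      (qfac (Nat.card F) m * qfac (Nat.card F) (k - m) * qfac (Nat.card F) (finrank F V - k))
      = qfac (Nat.card F) (finrank F V) := by
  have hFV : Finite V := Module.finite_of_finite F
  have hfs : Finite (Submodule F V) := inferInstance
  have hfW : Fintype {W : Submodule F V // finrank F W = k} := Fintype.ofFinite _
  have hq2 : 2 ≤ Nat.card F := Finite.one_lt_card
  set q := Nat.card F with hq
  let g : {P : Submodule F V × Submodule F V // P.1 ≤ P.2 ∧ finrank F P.1 = m ∧ finrank F P.2 = k} →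
    {W : Submodule F V // finrank F W = k} := fun P => ⟨P.1.2, P.2.2.2⟩
  have h1 : Nat.card {P : Submodule F V × Submodule F V // P.1 ≤ P.2 ∧ finrank F P.1 = m ∧ finrank F P.2 = k}
      = ∑ W : {W : Submodule F V // finrank F W = k}, Nat.card {U : Submodule F W.1 // finrank F U = m} := by
    rw [← Nat.card_congr (Equiv.sigmaFiberEquiv g), Nat.card_sigma]
    apply Finset.sum_congr rfl
    intro W _
    rw [← Nat.card_congr (flagFiberEquiv m k W)]
    apply Nat.card_congr
    apply Equiv.subtypeEquivRight
    intro s
    exact Subtype.ext_iff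
  have h2 : ∀ W : {W : Submodule F V // finrank F W = k},
      Nat.card {U : Submodule F W.1 // finrank F U = m} * (qfac q m * qfac q (k - m)) = qfac q k := by
    intro W
    have := card_subspaces_mul (F := F) (V := W.1) m (by rw [W.2]; exact hmk)
    rwa [W.2] at this
  have h3 := card_subspaces_mul (F := F) (V := V) k hk
  rw [← hq] at h3
  have h4 : Nat.card {P : Submodule F V × Submodule F V // P.1 ≤ P.2 ∧ finrank F P.1 = m ∧ finrank F P.2 = k} *
      (qfac q m * qfac q (k - m)) = Nat.card {W : Submodule F V // finrank F W = k} * qfac q k := by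
    rw [h1, Finset.sum_mul, Finset.sum_congr rfl (fun W _ => h2 W), Finset.sum_const, smul_eq_mul, Finset.card_univ,
      Nat.card_eq_fintype_card]
  calc _ = (Nat.card {P : Submodule F V × Submodule F V // P.1 ≤ P.2 ∧ finrank F P.1 = m ∧ finrank F P.2 = k} *
      (qfac q m * qfac q (k - m))) * qfac q (finrank F V - k) := by ring
    _ = _ := by rw [h4, ← h3]; ring

end

end Cfsg.Agent.H99
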