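import Mathlib

set_option autoImplicit false

/-! Endomorphisms of prime order permuting the summands of a decomposition (helper99). -/

namespace Cfsg.Agent.H99

open Module

/-- an element moved by a permutation of prime order has an orbit of full length -/
lemma perm_pow_ne {X : Type*} {σ : Equiv.Perm X} {r : ℕ} (hr : r.Prime) (hσ : σ ^ r = 1) {x : X} (hx : σ x ≠ x) (s : ℕ)
    (hs0 : 0 < s) (hs : s < r) : (σ ^ s) x ≠ x := by
  intro h
  have h1 : Function.IsPeriodicPt σ s x := by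
    unfold Function.IsPeriodicPt
    rw [Equiv.Perm.iterate_eq_pow]
    exact h
  have h2 : Function.IsPeriodicPt σ r x := by
    unfold Function.IsPeriodicPt
    rw [Equiv.Perm.iterate_eq_pow, hσ]
    rfl
  have h3 := h2.gcd h1
  rw [Nat.coprime_of_lt_prime hs0.ne' hs hr] at h3
  exact hx h3

section
variable {F V : Type*} [Field F] [AddCommGroup V] [Module F V] {t : ℕ}

lemma map_pow_decomp {f : V →ₗ[F] V} {D : Fin t → Submodule F V} {σ : Equiv.Perm (Fin t)}
    (hσ : ∀ j, (D j).map f = D (σ j)) (s : ℕ) (j : Fin t) : (D j).map (f ^ s) = D ((σ ^ s) j) := by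
  induction s generalizing j with
  | zero =>
    rw [pow_zero, pow_zero]
    exact Submodule.map_id _
  | succ s ih =>
    rw [pow_succ, pow_succ, Module.End.mul_eq_comp, Submodule.map_comp, hσ, ih]
    rfl

lemma pow_apply_mem {f : V →ₗ[F] V} {D : Fin t → Submodule F V} {σ : Equiv.Perm (Fin t)}
    (hσ : ∀ j, (D j).map f = D (σ j)) (s : ℕ) (j : Fin t) {v : V} (hv : v ∈ D j) : (f ^ s) v ∈ D ((σ ^ s) j) := by
  rw [← map_pow_decomp hσ]
  exact ⟨v, hv, rfl⟩

lemma sigma_pow_eq_one {f : V →ₗ[F] V} {D : Fin t → Submodule F V} (hind : iSupIndep D) (hne : ∀ j, D j ≠ ⊥)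
    {σ : Equiv.Perm (Fin t)} (hσ : ∀ j, (D j).map f = D (σ j)) (r : ℕ) (c : F) (hc : c ≠ 0)
    (hf : f ^ r = c • (1 : V →ₗ[F] V)) : σ ^ r = 1 := by
  ext j
  have h1 := map_pow_decomp hσ r j
  rw [hf] at h1
  have h2 : (D j).map (c • (1 : V →ₗ[F] V)) = D j := by
    ext v
    constructor
    · rintro ⟨w, hw, rfl⟩
      exact (D j).smul_mem _ hw
    · intro hv
      exact ⟨c⁻¹ • v, (D j).smul_mem _ hv, by
        rw [LinearMap.smul_apply, Module.End.one_apply, smul_smul, mul_inv_cancel₀ hc, one_smul]⟩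
  rw [h2] at h1
  have h3 := iSupIndep.injective hind hne h1
  rw [← h3]
  rfl

/-- the trace map is injective on a moved summand -/
lemma trace_injective {f : V →ₗ[F] V} {D : Fin t → Submodule F V} (hind : iSupIndep D)
    {σ : Equiv.Perm (Fin t)} (hσ : ∀ j, (D j).map f = D (σ j)) {r : ℕ} (hr : r.Prime) (hσr : σ ^ r = 1) {j : Fin t}
    (hj : σ j ≠ j) {v : V} (hv : v ∈ D j) (h0 : ∑ s ∈ Finset.range r, (f ^ s) v = 0) : v = 0 := by
  obtain ⟨r', rfl⟩ : ∃ r', r = r' + 1 := ⟨r - 1, by have := hr.pos; omega⟩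
  rw [Finset.sum_range_succ'] at h0
  have h1 : ∑ s ∈ Finset.range r', (f ^ (s + 1)) v ∈ ⨆ j', ⨆ (_ : j' ≠ j), D j' := by
    apply Submodule.sum_mem
    intro s hs
    rw [Finset.mem_range] at hs
    have h2 : (σ ^ (s + 1)) j ≠ j := perm_pow_ne hr hσr hj (s + 1) (by omega) (by omega)
    exact Submodule.mem_iSup_of_mem _ (Submodule.mem_iSup_of_mem h2 (pow_apply_mem hσ _ _ hv))
  rw [pow_zero, Module.End.one_apply, ← eq_neg_iff_add_eq_zero] at h0
  rw [h0] at h1
  have h2 : v ∈ ⨆ j', ⨆ (_ : j' ≠ j), D j' := by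
    have := Submodule.neg_mem _ h1
    rwa [neg_neg] at this
  exact (Submodule.disjoint_def.mp (hind j)) v hv h2

/-- the sum of the other summands is a complement -/
lemma isCompl_others {D : Fin t → Submodule F V} (hind : iSupIndep D) (htop : iSup D = ⊤) (j : Fin t) :
    IsCompl (D j) (⨆ j', ⨆ (_ : j' ≠ j), D j') := by
  refine ⟨hind j, ?_⟩
  rw [codisjoint_iff, ← htop]
  exact (iSup_split_single D j).symm

lemma others_invariant {f : V →ₗ[F] V} {D : Fin t → Submodule F V}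
    {σ : Equiv.Perm (Fin t)} (hσ : ∀ j, (D j).map f = D (σ j)) {j : Fin t} (hj : σ j = j) :
    (⨆ j', ⨆ (_ : j' ≠ j), D j').map f ≤ ⨆ j', ⨆ (_ : j' ≠ j), D j' := by
  rw [Submodule.map_iSup]
  apply iSup_le
  intro j'
  rw [Submodule.map_iSup]
  apply iSup_le
  intro hj'
  rw [hσ]
  have h1 : σ j' ≠ j := fun h => hj' (σ.injective (h.trans hj.symm))
  exact le_iSup_of_le (σ j') (le_iSup_of_le h1 le_rfl)

end

end Cfsg.Agent.H99
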