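import Mathlib
import Cfsg.Prelude.Def_GeometricClasses
import Cfsg.Agent.H99.PrimeSL
import Cfsg.Agent.H99.PermDecomp

set_option autoImplicit false

/-! Decompositions permuted by elements of prime order: constructions (helper99). -/

namespace Cfsg.Agent.H99

open Module Polynomial

section
variable {F : Type*} [Field F] {n a t : ℕ}

/-- decomposition from a labelled basis -/
theorem exists_decomp_of_label {X : Type*} [Fintype X] (b : Basis X F (Fin n → F)) (f : (Fin n → F) →ₗ[F] (Fin n → F))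
    (hf : Function.Injective f) (τ : X → X) (hb : ∀ x, ∃ c : F, f (b x) = c • b (τ x)) (π : X → Fin t)
    (σ : Equiv.Perm (Fin t)) (hπ : ∀ x, π (τ x) = σ (π x)) (hcard : ∀ j, Nat.card {x // π x = j} = a)
    (ht : 2 ≤ t) (ha : 1 ≤ a) :
    ∃ D : Fin t → Submodule F (Fin n → F), Cfsg.Geo.IsMDecomposition a D ∧ ∀ j, (D j).map f = D (σ j) := by
  classical
  let A : Fin t → Finset X := fun j => Finset.univ.filter (fun x => π x = j)
  have hA : ∀ j, (A j).card = a := by
    intro j
    rw [← hcard j, Nat.card_eq_fintype_card, Fintype.card_subtype]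
  have hfin : ∀ j, finrank F (blockSpan b (A j)) = a := fun j => by rw [finrank_blockSpan, hA]
  refine ⟨fun j => blockSpan b (A j), ⟨ht, ha, hfin, ?_, ?_⟩, ?_⟩
  · apply blockSpan_iSupIndep
    intro i j hij
    rw [Finset.disjoint_left]
    intro x hx hx'
    exact hij ((Finset.mem_filter.mp hx).2.symm.trans (Finset.mem_filter.mp hx').2)
  · apply blockSpan_iSup
    intro x
    exact ⟨π x, Finset.mem_filter.mpr ⟨Finset.mem_univ _, rfl⟩⟩
  · intro j
    apply Submodule.eq_of_le_of_finrank_eq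
    · change (Submodule.span F (b '' (A j : Set X))).map f ≤ Submodule.span F (b '' (A (σ j) : Set X))
      rw [Submodule.map_span, Submodule.span_le]
      rintro _ ⟨_, ⟨x, hx, rfl⟩, rfl⟩
      obtain ⟨c, hc⟩ := hb x
      rw [hc]
      apply Submodule.smul_mem
      apply Submodule.subset_span
      refine ⟨τ x, ?_, rfl⟩
      rw [Finset.mem_coe, Finset.mem_filter] at hx ⊢
      exact ⟨Finset.mem_univ _, by rw [hπ, hx.2]⟩
    · rw [hfin, ← hfin j]
      exact (LinearEquiv.finrank_eq (Submodule.equivMapOfInjective f hf _)).symm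

lemma CycDecomp.sub_eq_blockSpan {V : Type*} [AddCommGroup V] [Module F V] {f : V →ₗ[F] V} {k : ℕ} {P : Fin k → F[X]}
    (D : CycDecomp f P) (A : Finset (Fin k)) : D.sub (A : Set (Fin k)) = blockSpan D.basis (A.sigma (fun _ => Finset.univ)) := by
  unfold CycDecomp.sub blockSpan
  congr 2
  ext x
  simp

/-- decomposition from a partition of the blocks -/
theorem exists_decomp_of_blocks {f g : (Fin n → F) →ₗ[F] (Fin n → F)} (hg : Function.Injective g) {k : ℕ} {P : Fin k → F[X]}
    (D : CycDecomp f P) (hfg : ∀ W : Submodule F (Fin n → F), W.map f ≤ W → W.map g ≤ W)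
    (A : Fin t → Finset (Fin k)) (hdis : ∀ i j, i ≠ j → Disjoint (A i) (A j)) (hsum : ∀ j, ∑ x ∈ A j, (P x).natDegree = a)
    (hpos : ∀ x, 0 < (P x).natDegree) (hn : n = a * t) (ht : 2 ≤ t) (ha : 1 ≤ a) :
    ∃ D : Fin t → Submodule F (Fin n → F), Cfsg.Geo.IsMDecomposition a D ∧ ∀ j, (D j).map g = D j := by
  classical
  have hfin : ∀ j, finrank F (D.sub (A j : Set (Fin k))) = a := fun j => by rw [D.finrank_sub, hsum]
  have hcov : ∀ x, ∃ j, x ∈ A j := by
    intro x
    by_contra hcon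
    push Not at hcon
    have h1 : ∑ x ∈ Finset.univ.biUnion A, (P x).natDegree = n := by
      rw [Finset.sum_biUnion (fun i _ j _ hij => hdis i j hij), Finset.sum_congr rfl (fun j _ => hsum j), Finset.sum_const,
        Finset.card_univ, Fintype.card_fin, smul_eq_mul, hn, mul_comm]
    have h2 : ∑ x, (P x).natDegree = n := by
      rw [← D.finrank_eq]
      simp
    have h3 : ∑ x ∈ Finset.univ.biUnion A, (P x).natDegree < ∑ x, (P x).natDegree := by
      apply Finset.sum_lt_sum_of_subset (Finset.subset_univ _) (Finset.mem_univ x)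
      · rw [Finset.mem_biUnion]
        rintro ⟨j, _, hj⟩
        exact hcon j hj
      · exact hpos x
      · intro y _ _
        exact Nat.zero_le _
    omega
  refine ⟨fun j => D.sub (A j : Set (Fin k)), ⟨ht, ha, hfin, ?_, ?_⟩, ?_⟩
  · simp only [D.sub_eq_blockSpan]
    apply blockSpan_iSupIndep
    intro i j hij
    rw [Finset.disjoint_left]
    rintro ⟨x, s⟩ hx hx'
    rw [Finset.mem_sigma] at hx hx'
    exact Finset.disjoint_left.mp (hdis i j hij) hx.1 hx'.1
  · simp only [D.sub_eq_blockSpan]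
    apply blockSpan_iSup
    rintro ⟨x, s⟩
    obtain ⟨j, hj⟩ := hcov x
    exact ⟨j, Finset.mem_sigma.mpr ⟨hj, Finset.mem_univ _⟩⟩
  · intro j
    apply Submodule.eq_of_le_of_finrank_eq
    · exact hfg _ (D.map_sub_le _)
    · exact (LinearEquiv.finrank_eq (Submodule.equivMapOfInjective g hg _)).symm

/-- the monomial basis for `X ^ r - z` -/
theorem exists_monomial_basis_r {V : Type*} [AddCommGroup V] [Module F V] {f : V →ₗ[F] V} {r k : ℕ} [NeZero r] {z : F}
    (D : CycDecomp f (fun _ : Fin k => X ^ r - C z)) :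
    ∃ b : Basis (Fin k × Fin r) F V, ∀ x, ∃ c : F, f (b x) = c • b (x.1, x.2 + 1) := by
  have hdeg : (X ^ r - C z : F[X]).natDegree = r := natDegree_X_pow_sub_C
  let ε : (Σ _ : Fin k, Fin (X ^ r - C z : F[X]).natDegree) ≃ Fin k × Fin r :=
    (Equiv.sigmaEquivProd _ _).trans (Equiv.prodCongr (Equiv.refl _) (finCongr hdeg))
  have hε : ∀ (j : Fin k) (s : Fin r), ε.symm (j, s) = ⟨j, ⟨s, by rw [hdeg]; exact s.2⟩⟩ := fun j s => rfl
  refine ⟨D.basis.reindex ε, ?_⟩
  rintro ⟨j, s⟩
  rw [Basis.reindex_apply, Basis.reindex_apply, hε, hε]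
  have hr : 0 < r := Nat.pos_of_ne_zero (NeZero.ne r)
  rcases Nat.lt_or_ge ((s : ℕ) + 1) r with h | h
  · refine ⟨1, ?_⟩
    rw [D.apply_basis_lt j _ (h.trans_le hdeg.ge), one_smul]
    congr 2
    apply Fin.ext
    change (s : ℕ) + 1 = ((s + 1 : Fin r) : ℕ)
    rw [Fin.val_add, Fin.val_one', Nat.add_mod_mod, Nat.mod_eq_of_lt h]
  · have hs := s.2
    have hs1 : (s : ℕ) + 1 = r := by omega
    refine ⟨z, ?_⟩
    rw [D.apply_basis_last j _ (hs1.trans hdeg.symm)]
    have h0 : ((s + 1 : Fin r) : ℕ) = 0 := by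
      rw [Fin.val_add, Fin.val_one', Nat.add_mod_mod, hs1, Nat.mod_self]
    rw [Finset.sum_eq_single (⟨0, by rw [hdeg]; exact hr⟩ : Fin (X ^ r - C z : F[X]).natDegree)]
    · rw [coeff_sub, coeff_X_pow, coeff_C_zero, if_neg hr.ne, zero_sub, neg_smul, neg_neg]
      congr 3
      exact Fin.ext h0.symm
    · intro u _ hu
      have hu0 : (u : ℕ) ≠ 0 := fun h => hu (Fin.ext h)
      have hu1 : (u : ℕ) < r := u.2.trans_le hdeg.le
      rw [coeff_sub, coeff_X_pow, if_neg (by omega), coeff_C, if_neg hu0, sub_zero, zero_smul]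
    · intro h1
      exact absurd (Finset.mem_univ _) h1

end

end Cfsg.Agent.H99
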