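import Mathlib
import Cfsg.Agent.H99.Monomial

set_option autoImplicit false

/-! Normal forms of linear maps whose square is a non-zero scalar (helper99). -/

namespace Cfsg.Agent.H99

universe u v

open Module

section
variable {F : Type u} [Field F]

/-- `f² = z ≠ 0`: a basis consisting of pairs `(v, f v)` and of eigenvectors. -/
theorem sq_general_form (z : F) (n : ℕ) :
    ∀ (V : Type v) [AddCommGroup V] [Module F V] [FiniteDimensional F V] (f : V →ₗ[F] V),
      (∀ v, f (f v) = z • v) → finrank F V = n →
      ∃ (κ μ : Type) (_ : Fintype κ) (_ : DecidableEq κ) (_ : Fintype μ) (_ : DecidableEq μ)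
        (b : Basis ((κ ⊕ κ) ⊕ μ) F V) (c : μ → F),
        (∀ i, f (b (Sum.inl (Sum.inl i))) = b (Sum.inl (Sum.inr i))) ∧
        (∀ i, f (b (Sum.inl (Sum.inr i))) = z • b (Sum.inl (Sum.inl i))) ∧
        (∀ j, f (b (Sum.inr j)) = c j • b (Sum.inr j)) := by
  induction n using Nat.strong_induction_on with
  | _ n ih =>
    intro V _ _ _ f hf hn
    by_cases hsc : ∀ v, ∃ c : F, f v = c • v
    · choose c hc using hsc
      refine ⟨Empty, Fin n, inferInstance, inferInstance, inferInstance, inferInstance,
        (finBasisOfFinrankEq F V hn).reindex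
          ((Equiv.emptySum Empty (Fin n)).symm.trans (Equiv.sumCongr (Equiv.emptySum Empty Empty).symm (Equiv.refl _))),
        fun j => c (finBasisOfFinrankEq F V hn j), fun i => i.elim, fun i => i.elim, fun j => ?_⟩
      rw [Basis.reindex_apply]
      exact hc _
    · push Not at hsc
      obtain ⟨v, hv⟩ := hsc
      have hv0 : v ≠ 0 := by
        rintro rfl
        exact hv 0 (by simp)
      obtain ⟨φ, hφv, hφw⟩ := exists_dual_pair v (f v) hv
      set π : V →ₗ[F] V := (φ ∘ₗ f).smulRight v + φ.smulRight (f v) with hπ
      have hπa : ∀ u, π u = φ (f u) • v + φ u • f v := fun u => by simp [hπ]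
      have hπv : π v = v := by rw [hπa, hφv, hφw]; simp
      have hπw : π (f v) = f v := by rw [hπa, hf, hφw, map_smul, hφv]; simp
      have hπf : ∀ u, π (f u) = f (π u) := by
        intro u
        rw [hπa, hπa, hf, map_add, map_smul, map_smul, map_smul, hf]
        rw [smul_eq_mul, mul_smul, add_comm, smul_comm z]
      set P := Submodule.span F (Set.range ![v, f v]) with hP
      have hli : LinearIndependent F ![v, f v] := by
        rw [LinearIndependent.pair_iff' hv0]
        intro a h; exact hv a h.symm
      have hrange : LinearMap.range π = P := by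
        apply le_antisymm
        · rintro _ ⟨u, rfl⟩
          rw [hπa, hP]
          refine add_mem (Submodule.smul_mem _ _ (Submodule.subset_span ⟨0, rfl⟩))
            (Submodule.smul_mem _ _ (Submodule.subset_span ⟨1, rfl⟩))
        · rw [hP, Submodule.span_le]
          rintro _ ⟨i, rfl⟩
          fin_cases i
          · exact ⟨v, hπv⟩
          · exact ⟨f v, hπw⟩
      have hPdim : finrank F P = 2 := by
        rw [hP, finrank_span_eq_card hli]; simp
      set K := LinearMap.ker π with hK
      have hKdim : finrank F K = n - 2 ∧ 2 ≤ n := by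
        have := LinearMap.finrank_range_add_finrank_ker π
        rw [hrange, hPdim, hn] at this
        constructor
        · rw [hK]; omega
        · omega
      have hdisj : Disjoint P K := by
        rw [Submodule.disjoint_def]
        intro x hx hxK
        rw [← hrange] at hx
        obtain ⟨u, rfl⟩ := hx
        rw [hK, LinearMap.mem_ker] at hxK
        rw [← hxK]
        rw [hπa u, map_add, map_smul, map_smul, hπv, hπw]
      have hfK : ∀ x ∈ K, f x ∈ K := by
        intro x hx
        rw [hK, LinearMap.mem_ker] at hx ⊢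
        rw [hπf, hx, map_zero]
      obtain ⟨κ, μ, _, _, _, _, bK, c, h1, h2, h3⟩ := ih (n - 2) (by omega) K (f.restrict hfK)
        (by intro v; ext; simp [LinearMap.restrict_apply, hf]) hKdim.1
      have hli2 : LinearIndependent F (Sum.elim ![v, f v] (fun j => (bK j : V))) := by
        apply LinearIndependent.sum_type hli
        · exact bK.linearIndependent.map' K.subtype (Submodule.ker_subtype K)
        · refine hdisj.mono le_rfl ?_
          rw [Submodule.span_le]
          rintro _ ⟨j, rfl⟩
          exact (bK j).2
      have hcard : Fintype.card (Fin 2 ⊕ ((κ ⊕ κ) ⊕ μ)) = finrank F V := by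
        rw [Fintype.card_sum, Fintype.card_fin, ← finrank_eq_card_basis bK, hKdim.1, hn]; omega
      let B := basisOfLinearIndependentOfCardEqFinrank hli2 hcard
      have hB : ∀ i, B i = Sum.elim ![v, f v] (fun j => (bK j : V)) i := fun i => by
        simp [B]
      let e : Fin 2 ⊕ ((κ ⊕ κ) ⊕ μ) ≃ ((Option κ ⊕ Option κ) ⊕ μ) :=
        { toFun := Sum.elim ![Sum.inl (Sum.inl none), Sum.inl (Sum.inr none)]
            (Sum.elim (Sum.elim (fun i => Sum.inl (Sum.inl (some i))) (fun i => Sum.inl (Sum.inr (some i))))
              (fun j => Sum.inr j))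
          invFun := Sum.elim (Sum.elim (fun o => o.elim (Sum.inl 0) (fun i => Sum.inr (Sum.inl (Sum.inl i))))
            (fun o => o.elim (Sum.inl 1) (fun i => Sum.inr (Sum.inl (Sum.inr i))))) (fun j => Sum.inr (Sum.inr j))
          left_inv := by
            rintro (i | ((i | i) | j))
            · fin_cases i <;> rfl
            all_goals rfl
          right_inv := by
            rintro (((_ | i) | (_ | i)) | j) <;> rfl }
      refine ⟨Option κ, μ, inferInstance, inferInstance, inferInstance, inferInstance, B.reindex e, c, ?_, ?_, ?_⟩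
      · rintro (_ | i)
        · rw [Basis.reindex_apply, Basis.reindex_apply, hB, hB]
          rfl
        · rw [Basis.reindex_apply, Basis.reindex_apply, hB, hB]
          exact congrArg (fun x : K => (x : V)) (h1 i)
      · rintro (_ | i)
        · rw [Basis.reindex_apply, Basis.reindex_apply, hB, hB]
          exact hf v
        · rw [Basis.reindex_apply, Basis.reindex_apply, hB, hB]
          exact congrArg (fun x : K => (x : V)) (h2 i)
      · intro j
        rw [Basis.reindex_apply, hB]
        exact congrArg (fun x : K => (x : V)) (h3 j)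

/-- `z` not a square: only pairs. -/
theorem sq_nonsquare_form (z : F) (hz : ∀ w, w * w ≠ z) (V : Type v) [AddCommGroup V] [Module F V]
    [FiniteDimensional F V] (f : V →ₗ[F] V) (hf : ∀ v, f (f v) = z • v) :
    ∃ (κ : Type) (_ : Fintype κ) (_ : DecidableEq κ) (b : Basis (κ ⊕ κ) F V),
        (∀ i, f (b (Sum.inl i)) = b (Sum.inr i)) ∧ (∀ i, f (b (Sum.inr i)) = z • b (Sum.inl i)) := by
  obtain ⟨κ, μ, _, _, _, _, b, c, h1, h2, h3⟩ := sq_general_form z (finrank F V) V f hf rfl
  have hμ : IsEmpty μ := by
    refine ⟨fun j => hz (c j) ?_⟩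
    have h4 := hf (b (Sum.inr j))
    rw [h3, map_smul, h3, smul_smul] at h4
    exact smul_left_injective F (b.ne_zero (Sum.inr j)) h4
  refine ⟨κ, inferInstance, inferInstance, b.reindex (Equiv.sumEmpty (κ ⊕ κ) μ), ?_, ?_⟩
  · intro i
    rw [Basis.reindex_apply, Basis.reindex_apply]
    exact h1 i
  · intro i
    rw [Basis.reindex_apply, Basis.reindex_apply]
    exact h2 i

/-- `z = w²`, characteristic not two: an eigenbasis. -/
theorem sq_eigen_form (z w : F) (hzw : w * w = z) (hw : w ≠ 0) (h2 : (2 : F) ≠ 0) (V : Type v)
    [AddCommGroup V] [Module F V] [FiniteDimensional F V] (f : V →ₗ[F] V)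
    (hf : ∀ v, f (f v) = z • v) :
    ∃ (a a' : ℕ) (b : Basis (Fin a ⊕ Fin a') F V),
        (∀ i, f (b (Sum.inl i)) = w • b (Sum.inl i)) ∧ (∀ i, f (b (Sum.inr i)) = (-w) • b (Sum.inr i)) := by
  set P := LinearMap.ker (f - w • LinearMap.id) with hP
  set Q := LinearMap.ker (f + w • LinearMap.id) with hQ
  have hPm : ∀ v, v ∈ P ↔ f v = w • v := fun v => by
    rw [hP, LinearMap.mem_ker, LinearMap.sub_apply, LinearMap.smul_apply, LinearMap.id_apply, sub_eq_zero]
  have hQm : ∀ v, v ∈ Q ↔ f v = (-w) • v := fun v => by
    rw [hQ, LinearMap.mem_ker, LinearMap.add_apply, LinearMap.smul_apply, LinearMap.id_apply,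
      add_eq_zero_iff_eq_neg, neg_smul]
  have hPQ : IsCompl P Q := by
    constructor
    · rw [Submodule.disjoint_def]
      intro v hv hv'
      rw [hPm] at hv
      rw [hQm, hv] at hv'
      have h3 : (2 * w) • v = 0 := by
        rw [two_mul, add_smul]
        nth_rewrite 2 [hv']
        rw [← add_smul]
        simp
      exact (smul_eq_zero.mp h3).resolve_left (mul_ne_zero h2 hw)
    · rw [codisjoint_iff, eq_top_iff]
      intro v _
      have h4 : v = (2 * w)⁻¹ • (f v + w • v) + (2 * w)⁻¹ • (w • v - f v) := by
        rw [← smul_add]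
        have : f v + w • v + (w • v - f v) = (2 * w) • v := by
          rw [two_mul, add_smul]; abel
        rw [this, smul_smul, inv_mul_cancel₀ (mul_ne_zero h2 hw), one_smul]
      rw [h4]
      apply Submodule.add_mem_sup
      · apply Submodule.smul_mem
        rw [hPm, map_add, map_smul, hf, smul_add, smul_smul, hzw, add_comm]
      · apply Submodule.smul_mem
        rw [hQm, map_sub, map_smul, hf, smul_sub, smul_smul, neg_mul, hzw, neg_smul, neg_smul]
        abel
  refine ⟨finrank F P, finrank F Q,
    ((finBasis F P).prod (finBasis F Q)).map (Submodule.prodEquivOfIsCompl P Q hPQ), ?_, ?_⟩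
  · intro i
    have : (((finBasis F P).prod (finBasis F Q)).map (Submodule.prodEquivOfIsCompl P Q hPQ)) (Sum.inl i) = (finBasis F P i : V) := by
      simp
    rw [this, ← hPm]
    exact (finBasis F P i).2
  · intro i
    have : (((finBasis F P).prod (finBasis F Q)).map (Submodule.prodEquivOfIsCompl P Q hPQ)) (Sum.inr i) = (finBasis F Q i : V) := by
      simp
    rw [this, ← hQm]
    exact (finBasis F Q i).2

end

end Cfsg.Agent.H99
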