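import Mathlib
import Cfsg.Agent.H99.SqForms
import Cfsg.Agent.H99.FinFieldTwo
import Cfsg.Agent.H99.SLConj

set_option autoImplicit false

/-! Maps with scalar square in 2×2 blocks of constant determinant (helper99). -/

namespace Cfsg.Agent.H99

universe u v

open Module

section
variable {F : Type u} [Field F]

/-- `f` is block diagonal for the pairs of `b` with 2×2 blocks of determinant `c`. -/
def PairBlock {V : Type v} [AddCommGroup V] [Module F V] (f : V →ₗ[F] V) (c : F) {κ : Type}
    (b : Basis (κ ⊕ κ) F V) : Prop :=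
  ∃ α β γ δ : κ → F, (∀ i, f (b (Sum.inl i)) = α i • b (Sum.inl i) + β i • b (Sum.inr i)) ∧
    (∀ i, f (b (Sum.inr i)) = γ i • b (Sum.inl i) + δ i • b (Sum.inr i)) ∧
    ∀ i, α i * δ i - β i * γ i = c

theorem pairBlock_nonsquare (z : F) (hz : ∀ w, w * w ≠ z) (V : Type v) [AddCommGroup V] [Module F V]
    [FiniteDimensional F V] (f : V →ₗ[F] V) (hf : ∀ v, f (f v) = z • v) :
    ∃ (κ : Type) (_ : Fintype κ) (_ : DecidableEq κ) (b : Basis (κ ⊕ κ) F V), PairBlock f (-z) b := by
  obtain ⟨κ, _, _, b, h1, h2⟩ := sq_nonsquare_form z hz V f hf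
  exact ⟨κ, inferInstance, inferInstance, b, fun _ => 0, fun _ => 1, fun _ => z, fun _ => 0,
    fun i => by rw [h1]; simp, fun i => by rw [h2]; simp, fun i => by simp⟩

theorem pairBlock_eigen (z w : F) (hzw : w * w = z) {V : Type v} [AddCommGroup V] [Module F V]
    (f : V →ₗ[F] V) (a a' : ℕ) (b : Basis (Fin a ⊕ Fin a') F V) (h1 : ∀ i, f (b (Sum.inl i)) = w • b (Sum.inl i))
    (h2 : ∀ i, f (b (Sum.inr i)) = (-w) • b (Sum.inr i)) (ha : Even a) (ha' : Even a') :
    ∃ (κ : Type) (_ : Fintype κ) (_ : DecidableEq κ) (b : Basis (κ ⊕ κ) F V), PairBlock f z b := by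
  obtain ⟨k, rfl⟩ := ha
  obtain ⟨l, rfl⟩ := ha'
  let e : Fin (k + k) ⊕ Fin (l + l) ≃ (Fin k ⊕ Fin l) ⊕ (Fin k ⊕ Fin l) :=
    (Equiv.sumCongr finSumFinEquiv.symm finSumFinEquiv.symm).trans (Equiv.sumSumSumComm _ _ _ _)
  refine ⟨Fin k ⊕ Fin l, inferInstance, inferInstance, b.reindex e, Sum.elim (fun _ => w) (fun _ => -w), fun _ => 0,
    fun _ => 0, Sum.elim (fun _ => w) (fun _ => -w), ?_, ?_, ?_⟩
  · rintro (i | i)
    · rw [Basis.reindex_apply, zero_smul, add_zero]
      exact h1 _
    · rw [Basis.reindex_apply, zero_smul, add_zero]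
      exact h2 _
  · rintro (i | i)
    · rw [Basis.reindex_apply, zero_smul, zero_add]
      exact h1 _
    · rw [Basis.reindex_apply, zero_smul, zero_add]
      exact h2 _
  · rintro (i | i)
    · simp [hzw]
    · simp [hzw]

theorem pairBlock_charTwo (z : F) (h2 : (2 : F) = 0) (V : Type v) [AddCommGroup V] [Module F V]
    [FiniteDimensional F V] (f : V →ₗ[F] V) (hf : ∀ v, f (f v) = z • v) (he : Even (finrank F V)) :
    ∃ (κ : Type) (_ : Fintype κ) (_ : DecidableEq κ) (b : Basis (κ ⊕ κ) F V), PairBlock f z b := by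
  obtain ⟨κ, μ, _, _, _, _, b, c, h1, h2', h3⟩ := sq_general_form z (finrank F V) V f hf rfl
  have hneg : ∀ a : F, -a = a := by
    intro a
    have : a + a = 0 := by rw [← two_mul, h2, zero_mul]
    exact (eq_neg_of_add_eq_zero_left this).symm
  have hc : ∀ j, c j * c j = z := by
    intro j
    have h4 := hf (b (Sum.inr j))
    rw [h3, map_smul, h3, smul_smul] at h4
    exact smul_left_injective F (b.ne_zero (Sum.inr j)) h4
  have hcc : ∀ i j, c i = c j := by
    intro i j
    have h5 : (c i - c j) * (c i + c j) = 0 := by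
      rw [← sub_eq_zero.mpr ((hc i).trans (hc j).symm)]; ring
    rcases mul_eq_zero.mp h5 with h6 | h6
    · exact sub_eq_zero.mp h6
    · rw [eq_neg_of_add_eq_zero_left h6, hneg]
  have hev : Even (Fintype.card μ) := by
    have h6 := finrank_eq_card_basis b
    rw [h6, Fintype.card_sum, Fintype.card_sum, Nat.even_add] at he
    exact he.mp ⟨_, rfl⟩
  obtain ⟨l, hl⟩ := hev
  let e0 : μ ≃ Fin l ⊕ Fin l := (Fintype.equivFinOfCardEq hl).trans finSumFinEquiv.symm
  let e : (κ ⊕ κ) ⊕ μ ≃ (κ ⊕ Fin l) ⊕ (κ ⊕ Fin l) :=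
    (Equiv.sumCongr (Equiv.refl _) e0).trans (Equiv.sumSumSumComm _ _ _ _)
  refine ⟨κ ⊕ Fin l, inferInstance, inferInstance, b.reindex e,
    Sum.elim (fun _ => 0) (fun i => c (e0.symm (Sum.inl i))), Sum.elim (fun _ => 1) (fun _ => 0),
    Sum.elim (fun _ => z) (fun _ => 0), Sum.elim (fun _ => 0) (fun i => c (e0.symm (Sum.inr i))), ?_, ?_, ?_⟩
  · rintro (i | i)
    · rw [Basis.reindex_apply, Basis.reindex_apply, Sum.elim_inl, Sum.elim_inl, zero_smul, zero_add, one_smul]
      exact h1 i
    · rw [Basis.reindex_apply, Sum.elim_inr, Sum.elim_inr, zero_smul, add_zero]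
      exact h3 _
  · rintro (i | i)
    · rw [Basis.reindex_apply, Basis.reindex_apply, Sum.elim_inl, Sum.elim_inl, zero_smul, add_zero]
      exact h2' i
    · rw [Basis.reindex_apply, Sum.elim_inr, Sum.elim_inr, zero_smul, zero_add]
      exact h3 _
  · rintro (i | i)
    · simp [hneg]
    · simp only [Sum.elim_inr, zero_mul, sub_zero]
      rw [hcc (e0.symm (Sum.inl i)) (e0.symm (Sum.inr i)), hc]

/-- `x ∈ SL_n(q)`, `n` even, `x² = z` scalar, and the 2-part of `q - 1` divides `n`: there is a pairing basis. -/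
theorem exists_pairBlock [Fintype F] {n : ℕ} (hn : n ≠ 0) (he : Even n)
    (hv : padicValNat 2 (Fintype.card F - 1) ≤ padicValNat 2 n)
    (x : Matrix.SpecialLinearGroup (Fin n) F) (z : F)
    (hx : (x : Matrix (Fin n) (Fin n) F) ^ 2 = z • (1 : Matrix (Fin n) (Fin n) F)) :
    ∃ (c : F) (κ : Type) (_ : Fintype κ) (_ : DecidableEq κ) (b : Basis (κ ⊕ κ) F (Fin n → F)),
      PairBlock (Matrix.toLin' (x : Matrix (Fin n) (Fin n) F)) c b := by
  have hf : ∀ v, Matrix.toLin' (x : Matrix (Fin n) (Fin n) F) (Matrix.toLin' (x : Matrix (Fin n) (Fin n) F) v) = z • v := by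
    intro v
    have := congrArg (fun M => Matrix.toLin' M v) hx
    simp only [pow_two, Matrix.toLin'_mul, LinearMap.comp_apply] at this
    rw [this]
    simp
  by_cases h2 : (2 : F) = 0
  · obtain ⟨κ, i1, i2, b, hb⟩ := pairBlock_charTwo z h2 (Fin n → F) _ hf (by simpa using he)
    exact ⟨z, κ, i1, i2, b, hb⟩
  · by_cases hz : ∀ w, w * w ≠ z
    · obtain ⟨κ, i1, i2, b, hb⟩ := pairBlock_nonsquare z hz (Fin n → F) _ hf
      exact ⟨-z, κ, i1, i2, b, hb⟩
    · push Not at hz
      obtain ⟨w, hw⟩ := hz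
      have hz0 : z ≠ 0 := by
        rintro rfl
        have : Nonempty (Fin n) := ⟨⟨0, Nat.pos_of_ne_zero hn⟩⟩
        have h3 := congrArg Matrix.det hx
        rw [Matrix.det_pow, x.det_coe, one_pow, zero_smul, Matrix.det_zero] at h3
        exact one_ne_zero h3
      have hw0 : w ≠ 0 := by
        rintro rfl
        exact hz0 (by rw [← hw]; simp)
      obtain ⟨a, a', b, h3, h4⟩ := sq_eigen_form z w hw hw0 h2 (Fin n → F) _ hf
      have hdet : w ^ a * (-w) ^ a' = 1 := by
        have := det_of_eigenbasis b (Matrix.toLin' (x : Matrix (Fin n) (Fin n) F)) (Sum.elim (fun _ => w) (fun _ => -w)) (by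
          rintro (i | i)
          · exact h3 i
          · exact h4 i)
        rw [LinearMap.det_toLin', x.det_coe, Fintype.prod_sum_type] at this
        simpa using this.symm
      have haa : a + a' = n := by
        have := finrank_eq_card_basis b
        simpa using this.symm
      have hodd : Odd (Fintype.card F) := by
        by_contra hcon
        rw [Nat.not_odd_iff_even] at hcon
        apply h2
        obtain ⟨p, hp⟩ := CharP.exists F
        have hpp := CharP.char_is_prime F p
        obtain ⟨k, _, hk⟩ := FiniteField.card F p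
        rw [hk] at hcon
        have : p = 2 := by
          have h5 := (Nat.even_pow.mp hcon).1
          exact (Nat.Prime.even_iff hpp).mp h5
        subst this
        exact_mod_cast CharP.cast_eq_zero F 2
      have ha' : Even a' := by
        by_contra hcon
        rw [Nat.not_even_iff_odd] at hcon
        rw [neg_pow, hcon.neg_one_pow] at hdet
        apply pow_ne_neg_one hn hodd hv w
        rw [← haa, pow_add]
        linear_combination -hdet
      have ha : Even a := by
        rw [← haa] at he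
        exact (Nat.even_add.mp he).mpr ha'
      obtain ⟨κ, i1, i2, b, hb⟩ := pairBlock_eigen z w hw _ a a' b h3 h4 ha ha'
      exact ⟨z, κ, i1, i2, b, hb⟩

end

end Cfsg.Agent.H99
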