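import Mathlib
import Cfsg.Agent.H99.SubCount

set_option autoImplicit false

/-! Counting complementary pairs (helper99). -/

namespace Cfsg.Agent.H99

open Module

section
variable {F V : Type*} [Field F] [AddCommGroup V] [Module F V]

/-- splittings and homomorphisms from a complement -/
noncomputable def splitEquiv {U W₀ : Submodule F V} (h : IsCompl U W₀) :
    {f : V →ₗ[F] U // ∀ x : U, f x = x} ≃ (W₀ →ₗ[F] U) where
  toFun f := f.1.domRestrict W₀
  invFun g := ⟨LinearMap.ofIsCompl h LinearMap.id g, fun x => by simp⟩
  left_inv f := by
    apply Subtype.ext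
    apply LinearMap.ofIsCompl_eq h
    · intro x
      rw [f.2]
      rfl
    · intro x
      rfl
  right_inv g := by
    ext x
    simp

variable [Finite F] [FiniteDimensional F V]

theorem card_compl (U : Submodule F V) :
    Nat.card {W : Submodule F V // IsCompl U W} = Nat.card F ^ ((finrank F V - finrank F U) * finrank F U) := by
  obtain ⟨W₀, h⟩ := Submodule.exists_isCompl U
  have h1 := Submodule.finrank_add_eq_of_isCompl h
  rw [Nat.card_congr U.isComplEquivProj, Nat.card_congr (splitEquiv h), Module.natCard_eq_pow_finrank (K := F),
    Module.finrank_linearMap]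
  congr 2
  omega

theorem card_pairs (m : ℕ) :
    Nat.card {P : Submodule F V × Submodule F V // IsCompl P.1 P.2 ∧ finrank F P.1 = m} =
      Nat.card {U : Submodule F V // finrank F U = m} * Nat.card F ^ ((finrank F V - m) * m) := by
  have hFV : Finite V := Module.finite_of_finite F
  have hfs : Finite (Submodule F V) := inferInstance
  have hfW : Fintype {W : Submodule F V // finrank F W = m} := Fintype.ofFinite _
  let g : {P : Submodule F V × Submodule F V // IsCompl P.1 P.2 ∧ finrank F P.1 = m} →
    {U : Submodule F V // finrank F U = m} := fun P => ⟨P.1.1, P.2.2⟩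
  rw [← Nat.card_congr (Equiv.sigmaFiberEquiv g), Nat.card_sigma]
  have h1 : ∀ U : {U : Submodule F V // finrank F U = m}, Nat.card {P // g P = U} = Nat.card F ^ ((finrank F V - m) * m) := by
    intro U
    have h2 := card_compl (F := F) U.1
    rw [U.2] at h2
    rw [← h2]
    apply Nat.card_congr
    exact
    { toFun := fun P => ⟨P.1.1.2, by
        have h3 : P.1.1.1 = U.1 := congrArg Subtype.val P.2
        have h4 := P.1.2.1
        rw [h3] at h4
        exact h4⟩
      invFun := fun W => ⟨⟨(U.1, W.1), W.2, U.2⟩, rfl⟩
      left_inv := fun P => by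
        apply Subtype.ext
        apply Subtype.ext
        apply Prod.ext
        · exact (congrArg Subtype.val P.2).symm
        · rfl
      right_inv := fun W => rfl }
  rw [Finset.sum_congr rfl (fun U _ => h1 U), Finset.sum_const, smul_eq_mul, Finset.card_univ, Nat.card_eq_fintype_card (α := {U : Submodule F V // finrank F U = m})]

end

end Cfsg.Agent.H99
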