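import Mathlib
import Cfsg.Prelude.Def_GeometricClasses
import Cfsg.Prelude.Def_CaseTheorems
import Cfsg.Agent.H64.SympE
import Cfsg.Agent.H99.Dim2

set_option autoImplicit false

/-!
Absolutely irreducible 2-groups of symplectic type and exponent four: commutators and squares are `±1`.
-/

namespace Cfsg.Agent.H99

open Module
open scoped Matrix MatrixGroups commutatorElement

section abs
variable {G : Type*} [Group G] [Finite G]

theorem symp_comm (hG : IsPGroup 2 G) (hsymp : ∀ A : Subgroup G, A.Characteristic → IsMulCommutative A → IsCyclic A)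
    (hexp : ∀ x : G, x ^ 4 = 1) (hna : ∃ a b : G, a * b ≠ b * a) :
    ∃ z : G, (∀ g, g * z = z * g) ∧ z ≠ 1 ∧ z * z = 1 ∧ ∀ a b : G, a * b = b * a ∨ a * b = z * (b * a) := by
  have : Fact (Nat.Prime 2) := ⟨Nat.prime_two⟩
  obtain ⟨E, R, hER, hsup, hE, hR⟩ := Cfsg.Agent.H64.Symp.main (p := 2) hG hsymp
  have hord : ∀ x : G, orderOf x ∣ 4 := fun x => orderOf_dvd_of_pow_eq_one (hexp x)
  have hordR : ∀ x : R, orderOf x ∣ 4 := by
    intro x
    rw [← Subgroup.orderOf_coe]
    exact hord _
  have hRc : IsCyclic R := by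
    rcases hR with h | ⟨-, h16, h | h | h⟩
    · exact h
    · exfalso
      obtain ⟨m, ⟨e⟩⟩ := h
      rw [Nat.card_congr e.toEquiv, DihedralGroup.nat_card] at h16
      have h1 := hordR (e.symm (DihedralGroup.r 1))
      rw [MulEquiv.orderOf_eq, DihedralGroup.orderOf_r_one] at h1
      have := Nat.le_of_dvd (by norm_num) h1
      omega
    · exfalso
      obtain ⟨m, ⟨e⟩⟩ := h
      have hm0 : m ≠ 0 := by
        rintro rfl
        have : Finite (QuaternionGroup 0) := Finite.of_equiv _ e.toEquiv
        have h2 : Function.Injective (fun k : ZMod (2 * 0) => (QuaternionGroup.a k : QuaternionGroup 0)) := by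
          intro k k' hk
          exact QuaternionGroup.a.inj hk
        have h3 : Finite (ZMod (2 * 0)) := Finite.of_injective _ h2
        exact (inferInstance : Infinite ℤ).not_finite h3
      have : NeZero m := ⟨hm0⟩
      rw [Nat.card_congr e.toEquiv, Nat.card_eq_fintype_card, QuaternionGroup.card] at h16
      have h1 := hordR (e.symm (QuaternionGroup.a 1))
      rw [MulEquiv.orderOf_eq, QuaternionGroup.orderOf_a_one] at h1
      have := Nat.le_of_dvd (by norm_num) h1
      omega
    · exfalso
      obtain ⟨n, hn, -, x, y, hx, -⟩ := h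
      have h1 := hordR x
      rw [hx] at h1
      have h2 := Nat.le_of_dvd (by norm_num) h1
      have h3 : 2 ^ 3 ≤ 2 ^ n := Nat.pow_le_pow_right (by norm_num) hn
      omega
  have hRR : ∀ r ∈ R, ∀ s ∈ R, r * s = s * r := by
    intro r hr s hs
    have h1 := @mul_comm R (IsCyclic.commGroup.toCommMonoid.toCommSemigroup.toCommMagma) ⟨r, hr⟩ ⟨s, hs⟩
    exact congrArg Subtype.val h1
  have hcl : ∀ (c : G), (∀ e ∈ E, e * c = c * e) → (∀ r ∈ R, r * c = c * r) → ∀ g, g * c = c * g := by
    intro c h1 h2 g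
    have h3 : E ⊔ R ≤ Subgroup.centralizer {c} := by
      apply sup_le
      · intro e he
        rw [Subgroup.mem_centralizer_singleton_iff]
        exact h1 e he
      · intro r hr
        rw [Subgroup.mem_centralizer_singleton_iff]
        exact h2 r hr
    rw [hsup] at h3
    have h4 := h3 (Subgroup.mem_top g)
    rw [Subgroup.mem_centralizer_singleton_iff] at h4
    exact h4
  have hRcen : ∀ r ∈ R, ∀ g, g * r = r * g := fun r hr => hcl r (fun e he => hER e he r hr) (fun s hs => hRR s hs r hr)
  have hRn : R.Normal := ⟨fun r hr g => by rw [hRcen r hr g, mul_inv_cancel_right]; exact hr⟩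
  have hdec : ∀ g : G, ∃ e ∈ E, ∃ r ∈ R, g = e * r := by
    intro g
    have h1 : g ∈ ((E ⊔ R : Subgroup G) : Set G) := by rw [hsup]; exact Subgroup.mem_top g
    rw [Subgroup.mul_normal] at h1
    obtain ⟨e, he, r, hr, h⟩ := Set.mem_mul.mp h1
    exact ⟨e, he, r, hr, h.symm⟩
  rcases hE with hE | hE
  · exfalso
    obtain ⟨a, b, hab⟩ := hna
    apply hab
    obtain ⟨e, he, r, hr, rfl⟩ := hdec a
    rw [hE, Subgroup.mem_bot] at he
    rw [he, one_mul]
    exact (hRcen r hr b).symm
  · obtain ⟨⟨-, -, hcz⟩, hcard⟩ := hE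
    obtain ⟨z0, hz0, hz1⟩ : ∃ z0 ∈ Subgroup.center E, z0 ≠ 1 := by
      by_contra hcon
      push Not at hcon
      have : Subgroup.center E = ⊥ := by
        rw [eq_bot_iff]
        intro x hx
        exact Subgroup.mem_bot.mpr (hcon x hx)
      rw [this, Subgroup.card_bot] at hcard
      omega
    have hall : ∀ w ∈ Subgroup.center E, w = 1 ∨ w = z0 := by
      intro w hw
      by_contra hcon
      push Not at hcon
      have h1 : ({1, z0, w} : Set E) ⊆ (Subgroup.center E : Set E) := by
        rintro x (rfl | rfl | rfl)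
        · exact Subgroup.one_mem _
        · exact hz0
        · exact hw
      have h2 := Set.ncard_le_ncard h1 (Set.toFinite _)
      have h3 : ({1, z0, w} : Set E).ncard = 3 := by
        rw [Set.ncard_eq_three]
        exact ⟨1, z0, w, hz1.symm, hcon.1.symm, hcon.2.symm, rfl⟩
      rw [h3] at h2
      have h4 : (Subgroup.center E : Set E).ncard = 2 := by
        rw [← hcard]
        rfl
      omega
    have hz0c : ∀ g : G, g * (z0 : G) = z0 * g := by
      apply hcl
      · intro e he
        have := Subgroup.mem_center_iff.mp hz0 ⟨e, he⟩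
        exact congrArg Subtype.val this
      · intro r hr
        exact (hRcen r hr _).symm
    refine ⟨z0, hz0c, fun h => hz1 (Subtype.ext h), ?_, ?_⟩
    · have h1 := hall (z0 * z0) (Subgroup.mul_mem _ hz0 hz0)
      rcases h1 with h1 | h1
      · exact congrArg Subtype.val h1
      · exact absurd (mul_left_cancel (h1.trans (mul_one z0).symm)) hz1
    · intro a b
      obtain ⟨e, he, r, hr, rfl⟩ := hdec a
      obtain ⟨e', he', r', hr', rfl⟩ := hdec b
      have h1 : ⁅(⟨e, he⟩ : E), (⟨e', he'⟩ : E)⁆ ∈ Subgroup.center E := by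
        rw [← hcz]
        exact Subgroup.commutator_mem_commutator (Subgroup.mem_top _) (Subgroup.mem_top _)
      have h2 : e * e' = e' * e ∨ e * e' = z0 * (e' * e) := by
        rcases hall _ h1 with h3 | h3
        · left
          rw [commutatorElement_eq_one_iff_mul_comm] at h3
          exact congrArg Subtype.val h3
        · right
          rw [commutatorElement_def] at h3
          have h4 := congrArg Subtype.val h3
          simp only [Subgroup.coe_mul, Subgroup.coe_inv] at h4
          rw [← h4]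
          group
      have h3 : e * r * (e' * r') = e * e' * (r * r') := by
        rw [mul_assoc, ← mul_assoc r, ← hRcen r hr e', mul_assoc, mul_assoc]
      have h4 : e' * r' * (e * r) = e' * e * (r * r') := by
        rw [mul_assoc, ← mul_assoc r', ← hRcen r' hr' e, mul_assoc, hRR r' hr' r hr, mul_assoc]
      rw [h3, h4]
      rcases h2 with h2 | h2
      · left; rw [h2]
      · right; rw [h2, mul_assoc]

end abs

variable {ι : Type} [Fintype ι] [DecidableEq ι] {F : Type*} [Field F]

/-- absolutely irreducible groups with commutators and squares `±1` -/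
structure PGrp (R : Subgroup (GL ι F)) : Prop where
  irr : Cfsg.Geo.ActsAbsolutelyIrreducibly (Cfsg.Geo.matrixSet R)
  comm : ∀ x ∈ R, ∀ y ∈ R, x * y = y * x ∨ x * y = -(y * x)
  sq : ∀ x ∈ R, x * x = 1 ∨ x * x = -1
  neg : -1 ∈ R

lemma exists_scalar_of_comm {R : Subgroup (GL ι F)} (h : Cfsg.Geo.ActsAbsolutelyIrreducibly (Cfsg.Geo.matrixSet R)) {M : Matrix ι ι F}
    (hM : ∀ x ∈ R, M * (x : Matrix ι ι F) = (x : Matrix ι ι F) * M) : ∃ c : F, M = c • (1 : Matrix ι ι F) := by
  apply h.2
  rintro _ ⟨x, hx, rfl⟩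
  exact hM x hx

lemma exists_noncomm {R : Subgroup (GL ι F)} (h : Cfsg.Geo.ActsAbsolutelyIrreducibly (Cfsg.Geo.matrixSet R)) (hι : 2 ≤ Fintype.card ι) :
    ∃ a ∈ R, ∃ b ∈ R, a * b ≠ b * a := by
  by_contra hcon
  push Not at hcon
  have hsc : ∀ x ∈ R, ∃ c : F, (x : Matrix ι ι F) = c • (1 : Matrix ι ι F) := by
    intro x hx
    apply exists_scalar_of_comm h
    intro y hy
    rw [← Units.val_mul, hcon x hx y hy, Units.val_mul]
  obtain ⟨i0⟩ : Nonempty ι := Fintype.card_pos_iff.mp (by omega)
  have h1 := h.1 (Submodule.span F {Pi.single i0 (1 : F)}) (by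
    rintro _ ⟨x, hx, rfl⟩
    obtain ⟨c, hc⟩ := hsc x hx
    rintro _ ⟨v, hv, rfl⟩
    simp only
    rw [hc, Matrix.toLin'_apply, Matrix.smul_mulVec, Matrix.one_mulVec]
    exact Submodule.smul_mem _ _ hv)
  rcases h1 with h1 | h1
  · have h2 : (Pi.single i0 (1 : F) : ι → F) ∈ Submodule.span F {Pi.single i0 (1 : F)} := Submodule.mem_span_singleton_self _
    rw [h1, Submodule.mem_bot] at h2
    have := congrFun h2 i0
    simp at this
  · have h2 : finrank F (Submodule.span F {(Pi.single i0 (1 : F) : ι → F)}) = 1 := finrank_span_singleton (by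
      intro h0
      have := congrFun h0 i0
      simp at this)
    rw [h1, finrank_top, finrank_fintype_fun_eq_card] at h2
    omega

theorem PGrp.of_type [Finite F] {R : Subgroup (GL ι F)} (h : Cfsg.Geo.IsSymplecticTypeGroup 2 R)
    (hirr : Cfsg.Geo.ActsAbsolutelyIrreducibly (Cfsg.Geo.matrixSet R)) (hι : 2 ≤ Fintype.card ι) : PGrp R := by
  have hexp : Monoid.exponent R = 4 := by rw [h.exponent_eq]; rfl
  have hpow : ∀ x : R, x ^ 4 = 1 := fun x => by rw [← hexp]; exact Monoid.pow_exponent_eq_one x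
  obtain ⟨a0, ha0, b0, hb0, hab0⟩ := exists_noncomm hirr hι
  obtain ⟨z, hz, hz1, hzz, hc⟩ := symp_comm h.pGroup h.cyclic_of_characteristic hpow
    ⟨⟨a0, ha0⟩, ⟨b0, hb0⟩, fun h => hab0 (congrArg Subtype.val h)⟩
  obtain ⟨i0⟩ : Nonempty ι := Fintype.card_pos_iff.mp (by omega)
  have hsc : ∀ x : R, (∀ g : R, g * x = x * g) → ∃ c : F, ((x : GL ι F) : Matrix ι ι F) = c • (1 : Matrix ι ι F) := by
    intro x hx
    apply exists_scalar_of_comm hirr
    intro y hy
    have h1 := congrArg Subtype.val (hx ⟨y, hy⟩)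
    simp only [Subgroup.coe_mul] at h1
    rw [← Units.val_mul, ← h1, Units.val_mul]
  have hinj : ∀ c d : F, c • (1 : Matrix ι ι F) = d • (1 : Matrix ι ι F) → c = d := by
    intro c d hcd
    have := congrFun (congrFun hcd i0) i0
    simpa using this
  obtain ⟨c, hzc⟩ := hsc z hz
  have hcc : c = -1 := by
    have h1 := congrArg (fun x : R => ((x : GL ι F) : Matrix ι ι F)) hzz
    simp only [Subgroup.coe_mul, Units.val_mul, hzc, Subgroup.coe_one, Units.val_one] at h1
    rw [smul_mul_smul_comm, mul_one] at h1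
    have h2 : c * c = 1 := hinj _ _ (by rw [h1, one_smul])
    rcases mul_self_eq_one_iff.mp h2 with h3 | h3
    · exfalso
      apply hz1
      apply Subtype.ext
      apply Units.ext
      rw [hzc, h3, one_smul]
      rfl
    · exact h3
  have hz' : (z : GL ι F) = -1 := by
    apply Units.ext
    rw [hzc, hcc]
    simp
  have hcomm : ∀ x ∈ R, ∀ y ∈ R, x * y = y * x ∨ x * y = -(y * x) := by
    intro x hx y hy
    rcases hc ⟨x, hx⟩ ⟨y, hy⟩ with h1 | h1
    · left; exact congrArg Subtype.val h1
    · right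
      have h2 := congrArg Subtype.val h1
      simp only [Subgroup.coe_mul] at h2
      rw [h2, hz', neg_one_mul]
  refine ⟨hirr, hcomm, ?_, hz' ▸ z.2⟩
  intro x hx
  obtain ⟨d, hd⟩ := exists_scalar_of_comm hirr (M := ((x * x : GL ι F) : Matrix ι ι F)) (by
    intro y hy
    rw [← Units.val_mul, ← Units.val_mul]
    congr 1
    rcases hcomm x hx y hy with h1 | h1
    · rw [mul_assoc, h1, ← mul_assoc, h1, mul_assoc]
    · rw [mul_assoc, h1, mul_neg, ← mul_assoc, h1, neg_mul, neg_neg, mul_assoc])
  have h4 := hpow ⟨x, hx⟩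
  have h5 := congrArg (fun x : R => ((x : GL ι F) : Matrix ι ι F)) h4
  simp only [Subgroup.coe_pow, Subgroup.coe_one, Units.val_one] at h5
  have h6 : (x : GL ι F) ^ 4 = (x * x) * (x * x) := by rw [pow_succ, pow_succ, pow_two]; group
  rw [h6, Units.val_mul, hd, smul_mul_smul_comm, mul_one] at h5
  have h7 : d * d = 1 := hinj _ _ (by rw [h5, one_smul])
  rcases mul_self_eq_one_iff.mp h7 with h3 | h3
  · left; apply Units.ext; rw [hd, h3, one_smul]; rfl
  · right; apply Units.ext; rw [hd, h3]; simp

end Cfsg.Agent.H99
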