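import Cfsg.Agent.H99.PauliA

set_option autoImplicit false

/-!
Generators of groups of order sixteen modulo the centre with commutators `±1`.
-/

namespace Cfsg.Agent.H99

open Module
open scoped Matrix MatrixGroups

variable {ι : Type} [Fintype ι] [DecidableEq ι] {F : Type*} [Field F]

lemma GL_ne_neg [Nonempty ι] (h2 : (2 : F) ≠ 0) (g : GL ι F) : g ≠ -g := by
  intro h
  have h1 : (g : Matrix ι ι F) = -(g : Matrix ι ι F) := by
    have := congrArg (fun x : GL ι F => (x : Matrix ι ι F)) h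
    simpa using this
  have h3 : (2 : F) • (g : Matrix ι ι F) = 0 := by
    rw [two_smul]
    nth_rewrite 1 [h1]
    exact neg_add_cancel _
  have h4 : (g : Matrix ι ι F) = 0 := (smul_eq_zero.mp h3).resolve_left h2
  have h5 : (g : Matrix ι ι F) * ((g⁻¹ : GL ι F) : Matrix ι ι F) = 1 := by rw [← Units.val_mul, mul_inv_cancel]; rfl
  rw [h4, zero_mul] at h5
  obtain ⟨i⟩ := (inferInstance : Nonempty ι)
  have := congrFun (congrFun h5 i) i
  simp at this

lemma mem_cs {G : Type*} [Group G] {a x : G} : x ∈ Subgroup.centralizer {a} ↔ x * a = a * x := by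
  rw [Subgroup.mem_centralizer_singleton_iff]

lemma mem_cR {G : Type*} [Group G] {R : Subgroup G} {x : G} : x ∈ Subgroup.centralizer (R : Set G) ↔ ∀ y ∈ R, y * x = x * y := by
  rw [Subgroup.mem_centralizer_iff]
  rfl

lemma half_step [Nonempty ι] (h2 : (2 : F) ≠ 0) {R : Subgroup (GL ι F)} (hcomm : ∀ x ∈ R, ∀ y ∈ R, x * y = y * x ∨ x * y = -(y * x))
    {C : Subgroup (GL ι F)} (hC : C ≤ R) {a b : GL ι F} (ha : a ∈ R) (hb : b ∈ C) (hba : b * a = -(a * b)) :
    Nat.card C = 2 * Nat.card (C ⊓ Subgroup.centralizer {a} : Subgroup (GL ι F)) ∧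
    ∀ S : Subgroup (GL ι F), b ∈ S → C ⊓ Subgroup.centralizer {a} ≤ S → C ≤ S := by
  have hmemc : ∀ x : GL ι F, x ∈ Subgroup.centralizer {a} ↔ x * a = a * x := by
    intro x
    rw [Subgroup.mem_centralizer_singleton_iff]
  have hx : ∀ x ∈ C, (x * a = a * x ∧ ¬ (x * b) * a = a * (x * b)) ∨ (¬ x * a = a * x ∧ (x * b) * a = a * (x * b)) := by
    intro x hx
    rcases hcomm x (hC hx) a ha with h1 | h1
    · left
      refine ⟨h1, fun h3 => ?_⟩
      have h4 : x * b * a = -(a * (x * b)) := by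
        rw [mul_assoc, hba, mul_neg, ← mul_assoc, h1, mul_assoc]
      rw [h3] at h4
      exact GL_ne_neg h2 _ h4
    · right
      refine ⟨fun h3 => ?_, ?_⟩
      · rw [h3] at h1
        exact GL_ne_neg h2 _ h1
      · rw [mul_assoc, hba, mul_neg, ← mul_assoc, h1, neg_mul, neg_neg, mul_assoc]
  refine ⟨?_, ?_⟩
  · set H : Subgroup C := (C ⊓ Subgroup.centralizer {a} : Subgroup (GL ι F)).subgroupOf C with hH
    have hmemH : ∀ x : C, x ∈ H ↔ (x : GL ι F) * a = a * x := by
      intro x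
      rw [hH, Subgroup.mem_subgroupOf, Subgroup.mem_inf, hmemc]
      exact ⟨fun h => h.2, fun h => ⟨x.2, h⟩⟩
    have hidx : H.index = 2 := by
      rw [Subgroup.index_eq_two_iff]
      refine ⟨⟨b, hb⟩, fun x => ?_⟩
      rw [hmemH, hmemH]
      rcases hx x x.2 with h | h
      · exact Or.inr ⟨h.1, h.2⟩
      · exact Or.inl ⟨h.2, h.1⟩
    have h3 := H.card_mul_index
    rw [hidx] at h3
    have h4 : Nat.card H = Nat.card (C ⊓ Subgroup.centralizer {a} : Subgroup (GL ι F)) :=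
      Nat.card_congr (Subgroup.subgroupOfEquivOfLe inf_le_left).toEquiv
    rw [← h3, h4, mul_comm]
  · intro S hbS hS x hxC
    rcases hx x hxC with h | h
    · exact hS ⟨hxC, (hmemc x).mpr h.1⟩
    · have h3 := hS (show x * b ∈ C ⊓ Subgroup.centralizer {a} from ⟨C.mul_mem hxC hb, (hmemc _).mpr h.2⟩)
      have h4 := S.mul_mem h3 (S.inv_mem hbS)
      rwa [mul_inv_cancel_right] at h4

/-- generators modulo the centre -/
structure PQuad (R : Subgroup (GL ι F)) (a b c d : GL ι F) : Prop where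
  ha : a ∈ R
  hb : b ∈ R
  hc : c ∈ R
  hd : d ∈ R
  ab : a * b = -(b * a)
  cd : c * d = -(d * c)
  ac : a * c = c * a
  ad : a * d = d * a
  bc : b * c = c * b
  bd : b * d = d * b
  gen : ∀ S : Subgroup (GL ι F), a ∈ S → b ∈ S → c ∈ S → d ∈ S → (∀ z ∈ R, (∀ y ∈ R, z * y = y * z) → z ∈ S) → R ≤ S

lemma card_center_eq (R : Subgroup (GL ι F)) : Nat.card (Subgroup.center R) =
    Nat.card (R ⊓ Subgroup.centralizer (R : Set (GL ι F)) : Subgroup (GL ι F)) := by
  have h1 : (Subgroup.center R).map R.subtype = R ⊓ Subgroup.centralizer (R : Set (GL ι F)) := by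
    ext x
    constructor
    · rintro ⟨y, hy, rfl⟩
      refine ⟨y.2, mem_cR.mpr ?_⟩
      intro g hg
      exact congrArg Subtype.val (Subgroup.mem_center_iff.mp hy ⟨g, hg⟩)
    · rintro ⟨hx, hx2⟩
      exact ⟨⟨x, hx⟩, Subgroup.mem_center_iff.mpr (fun g => Subtype.ext (mem_cR.mp hx2 g g.2)), rfl⟩
  rw [← h1]
  exact Nat.card_congr ((Subgroup.center R).equivMapOfInjective R.subtype R.subtype_injective).toEquiv

theorem PGrp.exists_quad [Finite F] {R : Subgroup (GL ι F)} (h : PGrp R) (h2 : (2 : F) ≠ 0) (hι : 2 ≤ Fintype.card ι)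
    (hcard : Nat.card R = 16 * Nat.card (Subgroup.center R)) :
    ∃ a b c d : GL ι F, PQuad R a b c d := by
  have : Nonempty ι := Fintype.card_pos_iff.mp (by omega)
  obtain ⟨a, ha, b, hb, hab⟩ := exists_noncomm h.irr hι
  have hab1 : a * b = -(b * a) := (h.comm a ha b hb).resolve_left hab
  have hba1 : b * a = -(a * b) := by rw [hab1, neg_neg]
  obtain ⟨c1, g1⟩ := half_step h2 h.comm le_rfl ha hb hba1
  set C1 := R ⊓ Subgroup.centralizer {a} with hC1
  have haC1 : a ∈ C1 := ⟨ha, mem_cs.mpr rfl⟩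
  obtain ⟨c2, g2⟩ := half_step h2 h.comm (C := C1) inf_le_left hb haC1 hab1
  set C2 := C1 ⊓ Subgroup.centralizer {b} with hC2
  have hC2R : C2 ≤ R := inf_le_left.trans inf_le_left
  have hZpos : 0 < Nat.card (Subgroup.center R) := Nat.card_pos
  have hZ := card_center_eq R
  set Z := R ⊓ Subgroup.centralizer (R : Set (GL ι F)) with hZdef
  have hC2mem : ∀ x ∈ C2, a * x = x * a ∧ b * x = x * b := by
    rintro x ⟨⟨-, hx1⟩, hx2⟩
    exact ⟨(mem_cs.mp hx1).symm, (mem_cs.mp hx2).symm⟩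
  obtain ⟨c, hc, d, hd, hcd⟩ : ∃ c ∈ C2, ∃ d ∈ C2, c * d ≠ d * c := by
    by_contra hcon
    push Not at hcon
    have h3 : C2 ≤ Z := by
      intro x hx
      refine ⟨hC2R hx, mem_cR.mpr ?_⟩
      intro y hy
      have h4 : R ≤ Subgroup.centralizer {x} := by
        apply g1 (Subgroup.centralizer {x})
        · rw [Subgroup.mem_centralizer_singleton_iff]; exact (hC2mem x hx).2
        · apply g2 (Subgroup.centralizer {x})
          · rw [Subgroup.mem_centralizer_singleton_iff]; exact (hC2mem x hx).1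
          · intro w hw
            rw [Subgroup.mem_centralizer_singleton_iff]
            exact hcon w hw x hx
      have h5 := h4 hy
      rw [Subgroup.mem_centralizer_singleton_iff] at h5
      exact h5
    have h4 : Nat.card C2 ≤ Nat.card Z := Nat.card_le_card_of_injective _ (Subgroup.inclusion_injective h3)
    omega
  have hcd1 : c * d = -(d * c) := (h.comm c (hC2R hc) d (hC2R hd)).resolve_left hcd
  have hdc1 : d * c = -(c * d) := by rw [hcd1, neg_neg]
  obtain ⟨c3, g3⟩ := half_step h2 h.comm (C := C2) hC2R (hC2R hc) hd hdc1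
  set C3 := C2 ⊓ Subgroup.centralizer {c} with hC3
  have hcC3 : c ∈ C3 := ⟨hc, mem_cs.mpr rfl⟩
  obtain ⟨c4, g4⟩ := half_step h2 h.comm (C := C3) (inf_le_left.trans hC2R) (hC2R hd) hcC3 hcd1
  set C4 := C3 ⊓ Subgroup.centralizer {d} with hC4
  have hZC4 : Z ≤ C4 := by
    rintro x ⟨hx1, hx2⟩
    have hx2 := mem_cR.mp hx2
    exact ⟨⟨⟨⟨hx1, mem_cs.mpr (hx2 a ha).symm⟩, mem_cs.mpr (hx2 b hb).symm⟩, mem_cs.mpr (hx2 c (hC2R hc)).symm⟩,
      mem_cs.mpr (hx2 d (hC2R hd)).symm⟩
  have hC4Z : C4 = Z := by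
    symm
    apply Subgroup.eq_of_le_of_card_ge hZC4
    omega
  refine ⟨a, b, c, d, ha, hb, hC2R hc, hC2R hd, hab1, hcd1, (hC2mem c hc).1, (hC2mem d hd).1, (hC2mem c hc).2, (hC2mem d hd).2, ?_⟩
  intro S haS hbS hcS hdS hZS
  apply g1 S hbS
  apply g2 S haS
  apply g3 S hdS
  apply g4 S hcS
  rw [hC4Z]
  rintro x ⟨hx1, hx2⟩
  exact hZS x hx1 (fun y hy => (mem_cR.mp hx2 y hy).symm)

/-- membership in the normaliser -/
theorem PQuad.mem_normalizer [Finite F] {R : Subgroup (GL ι F)} (h : PGrp R) {a b c d : GL ι F} (hq : PQuad R a b c d) {g : GL ι F}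
    (h1 : g * a * g⁻¹ ∈ R) (h2 : g * b * g⁻¹ ∈ R) (h3 : g * c * g⁻¹ ∈ R) (h4 : g * d * g⁻¹ ∈ R) :
    g ∈ Cfsg.Geo.subgroupNormalizer R := by
  apply mem_normalizer_of_conj_mem
  have key : R ≤ R.comap (MulAut.conj g).toMonoidHom := by
    apply hq.gen
    · exact h1
    · exact h2
    · exact h3
    · exact h4
    · intro z hz hzc
      obtain ⟨k, hk⟩ := exists_scalar_of_comm h.irr (M := (z : Matrix ι ι F)) (fun y hy => by
        rw [← Units.val_mul, hzc y hy, Units.val_mul])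
      have h5 : g * z * g⁻¹ = z := by
        rw [mul_inv_eq_iff_eq_mul]
        apply Units.ext
        rw [Units.val_mul, Units.val_mul, hk]
        simp
      change g * z * g⁻¹ ∈ R
      rw [h5]
      exact hz
  intro x hx
  exact key hx

end Cfsg.Agent.H99
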