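import Cfsg.Agent.H99.PauliB

set_option autoImplicit false

/-!
Elements of odd prime order normalizing a group with commutators `±1`.
-/

namespace Cfsg.Agent.H99

open Module
open scoped Matrix MatrixGroups

section abs
variable {G : Type*} [Group G]

lemma card_cent_modEq' {R : Subgroup G} [Finite R] {g : G} (hg : g ∈ Subgroup.normalizer (R : Set G)) (r : ℕ)
    [Fact r.Prime] (hgr : ∀ x ∈ R, g ^ r * x = x * g ^ r) :
    Nat.card R ≡ Nat.card (R ⊓ Subgroup.centralizer {g} : Subgroup G) [MOD r] := by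
  classical
  have hmem : ∀ x : R, g * x * g⁻¹ ∈ R := fun x => (Subgroup.mem_normalizer_iff.mp hg x).mp x.2
  let f : Function.End R := fun x => ⟨g * x * g⁻¹, hmem x⟩
  have hf : ∀ (k : ℕ) (x : R), ((f ^ k : Function.End R) x : G) = g ^ k * x * (g ^ k)⁻¹ := by
    intro k
    induction k with
    | zero =>
      intro x
      simp only [pow_zero, one_mul, inv_one, mul_one]
      rfl
    | succ k ih =>
      intro x
      rw [pow_succ]
      change ((f ^ k : Function.End R) (f x) : G) = _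
      rw [ih]
      change g ^ k * (g * x * g⁻¹) * (g ^ k)⁻¹ = _
      rw [pow_succ]
      group
  have hfr : f ^ r ^ 1 = 1 := by
    funext x
    apply Subtype.ext
    rw [hf, pow_one, hgr x x.2, mul_inv_cancel_right]
    rfl
  have := @Fintype.ofFinite R inferInstance
  have h := Equiv.Perm.card_fixedPoints_modEq (f := f) (p := r) (n := 1) hfr
  rw [← Nat.card_eq_fintype_card, ← Nat.card_eq_fintype_card] at h
  refine h.trans ?_
  have h2 : Nat.card f.fixedPoints = Nat.card (R ⊓ Subgroup.centralizer {g} : Subgroup G) := by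
    apply Nat.card_congr
    refine ⟨fun x => ⟨x.1, x.1.2, ?_⟩, fun x => ⟨⟨x.1, x.2.1⟩, ?_⟩, fun x => rfl, fun x => rfl⟩
    · apply mem_cs.mpr
      have h3 : f x.1 = x.1 := x.2
      have h4 := congrArg Subtype.val h3
      change g * (x.1 : G) * g⁻¹ = x.1 at h4
      rw [mul_inv_eq_iff_eq_mul] at h4
      exact h4.symm
    · change f ⟨x.1, x.2.1⟩ = ⟨x.1, x.2.1⟩
      apply Subtype.ext
      change g * (x.1 : G) * g⁻¹ = x.1
      rw [mul_inv_eq_iff_eq_mul]
      exact (mem_cs.mp x.2.2).symm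
  rw [h2]

lemma conj_mem_of_normalizer {R : Subgroup G} {g : G} (hg : g ∈ Subgroup.normalizer (R : Set G)) {x : G} (hx : x ∈ R) : g * x * g⁻¹ ∈ R :=
  (Subgroup.mem_normalizer_iff.mp hg x).mp hx

end abs

variable {ι : Type} [Fintype ι] [DecidableEq ι] {F : Type*} [Field F] {R : Subgroup (GL ι F)}

lemma GL_smul_one_inj [Nonempty ι] {c d : F} (h : c • (1 : Matrix ι ι F) = d • (1 : Matrix ι ι F)) : c = d := by
  obtain ⟨i⟩ := (inferInstance : Nonempty ι)
  have := congrFun (congrFun h i) i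
  simpa using this

lemma eq_one_of_coprime_pow {c : F} {r : ℕ} (hr : Odd r) (h4 : c ^ 4 = 1) (h : c ^ r = 1) : c = 1 := by
  have h1 := orderOf_dvd_of_pow_eq_one h4
  have h2 := orderOf_dvd_of_pow_eq_one h
  have h3 : Nat.Coprime 4 r := by
    have : Nat.Coprime (2 ^ 2) r := Nat.Coprime.pow_left 2 (Nat.coprime_two_left.mpr hr)
    exact this
  have h4 : orderOf c ∣ 1 := by
    rw [← h3.gcd_eq_one]
    exact Nat.dvd_gcd h1 h2
  exact orderOf_eq_one_iff.mp (Nat.dvd_one.mp h4)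

lemma PGrp.scalar_pow [Nonempty ι] (h : PGrp R) {w : GL ι F} (hw : w ∈ R) {c : F} (hc : (w : Matrix ι ι F) = c • (1 : Matrix ι ι F)) : c ^ 4 = 1 := by
  have h1 : (c * c) • (1 : Matrix ι ι F) = ((w * w : GL ι F) : Matrix ι ι F) := by
    rw [Units.val_mul, hc, smul_mul_smul_comm, mul_one]
  rcases h.sq w hw with h2 | h2
  · rw [h2] at h1
    have h3 : c * c = 1 := GL_smul_one_inj (ι := ι) (by rw [h1, one_smul]; rfl)
    linear_combination (c * c + 1) * h3
  · rw [h2] at h1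
    have h3 : c * c = -1 := GL_smul_one_inj (ι := ι) (by rw [h1]; simp)
    linear_combination (c * c - 1) * h3

lemma PGrp.comm_of_scalar [Nonempty ι] (h : PGrp R) {y u : GL ι F} {r : ℕ} (hr : Odd r) (hyr : y ^ r * u = u * y ^ r) (hu : u ∈ R)
    (hyu : y * u * y⁻¹ ∈ R) {ζ : F} (hζ : ((y * u * y⁻¹ : GL ι F) : Matrix ι ι F) = ζ • (u : Matrix ι ι F)) : y * u = u * y := by
  have hk : ∀ k : ℕ, ((y ^ k * u * (y ^ k)⁻¹ : GL ι F) : Matrix ι ι F) = ζ ^ k • (u : Matrix ι ι F) := by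
    intro k
    induction k with
    | zero => simp
    | succ k ih =>
      have e : (y ^ (k + 1) * u * (y ^ (k + 1))⁻¹ : GL ι F) = y * (y ^ k * u * (y ^ k)⁻¹) * y⁻¹ := by
        rw [pow_succ']; group
      rw [e, Units.val_mul, Units.val_mul, ih, Matrix.mul_smul, Matrix.smul_mul, ← Units.val_mul, ← Units.val_mul, hζ, smul_smul, pow_succ]
  have h1 := hk r
  rw [hyr, mul_inv_cancel_right] at h1
  have hu1 : (u : Matrix ι ι F) * ((u⁻¹ : GL ι F) : Matrix ι ι F) = 1 := by rw [← Units.val_mul, mul_inv_cancel]; rfl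
  have h2 : ζ ^ r = 1 := by
    apply GL_smul_one_inj (ι := ι)
    rw [one_smul, ← hu1, ← Matrix.smul_mul, ← h1]
  have h3 : ((y * u * y⁻¹ * u⁻¹ : GL ι F) : Matrix ι ι F) = ζ • (1 : Matrix ι ι F) := by
    rw [Units.val_mul, hζ, Matrix.smul_mul, hu1]
  have h4 := h.scalar_pow (R.mul_mem hyu (R.inv_mem hu)) h3
  have h5 := eq_one_of_coprime_pow hr h4 h2
  rw [h5, one_smul] at hζ
  have h6 : y * u * y⁻¹ = u := Units.ext hζ
  rwa [mul_inv_eq_iff_eq_mul] at h6

lemma PGrp.trace_eq_zero (h : PGrp R) (h2 : (2 : F) ≠ 0) {w : GL ι F} (hw : w ∈ R) (hns : ¬ ∀ v ∈ R, w * v = v * w) :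
    (w : Matrix ι ι F).trace = 0 := by
  push Not at hns
  obtain ⟨v, hv, hwv⟩ := hns
  have h1 := (h.comm w hw v hv).resolve_left hwv
  have h3 : w = -(v * w * v⁻¹) := by
    rw [← neg_mul, ← h1, mul_inv_cancel_right]
  have h4 : (w : Matrix ι ι F).trace = -(w : Matrix ι ι F).trace := by
    conv_lhs => rw [h3]
    rw [Units.val_neg, Matrix.trace_neg, Units.val_mul, Matrix.trace_mul_comm, ← Units.val_mul]
    congr 3
    group
  have h5 : (2 : F) * (w : Matrix ι ι F).trace = 0 := by linear_combination h4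
  exact (mul_eq_zero.mp h5).resolve_left h2

theorem PGrp.trace_formula [Nonempty ι] [Finite F] (h : PGrp R) (h2 : (2 : F) ≠ 0) {y : GL ι F} (hy : y ∈ Cfsg.Geo.subgroupNormalizer R)
    {r : ℕ} (hr : Odd r) (hyr : ∀ v ∈ R, y ^ r * v = v * y ^ r) :
    (Fintype.card ι : F) ^ 2 * (Nat.card (R ⊓ Subgroup.centralizer {y} : Subgroup (GL ι F)) : F) =
      (Nat.card R : F) * (y : Matrix ι ι F).trace * ((y⁻¹ : GL ι F) : Matrix ι ι F).trace := by
  classical
  have := @Fintype.ofFinite R inferInstance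
  have hy' : y ∈ Subgroup.normalizer (R : Set (GL ι F)) := hy
  set S : Matrix ι ι F := ∑ u : R, (((u : GL ι F) * y * (u : GL ι F)⁻¹ : GL ι F) : Matrix ι ι F) with hS
  obtain ⟨l, hl⟩ := exists_scalar_of_comm h.irr (M := S) (by
    intro g hg
    rw [hS, Finset.sum_mul, Finset.mul_sum]
    apply Fintype.sum_equiv (Equiv.mulLeft (⟨g, hg⟩ : R)⁻¹)
    intro u
    rw [← Units.val_mul, ← Units.val_mul]
    congr 1
    simp only [Equiv.coe_mulLeft, Subgroup.coe_mul, Subgroup.coe_inv]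
    group)
  have h3 : (Fintype.card ι : F) * l = (Nat.card R : F) * (y : Matrix ι ι F).trace := by
    have h4 : S.trace = l * (Fintype.card ι : F) := by rw [hl, Matrix.trace_smul, Matrix.trace_one, smul_eq_mul]
    have h5 : S.trace = (Nat.card R : F) * (y : Matrix ι ι F).trace := by
      rw [hS, Matrix.trace_sum]
      have h55 : ∀ u ∈ (Finset.univ : Finset R), Matrix.trace (((u : GL ι F) * y * (u : GL ι F)⁻¹ : GL ι F) : Matrix ι ι F) =
        (y : Matrix ι ι F).trace := by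
        intro u _
        rw [mul_assoc, Units.val_mul, Matrix.trace_mul_comm, ← Units.val_mul]
        congr 2
        group
      rw [Finset.sum_congr rfl h55]
      rw [Finset.sum_const, Finset.card_univ, nsmul_eq_mul, Nat.card_eq_fintype_card]
    rw [← h5, h4, mul_comm]
  have h6 : ∀ u : R, ((((u : GL ι F) * y * (u : GL ι F)⁻¹ * y⁻¹ : GL ι F) : Matrix ι ι F)).trace =
      if (u : GL ι F) ∈ Subgroup.centralizer {y} then (Fintype.card ι : F) else 0 := by
    intro u
    have hmem : (u : GL ι F) * y * (u : GL ι F)⁻¹ * y⁻¹ ∈ R := by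
      have h7 := R.mul_mem u.2 (conj_mem_of_normalizer hy' (R.inv_mem u.2))
      have e : (u : GL ι F) * y * (u : GL ι F)⁻¹ * y⁻¹ = u * (y * (u : GL ι F)⁻¹ * y⁻¹) := by group
      rw [e]
      exact h7
    have hcs : ∀ {x : GL ι F}, x ∈ Subgroup.centralizer {y} ↔ x * y = y * x := mem_cs
    by_cases hc : ∀ v ∈ R, ((u : GL ι F) * y * (u : GL ι F)⁻¹ * y⁻¹) * v = v * ((u : GL ι F) * y * (u : GL ι F)⁻¹ * y⁻¹)
    · obtain ⟨ζ, hζ⟩ := exists_scalar_of_comm h.irr (M := (((u : GL ι F) * y * (u : GL ι F)⁻¹ * y⁻¹ : GL ι F) : Matrix ι ι F))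
        (fun v hv => by rw [← Units.val_mul, hc v hv, Units.val_mul])
      have h7 : y * (u : GL ι F)⁻¹ = (u : GL ι F)⁻¹ * y := by
        apply h.comm_of_scalar hr (hyr _ (R.inv_mem u.2)) (R.inv_mem u.2) (conj_mem_of_normalizer hy' (R.inv_mem u.2)) (ζ := ζ)
        have e : y * (u : GL ι F)⁻¹ * y⁻¹ = (u : GL ι F)⁻¹ * ((u : GL ι F) * y * (u : GL ι F)⁻¹ * y⁻¹) := by group
        rw [e, Units.val_mul, hζ, Matrix.mul_smul, mul_one]
      have h8 : (u : GL ι F) * y = y * u := by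
        have := congrArg (fun x => (u : GL ι F) * x * u) h7
        simp only [mul_assoc, inv_mul_cancel, mul_one, mul_inv_cancel_left] at this
        exact this
      rw [if_pos (hcs.mpr h8)]
      have h9 : (u : GL ι F) * y * (u : GL ι F)⁻¹ * y⁻¹ = 1 := by
        rw [h8]; group
      rw [h9, Units.val_one, Matrix.trace_one]
    · rw [if_neg, h.trace_eq_zero h2 hmem hc]
      intro h8
      apply hc
      have h9 : (u : GL ι F) * y * (u : GL ι F)⁻¹ * y⁻¹ = 1 := by
        rw [hcs.mp h8]; group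
      intro v _
      rw [h9, one_mul, mul_one]
  have h7 : l * ((y⁻¹ : GL ι F) : Matrix ι ι F).trace = (Fintype.card ι : F) * (Nat.card (R ⊓ Subgroup.centralizer {y} : Subgroup (GL ι F)) : F) := by
    have h8 : (S * ((y⁻¹ : GL ι F) : Matrix ι ι F)).trace = l * ((y⁻¹ : GL ι F) : Matrix ι ι F).trace := by
      rw [hl, Matrix.smul_mul, one_mul, Matrix.trace_smul, smul_eq_mul]
    rw [← h8, hS, Finset.sum_mul, Matrix.trace_sum]
    simp only [← Units.val_mul]
    rw [Finset.sum_congr rfl (fun u _ => h6 u), ← Finset.sum_filter, Finset.sum_const, nsmul_eq_mul, mul_comm]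
    congr 2
    rw [← Fintype.card_subtype, ← Nat.card_eq_fintype_card]
    apply Nat.card_congr
    exact ⟨fun x => ⟨x.1, x.1.2, x.2⟩, fun x => ⟨⟨x.1, x.2.1⟩, x.2.2⟩, fun x => rfl, fun x => rfl⟩
  rw [pow_two, mul_assoc, ← h7, ← mul_assoc, h3]

end Cfsg.Agent.H99
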