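import Cfsg.Agent.H99.PauliC

set_option autoImplicit false

/-!
Elements of odd prime order normalizing a group of order sixteen modulo its centre.
-/

namespace Cfsg.Agent.H99

open Module
open scoped Matrix MatrixGroups

variable {ι : Type} [Fintype ι] [DecidableEq ι] {F : Type*} [Field F] {R : Subgroup (GL ι F)}

lemma scalar_of_comm_R [Nonempty ι] (h : PGrp R) {w : GL ι F} (hw : ∀ v ∈ R, w * v = v * w) : ∃ z : F, (w : Matrix ι ι F) = z • (1 : Matrix ι ι F) :=
  exists_scalar_of_comm h.irr (fun v hv => by rw [← Units.val_mul, hw v hv, Units.val_mul])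

lemma comm_of_val_smul {w : GL ι F} {z : F} (hz : (w : Matrix ι ι F) = z • (1 : Matrix ι ι F)) (v : GL ι F) : w * v = v * w := by
  apply Units.ext
  rw [Units.val_mul, Units.val_mul, hz]
  simp

theorem PGrp.odd_cases [Nonempty ι] [Finite F] (h : PGrp R) (h2 : (2 : F) ≠ 0) (hι : Fintype.card ι = 4)
    {k : ℕ} (hZ : Nat.card (Subgroup.center R) = 2 ^ k) (hcard : Nat.card R = 2 ^ (k + 4)) {y : GL ι F} (hy : y ∈ Cfsg.Geo.subgroupNormalizer R)
    {r : ℕ} [hrp : Fact r.Prime] (hr2 : r ≠ 2) (hyr : ∀ v ∈ R, y ^ r * v = v * y ^ r) (hns : ¬ ∀ v ∈ R, y * v = v * y) :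
    ((r = 3 ∨ r = 5) ∧ (y : Matrix ι ι F).trace * ((y⁻¹ : GL ι F) : Matrix ι ι F).trace = 1 ∧
      Nat.card (R ⊓ Subgroup.centralizer {y} : Subgroup (GL ι F)) = 2 ^ k) ∨
    (r = 3 ∧ (y : Matrix ι ι F).trace * ((y⁻¹ : GL ι F) : Matrix ι ι F).trace = 4 ∧
      Nat.card (R ⊓ Subgroup.centralizer {y} : Subgroup (GL ι F)) = 2 ^ (k + 2)) := by
  classical
  have hy' : y ∈ Subgroup.normalizer (R : Set (GL ι F)) := hy
  have hodd : Odd r := hrp.out.odd_of_ne_two hr2
  have hcop : ∀ m : ℕ, Nat.Coprime r (2 ^ m) := fun m => Nat.Coprime.pow_right m ((Nat.coprime_primes hrp.out Nat.prime_two).mpr hr2)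
  have hT := h.trace_formula h2 hy hodd hyr
  have hM := card_cent_modEq' hy' r hyr
  set C := R ⊓ Subgroup.centralizer {y} with hC
  have hCdvd : Nat.card C ∣ 2 ^ (k + 4) := by
    rw [← hcard]
    exact Subgroup.card_dvd_of_le inf_le_left
  obtain ⟨m, hm4, hm⟩ := (Nat.dvd_prime_pow Nat.prime_two).mp hCdvd
  have hZC : R ⊓ Subgroup.centralizer (R : Set (GL ι F)) ≤ C := by
    rintro x ⟨hx1, hx2⟩
    refine ⟨hx1, mem_cs.mpr ?_⟩
    obtain ⟨z, hz⟩ := scalar_of_comm_R h (w := x) (fun v hv => (mem_cR.mp hx2 v hv).symm)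
    exact comm_of_val_smul hz y
  have hkm : k ≤ m := by
    have h3 := Nat.card_le_card_of_injective _ (Subgroup.inclusion_injective hZC)
    rw [← card_center_eq, hZ, hm] at h3
    exact (Nat.pow_le_pow_iff_right (by norm_num)).mp h3
  obtain ⟨j, rfl⟩ := Nat.exists_eq_add_of_le hkm
  have hj4 : j ≤ 4 := by omega
  rw [hcard, hm, pow_add, pow_add] at hM
  have hM' : 2 ^ 4 ≡ 2 ^ j [MOD r] := Nat.ModEq.cancel_left_of_coprime (hcop k) hM
  have h2k : (2 : F) ^ (k + 4) ≠ 0 := pow_ne_zero _ h2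
  have hT' : (2 : F) ^ j = (y : Matrix ι ι F).trace * ((y⁻¹ : GL ι F) : Matrix ι ι F).trace := by
    rw [hcard, hm, hι] at hT
    apply mul_left_cancel₀ h2k
    rw [← mul_assoc, ← Nat.cast_ofNat (n := 2), ← Nat.cast_pow, ← hT]
    push_cast
    ring
  have hCeq : ∀ {D : Subgroup (GL ι F)}, D ≤ C → Nat.card C ≤ Nat.card D → D = C := fun h1 h2 => Subgroup.eq_of_le_of_card_ge h1 h2
  interval_cases j
  · left
    refine ⟨?_, by rw [← hT', pow_zero], hm⟩
    have h3 : r ∣ 15 := by
      have := (Nat.modEq_iff_dvd' (by norm_num)).mp hM'.symm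
      simpa using this
    have h4 : r ∈ Nat.primeFactors 15 := Nat.mem_primeFactors.mpr ⟨hrp.out, h3, by norm_num⟩
    have h5 : Nat.primeFactors 15 = {3, 5} := by decide +kernel
    rw [h5] at h4
    simpa using h4
  · exfalso
    have h3 : r ∣ 14 := by
      have := (Nat.modEq_iff_dvd' (by norm_num)).mp hM'.symm
      simpa using this
    have h4 : r ∈ Nat.primeFactors 14 := Nat.mem_primeFactors.mpr ⟨hrp.out, h3, by norm_num⟩
    have h5 : Nat.primeFactors 14 = {2, 7} := by decide +kernel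
    rw [h5] at h4
    have h7 : r = 7 := by
      simp only [Finset.mem_insert, Finset.mem_singleton] at h4
      exact h4.resolve_left hr2
    -- find v in C not central
    have hne : ∃ v ∈ C, ∃ b ∈ R, b * v ≠ v * b := by
      by_contra hcon
      push Not at hcon
      have h8 : C ≤ R ⊓ Subgroup.centralizer (R : Set (GL ι F)) := fun v hv => ⟨hv.1, mem_cR.mpr (fun b hb => hcon v hv b hb)⟩
      have h9 := Nat.card_le_card_of_injective _ (Subgroup.inclusion_injective h8)
      rw [← card_center_eq, hZ, hm, pow_add] at h9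
      have := Nat.pow_pos (n := k) (show 0 < 2 by norm_num)
      omega
    obtain ⟨v, hv, b, hb, hbv⟩ := hne
    have hbv' : b * v = -(v * b) := (h.comm b hb v hv.1).resolve_left hbv
    obtain ⟨hD, -⟩ := half_step h2 h.comm (C := R) le_rfl hv.1 hb hbv'
    set D := R ⊓ Subgroup.centralizer {v} with hDdef
    have hvy : v * y = y * v := mem_cs.mp hv.2
    have hyD : y ∈ Subgroup.normalizer (D : Set (GL ι F)) := by
      rw [Subgroup.mem_normalizer_iff]
      intro x
      have e1 : (x * v = v * x) ↔ (y * x * y⁻¹ * v = v * (y * x * y⁻¹)) := by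
        have e2 : y⁻¹ * v = v * y⁻¹ := by
          rw [inv_mul_eq_iff_eq_mul, ← mul_assoc, ← hvy, mul_assoc, mul_inv_cancel, mul_one]
        constructor
        · intro e
          calc y * x * y⁻¹ * v = y * (x * v) * y⁻¹ := by rw [mul_assoc, e2]; simp only [mul_assoc]
            _ = y * (v * x) * y⁻¹ := by rw [e]
            _ = v * (y * x * y⁻¹) := by rw [← mul_assoc, ← hvy]; simp only [mul_assoc]
        · intro e
          have e3 : y * (x * v) * y⁻¹ = y * (v * x) * y⁻¹ := by
            calc y * (x * v) * y⁻¹ = y * x * y⁻¹ * v := by rw [mul_assoc (y * x), e2]; simp only [mul_assoc]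
              _ = v * (y * x * y⁻¹) := e
              _ = y * (v * x) * y⁻¹ := by rw [← mul_assoc y v x, ← hvy]; simp only [mul_assoc]
          exact mul_left_cancel (mul_right_cancel e3)
      have e4 := Subgroup.mem_normalizer_iff.mp hy' x
      constructor
      · rintro ⟨f1, f2⟩
        exact ⟨e4.mp f1, mem_cs.mpr (e1.mp (mem_cs.mp f2))⟩
      · rintro ⟨f1, f2⟩
        exact ⟨e4.mpr f1, mem_cs.mpr (e1.mpr (mem_cs.mp f2))⟩
    have hMD := card_cent_modEq' hyD r (fun x hx => hyr x hx.1)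
    have hCab : D ⊓ Subgroup.centralizer {y} = C := by
      -- C is generated by the centre and v; it has order 2^(k+1)
      have hZv : R ⊓ Subgroup.centralizer (R : Set (GL ι F)) < D ⊓ Subgroup.centralizer {y} := by
        refine lt_of_le_of_ne ?_ ?_
        · intro x hx
          exact ⟨⟨hx.1, mem_cs.mpr (mem_cR.mp hx.2 v hv.1).symm⟩, (hZC hx).2⟩
        · intro e
          have h8 : v ∈ D ⊓ Subgroup.centralizer {y} := ⟨⟨hv.1, mem_cs.mpr rfl⟩, hv.2⟩
          rw [← e] at h8
          exact hbv (mem_cR.mp h8.2 b hb)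
      have h8 : Nat.card (R ⊓ Subgroup.centralizer (R : Set (GL ι F)) : Subgroup (GL ι F)) < Nat.card (D ⊓ Subgroup.centralizer {y} : Subgroup (GL ι F)) := by
        by_contra hcon
        exact hZv.ne (Subgroup.eq_of_le_of_card_ge hZv.le (not_lt.mp hcon))
      have h9 : D ⊓ Subgroup.centralizer {y} ≤ C := fun x hx => ⟨hx.1.1, hx.2⟩
      have h10 : Nat.card (D ⊓ Subgroup.centralizer {y} : Subgroup (GL ι F)) ∣ 2 ^ (k + 1) := by
        rw [← hm]; exact Subgroup.card_dvd_of_le h9
      obtain ⟨n, hn, hn2⟩ := (Nat.dvd_prime_pow Nat.prime_two).mp h10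
      rw [← card_center_eq, hZ, hn2] at h8
      have h11 : k < n := (Nat.pow_lt_pow_iff_right (by norm_num)).mp h8
      apply Subgroup.eq_of_le_of_card_ge h9
      rw [hm, hn2]
      exact Nat.pow_le_pow_right (by norm_num) (by omega)
    rw [hCab, hm] at hMD
    have hDc : Nat.card D = 2 ^ k * 8 := by
      rw [hcard, pow_add] at hD
      omega
    rw [hDc, pow_add] at hMD
    have h12 : 8 ≡ 2 ^ 1 [MOD r] := Nat.ModEq.cancel_left_of_coprime (hcop k) hMD
    subst h7
    revert h12
    decide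
  · right
    refine ⟨?_, by rw [← hT']; norm_num, hm⟩
    have h3 : r ∣ 12 := by
      have := (Nat.modEq_iff_dvd' (by norm_num)).mp hM'.symm
      simpa using this
    have h4 : r ∈ Nat.primeFactors 12 := Nat.mem_primeFactors.mpr ⟨hrp.out, h3, by norm_num⟩
    have h5 : Nat.primeFactors 12 = {2, 3} := by decide +kernel
    rw [h5] at h4
    simp only [Finset.mem_insert, Finset.mem_singleton] at h4
    exact h4.resolve_left hr2
  · exfalso
    have h3 : r ∣ 2 ^ 3 := by
      have := (Nat.modEq_iff_dvd' (by norm_num)).mp hM'.symm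
      simpa using this
    exact hr2 ((Nat.prime_dvd_prime_iff_eq hrp.out Nat.prime_two).mp (hrp.out.dvd_of_dvd_pow h3))
  · exfalso
    apply hns
    have h3 : C = R := by
      apply Subgroup.eq_of_le_of_card_ge inf_le_left
      rw [hcard, hm]
    intro v hv
    rw [← h3] at hv
    exact (mem_cs.mp hv.2).symm

/-- transvections do not normalise -/
theorem PGrp.not_rank_one [Nonempty ι] [Finite F] (h : PGrp R) (h2 : (2 : F) ≠ 0) {y : GL ι F} (hy : y ∈ Cfsg.Geo.subgroupNormalizer R)
    {r : ℕ} (hodd : Odd r) (hyr : y ^ r = 1) (hι : 3 ≤ Fintype.card ι)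
    (hrk : finrank F (LinearMap.ker ((y : Matrix ι ι F).toLin' - 1)) + 1 = Fintype.card ι) (v : GL ι F) (hv : v ∈ R) : y * v = v * y := by
  classical
  have hy' : y ∈ Subgroup.normalizer (R : Set (GL ι F)) := hy
  have hφ : ∀ {u : GL ι F}, u ∈ R → y * u * y⁻¹ ∈ R := fun hu => conj_mem_of_normalizer hy' hu
  -- eigenvalue one
  have hfix : ∀ u : GL ι F, ∃ x : ι → F, x ≠ 0 ∧ ((u * y * u⁻¹ * y⁻¹ : GL ι F) : Matrix ι ι F) *ᵥ x = x := by
    intro u
    set K := LinearMap.ker ((y : Matrix ι ι F).toLin' - 1) with hK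
    have hKmem : ∀ x : ι → F, x ∈ K ↔ (y : Matrix ι ι F) *ᵥ x = x := by
      intro x
      rw [hK, LinearMap.mem_ker, LinearMap.sub_apply, sub_eq_zero, Matrix.toLin'_apply]
      rfl
    set e : (ι → F) →ₗ[F] (ι → F) := (u : Matrix ι ι F).toLin' with he
    have hinj : Function.Injective e := by
      intro a b hab
      rw [he, Matrix.toLin'_apply, Matrix.toLin'_apply] at hab
      have := congrArg (fun t => ((u⁻¹ : GL ι F) : Matrix ι ι F) *ᵥ t) hab
      simp only [Matrix.mulVec_mulVec] at this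
      rwa [← Units.val_mul, inv_mul_cancel, Units.val_one, Matrix.one_mulVec, Matrix.one_mulVec] at this
    have h3 : finrank F (K.map e) = finrank F K := (LinearEquiv.finrank_eq (Submodule.equivMapOfInjective e hinj K)).symm
    have h4 := Submodule.finrank_sup_add_finrank_inf_eq K (K.map e)
    have h5 : finrank F (K ⊔ K.map e : Submodule F (ι → F)) ≤ Fintype.card ι := by
      rw [← finrank_fintype_fun_eq_card F]
      exact Submodule.finrank_le _
    have h6 : 0 < finrank F (K ⊓ K.map e : Submodule F (ι → F)) := by omega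
    obtain ⟨x, hx⟩ := Submodule.exists_mem_ne_zero_of_ne_bot (p := K ⊓ K.map e) (by
      rintro h7
      rw [h7, finrank_bot] at h6
      omega)
    obtain ⟨⟨hx1, x', hx', hxx⟩, hx0⟩ := hx
    refine ⟨x, hx0, ?_⟩
    have h8 : ((y⁻¹ : GL ι F) : Matrix ι ι F) *ᵥ x = x := by
      have := congrArg (fun t => ((y⁻¹ : GL ι F) : Matrix ι ι F) *ᵥ t) ((hKmem x).mp hx1)
      simp only [Matrix.mulVec_mulVec] at this
      rw [← Units.val_mul, inv_mul_cancel, Units.val_one, Matrix.one_mulVec] at this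
      exact this.symm
    have h9 : ((u⁻¹ : GL ι F) : Matrix ι ι F) *ᵥ x = x' := by
      rw [← hxx, he, Matrix.toLin'_apply, Matrix.mulVec_mulVec, ← Units.val_mul, inv_mul_cancel, Units.val_one, Matrix.one_mulVec]
    rw [Units.val_mul, ← Matrix.mulVec_mulVec, h8, Units.val_mul, ← Matrix.mulVec_mulVec, h9, Units.val_mul, ← Matrix.mulVec_mulVec,
      (hKmem x').mp hx', ← hxx, he, Matrix.toLin'_apply]
  -- u commutes with its conjugate
  have hcomm : ∀ u ∈ R, u * (y * u * y⁻¹) = (y * u * y⁻¹) * u := by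
    intro u hu
    rcases h.comm u hu _ (hφ hu) with h3 | h3
    · exact h3
    · exfalso
      obtain ⟨x, hx0, hx⟩ := hfix u
      set w := u * y * u⁻¹ * y⁻¹ with hw
      have hwR : w ∈ R := by
        have e : w = u * (y * u⁻¹ * y⁻¹) := by rw [hw]; group
        rw [e]
        exact R.mul_mem hu (hφ (R.inv_mem hu))
      have hww : w * w = -1 := by
        -- w = u φ(u)⁻¹
        set t := y * u * y⁻¹ with ht
        have e1 : w = u * t⁻¹ := by rw [hw, ht]; group
        have e2 : t⁻¹ * u = -(u * t⁻¹) := by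
          have e3 : u * t = -(t * u) := h3
          have e4 : t⁻¹ * (u * t) * t⁻¹ = t⁻¹ * (-(t * u)) * t⁻¹ := by rw [e3]
          rw [mul_neg, neg_mul] at e4
          simp only [mul_assoc, mul_inv_cancel, mul_one, inv_mul_cancel_left] at e4
          exact e4
        have e5 : t * t = u * u := by
          have e6 : t * t = y * (u * u) * y⁻¹ := by rw [ht]; group
          rw [e6]
          rcases h.sq u hu with h7 | h7
          · rw [h7, mul_one, mul_inv_cancel]
          · rw [h7, mul_neg, mul_one, neg_mul, mul_inv_cancel]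
        calc w * w = u * (t⁻¹ * u) * t⁻¹ := by rw [e1]; simp only [mul_assoc]
          _ = -(u * u * (t⁻¹ * t⁻¹)) := by rw [e2, mul_neg, neg_mul]; simp only [mul_assoc]
          _ = -1 := by rw [← e5, ← mul_inv_rev, mul_inv_cancel]
      have h4 : ((w * w : GL ι F) : Matrix ι ι F) *ᵥ x = x := by
        rw [Units.val_mul, ← Matrix.mulVec_mulVec, hx, hx]
      rw [hww, Units.val_neg, Units.val_one, Matrix.neg_mulVec, Matrix.one_mulVec] at h4
      have h5 : (2 : F) • x = 0 := by
        rw [two_smul]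
        nth_rewrite 1 [← h4]
        exact neg_add_cancel x
      exact hx0 ((smul_eq_zero.mp h5).resolve_left h2)
  -- polarisation
  have hmulr : ∀ u ∈ R, ∀ s ∈ R, ∀ t ∈ R, (u * (s * t) = s * t * u) ↔ ((u * s = s * u) ↔ (u * t = t * u)) := by
    intro u hu s hs t ht
    rcases h.comm u hu s hs with h3 | h3 <;> rcases h.comm u hu t ht with h4 | h4
    · have : u * (s * t) = s * t * u := by rw [← mul_assoc, h3, mul_assoc, h4, mul_assoc]
      simp only [this, h3, h4]
    · have h5 : u * (s * t) = -(s * t * u) := by rw [← mul_assoc, h3, mul_assoc, h4, mul_neg, mul_assoc]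
      have h6 : ¬ u * (s * t) = s * t * u := fun h7 => GL_ne_neg h2 _ (h7.symm.trans h5)
      have h7 : ¬ u * t = t * u := fun h8 => GL_ne_neg h2 _ (h8.symm.trans h4)
      simp only [h6, h7, h3, false_iff, true_iff, not_false_eq_true, not_true_eq_false, iff_false]
    · have h5 : u * (s * t) = -(s * t * u) := by rw [← mul_assoc, h3, neg_mul, mul_assoc, h4, mul_assoc]
      have h6 : ¬ u * (s * t) = s * t * u := fun h7 => GL_ne_neg h2 _ (h7.symm.trans h5)
      have h7 : ¬ u * s = s * u := fun h8 => GL_ne_neg h2 _ (h8.symm.trans h3)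
      simp only [h6, h7, h4, false_iff, iff_true, not_false_eq_true, not_true_eq_false, iff_false]
    · have h5 : u * (s * t) = s * t * u := by rw [← mul_assoc, h3, neg_mul, mul_assoc, h4, mul_neg, neg_neg, mul_assoc]
      have h7 : ¬ u * s = s * u := fun h8 => GL_ne_neg h2 _ (h8.symm.trans h3)
      have h8 : ¬ u * t = t * u := fun h8 => GL_ne_neg h2 _ (h8.symm.trans h4)
      simp only [h5, h7, h8]
  have hsym : ∀ u t : GL ι F, (u * t = t * u) ↔ (t * u = u * t) := fun u t => eq_comm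
  have hφmul : ∀ u t : GL ι F, y * (u * t) * y⁻¹ = (y * u * y⁻¹) * (y * t * y⁻¹) := by
    intro u t; group
  have hpol : ∀ u ∈ R, ∀ t ∈ R, (u * (y * t * y⁻¹) = (y * t * y⁻¹) * u) ↔ (t * (y * u * y⁻¹) = (y * u * y⁻¹) * t) := by
    intro u hu t ht
    have h3 := hcomm (u * t) (R.mul_mem hu ht)
    rw [hφmul, hmulr _ (R.mul_mem hu ht) _ (hφ hu) _ (hφ ht)] at h3
    rw [hsym (u * t), hsym (u * t), hmulr _ (hφ hu) _ hu _ ht, hmulr _ (hφ ht) _ hu _ ht] at h3
    have h4 := hcomm u hu
    have h5 := hcomm t ht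
    rw [hsym] at h4 h5
    rw [hsym (y * u * y⁻¹) t, hsym (y * t * y⁻¹) u] at h3
    simp only [h4, h5, true_iff, iff_true] at h3
    exact h3.symm
  have hinv : ∀ u t : GL ι F, (y * u * y⁻¹) * (y * t * y⁻¹) = (y * t * y⁻¹) * (y * u * y⁻¹) ↔ u * t = t * u := by
    intro u t
    rw [← hφmul, ← hφmul]
    constructor
    · intro h3
      exact mul_left_cancel (mul_right_cancel h3)
    · intro h3; rw [h3]
  have hcen : ∀ t ∈ R, ∀ u ∈ R, (y * (y * t * y⁻¹) * y⁻¹ * t) * u = u * (y * (y * t * y⁻¹) * y⁻¹ * t) := by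
    intro t ht u hu
    rw [eq_comm, hmulr u hu _ (hφ (hφ ht)) _ ht, hpol u hu _ (hφ ht), hinv, hsym]
  -- y² commutes with R
  have hy2 : ∀ t ∈ R, y ^ 2 * t = t * y ^ 2 := by
    intro t ht
    obtain ⟨c, hc⟩ := scalar_of_comm_R h (hcen t ht)
    have hodd' : Odd r := hodd
    have e : y ^ 2 * t * (y ^ 2)⁻¹ = (y * (y * t * y⁻¹) * y⁻¹ * t) * t⁻¹ := by
      rw [pow_two]; group
    have htt : ∃ ε : F, ((t⁻¹ : GL ι F) : Matrix ι ι F) = ε • (t : Matrix ι ι F) := by
      rcases h.sq t ht with h7 | h7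
      · refine ⟨1, ?_⟩
        rw [one_smul, inv_eq_of_mul_eq_one_right h7]
      · refine ⟨-1, ?_⟩
        have : t⁻¹ = -t := by
          apply inv_eq_of_mul_eq_one_right
          rw [mul_neg, h7, neg_neg]
        rw [this, Units.val_neg, neg_one_smul]
    obtain ⟨ε, hε⟩ := htt
    apply h.comm_of_scalar (y := y ^ 2) (r := r) hodd ?_ ht ?_ (ζ := c * ε) ?_
    · rw [← pow_mul, mul_comm 2 r, pow_mul, hyr, one_pow, one_mul, mul_one]
    · rw [e]
      exact R.mul_mem (R.mul_mem (hφ (hφ ht)) ht) (R.inv_mem ht)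
    · rw [e, Units.val_mul, hc, hε, smul_mul_smul_comm, one_mul]
  obtain ⟨m, hm⟩ := hodd
  have h3 : y = y ^ (r + 1) := by rw [pow_succ, hyr, one_mul]
  have h4 : y = (y ^ 2) ^ (m + 1) := by
    rw [← pow_mul]
    convert h3 using 2
    omega
  obtain ⟨z, hz⟩ := scalar_of_comm_R h hy2
  have h5 : ((y : GL ι F) : Matrix ι ι F) = z ^ (m + 1) • (1 : Matrix ι ι F) := by
    conv_lhs => rw [h4]
    rw [Units.val_pow_eq_pow_val, hz, smul_pow, one_pow]
  exact comm_of_val_smul h5 v

end Cfsg.Agent.H99
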