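import Cfsg.Agent.H99.PauliD

set_option autoImplicit false
set_option linter.all false

/-!
Five anticommuting involutions.
-/

namespace Cfsg.Agent.H99

open Module
open scoped Matrix MatrixGroups

variable {ι : Type} [Fintype ι] [DecidableEq ι] {F : Type*} [Field F] {R : Subgroup (GL ι F)} {a b c d : GL ι F}

lemma PQuad.swap (hq : PQuad R a b c d) : PQuad R c d a b where
  ha := hq.hc
  hb := hq.hd
  hc := hq.ha
  hd := hq.hb
  ab := hq.cd
  cd := hq.ab
  ac := hq.ac.symm
  ad := hq.bc.symm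
  bc := hq.ad.symm
  bd := hq.bd.symm
  gen := fun S h1 h2 h3 h4 h5 => hq.gen S h3 h4 h1 h2 h5

lemma PQuad.mul_right (hq : PQuad R a b c d) : PQuad R a (a * b) c d where
  ha := hq.ha
  hb := R.mul_mem hq.ha hq.hb
  hc := hq.hc
  hd := hq.hd
  ab := by
    have := hq.ab
    have h : b * a = -(a * b) := by rw [this, neg_neg]
    rw [mul_assoc a b a, h, mul_neg, neg_neg]
  cd := hq.cd
  ac := hq.ac
  ad := hq.ad
  bc := by rw [mul_assoc, hq.bc, ← mul_assoc, hq.ac, mul_assoc]
  bd := by rw [mul_assoc, hq.bd, ← mul_assoc, hq.ad, mul_assoc]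
  gen := fun S h1 h2 h3 h4 h5 => hq.gen S h1 (by
    have := S.mul_mem (S.inv_mem h1) h2
    rwa [inv_mul_cancel_left] at this) h3 h4 h5

lemma PQuad.rot (hq : PQuad R a b c d) : PQuad R b a c d where
  ha := hq.hb
  hb := hq.ha
  hc := hq.hc
  hd := hq.hd
  ab := by rw [hq.ab, neg_neg]
  cd := hq.cd
  ac := hq.bc
  ad := hq.bd
  bc := hq.ac
  bd := hq.ad
  gen := fun S h1 h2 h3 h4 h5 => hq.gen S h2 h1 h3 h4 h5

/-- multiply the first generator by a central element -/
lemma PQuad.smul (hq : PQuad R a b c d) {s : GL ι F} (hs : s ∈ R) (hsc : ∀ v : GL ι F, s * v = v * s) : PQuad R (s * a) b c d where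
  ha := R.mul_mem hs hq.ha
  hb := hq.hb
  hc := hq.hc
  hd := hq.hd
  ab := by rw [mul_assoc, hq.ab, mul_neg, ← mul_assoc b s a, ← hsc b, mul_assoc]
  cd := hq.cd
  ac := by rw [mul_assoc, hq.ac, ← mul_assoc c s a, ← hsc c, mul_assoc]
  ad := by rw [mul_assoc, hq.ad, ← mul_assoc d s a, ← hsc d, mul_assoc]
  bc := hq.bc
  bd := hq.bd
  gen := fun S h1 h2 h3 h4 h5 => hq.gen S (by
    have := S.mul_mem (S.inv_mem (h5 s hs (fun y _ => hsc y))) h1
    rwa [inv_mul_cancel_left] at this) h2 h3 h4 h5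

/-- five pairwise anticommuting involutions generating the group modulo scalars -/
structure PFive (R : Subgroup (GL ι F)) (γ : Fin 5 → GL ι F) : Prop where
  mem : ∀ i, γ i ∈ R
  sq : ∀ i, γ i * γ i = 1
  anti : ∀ i j, i ≠ j → γ i * γ j = -(γ j * γ i)
  gen : ∀ S : Subgroup (GL ι F), (∀ i, γ i ∈ S) → (∀ z ∈ R, (∀ y ∈ R, z * y = y * z) → z ∈ S) → R ≤ S

theorem PQuad.five (hq : PQuad R a b c d) (haa : a * a = 1) (hbb : b * b = 1) (hdd : d * d = c * c) (hcc : c * c = 1 ∨ c * c = -1)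
    {s : GL ι F} (hs : s ∈ R) (hsc : ∀ v : GL ι F, s * v = v * s) (hss : s * s = -(c * c)) :
    PFive R ![a, b, s * (a * (b * c)), s * (a * (b * d)), a * (b * (c * d))] := by
  have ba : b * a = -(a * b) := by rw [hq.ab, neg_neg]
  have ba' : ∀ x, b * (a * x) = -(a * (b * x)) := fun x => by rw [← mul_assoc, ba, neg_mul, mul_assoc]
  have dc : d * c = -(c * d) := by rw [hq.cd, neg_neg]
  have dc' : ∀ x, d * (c * x) = -(c * (d * x)) := fun x => by rw [← mul_assoc, dc, neg_mul, mul_assoc]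
  have ca : c * a = a * c := hq.ac.symm
  have ca' : ∀ x, c * (a * x) = a * (c * x) := fun x => by rw [← mul_assoc, ca, mul_assoc]
  have da : d * a = a * d := hq.ad.symm
  have da' : ∀ x, d * (a * x) = a * (d * x) := fun x => by rw [← mul_assoc, da, mul_assoc]
  have cb : c * b = b * c := hq.bc.symm
  have cb' : ∀ x, c * (b * x) = b * (c * x) := fun x => by rw [← mul_assoc, cb, mul_assoc]
  have db : d * b = b * d := hq.bd.symm
  have db' : ∀ x, d * (b * x) = b * (d * x) := fun x => by rw [← mul_assoc, db, mul_assoc]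
  have aa' : ∀ x, a * (a * x) = x := fun x => by rw [← mul_assoc, haa, one_mul]
  have bb' : ∀ x, b * (b * x) = x := fun x => by rw [← mul_assoc, hbb, one_mul]
  have as : a * s = s * a := (hsc a).symm
  have as' : ∀ x, a * (s * x) = s * (a * x) := fun x => by rw [← mul_assoc, as, mul_assoc]
  have bs : b * s = s * b := (hsc b).symm
  have bs' : ∀ x, b * (s * x) = s * (b * x) := fun x => by rw [← mul_assoc, bs, mul_assoc]
  have cs : c * s = s * c := (hsc c).symm
  have cs' : ∀ x, c * (s * x) = s * (c * x) := fun x => by rw [← mul_assoc, cs, mul_assoc]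
  have ds : d * s = s * d := (hsc d).symm
  have ds' : ∀ x, d * (s * x) = s * (d * x) := fun x => by rw [← mul_assoc, ds, mul_assoc]
  refine ⟨?_, ?_, ?_, ?_⟩
  · intro i
    fin_cases i
    · exact hq.ha
    · exact hq.hb
    · exact R.mul_mem hs (R.mul_mem hq.ha (R.mul_mem hq.hb hq.hc))
    · exact R.mul_mem hs (R.mul_mem hq.ha (R.mul_mem hq.hb hq.hd))
    · exact R.mul_mem hq.ha (R.mul_mem hq.hb (R.mul_mem hq.hc hq.hd))
  · rcases hcc with hcc | hcc
    · rw [hcc] at hss hdd
      have cc' : ∀ x, c * (c * x) = x := fun x => by rw [← mul_assoc, hcc, one_mul]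
      have dd' : ∀ x, d * (d * x) = x := fun x => by rw [← mul_assoc, hdd, one_mul]
      have ss' : ∀ x, s * (s * x) = -x := fun x => by rw [← mul_assoc, hss, neg_mul, one_mul]
      intro i
      fin_cases i <;> simp [mul_assoc, ba, ba', dc, dc', ca, ca', da, da', cb, cb', db, db', aa', bb', as, as', bs, bs', cs, cs', ds, ds',
        haa, hbb, hcc, hdd, cc', dd', hss, ss']
    · rw [hcc] at hss hdd
      rw [neg_neg] at hss
      have cc' : ∀ x, c * (c * x) = -x := fun x => by rw [← mul_assoc, hcc, neg_mul, one_mul]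
      have dd' : ∀ x, d * (d * x) = -x := fun x => by rw [← mul_assoc, hdd, neg_mul, one_mul]
      have ss' : ∀ x, s * (s * x) = x := fun x => by rw [← mul_assoc, hss, one_mul]
      intro i
      fin_cases i <;> simp [mul_assoc, ba, ba', dc, dc', ca, ca', da, da', cb, cb', db, db', aa', bb', as, as', bs, bs', cs, cs', ds, ds',
        haa, hbb, hcc, hdd, cc', dd', hss, ss']
  · rcases hcc with hcc | hcc
    · rw [hcc] at hss hdd
      have cc' : ∀ x, c * (c * x) = x := fun x => by rw [← mul_assoc, hcc, one_mul]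
      have dd' : ∀ x, d * (d * x) = x := fun x => by rw [← mul_assoc, hdd, one_mul]
      have ss' : ∀ x, s * (s * x) = -x := fun x => by rw [← mul_assoc, hss, neg_mul, one_mul]
      intro i j hij
      fin_cases i <;> fin_cases j <;> first | exact absurd rfl hij | simp [mul_assoc, ba, ba', dc, dc', ca, ca', da, da', cb, cb', db, db', aa', bb', as, as', bs, bs', cs, cs', ds, ds',
        haa, hbb, hcc, hdd, cc', dd', hss, ss']
    · rw [hcc] at hss hdd
      rw [neg_neg] at hss
      have cc' : ∀ x, c * (c * x) = -x := fun x => by rw [← mul_assoc, hcc, neg_mul, one_mul]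
      have dd' : ∀ x, d * (d * x) = -x := fun x => by rw [← mul_assoc, hdd, neg_mul, one_mul]
      have ss' : ∀ x, s * (s * x) = x := fun x => by rw [← mul_assoc, hss, one_mul]
      intro i j hij
      fin_cases i <;> fin_cases j <;> first | exact absurd rfl hij | simp [mul_assoc, ba, ba', dc, dc', ca, ca', da, da', cb, cb', db, db', aa', bb', as, as', bs, bs', cs, cs', ds, ds',
        haa, hbb, hcc, hdd, cc', dd', hss, ss']
  · intro S h1 h2
    have ha := h1 0
    have hb := h1 1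
    have hc := h1 2
    have hd := h1 3
    simp only [Matrix.cons_val_zero, Matrix.cons_val_one, Matrix.cons_val] at ha hb hc hd
    have hsS := h2 s hs (fun y _ => hsc y)
    have e : ∀ w : GL ι F, s * (a * (b * w)) ∈ S → w ∈ S := by
      intro w hw
      have h3 := S.mul_mem (S.inv_mem hb) (S.mul_mem (S.inv_mem ha) (S.mul_mem (S.inv_mem hsS) hw))
      rwa [inv_mul_cancel_left, inv_mul_cancel_left, inv_mul_cancel_left] at h3
    exact hq.gen S ha hb (e c hc) (e d hd) h2

theorem PFive.mem_normalizer [Finite F] (h : PGrp R) {γ : Fin 5 → GL ι F} (hγ : PFive R γ) {g : GL ι F}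
    (hg : ∀ i, g * γ i * g⁻¹ ∈ R) : g ∈ Cfsg.Geo.subgroupNormalizer R := by
  apply mem_normalizer_of_conj_mem
  have key : R ≤ R.comap (MulAut.conj g).toMonoidHom := by
    apply hγ.gen
    · exact hg
    · intro z hz hzc
      obtain ⟨k, hk⟩ := exists_scalar_of_comm h.irr (M := (z : Matrix ι ι F)) (fun y hy => by
        rw [← Units.val_mul, hzc y hy, Units.val_mul])
      have h5 : g * z * g⁻¹ = z := by
        rw [mul_inv_eq_iff_eq_mul]
        apply Units.ext
        rw [Units.val_mul, Units.val_mul, hk]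
        simp
      change g * z * g⁻¹ ∈ R
      rw [h5]
      exact hz
  intro x hx
  exact key hx

/-- the difference of two anticommuting involutions -/
lemma exists_diff (h2 : (2 : F) ≠ 0) {u v : GL ι F} (hu : u * u = 1) (hv : v * v = 1) (huv : u * v = -(v * u)) :
    ∃ D : GL ι F, (D : Matrix ι ι F) = (u : Matrix ι ι F) - (v : Matrix ι ι F) ∧ D * u * D⁻¹ = -v ∧ D * v * D⁻¹ = -u ∧
      ∀ w : GL ι F, w * u = -(u * w) → w * v = -(v * w) → D * w * D⁻¹ = -w := by
  have hu' : (u : Matrix ι ι F) * u = 1 := by rw [← Units.val_mul, hu]; rfl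
  have hv' : (v : Matrix ι ι F) * v = 1 := by rw [← Units.val_mul, hv]; rfl
  have huv' : (u : Matrix ι ι F) * v = -((v : Matrix ι ι F) * u) := by rw [← Units.val_mul, huv, Units.val_neg, Units.val_mul]
  have hsq : ((u : Matrix ι ι F) - v) * (u - v) = (2 : F) • 1 := by
    rw [sub_mul, mul_sub, mul_sub, hu', hv', huv', two_smul]
    abel
  have h1 : ((u : Matrix ι ι F) - v) * ((2 : F)⁻¹ • ((u : Matrix ι ι F) - v)) = 1 := by
    rw [Matrix.mul_smul, hsq, smul_smul, inv_mul_cancel₀ h2, one_smul]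
  have h1' : ((2 : F)⁻¹ • ((u : Matrix ι ι F) - v)) * ((u : Matrix ι ι F) - v) = 1 := by
    rw [Matrix.smul_mul, hsq, smul_smul, inv_mul_cancel₀ h2, one_smul]
  refine ⟨⟨(u : Matrix ι ι F) - v, (2 : F)⁻¹ • ((u : Matrix ι ι F) - v), h1, h1'⟩, rfl, ?_, ?_, ?_⟩
  · rw [mul_inv_eq_iff_eq_mul]
    apply Units.ext
    rw [Units.val_mul, Units.val_mul, Units.val_neg]
    rw [sub_mul, mul_sub, hu', neg_mul, neg_mul, hv']
    abel
  · rw [mul_inv_eq_iff_eq_mul]
    apply Units.ext
    rw [Units.val_mul, Units.val_mul, Units.val_neg]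
    rw [sub_mul, mul_sub, hv', neg_mul, neg_mul, hu']
    abel
  · intro w hwu hwv
    have hwu' : (w : Matrix ι ι F) * u = -((u : Matrix ι ι F) * w) := by rw [← Units.val_mul, hwu, Units.val_neg, Units.val_mul]
    have hwv' : (w : Matrix ι ι F) * v = -((v : Matrix ι ι F) * w) := by rw [← Units.val_mul, hwv, Units.val_neg, Units.val_mul]
    rw [mul_inv_eq_iff_eq_mul]
    apply Units.ext
    rw [Units.val_mul, Units.val_mul, Units.val_neg]
    rw [sub_mul, mul_sub, neg_mul, neg_mul, hwu', hwv']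
    abel

/-- an element permuting the five involutions cyclically -/
theorem PFive.exists_cycle [Nonempty ι] [Finite F] (h : PGrp R) (h2 : (2 : F) ≠ 0) {γ : Fin 5 → GL ι F} (hγ : PFive R γ) :
    ∃ D : Fin 4 → GL ι F, (∀ i : Fin 4, (D i : Matrix ι ι F) = (γ i.castSucc : Matrix ι ι F) - (γ i.succ : Matrix ι ι F)) ∧
      (∀ y : GL ι F, y = D 0 * D 1 * D 2 * D 3 → y ∈ Cfsg.Geo.subgroupNormalizer R ∧ y * γ 0 * y⁻¹ = γ 1 ∧
        (∀ v ∈ R, y ^ 5 * v = v * y ^ 5)) := by
  have hD : ∀ i : Fin 4, ∃ D : GL ι F, (D : Matrix ι ι F) = (γ i.castSucc : Matrix ι ι F) - (γ i.succ : Matrix ι ι F) ∧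
      D * γ i.castSucc * D⁻¹ = -γ i.succ ∧ D * γ i.succ * D⁻¹ = -γ i.castSucc ∧
      ∀ w : GL ι F, w * γ i.castSucc = -(γ i.castSucc * w) → w * γ i.succ = -(γ i.succ * w) → D * w * D⁻¹ = -w := fun i =>
    exists_diff h2 (hγ.sq _) (hγ.sq _) (hγ.anti _ _ (Fin.castSucc_lt_succ).ne)
  choose D hD1 hD2 hD3 hD4 using hD
  refine ⟨D, hD1, ?_⟩
  intro y hy
  have hstep : ∀ i : Fin 4, ∀ j : Fin 5, D i * γ j * (D i)⁻¹ = -γ (Equiv.swap i.castSucc i.succ j) := by
    intro i j
    by_cases h3 : j = i.castSucc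
    · subst h3
      rw [Equiv.swap_apply_left, hD2]
    by_cases h4 : j = i.succ
    · subst h4
      rw [Equiv.swap_apply_right, hD3]
    rw [Equiv.swap_apply_of_ne_of_ne h3 h4]
    exact hD4 i _ (hγ.anti _ _ h3) (hγ.anti _ _ h4)
  have hcyc : ∀ j : Fin 5, y * γ j * y⁻¹ = γ (j + 1) := by
    intro j
    have e : y * γ j * y⁻¹ = D 0 * (D 1 * (D 2 * (D 3 * γ j * (D 3)⁻¹) * (D 2)⁻¹) * (D 1)⁻¹) * (D 0)⁻¹ := by
      rw [hy]; group
    rw [e, hstep, mul_neg, neg_mul, hstep, neg_neg, hstep, mul_neg, neg_mul, hstep, neg_neg]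
    congr 1
    fin_cases j <;> decide
  refine ⟨?_, ?_, ?_⟩
  · apply hγ.mem_normalizer h
    intro i
    rw [hcyc]
    exact hγ.mem _
  · exact hcyc 0
  · have h5 : ∀ j, y ^ 5 * γ j * (y ^ 5)⁻¹ = γ j := by
      intro j
      have e : y ^ 5 * γ j * (y ^ 5)⁻¹ = y * (y * (y * (y * (y * γ j * y⁻¹) * y⁻¹) * y⁻¹) * y⁻¹) * y⁻¹ := by
        simp only [pow_succ, pow_zero, one_mul]; group
      rw [e, hcyc, hcyc, hcyc, hcyc, hcyc]
      congr 1
      fin_cases j <;> decide
    have key : R ≤ Subgroup.centralizer {y ^ 5} := by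
      apply hγ.gen
      · intro j
        apply mem_cs.mpr
        have := h5 j
        rw [mul_inv_eq_iff_eq_mul] at this
        exact this.symm
      · intro z hz hzc
        obtain ⟨k, hk⟩ := scalar_of_comm_R h hzc
        exact mem_cs.mpr (comm_of_val_smul hk _)
    intro v hv
    exact (mem_cs.mp (key hv)).symm

end Cfsg.Agent.H99
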