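import Cfsg.Agent.H99.PauliE

set_option autoImplicit false
set_option linter.all false

/-!
Fixed point free elements of prime order; groups of minus type.
-/

namespace Cfsg.Agent.H99

open Module
open scoped Matrix MatrixGroups

section free
variable {ι : Type} [Fintype ι] [DecidableEq ι] {F : Type*} [Field F]

lemma sum_pow_mulVec {x : GL ι F} {r : ℕ} (hx : x ^ r = 1) (hfree : ∀ v : ι → F, (x : Matrix ι ι F) *ᵥ v = v → v = 0) (v : ι → F) :
    ∑ j ∈ Finset.range r, ((x ^ j : GL ι F) : Matrix ι ι F) *ᵥ v = 0 := by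
  apply hfree
  rw [Matrix.mulVec_sum]
  have h1 : ∀ j ∈ Finset.range r, (x : Matrix ι ι F) *ᵥ (((x ^ j : GL ι F) : Matrix ι ι F) *ᵥ v) = ((x ^ (j + 1) : GL ι F) : Matrix ι ι F) *ᵥ v := by
    intro j _
    rw [Matrix.mulVec_mulVec, ← Units.val_mul, pow_succ']
  rw [Finset.sum_congr rfl h1]
  have h2 := Finset.sum_range_succ' (fun j => ((x ^ j : GL ι F) : Matrix ι ι F) *ᵥ v) r
  have h3 := Finset.sum_range_succ (fun j => ((x ^ j : GL ι F) : Matrix ι ι F) *ᵥ v) r
  rw [h3] at h2
  simp only [hx, pow_zero] at h2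
  exact (add_right_cancel h2).symm

/-- a fixed point free elementary group of prime exponent is cyclic -/
lemma mem_zpowers_of_free [Nonempty ι] {r : ℕ} [hr : Fact r.Prime] (hrF : (r : F) ≠ 0) {t w : GL ι F} (htr : t ^ r = 1) (hwr : w ^ r = 1) (ht1 : t ≠ 1)
    (hc : t * w = w * t) (hfree : ∀ k j : ℕ, w ^ k * t ^ j ≠ 1 → ∀ v : ι → F, ((w ^ k * t ^ j : GL ι F) : Matrix ι ι F) *ᵥ v = v → v = 0) :
    ∃ k : ℕ, w = t ^ k := by
  by_contra hcon
  push Not at hcon
  have hcomm : Commute w t := hc.symm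
  have htord : orderOf t = r := orderOf_eq_prime htr ht1
  have hne : ∀ k, w * t ^ k ≠ 1 := by
    intro k hk
    apply hcon (k * (r - 1))
    have h1 : w = (t ^ k)⁻¹ := eq_inv_of_mul_eq_one_left hk
    rw [h1, inv_eq_iff_mul_eq_one, ← pow_add]
    have h2 : k + k * (r - 1) = r * k := by
      have := hr.out.one_le
      obtain ⟨s, rfl⟩ : ∃ s, r = s + 1 := ⟨r - 1, by omega⟩
      simp only [Nat.add_sub_cancel]
      ring
    rw [h2, pow_mul, htr, one_pow]
  have key : ∀ v : ι → F, (r : F) • v = 0 := by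
    intro v
    have h1 : ∑ k ∈ Finset.range r, ∑ j ∈ Finset.range r, (((w * t ^ k) ^ j : GL ι F) : Matrix ι ι F) *ᵥ v = 0 := by
      apply Finset.sum_eq_zero
      intro k _
      apply sum_pow_mulVec
      · rw [(hcomm.pow_right k).mul_pow, hwr, ← pow_mul, mul_comm k, pow_mul, htr, one_pow, one_mul]
      · have := hfree 1 k (by rw [pow_one]; exact hne k)
        rwa [pow_one] at this
    rw [Finset.sum_comm] at h1
    have h2 : ∀ j ∈ Finset.range r, ∑ k ∈ Finset.range r, (((w * t ^ k) ^ j : GL ι F) : Matrix ι ι F) *ᵥ v = if j = 0 then (r : F) • v else 0 := by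
      intro j hj
      split_ifs with hj0
      · subst hj0
        simp only [pow_zero, Units.val_one, Matrix.one_mulVec, Finset.sum_const, Finset.card_range]
        rw [Nat.cast_smul_eq_nsmul]
      · have h3 : ∀ k ∈ Finset.range r, (((w * t ^ k) ^ j : GL ι F) : Matrix ι ι F) *ᵥ v = ((w ^ j : GL ι F) : Matrix ι ι F) *ᵥ ((((t ^ j) ^ k : GL ι F) : Matrix ι ι F) *ᵥ v) := by
          intro k _
          rw [Matrix.mulVec_mulVec, ← Units.val_mul, (hcomm.pow_right k).mul_pow, ← pow_mul, ← pow_mul, mul_comm k j]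
        rw [Finset.sum_congr rfl h3, ← Matrix.mulVec_sum]
        have h4 : t ^ j ≠ 1 := by
          intro h5
          have h6 := orderOf_dvd_of_pow_eq_one h5
          rw [htord] at h6
          have := Nat.le_of_dvd (Nat.pos_of_ne_zero hj0) h6
          have := Finset.mem_range.mp hj
          omega
        rw [sum_pow_mulVec (x := t ^ j), Matrix.mulVec_zero]
        · rw [← pow_mul, mul_comm, pow_mul, htr, one_pow]
        · have := hfree 0 j (by rwa [pow_zero, one_mul])
          rwa [pow_zero, one_mul] at this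
    rw [Finset.sum_congr rfl h2, Finset.sum_ite_eq' (Finset.range r) 0, if_pos (Finset.mem_range.mpr hr.out.pos)] at h1
    exact h1
  obtain ⟨i⟩ := (inferInstance : Nonempty ι)
  have h1 := congrFun (key (Pi.single i 1)) i
  simp at h1
  exact hrF h1

theorem conj_of_fpf [Finite F] [Nonempty ι] {G : Subgroup (GL ι F)} {r : ℕ} [hr : Fact r.Prime] (hrF : (r : F) ≠ 0)
    (hfree : ∀ x ∈ G, x ^ r = 1 → x ≠ 1 → ∀ v : ι → F, (x : Matrix ι ι F) *ᵥ v = v → v = 0) {x z : GL ι F} (hx : x ∈ G) (hz : z ∈ G)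
    (hxr : x ^ r = 1) (hzr : z ^ r = 1) (hz1 : z ≠ 1) : ∃ g ∈ G, ∃ k : ℕ, g⁻¹ * x * g = z ^ k := by
  classical
  have hmk : ∀ w : GL ι F, ∀ hw : w ∈ G, w ^ r = 1 → ∃ P : Sylow r G, (⟨w, hw⟩ : G) ∈ P := by
    intro w hw hwr
    have h1 : IsPGroup r (Subgroup.zpowers (⟨w, hw⟩ : G)) := by
      apply IsPGroup.of_card (n := if w = 1 then 0 else 1)
      rw [Nat.card_zpowers]
      split_ifs with h
      · subst h
        rw [pow_zero]
        exact orderOf_one
      · rw [pow_one]
        apply orderOf_eq_prime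
        · exact Subtype.ext hwr
        · intro h2; exact h (congrArg Subtype.val h2)
    obtain ⟨P, hP⟩ := h1.exists_le_sylow
    exact ⟨P, hP (Subgroup.mem_zpowers _)⟩
  obtain ⟨P, hP⟩ := hmk x hx hxr
  obtain ⟨Q, hQ⟩ := hmk z hz hzr
  obtain ⟨g, hg⟩ := MulAction.exists_smul_eq G P Q
  -- x conjugated into Q
  have hxQ : g * (⟨x, hx⟩ : G) * g⁻¹ ∈ Q := by
    rw [← hg]
    exact Subgroup.smul_mem_pointwise_smul (⟨x, hx⟩ : G) (MulAut.conj g) (P : Subgroup G) hP
  have hQnt : Nontrivial Q := ⟨⟨⟨⟨z, hz⟩, hQ⟩, 1, fun h => hz1 (by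
    have h1 := congrArg (fun s : Q => ((s : G) : GL ι F)) h
    exact h1)⟩⟩
  have hcen := Q.isPGroup'.center_nontrivial
  obtain ⟨t, ht⟩ : ∃ t : Subgroup.center Q, orderOf t = r := by
    have h1 : IsPGroup r (Subgroup.center Q) := Q.isPGroup'.to_subgroup _
    obtain ⟨n, hn⟩ := IsPGroup.iff_card.mp h1
    have h2 : r ∣ Nat.card (Subgroup.center Q) := by
      rw [hn]
      apply dvd_pow_self
      rintro rfl
      rw [pow_zero, Nat.card_eq_one_iff_unique] at hn
      exact not_subsingleton _ hn.1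
    exact exists_prime_orderOf_dvd_card' r h2
  set T : GL ι F := (((t : Q) : G) : GL ι F) with hT
  have hTG : T ∈ G := ((t : Q) : G).2
  have hTr : T ^ r = 1 := by
    have h1 : t ^ r = 1 := orderOf_dvd_iff_pow_eq_one.mp (dvd_of_eq ht)
    have h2 := congrArg (fun s : Subgroup.center Q => (((s : Q) : G) : GL ι F)) h1
    simpa using h2
  have hT1 : T ≠ 1 := by
    intro h1
    have h2 : t = 1 := Subtype.ext (Subtype.ext (Subtype.ext h1))
    rw [h2, orderOf_one] at ht
    exact hr.out.ne_one ht.symm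
  have hall : ∀ w : Q, ((w : G) : GL ι F) ^ r = 1 → ∃ k : ℕ, ((w : G) : GL ι F) = T ^ k := by
    intro w hw
    apply mem_zpowers_of_free hrF hTr hw hT1
    · have h1 := Subgroup.mem_center_iff.mp t.2 w
      have h2 := congrArg (fun s : Q => ((s : G) : GL ι F)) h1
      simpa using h2.symm
    · intro k j h1 v hv
      have hc : Commute ((w : G) : GL ι F) T := by
        have h1 := Subgroup.mem_center_iff.mp t.2 w
        have h2 := congrArg (fun s : Q => ((s : G) : GL ι F)) h1
        have h3 : ((w : G) : GL ι F) * T = T * ((w : G) : GL ι F) := by simpa using h2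
        exact h3
      refine hfree _ (G.mul_mem (G.pow_mem (w : G).2 k) (G.pow_mem hTG j)) ?_ h1 v hv
      rw [((hc.pow_left k).pow_right j).mul_pow, ← pow_mul, ← pow_mul, mul_comm k, mul_comm j, pow_mul, pow_mul, hw, hTr, one_pow, one_pow, one_mul]
  obtain ⟨k, hk⟩ := hall ⟨_, hxQ⟩ (by
    simp only [Subgroup.coe_mul, Subgroup.coe_inv]
    rw [conj_pow, hxr, mul_one, mul_inv_cancel])
  obtain ⟨l, hl⟩ := hall ⟨_, hQ⟩ hzr
  simp only [Subgroup.coe_mul, Subgroup.coe_inv] at hk hl
  -- T is a power of z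
  have hTz : ∃ m : ℕ, T = z ^ m := by
    have hcop : Nat.Coprime l r := by
      rw [Nat.coprime_comm, Nat.Prime.coprime_iff_not_dvd hr.out]
      rintro ⟨s, rfl⟩
      rw [pow_mul, hTr, one_pow] at hl
      exact hz1 hl
    obtain ⟨m, -, hm⟩ := Nat.exists_mul_mod_eq_one_of_coprime hcop hr.out.one_lt
    refine ⟨m, ?_⟩
    rw [hl, ← pow_mul]
    conv_lhs => rw [← pow_one T]
    rw [pow_eq_pow_iff_modEq, orderOf_eq_prime hTr hT1]
    rw [Nat.ModEq, hm, Nat.mod_eq_of_lt hr.out.one_lt]
  obtain ⟨m, hm⟩ := hTz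
  refine ⟨(g : GL ι F)⁻¹, G.inv_mem g.2, m * k, ?_⟩
  rw [inv_inv, hk, hm, pow_mul]

end free

section minus
variable {ι : Type} [Fintype ι] [DecidableEq ι] {F : Type*} [Field F] {R : Subgroup (GL ι F)} {a b c d : GL ι F}

/-- commuting involutions in groups of minus type are dependent -/
lemma minus_no_pair [Finite F] [Nonempty ι] (hm : Cfsg.Geo.IsOfMinusType 2 R) (hneg : -1 ∈ R) (h2 : (2 : F) ≠ 0) {u v : GL ι F} (hu : u ∈ R) (hv : v ∈ R)
    (huu : u * u = 1) (hvv : v * v = 1) (huv : u * v = v * u) (hu1 : u ≠ 1 ∧ u ≠ -1) (hv1 : v ≠ 1 ∧ v ≠ -1) (h3 : v ≠ u ∧ v ≠ -u) : False := by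
  classical
  set A0 : Finset (GL ι F) := {1, -1, u, -u, v, -v, u * v, -(u * v)} with hA0
  have hvu : v * u = u * v := huv.symm
  have hu' : ∀ x, u * (u * x) = x := fun x => by rw [← mul_assoc, huu, one_mul]
  have hv' : ∀ x, v * (v * x) = x := fun x => by rw [← mul_assoc, hvv, one_mul]
  have hvu' : ∀ x, v * (u * x) = u * (v * x) := fun x => by rw [← mul_assoc, hvu, mul_assoc]
  set A' : Subgroup (GL ι F) := Subgroup.closure {-1, u, v} with hA'
  have hgen : ∀ x ∈ ({-1, u, v} : Set (GL ι F)), ∀ y ∈ ({-1, u, v} : Set (GL ι F)), x * y = y * x := by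
    rintro x (rfl | rfl | rfl) y (rfl | rfl | rfl) <;> simp [huv]
  have hc1 : A' ≤ Subgroup.centralizer ({-1, u, v} : Set (GL ι F)) := by
    rw [hA', Subgroup.closure_le]
    intro x hx
    exact Subgroup.mem_centralizer_iff.mpr (fun y hy => hgen y hy x hx)
  have hc2 : A' ≤ Subgroup.centralizer (A' : Set (GL ι F)) := by
    conv_lhs => rw [hA']
    rw [Subgroup.closure_le]
    intro x hx
    exact Subgroup.mem_centralizer_iff.mpr (fun y hy => (Subgroup.mem_centralizer_iff.mp (hc1 hy) x hx).symm)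
  have hcommA : ∀ x ∈ A', ∀ y ∈ A', x * y = y * x := fun x hx y hy => Subgroup.mem_centralizer_iff.mp (hc2 hy) x hx
  have hsqA : ∀ x ∈ A', x * x = 1 := by
    intro x hx
    rw [hA'] at hx
    induction hx using Subgroup.closure_induction with
    | mem x hx =>
      rcases hx with rfl | rfl | rfl
      · simp
      · exact huu
      · exact hvv
    | one => simp
    | mul x y hx hy h4 h5 =>
      have h6 := hcommA x hx y hy
      calc x * y * (x * y) = x * (y * x) * y := by simp only [mul_assoc]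
        _ = (x * x) * (y * y) := by rw [← h6]; simp only [mul_assoc]
        _ = 1 := by rw [h4, h5, one_mul]
    | inv x hx h4 => rw [← mul_inv_rev, h4, inv_one]
  have hA0A : (A0 : Set (GL ι F)) ⊆ A' := by
    have m1 : (-1 : GL ι F) ∈ A' := Subgroup.subset_closure (by simp)
    have m2 : u ∈ A' := Subgroup.subset_closure (by simp)
    have m3 : v ∈ A' := Subgroup.subset_closure (by simp)
    have hn : ∀ w ∈ A', -w ∈ A' := fun w hw => by rw [← neg_one_mul]; exact A'.mul_mem m1 hw
    intro x hx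
    simp only [hA0, Finset.coe_insert, Finset.coe_singleton, Set.mem_insert_iff, Set.mem_singleton_iff] at hx
    rcases hx with rfl | rfl | rfl | rfl | rfl | rfl | rfl | rfl
    · exact A'.one_mem
    · exact m1
    · exact m2
    · exact hn _ m2
    · exact m3
    · exact hn _ m3
    · exact A'.mul_mem m2 m3
    · exact hn _ (A'.mul_mem m2 m3)
  have hA'R : A' ≤ R := by
    rw [hA', Subgroup.closure_le]
    rintro x (rfl | rfl | rfl)
    · exact hneg
    · exact hu
    · exact hv
  have h4 := hm (A'.subgroupOf R) ⟨⟨fun x y => Subtype.ext (Subtype.ext (hcommA _ x.2 _ y.2))⟩⟩ (fun x hx => Subtype.ext (hsqA _ hx))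
  rw [Nat.card_congr (Subgroup.subgroupOfEquivOfLe hA'R).toEquiv] at h4
  have h5 : A0.card ≤ Nat.card A' := by
    have := Set.ncard_le_ncard hA0A (Set.toFinite _)
    rwa [Set.ncard_coe_finset] at this
  have hnn : ∀ w : GL ι F, w ≠ -w := fun w => GL_ne_neg h2 w
  have h6 : A0.card = 8 := by
    have k1 : (1 : GL ι F) ≠ u * v := by
      intro h
      apply h3.1
      have := congrArg (fun w => u * w) h
      simp only [mul_one, hu'] at this
      exact this.symm
    have k2 : (1 : GL ι F) ≠ -(u * v) := by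
      intro h
      apply h3.2
      have := congrArg (fun w => u * w) h
      simp only [mul_one, mul_neg, hu'] at this
      rw [this, neg_neg]
    have k3 : u ≠ u * v := fun h => hv1.1 (by
      have := congrArg (fun w => u * w) h
      simp only [huu, hu'] at this
      exact this.symm)
    have k4 : u ≠ -(u * v) := fun h => hv1.2 (by
      have := congrArg (fun w => u * w) h
      simp only [huu, mul_neg, hu'] at this
      rw [this, neg_neg])
    have k5 : v ≠ u * v := fun h => hu1.1 (by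
      have := congrArg (fun w => w * v) h
      simp only [hvv, mul_assoc, mul_one] at this
      exact this.symm)
    have k6 : v ≠ -(u * v) := fun h => hu1.2 (by
      have := congrArg (fun w => w * v) h
      simp only [hvv, neg_mul, mul_assoc, mul_one] at this
      rw [this, neg_neg])
    have n1 : ∀ {w w' : GL ι F}, w ≠ w' → -w ≠ -w' := fun h h' => h (neg_injective h')
    have n2 : ∀ {w w' : GL ι F}, w ≠ -w' → -w ≠ w' := fun h h' => h (by rw [← h', neg_neg])
    rw [hA0]
    rw [Finset.card_insert_of_notMem, Finset.card_insert_of_notMem, Finset.card_insert_of_notMem, Finset.card_insert_of_notMem,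
      Finset.card_insert_of_notMem, Finset.card_insert_of_notMem, Finset.card_insert_of_notMem, Finset.card_singleton]
    · simp only [Finset.mem_singleton]; exact hnn _
    · simp only [Finset.mem_insert, Finset.mem_singleton, not_or]
      exact ⟨n2 k6, n1 k5⟩
    · simp only [Finset.mem_insert, Finset.mem_singleton, not_or]
      exact ⟨hnn _, k5, k6⟩
    · simp only [Finset.mem_insert, Finset.mem_singleton, not_or]
      exact ⟨n2 (fun h => h3.2 (by rw [h, neg_neg])), n1 h3.1.symm, n2 k4, n1 k3⟩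
    · simp only [Finset.mem_insert, Finset.mem_singleton, not_or]
      exact ⟨hnn _, h3.1.symm, fun h => h3.2 (by rw [h, neg_neg]), k3, k4⟩
    · simp only [Finset.mem_insert, Finset.mem_singleton, not_or]
      exact ⟨hu1.2.symm, n1 hu1.1.symm, hv1.2.symm, n1 hv1.1.symm, n2 k2, n1 k1⟩
    · simp only [Finset.mem_insert, Finset.mem_singleton, not_or]
      exact ⟨hnn _, hu1.1.symm, fun h => hu1.2 (by rw [h, neg_neg]), hv1.1.symm, fun h => hv1.2 (by rw [h, neg_neg]), k1, k2⟩
  rw [h6] at h5
  have h7 : (2 : ℕ) ^ (2 + 1) = 8 := by norm_num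
  omega

end minus

end Cfsg.Agent.H99
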