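import Cfsg.Agent.H99.PauliF

set_option autoImplicit false
set_option linter.all false

/-!
Extraspecial groups of order 32 and minus type in dimension four.
-/

namespace Cfsg.Agent.H99

open Module
open scoped Matrix MatrixGroups

variable {ι : Type} [Fintype ι] [DecidableEq ι] {F : Type*} [Field F] {R : Subgroup (GL ι F)} {a b c d : GL ι F}

lemma ne_one_of_anti [Nonempty ι] (h2 : (2 : F) ≠ 0) {u w : GL ι F} (h : u * w = -(w * u)) : u ≠ 1 ∧ u ≠ -1 := by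
  constructor
  · rintro rfl
    rw [one_mul, mul_one] at h
    exact GL_ne_neg h2 _ h
  · rintro rfl
    rw [neg_one_mul, mul_neg, mul_one, neg_neg] at h
    exact GL_ne_neg h2 _ h.symm

lemma ne_of_anti [Nonempty ι] (h2 : (2 : F) ≠ 0) {u v w : GL ι F} (h : u * w = -(w * u)) (hv : v * w = w * v) : v ≠ u ∧ v ≠ -u := by
  constructor
  · rintro rfl
    rw [hv] at h
    exact GL_ne_neg h2 _ h
  · rintro rfl
    rw [neg_mul, mul_neg, neg_inj] at hv
    rw [hv] at h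
    exact GL_ne_neg h2 _ h

lemma PQuad.normalize (h : PGrp R) (hq : PQuad R a b c d) : ∃ a' b' : GL ι F, PQuad R a' b' c d ∧
    ((a' * a' = 1 ∧ b' * b' = 1) ∨ (a' * a' = -1 ∧ b' * b' = -1)) := by
  have hba : b * a = -(a * b) := by rw [hq.ab, neg_neg]
  have hba' : ∀ x, b * (a * x) = -(a * (b * x)) := fun x => by rw [← mul_assoc, hba, neg_mul, mul_assoc]
  rcases h.sq a hq.ha with ha | ha <;> rcases h.sq b hq.hb with hb | hb
  · exact ⟨a, b, hq, Or.inl ⟨ha, hb⟩⟩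
  · refine ⟨a, a * b, hq.mul_right, Or.inl ⟨ha, ?_⟩⟩
    rw [mul_assoc, hba', hb, mul_neg, mul_neg, mul_neg, neg_neg, mul_one]
    exact ha
  · refine ⟨b, b * a, hq.rot.mul_right, Or.inl ⟨hb, ?_⟩⟩
    have hab' : ∀ x, a * (b * x) = -(b * (a * x)) := fun x => by rw [← mul_assoc, hq.ab, neg_mul, mul_assoc]
    rw [mul_assoc, hab', ha, mul_neg, mul_neg, mul_neg, neg_neg, mul_one]
    exact hb
  · exact ⟨a, b, hq, Or.inr ⟨ha, hb⟩⟩

theorem PQuad.exists_minus [Nonempty ι] [Finite F] (h : PGrp R) (h2 : (2 : F) ≠ 0) (hm : Cfsg.Geo.IsOfMinusType 2 R) (hq0 : PQuad R a b c d) :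
    ∃ a b c d : GL ι F, PQuad R a b c d ∧ a * a = 1 ∧ b * b = 1 ∧ c * c = -1 ∧ d * d = -1 := by
  obtain ⟨a1, b1, hq1, hs1⟩ := hq0.normalize h
  obtain ⟨c1, d1, hq2, hs2⟩ := hq1.swap.normalize h
  have hq := hq2.swap
  have hba : b1 * a1 = -(a1 * b1) := by rw [hq.ab, neg_neg]
  rcases hs1 with ⟨ha, hb⟩ | ⟨ha, hb⟩ <;> rcases hs2 with ⟨hc, hd⟩ | ⟨hc, hd⟩
  · exfalso
    exact minus_no_pair hm h.neg h2 hq.ha hq.hc ha hc hq.ac (ne_one_of_anti h2 hq.ab) (ne_one_of_anti h2 hq.cd)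
      (ne_of_anti h2 hq.ab hq.bc.symm)
  · exact ⟨a1, b1, c1, d1, hq, ha, hb, hc, hd⟩
  · exact ⟨c1, d1, a1, b1, hq.swap, hc, hd, ha, hb⟩
  · exfalso
    have ba' : ∀ x, b1 * (a1 * x) = -(a1 * (b1 * x)) := fun x => by rw [← mul_assoc, hba, neg_mul, mul_assoc]
    have dc : d1 * c1 = -(c1 * d1) := by rw [hq.cd, neg_neg]
    have dc' : ∀ x, d1 * (c1 * x) = -(c1 * (d1 * x)) := fun x => by rw [← mul_assoc, dc, neg_mul, mul_assoc]
    have ca : c1 * a1 = a1 * c1 := hq.ac.symm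
    have ca' : ∀ x, c1 * (a1 * x) = a1 * (c1 * x) := fun x => by rw [← mul_assoc, ca, mul_assoc]
    have da : d1 * a1 = a1 * d1 := hq.ad.symm
    have da' : ∀ x, d1 * (a1 * x) = a1 * (d1 * x) := fun x => by rw [← mul_assoc, da, mul_assoc]
    have cb : c1 * b1 = b1 * c1 := hq.bc.symm
    have cb' : ∀ x, c1 * (b1 * x) = b1 * (c1 * x) := fun x => by rw [← mul_assoc, cb, mul_assoc]
    have db : d1 * b1 = b1 * d1 := hq.bd.symm
    have db' : ∀ x, d1 * (b1 * x) = b1 * (d1 * x) := fun x => by rw [← mul_assoc, db, mul_assoc]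
    have aa' : ∀ x, a1 * (a1 * x) = -x := fun x => by rw [← mul_assoc, ha, neg_mul, one_mul]
    have bb' : ∀ x, b1 * (b1 * x) = -x := fun x => by rw [← mul_assoc, hb, neg_mul, one_mul]
    have hu : (a1 * c1) * b1 = -(b1 * (a1 * c1)) := by
      simp only [mul_assoc, ba', cb, neg_neg]
    have hv : (b1 * d1) * a1 = -(a1 * (b1 * d1)) := by
      simp only [mul_assoc, ba', da]
    refine minus_no_pair hm h.neg h2 (u := a1 * c1) (v := b1 * d1) (R.mul_mem hq.ha hq.hc) (R.mul_mem hq.hb hq.hd) ?_ ?_ ?_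
      (ne_one_of_anti h2 hu) (ne_one_of_anti h2 hv) (ne_of_anti h2 hu ?_)
    · simp only [mul_assoc, ca', aa', hc, mul_neg, neg_neg, mul_one]
      rw [ha, neg_neg]
    · simp only [mul_assoc, db', bb', hd, mul_neg, neg_neg, mul_one]
      rw [hb, neg_neg]
    · simp only [mul_assoc, ba', dc, cb', db', da', mul_neg, neg_neg]
    · simp only [mul_assoc, db]

theorem minus_three [Nonempty ι] [Finite F] (h : PGrp R) (h2 : (2 : F) ≠ 0) (hm : Cfsg.Geo.IsOfMinusType 2 R) {γ w0 : GL ι F} (hγ : γ ∈ R)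
    (hγγ : γ * γ = 1) (hw0 : w0 ∈ R) (hγw : γ * w0 = -(w0 * γ)) {y : GL ι F} (hy : y ∈ Cfsg.Geo.subgroupNormalizer R)
    (hyr : ∀ v ∈ R, y ^ 3 * v = v * y ^ 3) : Nat.card (R ⊓ Subgroup.centralizer {y} : Subgroup (GL ι F)) ≠ 2 := by
  classical
  intro hcard
  have hy' : y ∈ Subgroup.normalizer (R : Set (GL ι F)) := hy
  have hφ : ∀ {u : GL ι F}, u ∈ R → y * u * y⁻¹ ∈ R := fun hu => conj_mem_of_normalizer hy' hu
  have hodd : Odd 3 := ⟨1, rfl⟩
  have hall : ∀ u ∈ R, y * u = u * y → u = 1 ∨ u = -1 := by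
    intro u hu hyu
    by_contra hcon
    push Not at hcon
    have h1 : (({1, -1, u} : Finset (GL ι F)) : Set (GL ι F)) ⊆ (R ⊓ Subgroup.centralizer {y} : Subgroup (GL ι F)) := by
      intro x hx
      simp only [Finset.coe_insert, Finset.coe_singleton, Set.mem_insert_iff, Set.mem_singleton_iff] at hx
      rcases hx with rfl | rfl | rfl
      · exact Subgroup.one_mem _
      · exact ⟨h.neg, mem_cs.mpr (by simp)⟩
      · exact ⟨hu, mem_cs.mpr hyu.symm⟩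
    have h3 := Set.ncard_le_ncard h1 (Set.toFinite _)
    rw [Set.ncard_coe_finset] at h3
    have h4 : ({1, -1, u} : Finset (GL ι F)).card = 3 := by
      rw [Finset.card_insert_of_notMem, Finset.card_insert_of_notMem, Finset.card_singleton]
      · simp only [Finset.mem_singleton]; exact hcon.2.symm
      · simp only [Finset.mem_insert, Finset.mem_singleton, not_or]
        exact ⟨GL_ne_neg h2 1, hcon.1.symm⟩
    have h5 : Nat.card (R ⊓ Subgroup.centralizer {y} : Subgroup (GL ι F)) = ((R ⊓ Subgroup.centralizer {y} : Subgroup (GL ι F)) : Set (GL ι F)).ncard := rfl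
    omega
  have hγ1 := ne_one_of_anti h2 hγw
  have hγy : ∀ ε : F, ((y * γ * y⁻¹ : GL ι F) : Matrix ι ι F) ≠ ε • (γ : Matrix ι ι F) := by
    intro ε he
    have h3 := h.comm_of_scalar hodd (hyr γ hγ) hγ (hφ hγ) he
    rcases hall γ hγ h3 with h4 | h4
    · exact hγ1.1 h4
    · exact hγ1.2 h4
  set γ1 := y * γ * y⁻¹ with hg1
  set γ2 := y * γ1 * y⁻¹ with hg2
  have hγ3 : y * γ2 * y⁻¹ = γ := by
    have e : y * γ2 * y⁻¹ = y ^ 3 * γ * (y ^ 3)⁻¹ := by rw [hg2, hg1]; simp only [pow_succ, pow_zero, one_mul]; group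
    rw [e, hyr γ hγ, mul_inv_cancel_right]
  have hm1 : γ1 ∈ R := hφ hγ
  have hm2 : γ2 ∈ R := hφ hm1
  set w := γ * (γ1 * γ2) with hw
  have hwR : w ∈ R := R.mul_mem hγ (R.mul_mem hm1 hm2)
  have hφw : y * w * y⁻¹ = γ1 * γ2 * γ := by
    have e : y * w * y⁻¹ = (y * γ * y⁻¹) * ((y * γ1 * y⁻¹) * (y * γ2 * y⁻¹)) := by rw [hw]; group
    rw [e, hγ3]
    exact (mul_assoc γ1 γ2 γ).symm
  have hζ : ∃ ζ : F, ((y * w * y⁻¹ : GL ι F) : Matrix ι ι F) = ζ • (w : Matrix ι ι F) := by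
    rcases h.comm (γ1 * γ2) (R.mul_mem hm1 hm2) γ hγ with h3 | h3
    · exact ⟨1, by rw [hφw, h3, one_smul]⟩
    · exact ⟨-1, by rw [hφw, h3, neg_one_smul, Units.val_neg]⟩
  obtain ⟨ζ, hζ⟩ := hζ
  have hyw := h.comm_of_scalar hodd (hyr w hwR) hwR (hφ hwR) hζ
  have hsq1 : γ1 * γ1 = 1 := by
    have e : γ1 * γ1 = y * (γ * γ) * y⁻¹ := by rw [hg1]; group
    rw [e, hγγ, mul_one, mul_inv_cancel]
  have hsq2 : γ2 * γ2 = 1 := by
    have e : γ2 * γ2 = y * (γ1 * γ1) * y⁻¹ := by rw [hg2]; group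
    rw [e, hsq1, mul_one, mul_inv_cancel]
  have hgg : γ1 * γ = γ2 ∨ γ1 * γ = -γ2 := by
    have e1 : γ1 * (γ * w) = γ2 := by
      rw [hw, ← mul_assoc γ γ, hγγ, one_mul, ← mul_assoc, hsq1, one_mul]
    rcases hall w hwR hyw with h3 | h3
    · left; rw [← e1, h3, mul_one]
    · right; rw [← e1, h3, mul_neg, mul_one, mul_neg, neg_neg]
  have hcomm : γ * γ1 = γ1 * γ := by
    have h3 : (γ1 * γ) * (γ1 * γ) = 1 := by
      rcases hgg with h4 | h4
      · rw [h4, hsq2]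
      · rw [h4, neg_mul_neg, hsq2]
    calc γ * γ1 = γ1 * ((γ1 * γ) * (γ1 * γ)) * γ := by
            simp only [mul_assoc, hγγ, mul_one]
            rw [← mul_assoc γ1 γ1, hsq1, one_mul]
      _ = γ1 * γ := by rw [h3, mul_one]
  have hγ1' : γ1 * (y * w0 * y⁻¹) = -((y * w0 * y⁻¹) * γ1) := by
    have e1 : γ1 * (y * w0 * y⁻¹) = y * (γ * w0) * y⁻¹ := by rw [hg1]; group
    have e2 : (y * w0 * y⁻¹) * γ1 = y * (w0 * γ) * y⁻¹ := by rw [hg1]; group
    rw [e1, e2, hγw, mul_neg, neg_mul]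
  refine minus_no_pair hm h.neg h2 hγ hm1 hγγ hsq1 hcomm hγ1 (ne_one_of_anti h2 hγ1') ⟨?_, ?_⟩
  · intro h3
    exact hγy 1 (by rw [one_smul, h3])
  · intro h3
    exact hγy (-1) (by rw [neg_one_smul, h3, Units.val_neg])

end Cfsg.Agent.H99
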