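import Cfsg.Agent.H99.PauliG
import Cfsg.Agent.H99.SympInvol
import Cfsg.Agent.H81.SL2Card

set_option autoImplicit false
set_option linter.all false

/-!
Involutions of the projective symplectic group in dimension four.
-/

namespace Cfsg.Agent.H99

open Module
open scoped Matrix MatrixGroups

section sp
variable {F : Type*} [Field F]

local notation "V4" => (Fin 2 ⊕ Fin 2 → F)
local notation "GL4" => GL (Fin 2 ⊕ Fin 2) F
local notation "BB" => Cfsg.sympForm 2 F

lemma mem_spGL2 {g : GL (Fin 2 ⊕ Fin 2) F} : g ∈ Cfsg.spGL 2 F ↔ ∀ u v : V4, BB ((g : Matrix (Fin 2 ⊕ Fin 2) (Fin 2 ⊕ Fin 2) F) *ᵥ u)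
    ((g : Matrix (Fin 2 ⊕ Fin 2) (Fin 2 ⊕ Fin 2) F) *ᵥ v) = BB u v := Iff.rfl

lemma exists_sp_family (u w : Fin 2 → V4) (hu : ∀ i j, BB (u i) (u j) = 0)
    (hw : ∀ i j, BB (w i) (w j) = 0) (hwu : ∀ i j, BB (w i) (u j) = if i = j then 1 else 0) :
    ∃ g ∈ Cfsg.spGL 2 F, (∀ i, (g : Matrix (Fin 2 ⊕ Fin 2) (Fin 2 ⊕ Fin 2) F) *ᵥ Pi.single (Sum.inl i) 1 = u i) ∧
      ∀ i, (g : Matrix (Fin 2 ⊕ Fin 2) (Fin 2 ⊕ Fin 2) F) *ᵥ Pi.single (Sum.inr i) 1 = w i := by
  obtain ⟨g, h1, h2⟩ := exists_symp_of_family u w hu hw hwu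
  have hdet : IsUnit (g : Matrix (Fin 2 ⊕ Fin 2) (Fin 2 ⊕ Fin 2) F).det := SymplecticGroup.symplectic_det g.2
  refine ⟨Matrix.GeneralLinearGroup.mk'' (g : Matrix (Fin 2 ⊕ Fin 2) (Fin 2 ⊕ Fin 2) F) hdet, ?_, h1, h2⟩
  exact mem_spGL2.mpr ((Cfsg.Agent.ClGeo.mem_symplecticGroup_iff 2).mp g.2)

lemma sp_skew0 (a b : V4) (h : BB a b = 0) : BB b a = 0 := by
  rw [(sympForm_altForm (F := F) 2).skew, h, neg_zero]

lemma conj_of_common {n : Type} [Fintype n] [DecidableEq n] {T : Matrix n n F} {G : Subgroup (GL n F)} {x y : GL n F}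
    (hx : ∃ g ∈ G, (x : Matrix n n F) * (g : Matrix n n F) = (g : Matrix n n F) * T)
    (hy : ∃ g ∈ G, (y : Matrix n n F) * (g : Matrix n n F) = (g : Matrix n n F) * T) : ∃ g ∈ G, g⁻¹ * x * g = y := by
  obtain ⟨g, hg, h1⟩ := hx
  obtain ⟨k, hk, h2⟩ := hy
  refine ⟨g * k⁻¹, G.mul_mem hg (G.inv_mem hk), ?_⟩
  have h3 : ((g⁻¹ * x * g : GL n F) : Matrix n n F) = T := by
    rw [mul_assoc, Units.val_mul, Units.val_mul, h1, ← mul_assoc, ← Units.val_mul, inv_mul_cancel, Units.val_one, one_mul]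
  have h4 : ((k⁻¹ * y * k : GL n F) : Matrix n n F) = T := by
    rw [mul_assoc, Units.val_mul, Units.val_mul, h2, ← mul_assoc, ← Units.val_mul, inv_mul_cancel, Units.val_one, one_mul]
  have h5 : g⁻¹ * x * g = k⁻¹ * y * k := Units.ext (h3.trans h4.symm)
  calc (g * k⁻¹)⁻¹ * x * (g * k⁻¹) = k * (g⁻¹ * x * g) * k⁻¹ := by group
    _ = y := by rw [h5]; group

lemma ext_single {n : Type} [Fintype n] [DecidableEq n] {A B : Matrix n n F} (h : ∀ i, A *ᵥ Pi.single i 1 = B *ᵥ Pi.single i 1) : A = B := by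
  ext i j
  have := congrFun (h j) i
  simpa using this

theorem sp_involution (h2 : (2 : F) ≠ 0) {x : GL4} (hx : x ∈ Cfsg.spGL 2 F) (hxx : x * x = 1) (h1 : x ≠ 1) (hn1 : x ≠ -1) :
    ∃ g ∈ Cfsg.spGL 2 F, (x : Matrix (Fin 2 ⊕ Fin 2) (Fin 2 ⊕ Fin 2) F) * (g : Matrix (Fin 2 ⊕ Fin 2) (Fin 2 ⊕ Fin 2) F) =
      (g : Matrix (Fin 2 ⊕ Fin 2) (Fin 2 ⊕ Fin 2) F) * Matrix.fromBlocks (Matrix.diagonal ![1, -1]) 0 0 (Matrix.diagonal ![1, -1]) := by
  have hA := sympForm_altForm (F := F) 2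
  have hxB := mem_spGL2.mp hx
  set f : V4 → V4 := fun v => (x : Matrix (Fin 2 ⊕ Fin 2) (Fin 2 ⊕ Fin 2) F) *ᵥ v with hf
  have hff : ∀ v, f (f v) = v := by
    intro v
    simp only [hf]
    rw [Matrix.mulVec_mulVec, ← Units.val_mul, hxx, Units.val_one, Matrix.one_mulVec]
  have hfa : ∀ u v, f (u + v) = f u + f v := fun u v => Matrix.mulVec_add _ _ _
  have hfs : ∀ (c : F) v, f (c • v) = c • f v := fun c v => Matrix.mulVec_smul _ _ _
  -- eigenvectors
  have hex1 : ∃ v, f v ≠ -v := by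
    by_contra hcon
    push Not at hcon
    apply hn1
    apply Units.ext
    apply ext_single
    intro i
    have := hcon (Pi.single i 1)
    simp only [hf] at this
    rw [this, Units.val_neg, Units.val_one, Matrix.neg_mulVec, Matrix.one_mulVec]
  have hex2 : ∃ v, f v ≠ v := by
    by_contra hcon
    push Not at hcon
    apply h1
    apply Units.ext
    apply ext_single
    intro i
    have := hcon (Pi.single i 1)
    simp only [hf] at this
    rw [this, Units.val_one, Matrix.one_mulVec]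
  have key : ∀ ε : F, ε * ε = 1 → (∃ v, f v ≠ -(ε • v)) → ∃ u w, f u = ε • u ∧ f w = ε • w ∧ BB w u = 1 := by
    rintro ε hε ⟨v, hv⟩
    set u := v + ε • f v with hu
    have hfu : f u = ε • u := by
      rw [hu, hfa, hfs, hff, smul_add, smul_smul, hε, one_smul, add_comm]
    have hu0 : u ≠ 0 := by
      intro h0
      apply hv
      have h3 : ε • u = 0 := by rw [h0, smul_zero]
      rw [hu, smul_add, smul_smul, hε, one_smul] at h3
      exact eq_neg_of_add_eq_zero_right h3
    obtain ⟨z, hz⟩ : ∃ z, BB z u ≠ 0 := by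
      by_contra hcon
      push Not at hcon
      apply hu0
      apply sympForm_ND 2 u (Submodule.mem_top)
      intro z _
      rw [hA.skew, hcon z, neg_zero]
    set w := z + ε • f z with hw
    have hfw : f w = ε • w := by
      rw [hw, hfa, hfs, hff, smul_add, smul_smul, hε, one_smul, add_comm]
    have hBw : BB w u = 2 * BB z u := by
      have h3 : BB (f z) u = ε * BB z u := by
        have h4 : u = ε • f u := by rw [hfu, smul_smul, hε, one_smul]
        conv_lhs => rw [h4]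
        rw [hA.smul_right]
        simp only [hf]
        rw [hxB]
      rw [hw, hA.add_left, hA.smul_left, h3, ← mul_assoc, hε]
      ring
    have h20 : 2 * BB z u ≠ 0 := mul_ne_zero h2 hz
    refine ⟨u, (2 * BB z u)⁻¹ • w, hfu, ?_, ?_⟩
    · rw [hfs, hfw, smul_smul, smul_smul, mul_comm]
    · rw [hA.smul_left, hBw, inv_mul_cancel₀ h20]
  obtain ⟨u1, w1, hu1, hw1, hB1⟩ := key 1 (by ring) (by simpa using hex1)
  obtain ⟨u2, w2, hu2, hw2, hB2⟩ := key (-1) (by ring) (by simpa using hex2)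
  have hcross : ∀ a b, f a = (1 : F) • a → f b = (-1 : F) • b → BB a b = 0 := by
    intro a b ha hb
    have h3 : BB (f a) (f b) = BB a b := hxB a b
    rw [ha, hb, one_smul, hA.smul_right] at h3
    have h4 : 2 * BB a b = 0 := by linear_combination -h3
    exact (mul_eq_zero.mp h4).resolve_left h2
  obtain ⟨g, hg, hg1, hg2⟩ := exists_sp_family ![u1, u2] ![w1, w2] (by
    intro i j
    fin_cases i <;> fin_cases j
    · exact hA.alt _
    · exact hcross _ _ hu1 hu2
    · exact sp_skew0 _ _ (hcross _ _ hu1 hu2)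
    · exact hA.alt _) (by
    intro i j
    fin_cases i <;> fin_cases j
    · exact hA.alt _
    · exact hcross _ _ hw1 hw2
    · exact sp_skew0 _ _ (hcross _ _ hw1 hw2)
    · exact hA.alt _) (by
    intro i j
    fin_cases i <;> fin_cases j
    · simpa using hB1
    · simpa using hcross _ _ hw1 hu2
    · simpa using sp_skew0 _ _ (hcross _ _ hu1 hw2)
    · simpa using hB2)
  refine ⟨g, hg, ?_⟩
  apply ext_single
  intro s
  rw [← Matrix.mulVec_mulVec, ← Matrix.mulVec_mulVec]
  rcases s with i | i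
  · rw [hg1]
    have h3 : Matrix.fromBlocks (Matrix.diagonal ![1, -1]) 0 0 (Matrix.diagonal ![1, -1]) *ᵥ (Pi.single (Sum.inl i) 1 : V4) =
        (![1, -1] i : F) • Pi.single (Sum.inl i) 1 := by
      ext k
      rcases k with k | k <;> fin_cases i <;> fin_cases k <;> simp
    rw [h3, Matrix.mulVec_smul, hg1]
    fin_cases i
    · simpa [hf] using hu1
    · simpa [hf] using hu2
  · rw [hg2]
    have h3 : Matrix.fromBlocks (Matrix.diagonal ![1, -1]) 0 0 (Matrix.diagonal ![1, -1]) *ᵥ (Pi.single (Sum.inr i) 1 : V4) =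
        (![1, -1] i : F) • Pi.single (Sum.inr i) 1 := by
      ext k
      rcases k with k | k <;> fin_cases i <;> fin_cases k <;> simp
    rw [h3, Matrix.mulVec_smul, hg2]
    fin_cases i
    · simpa [hf] using hw1
    · simpa [hf] using hw2

theorem sp_neg [Fintype F] (h2 : (2 : F) ≠ 0) {x : GL4} (hx : x ∈ Cfsg.spGL 2 F) (hxx : x * x = -1) :
    ∃ g ∈ Cfsg.spGL 2 F, (x : Matrix (Fin 2 ⊕ Fin 2) (Fin 2 ⊕ Fin 2) F) * (g : Matrix (Fin 2 ⊕ Fin 2) (Fin 2 ⊕ Fin 2) F) =
      (g : Matrix (Fin 2 ⊕ Fin 2) (Fin 2 ⊕ Fin 2) F) * Matrix.fromBlocks 0 1 (-1) 0 := by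
  have hA := sympForm_altForm (F := F) 2
  have hxB := mem_spGL2.mp hx
  set f : V4 →ₗ[F] V4 := Matrix.toLin' (x : Matrix (Fin 2 ⊕ Fin 2) (Fin 2 ⊕ Fin 2) F) with hf
  have hfv : ∀ v, f v = (x : Matrix (Fin 2 ⊕ Fin 2) (Fin 2 ⊕ Fin 2) F) *ᵥ v := fun v => Matrix.toLin'_apply _ _
  have hff : ∀ v, f (f v) = -v := by
    intro v
    rw [hfv, hfv, Matrix.mulVec_mulVec, ← Units.val_mul, hxx, Units.val_neg, Units.val_one, Matrix.neg_mulVec, Matrix.one_mulVec]
  have hfB : ∀ u v, BB (f u) (f v) = BB u v := fun u v => by rw [hfv, hfv]; exact hxB u v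
  have hex : ∀ W : Submodule F V4, (∀ v ∈ W, f v ∈ W) → ND BB W → W ≠ ⊥ → ∃ v ∈ W, BB v (f v) = 1 := by
    intro W hW hWN hW0
    have hex : ∃ v ∈ W, BB v (f v) ≠ 0 := by
      by_contra hcon
      push Not at hcon
      obtain ⟨w, hw, hw0⟩ := Submodule.exists_mem_ne_zero_of_ne_bot hW0
      apply hw0
      apply hWN w hw
      intro v hv
      have h1 : BB w (f (f v)) = 0 := by
        have h3 := hcon (w + f v) (W.add_mem hw (hW v hv))
        rw [map_add, hA.add_left, hA.add_right, hA.add_right, hcon w hw, hcon (f v) (hW v hv)] at h3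
        have h4 : BB (f v) (f w) = BB w (f (f v)) := by
          rw [hfB, hff, hA.eform.neg_right, hA.skew]
        rw [h4] at h3
        have h5 : 2 * BB w (f (f v)) = 0 := by linear_combination h3
        exact (mul_eq_zero.mp h5).resolve_left h2
      rw [hff, hA.eform.neg_right, neg_eq_zero] at h1
      exact h1
    obtain ⟨v, hv, hv0⟩ := hex
    set β := BB v (f v) with hβ
    have hchar : ringChar F ≠ 2 := by
      intro h
      apply h2
      have h3 : CharP F 2 := by rw [← h]; infer_instance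
      exact CharTwo.two_eq_zero
    obtain ⟨α, γ, hαγ⟩ := FiniteField.exists_root_sum_quadratic (R := F) (f := (Polynomial.X : Polynomial F) ^ 2)
      (g := (Polynomial.X : Polynomial F) ^ 2 - Polynomial.C β⁻¹)
      (by simp) (by
        rw [Polynomial.degree_X_pow_sub_C (by norm_num)]; rfl) (by
        have := FiniteField.odd_card_of_char_ne_two hchar
        exact this)
    simp only [Polynomial.eval_pow, Polynomial.eval_X, Polynomial.eval_sub, Polynomial.eval_C] at hαγ
    refine ⟨α • v + γ • f v, W.add_mem (W.smul_mem _ hv) (W.smul_mem _ (hW v hv)), ?_⟩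
    rw [map_add, map_smul, map_smul, hff]
    simp only [hA.add_left, hA.add_right, hA.smul_left, hA.smul_right, hA.eform.neg_right]
    rw [hA.alt, hA.alt, hA.skew (f v) v, ← hβ]
    have : (α * α + γ * γ) * β = 1 := by
      have h3 : α * α + γ * γ = β⁻¹ := by linear_combination hαγ
      rw [h3, inv_mul_cancel₀ hv0]
    linear_combination this
  obtain ⟨v1, -, hv1⟩ := hex ⊤ (fun _ _ => Submodule.mem_top) (sympForm_ND 2) (by
    intro h
    have h3 : finrank F (⊤ : Submodule F V4) = 0 := by rw [h, finrank_bot]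
    rw [finrank_top, finrank_symp] at h3
    omega)
  set P := Submodule.span F {v1, f v1} with hP
  have hPND : ND BB P := plane_ND hA (by rw [hv1]; exact one_ne_zero)
  have hPfin : finrank F P = 2 := plane_finrank hA (by rw [hv1]; exact one_ne_zero)
  have hPinv : ∀ v ∈ P, f v ∈ P := by
    have h1 : P.map f ≤ P := by
      rw [hP, Submodule.map_span, Submodule.span_le]
      rintro _ ⟨z, (rfl | rfl), rfl⟩
      · exact Submodule.subset_span (Or.inr rfl)
      · rw [hff]
        exact Submodule.neg_mem _ (Submodule.subset_span (Or.inl rfl))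
    intro z hz
    exact h1 ⟨z, hz, rfl⟩
  have hinj := isom_injective hA.oform (sympForm_ND 2) f hfB
  have hQ := orth_inv_of_isom hA.oform hinj hfB hPinv
  have hQN : ND BB (orth hA.oform P) := by
    have := split_ND_compl hA.oform (sympForm_ND 2) hPND (le_top (a := P))
    rwa [top_inf_eq] at this
  have hQ0 : orth hA.oform P ≠ ⊥ := by
    intro h
    have h3 := split_finrank hA.oform hPND (le_top (a := P))
    rw [h, inf_bot_eq, finrank_bot, finrank_top, finrank_symp] at h3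
    omega
  obtain ⟨v2, hv2, hB2⟩ := hex _ hQ hQN hQ0
  have m1 : v1 ∈ P := Submodule.subset_span (Or.inl rfl)
  have m2 : f v1 ∈ P := Submodule.subset_span (Or.inr rfl)
  have o1 : BB v2 v1 = 0 := hv2 _ m1
  have o2 : BB v2 (f v1) = 0 := hv2 _ m2
  have o3 : BB (f v2) v1 = 0 := hQ _ hv2 _ m1
  have o4 : BB (f v2) (f v1) = 0 := hQ _ hv2 _ m2
  obtain ⟨g, hg, hg1, hg2⟩ := exists_sp_family ![f v1, f v2] ![v1, v2] (by
    intro i j
    fin_cases i <;> fin_cases j
    · exact hA.alt _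
    · exact sp_skew0 _ _ (o4)
    · exact o4
    · exact hA.alt _) (by
    intro i j
    fin_cases i <;> fin_cases j
    · exact hA.alt _
    · exact sp_skew0 _ _ (o1)
    · exact o1
    · exact hA.alt _) (by
    intro i j
    fin_cases i <;> fin_cases j
    · simpa using hv1
    · simpa using sp_skew0 _ _ (o3)
    · simpa using o2
    · simpa using hB2)
  refine ⟨g, hg, ?_⟩
  apply ext_single
  intro s
  rw [← Matrix.mulVec_mulVec, ← Matrix.mulVec_mulVec]
  rcases s with i | i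
  · rw [hg1]
    have h3 : (Matrix.fromBlocks 0 1 (-1) 0 : Matrix (Fin 2 ⊕ Fin 2) (Fin 2 ⊕ Fin 2) F) *ᵥ (Pi.single (Sum.inl i) 1 : V4) = -Pi.single (Sum.inr i) 1 := by
      ext k
      rcases k with k | k <;> fin_cases i <;> fin_cases k <;> simp [Matrix.fromBlocks_mulVec, Matrix.neg_mulVec]
    rw [h3, Matrix.mulVec_neg, hg2]
    fin_cases i
    · simpa [hfv] using hff v1
    · simpa [hfv] using hff v2
  · rw [hg2]
    have h3 : (Matrix.fromBlocks 0 1 (-1) 0 : Matrix (Fin 2 ⊕ Fin 2) (Fin 2 ⊕ Fin 2) F) *ᵥ (Pi.single (Sum.inr i) 1 : V4) = Pi.single (Sum.inl i) 1 := by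
      ext k
      rcases k with k | k <;> fin_cases i <;> fin_cases k <;> simp [Matrix.fromBlocks_mulVec, Matrix.neg_mulVec]
    rw [h3, hg1]
    fin_cases i
    · simp [hfv]
    · simp [hfv]

end sp

end Cfsg.Agent.H99
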