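import Cfsg.Agent.H99.PauliH
import Cfsg.Agent.H99.SLOrder

set_option autoImplicit false
set_option linter.all false

/-!
Elements of order five normalizing the group; elements of order three and five of `SL₂`.
-/

namespace Cfsg.Agent.H99

open Module
open scoped Matrix MatrixGroups

section five
variable {ι : Type} [Fintype ι] [DecidableEq ι] {F : Type*} [Field F] {R : Subgroup (GL ι F)}

lemma sim_diff {B : (ι → F) → (ι → F) → F} (hsl : ∀ x y z, B (x - y) z = B x z - B y z) (hsr : ∀ x y z, B x (y - z) = B x y - B x z)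
    {u v D : GL ι F} (hu : u * u = 1) (hv : v * v = 1) (huv : u * v = -(v * u))
    (huB : ∀ a b, B ((u : Matrix ι ι F) *ᵥ a) ((u : Matrix ι ι F) *ᵥ b) = B a b)
    (hvB : ∀ a b, B ((v : Matrix ι ι F) *ᵥ a) ((v : Matrix ι ι F) *ᵥ b) = B a b) (hD : (D : Matrix ι ι F) = (u : Matrix ι ι F) - (v : Matrix ι ι F))
    (a b : ι → F) : B ((D : Matrix ι ι F) *ᵥ a) ((D : Matrix ι ι F) *ᵥ b) = 2 * B a b := by
  have hneg : ∀ x y, B x (-y) = -B x y := by
    intro x y
    have h0 : B x 0 = 0 := by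
      have := hsr x 0 0
      rwa [sub_self, sub_self] at this
    have := hsr x 0 y
    rwa [zero_sub, h0, zero_sub] at this
  have h1 : B ((u : Matrix ι ι F) *ᵥ a) ((v : Matrix ι ι F) *ᵥ b) = B a ((u : Matrix ι ι F) *ᵥ ((v : Matrix ι ι F) *ᵥ b)) := by
    rw [← huB]
    congr 1
    rw [Matrix.mulVec_mulVec, ← Units.val_mul, hu, Units.val_one, Matrix.one_mulVec]
  have h2 : B ((v : Matrix ι ι F) *ᵥ a) ((u : Matrix ι ι F) *ᵥ b) = -B a ((u : Matrix ι ι F) *ᵥ ((v : Matrix ι ι F) *ᵥ b)) := by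
    rw [← hvB, Matrix.mulVec_mulVec, ← Units.val_mul, hv, Units.val_one, Matrix.one_mulVec, Matrix.mulVec_mulVec, ← Units.val_mul]
    have h3 : v * u = -(u * v) := by rw [huv, neg_neg]
    rw [h3, Units.val_neg, Matrix.neg_mulVec, hneg, Units.val_mul, ← Matrix.mulVec_mulVec]
  rw [hD, Matrix.sub_mulVec, Matrix.sub_mulVec, hsl, hsr, hsr, huB, hvB, h1, h2]
  ring

theorem PFive.exists_order_five [Nonempty ι] [Fintype F] (h : PGrp R) (h2 : (2 : F) ≠ 0) {γ : Fin 5 → GL ι F} (hγ : PFive R γ)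
    (h5 : ¬ 5 ∣ Fintype.card F - 1) : ∃ z : GL ι F, z ∈ Cfsg.Geo.subgroupNormalizer R ∧ z ^ 5 = 1 ∧ z ≠ 1 ∧
      ∀ {B : (ι → F) → (ι → F) → F}, (∀ x y z, B (x - y) z = B x z - B y z) → (∀ x y z, B x (y - z) = B x y - B x z) →
        (∀ i a b, B ((γ i : Matrix ι ι F) *ᵥ a) ((γ i : Matrix ι ι F) *ᵥ b) = B a b) →
        ∀ a b, B ((z : Matrix ι ι F) *ᵥ a) ((z : Matrix ι ι F) *ᵥ b) = B a b := by
  classical
  obtain ⟨D, hD, hy⟩ := hγ.exists_cycle h h2
  obtain ⟨hyN, hy01, hy5⟩ := hy (D 0 * D 1 * D 2 * D 3) rfl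
  set y := D 0 * D 1 * D 2 * D 3 with hydef
  obtain ⟨c, hc⟩ := scalar_of_comm_R h hy5
  have hc0 : c ≠ 0 := by
    rintro rfl
    rw [zero_smul] at hc
    have h3 : ((y ^ 5 : GL ι F) : Matrix ι ι F) * (((y ^ 5)⁻¹ : GL ι F) : Matrix ι ι F) = 1 := by rw [← Units.val_mul, mul_inv_cancel]; rfl
    rw [hc, zero_mul] at h3
    obtain ⟨i⟩ := (inferInstance : Nonempty ι)
    have := congrFun (congrFun h3 i) i
    simp at this
  set m := orderOf c with hm
  have hm1 : m ∣ Fintype.card F - 1 := orderOf_dvd_of_pow_eq_one (FiniteField.pow_card_sub_one_eq_one c hc0)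
  have hm5 : Nat.Coprime m 5 := by
    rw [Nat.coprime_comm, Nat.Prime.coprime_iff_not_dvd (by norm_num)]
    exact fun h3 => h5 (h3.trans hm1)
  have hz5 : (y ^ m) ^ 5 = 1 := by
    apply Units.ext
    rw [← pow_mul, mul_comm, pow_mul, Units.val_pow_eq_pow_val, hc, smul_pow, one_pow, hm, pow_orderOf_eq_one, one_smul]
    rfl
  refine ⟨y ^ m, Subgroup.pow_mem _ hyN m, hz5, ?_, ?_⟩
  · intro h1
    have hcomm5 : Commute (y ^ 5) (γ 0) := hy5 _ (hγ.mem 0)
    have hcommm : Commute (y ^ m) (γ 0) := by rw [h1]; exact Commute.one_left _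
    have hcomm : Commute y (γ 0) := by
      have h3 : y ∈ Subgroup.centralizer {γ 0} := by
        have h4 : y ^ 5 ∈ Subgroup.centralizer {γ 0} := mem_cs.mpr hcomm5
        have h6 : y ^ m ∈ Subgroup.centralizer {γ 0} := mem_cs.mpr hcommm
        have h7 := Subgroup.mul_mem _ (Subgroup.zpow_mem _ h6 (Nat.gcdA m 5)) (Subgroup.zpow_mem _ h4 (Nat.gcdB m 5))
        rw [← zpow_natCast, ← zpow_natCast, ← zpow_mul, ← zpow_mul, ← zpow_add, ← Nat.gcd_eq_gcd_ab, hm5.gcd_eq_one] at h7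
        simpa using h7
      exact mem_cs.mp h3
    have h3 : y * γ 0 * y⁻¹ = γ 0 := by rw [hcomm.eq, mul_inv_cancel_right]
    rw [hy01] at h3
    have h4 := hγ.anti 1 0 (by decide)
    rw [h3] at h4
    exact GL_ne_neg h2 _ h4
  · intro B hsl hsr hB
    have hDB : ∀ i a b, B ((D i : Matrix ι ι F) *ᵥ a) ((D i : Matrix ι ι F) *ᵥ b) = 2 * B a b := by
      intro i a b
      exact sim_diff hsl hsr (hγ.sq _) (hγ.sq _) (hγ.anti _ _ (Fin.castSucc_lt_succ).ne) (hB _) (hB _) (hD i) a b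
    have hyB : ∀ a b, B ((y : Matrix ι ι F) *ᵥ a) ((y : Matrix ι ι F) *ᵥ b) = 16 * B a b := by
      intro a b
      simp only [hydef, Units.val_mul, ← Matrix.mulVec_mulVec]
      rw [hDB, hDB, hDB, hDB]
      ring
    have hyk : ∀ k a b, B (((y ^ k : GL ι F) : Matrix ι ι F) *ᵥ a) (((y ^ k : GL ι F) : Matrix ι ι F) *ᵥ b) = 16 ^ k * B a b := by
      intro k
      induction k with
      | zero => intro a b; simp
      | succ k ih =>
        intro a b
        rw [pow_succ, Units.val_mul, ← Matrix.mulVec_mulVec, ← Matrix.mulVec_mulVec, ih, hyB]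
        ring
    intro a b
    rw [hyk]
    by_cases hab : B a b = 0
    · rw [hab, mul_zero]
    · have h3 := hyk (m * 5) a b
      rw [pow_mul, hz5, Units.val_one, Matrix.one_mulVec, Matrix.one_mulVec] at h3
      have h4 : ((16 : F) ^ m) ^ 5 = 1 := by
        rw [← pow_mul]
        have h6 : (16 : F) ^ (m * 5) * B a b = 1 * B a b := by rw [one_mul]; exact h3.symm
        exact mul_right_cancel₀ hab h6
      have : Fact (Nat.Prime 5) := ⟨by norm_num⟩
      rw [eq_one_of_pow_eq_one h5 h4, one_mul]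

end five

section sl2
variable {F : Type*} [Field F]

lemma sl2_rel {M : Matrix (Fin 2) (Fin 2) F} (hd : M.det = 1) {r : ℕ} (hr : Odd r) (hMr : M ^ r = 1) (hM : M ≠ 1) {s t : F}
    (h : s • M = t • (1 : Matrix (Fin 2) (Fin 2) F)) : s = 0 ∧ t = 0 := by
  by_cases hs : s = 0
  · subst hs
    rw [zero_smul] at h
    refine ⟨rfl, ?_⟩
    have := congrFun (congrFun h 0) 0
    simpa using this.symm
  · exfalso
    have h1 : M = (s⁻¹ * t) • (1 : Matrix (Fin 2) (Fin 2) F) := by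
      rw [mul_smul, ← h, smul_smul, inv_mul_cancel₀ hs, one_smul]
    set c := s⁻¹ * t
    apply hM
    rw [h1] at hd hMr
    rw [Matrix.det_smul, Matrix.det_one, mul_one, Fintype.card_fin] at hd
    rw [smul_pow, one_pow] at hMr
    have h3 : c ^ r = 1 := by
      have := congrFun (congrFun hMr 0) 0
      simpa using this
    have h4 : c = 1 := by
      apply eq_one_of_coprime_pow hr _ h3
      calc c ^ 4 = (c ^ 2) ^ 2 := by ring
        _ = 1 := by rw [hd, one_pow]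
    rw [h1, h4, one_smul]

lemma sl2_three {M : Matrix (Fin 2) (Fin 2) F} (hd : M.det = 1) (hMr : M ^ 3 = 1) (hM : M ≠ 1) : M.trace = -1 := by
  have h1 := sq_eq_trace hd
  have h3 : (M.trace ^ 2 - 1) • M = (1 + M.trace) • (1 : Matrix (Fin 2) (Fin 2) F) := by
    have h4 : M ^ 3 = (M.trace ^ 2 - 1) • M - M.trace • (1 : Matrix (Fin 2) (Fin 2) F) := by
      rw [pow_succ, pow_two, h1, sub_mul, Matrix.smul_mul, h1, one_mul, smul_sub, smul_smul, sub_smul, one_smul, pow_two]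
      abel
    rw [hMr] at h4
    have h6 := sub_eq_iff_eq_add.mp h4.symm
    rw [h6, add_smul, one_smul]
  have h5 := (sl2_rel hd ⟨1, rfl⟩ hMr hM h3).2
  linear_combination h5

lemma sl2_five {M : Matrix (Fin 2) (Fin 2) F} (hd : M.det = 1) (hMr : M ^ 5 = 1) (hM : M ≠ 1) : M.trace ^ 3 - 2 * M.trace + 1 = 0 := by
  have h1 := sq_eq_trace hd
  set τ := M.trace with hτ
  have h4 : M ^ 5 = (τ ^ 4 - 3 * τ ^ 2 + 1) • M - (τ ^ 3 - 2 * τ) • (1 : Matrix (Fin 2) (Fin 2) F) := by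
    have e2 : M ^ 2 = τ • M - (1 : F) • (1 : Matrix (Fin 2) (Fin 2) F) := by rw [pow_two, h1, one_smul]
    have step : ∀ a b : F, (a • M - b • (1 : Matrix (Fin 2) (Fin 2) F)) * M = (a * τ - b) • M - a • (1 : Matrix (Fin 2) (Fin 2) F) := by
      intro a b
      rw [sub_mul, Matrix.smul_mul, h1, Matrix.smul_mul, one_mul, smul_sub, smul_smul, sub_smul]
      abel
    rw [pow_succ, pow_succ, pow_succ, e2, step, step, step]
    congr 2 <;> ring
  have h3 : (τ ^ 4 - 3 * τ ^ 2 + 1) • M = (1 + (τ ^ 3 - 2 * τ)) • (1 : Matrix (Fin 2) (Fin 2) F) := by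
    rw [hMr] at h4
    have h6 := sub_eq_iff_eq_add.mp h4.symm
    rw [h6, add_smul (1 : F), one_smul]
  have h5 := (sl2_rel hd ⟨2, rfl⟩ hMr hM h3).2
  linear_combination h5

/-- an element of given odd prime order -/
lemma exists_sl2_order [Fintype F] {r : ℕ} [Fact r.Prime] (h : r ∣ Fintype.card F * ((Fintype.card F - 1) * (Fintype.card F + 1))) :
    ∃ M : Matrix (Fin 2) (Fin 2) F, M.det = 1 ∧ M ^ r = 1 ∧ M ≠ 1 := by
  rw [← Cfsg.Agent.H81.card_sl2] at h
  obtain ⟨x, hx⟩ := exists_prime_orderOf_dvd_card' r h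
  refine ⟨x, x.2, ?_, ?_⟩
  · have h1 : x ^ r = 1 := by rw [← hx]; exact pow_orderOf_eq_one x
    have := congrArg (fun y : Matrix.SpecialLinearGroup (Fin 2) F => (y : Matrix (Fin 2) (Fin 2) F)) h1
    simpa using this
  · intro h1
    have h2 : x = 1 := Subtype.ext h1
    rw [h2, orderOf_one] at hx
    exact (Fact.out : r.Prime).ne_one hx.symm

/-- the embedding of `SL₂` in the symplectic group -/
def phiM (M : Matrix (Fin 2) (Fin 2) F) : Matrix (Fin 2 ⊕ Fin 2) (Fin 2 ⊕ Fin 2) F :=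
  Matrix.fromBlocks (Matrix.diagonal ![M 0 0, 1]) (Matrix.diagonal ![M 0 1, 0]) (Matrix.diagonal ![M 1 0, 0]) (Matrix.diagonal ![M 1 1, 1])

lemma phiM_one : phiM (1 : Matrix (Fin 2) (Fin 2) F) = 1 := by
  ext i j
  rcases i with i | i <;> rcases j with j | j <;> fin_cases i <;> fin_cases j <;> simp [phiM]

lemma phiM_mul (M N : Matrix (Fin 2) (Fin 2) F) : phiM (M * N) = phiM M * phiM N := by
  rw [phiM, phiM, phiM, Matrix.fromBlocks_multiply]
  simp only [Matrix.diagonal_mul_diagonal, Matrix.diagonal_add]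
  congr 2 <;> (funext i; fin_cases i <;> simp [Matrix.mul_apply, Fin.sum_univ_two])

lemma phiM_pow (M : Matrix (Fin 2) (Fin 2) F) (k : ℕ) : phiM (M ^ k) = phiM M ^ k := by
  induction k with
  | zero => rw [pow_zero, pow_zero, phiM_one]
  | succ k ih => rw [pow_succ, pow_succ, phiM_mul, ih]

lemma phiM_trace (M : Matrix (Fin 2) (Fin 2) F) : (phiM M).trace = M.trace + 2 := by
  simp only [phiM, Matrix.trace, Matrix.diag_apply, Fintype.sum_sum_type, Fin.sum_univ_two, Matrix.fromBlocks_apply₁₁, Matrix.fromBlocks_apply₂₂,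
    Matrix.diagonal_apply_eq, Matrix.cons_val_zero, Matrix.cons_val_one]
  ring

lemma adjugate_trace_two (M : Matrix (Fin 2) (Fin 2) F) : M.adjugate.trace = M.trace := by
  rw [Matrix.adjugate_fin_two, Matrix.trace_fin_two, Matrix.trace_fin_two]
  simp
  ring

lemma exists_phiGL {M : Matrix (Fin 2) (Fin 2) F} (hd : M.det = 1) : ∃ x : GL (Fin 2 ⊕ Fin 2) F, x ∈ Cfsg.spGL 2 F ∧
    (x : Matrix (Fin 2 ⊕ Fin 2) (Fin 2 ⊕ Fin 2) F) = phiM M ∧ ((x⁻¹ : GL (Fin 2 ⊕ Fin 2) F) : Matrix (Fin 2 ⊕ Fin 2) (Fin 2 ⊕ Fin 2) F) = phiM M.adjugate := by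
  refine ⟨⟨phiM M, phiM M.adjugate, ?_, ?_⟩, ?_, rfl, rfl⟩
  · rw [← phiM_mul, Matrix.mul_adjugate, hd, one_smul, phiM_one]
  · rw [← phiM_mul, Matrix.adjugate_mul, hd, one_smul, phiM_one]
  · rw [mem_spGL2]
    intro u v
    rw [Matrix.det_fin_two] at hd
    rw [Cfsg.Agent.ClGeo.sympForm_eq, Cfsg.Agent.ClGeo.sympForm_eq, Fin.sum_univ_two, Fin.sum_univ_two]
    simp only [phiM, Matrix.fromBlocks_mulVec, Sum.elim_inl, Sum.elim_inr, Pi.add_apply, Matrix.mulVec_diagonal, Function.comp_apply,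
      Matrix.cons_val_zero, Matrix.cons_val_one]
    linear_combination (u (Sum.inr 0) * v (Sum.inl 0) - u (Sum.inl 0) * v (Sum.inr 0)) * hd

lemma finrank_ker_phiM_transvection : finrank F (LinearMap.ker ((phiM (!![1, 1; 0, 1] : Matrix (Fin 2) (Fin 2) F)).toLin' - 1)) = 3 := by
  have h1 : LinearMap.ker ((phiM (!![1, 1; 0, 1] : Matrix (Fin 2) (Fin 2) F)).toLin' - 1) =
      LinearMap.ker (LinearMap.proj (Sum.inr 0) : (Fin 2 ⊕ Fin 2 → F) →ₗ[F] F) := by
    ext v
    rw [LinearMap.mem_ker, LinearMap.mem_ker, LinearMap.sub_apply, sub_eq_zero, Matrix.toLin'_apply, Module.End.one_apply, LinearMap.proj_apply]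
    constructor
    · intro h
      have := congrFun h (Sum.inl 0)
      simp [phiM, Matrix.fromBlocks_mulVec, Matrix.mulVec_diagonal] at this
      exact this
    · intro h
      ext k
      rcases k with k | k <;> fin_cases k <;> simp [phiM, Matrix.fromBlocks_mulVec, Matrix.mulVec_diagonal]
      exact h
  rw [h1]
  have h3 := LinearMap.finrank_range_add_finrank_ker (LinearMap.proj (Sum.inr 0) : (Fin 2 ⊕ Fin 2 → F) →ₗ[F] F)
  have h4 : LinearMap.range (LinearMap.proj (Sum.inr 0) : (Fin 2 ⊕ Fin 2 → F) →ₗ[F] F) = ⊤ := by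
    rw [LinearMap.range_eq_top]
    intro c
    exact ⟨fun _ => c, rfl⟩
  rw [h4, finrank_top, finrank_self, finrank_symp] at h3
  omega

end sl2

end Cfsg.Agent.H99
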