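import Cfsg.Agent.H99.PauliI

set_option autoImplicit false
set_option linter.all false

/-!
The groups with centre of order four: explicit elements of order two and three in the normaliser.
-/

namespace Cfsg.Agent.H99

open Module
open scoped Matrix MatrixGroups

section ring
variable {M : Type*} [Ring M] {A B : M}

lemma quat_mul (hA : A * A = -1) (hB : B * B = -1) (hBA : B * A = -(A * B)) :
    (1 + A + B + A * B) * (1 - A - B - A * B) = 4 := by
  have a' : ∀ x, A * (A * x) = -x := fun x => by rw [← mul_assoc, hA, neg_one_mul]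
  have b' : ∀ x, B * (B * x) = -x := fun x => by rw [← mul_assoc, hB, neg_one_mul]
  have ba' : ∀ x, B * (A * x) = -(A * (B * x)) := fun x => by rw [← mul_assoc, hBA, neg_mul, mul_assoc]
  simp only [mul_sub, add_mul, mul_one, one_mul, mul_assoc, a', b', ba', hA, hB, hBA, mul_neg, neg_neg]
  have : (4 : M) = 1 + 1 + 1 + 1 := by norm_num
  rw [this]
  abel

lemma quat_mul' (hA : A * A = -1) (hB : B * B = -1) (hBA : B * A = -(A * B)) :
    (1 - A - B - A * B) * (1 + A + B + A * B) = 4 := by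
  have a' : ∀ x, A * (A * x) = -x := fun x => by rw [← mul_assoc, hA, neg_one_mul]
  have b' : ∀ x, B * (B * x) = -x := fun x => by rw [← mul_assoc, hB, neg_one_mul]
  have ba' : ∀ x, B * (A * x) = -(A * (B * x)) := fun x => by rw [← mul_assoc, hBA, neg_mul, mul_assoc]
  simp only [mul_add, sub_mul, mul_one, one_mul, mul_assoc, a', b', ba', hA, hB, hBA, mul_neg, neg_neg]
  have : (4 : M) = 1 + 1 + 1 + 1 := by norm_num
  rw [this]
  abel

lemma quat_sq (hA : A * A = -1) (hB : B * B = -1) (hBA : B * A = -(A * B)) :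
    (1 + A + B + A * B) * (1 + A + B + A * B) = -2 * (1 - A - B - A * B) := by
  have a' : ∀ x, A * (A * x) = -x := fun x => by rw [← mul_assoc, hA, neg_one_mul]
  have b' : ∀ x, B * (B * x) = -x := fun x => by rw [← mul_assoc, hB, neg_one_mul]
  have ba' : ∀ x, B * (A * x) = -(A * (B * x)) := fun x => by rw [← mul_assoc, hBA, neg_mul, mul_assoc]
  simp only [mul_add, mul_sub, add_mul, mul_one, one_mul, mul_assoc, a', b', ba', hA, hB, hBA, mul_neg, neg_neg, neg_mul, two_mul]
  have : (2 : M) = 1 + 1 := by norm_num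
  rw [this]
  abel

lemma quat_conj1 (hA : A * A = -1) (hB : B * B = -1) (hBA : B * A = -(A * B)) :
    (1 + A + B + A * B) * A = B * (1 + A + B + A * B) := by
  have a' : ∀ x, A * (A * x) = -x := fun x => by rw [← mul_assoc, hA, neg_one_mul]
  have b' : ∀ x, B * (B * x) = -x := fun x => by rw [← mul_assoc, hB, neg_one_mul]
  have ba' : ∀ x, B * (A * x) = -(A * (B * x)) := fun x => by rw [← mul_assoc, hBA, neg_mul, mul_assoc]
  simp only [mul_add, add_mul, mul_one, one_mul, mul_assoc, a', b', ba', hA, hB, hBA, mul_neg, neg_neg]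
  abel

lemma quat_conj2 (hA : A * A = -1) (hB : B * B = -1) (hBA : B * A = -(A * B)) :
    (1 + A + B + A * B) * B = (A * B) * (1 + A + B + A * B) := by
  have a' : ∀ x, A * (A * x) = -x := fun x => by rw [← mul_assoc, hA, neg_one_mul]
  have b' : ∀ x, B * (B * x) = -x := fun x => by rw [← mul_assoc, hB, neg_one_mul]
  have ba' : ∀ x, B * (A * x) = -(A * (B * x)) := fun x => by rw [← mul_assoc, hBA, neg_mul, mul_assoc]
  simp only [mul_add, add_mul, mul_one, one_mul, mul_assoc, a', b', ba', hA, hB, hBA, mul_neg, neg_neg]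
  abel

lemma refl_sq {A C : M} (hA : A * A = 1) (hC : C * C = 1) (hCA : C * A = A * C) : (1 - A - C - A * C) * (1 - A - C - A * C) = 4 := by
  have a' : ∀ x, A * (A * x) = x := fun x => by rw [← mul_assoc, hA, one_mul]
  have c' : ∀ x, C * (C * x) = x := fun x => by rw [← mul_assoc, hC, one_mul]
  have ca' : ∀ x, C * (A * x) = A * (C * x) := fun x => by rw [← mul_assoc, hCA, mul_assoc]
  simp only [mul_sub, sub_mul, mul_one, one_mul, mul_assoc, a', c', ca', hA, hC, hCA]
  have : (4 : M) = 1 + 1 + 1 + 1 := by norm_num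
  rw [this]
  abel

/-- conjugating an element anticommuting with `A` and commuting with `C` -/
lemma refl_conj {A C B : M} (hA : A * A = 1) (hC : C * C = 1) (hCA : C * A = A * C) (hBA : B * A = -(A * B)) (hBC : B * C = C * B) :
    (1 - A - C - A * C) * B = -(B * C) * (1 - A - C - A * C) := by
  have a' : ∀ x, A * (A * x) = x := fun x => by rw [← mul_assoc, hA, one_mul]
  have c' : ∀ x, C * (C * x) = x := fun x => by rw [← mul_assoc, hC, one_mul]
  have ca' : ∀ x, C * (A * x) = A * (C * x) := fun x => by rw [← mul_assoc, hCA, mul_assoc]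
  have ba' : ∀ x, B * (A * x) = -(A * (B * x)) := fun x => by rw [← mul_assoc, hBA, neg_mul, mul_assoc]
  have bc' : ∀ x, B * (C * x) = C * (B * x) := fun x => by rw [← mul_assoc, hBC, mul_assoc]
  simp only [mul_sub, sub_mul, mul_one, one_mul, mul_assoc, a', c', ca', hA, hC, hCA, ba', bc', hBA, hBC, neg_mul, mul_neg, neg_neg]
  abel

end ring

variable {ι : Type} [Fintype ι] [DecidableEq ι] {F : Type*} [Field F] {R : Subgroup (GL ι F)} {a b c d : GL ι F}

lemma trace_zero_of_anti (h2 : (2 : F) ≠ 0) {u w : GL ι F} (h : u * w = -(w * u)) : (u : Matrix ι ι F).trace = 0 := by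
  have h3 : u = -(w * u * w⁻¹) := by rw [← neg_mul, ← h, mul_inv_cancel_right]
  have h4 : (u : Matrix ι ι F).trace = -(u : Matrix ι ι F).trace := by
    conv_lhs => rw [h3]
    rw [Units.val_neg, Matrix.trace_neg, Units.val_mul, Matrix.trace_mul_comm, ← Units.val_mul]
    congr 3
    group
  have h5 : (2 : F) * (u : Matrix ι ι F).trace = 0 := by linear_combination h4
  exact (mul_eq_zero.mp h5).resolve_left h2

/-- a scalar of order four -/
lemma PGrp.exists_i [Nonempty ι] [Finite F] (h : PGrp R) (hZ : Nat.card (Subgroup.center R) = 4) :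
    ∃ s ∈ R, ∃ i : F, (s : Matrix ι ι F) = i • (1 : Matrix ι ι F) ∧ i * i = -1 ∧ s * s = -1 := by
  classical
  by_contra hcon
  push Not at hcon
  have h1 : ∀ z ∈ Subgroup.center R, (z : GL ι F) = 1 ∨ (z : GL ι F) = -1 := by
    intro z hz
    have hz' : ∀ v ∈ R, (z : GL ι F) * v = v * z := by
      intro v hv
      have := Subgroup.mem_center_iff.mp hz ⟨v, hv⟩
      exact (congrArg Subtype.val this).symm
    obtain ⟨k, hk⟩ := scalar_of_comm_R h hz'
    have hkk : ∀ e : F, ((z : GL ι F) * z : GL ι F) = (e • (1 : Matrix ι ι F)) → k * k = e := by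
      intro e he
      rw [Units.val_mul, hk, smul_mul_smul_comm, mul_one] at he
      exact GL_smul_one_inj (ι := ι) he
    rcases h.sq z z.2 with h3 | h3
    · have h4 : k * k = 1 := hkk 1 (by rw [h3, one_smul]; rfl)
      rcases mul_self_eq_one_iff.mp h4 with h5 | h5
      · left; apply Units.ext; rw [hk, h5, one_smul]; rfl
      · right; apply Units.ext; rw [hk, h5]; simp
    · have h4 : k * k = -1 := hkk (-1) (by rw [h3]; simp)
      exact absurd h3 (hcon z z.2 k hk h4)
  have h3 : Nat.card (Subgroup.center R) ≤ 2 := by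
    have h4 : ((fun z : R => (z : GL ι F)) '' (Subgroup.center R : Set R)) ⊆ (({1, -1} : Finset (GL ι F)) : Set (GL ι F)) := by
      rintro _ ⟨z, hz, rfl⟩
      rcases h1 z hz with h5 | h5
      · simp only [h5]; simp
      · simp only [h5]; simp
    have h5 := Set.ncard_le_ncard h4 (Set.toFinite _)
    rw [Set.ncard_image_of_injective _ Subtype.val_injective, Set.ncard_coe_finset] at h5
    exact h5.trans Finset.card_le_two
  omega

theorem PQuad.exists_plus [Nonempty ι] (h : PGrp R) {s : GL ι F} (hs : s ∈ R) (hsc : ∀ v : GL ι F, s * v = v * s) (hss : s * s = -1)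
    (hq : PQuad R a b c d) :
    ∃ a b c d : GL ι F, PQuad R a b c d ∧ a * a = 1 ∧ b * b = 1 ∧ c * c = 1 ∧ d * d = 1 := by
  have step : ∀ {a b c d : GL ι F}, PQuad R a b c d → ∃ a', PQuad R a' b c d ∧ a' * a' = 1 := by
    intro a b c d hq
    rcases h.sq a hq.ha with h1 | h1
    · exact ⟨a, hq, h1⟩
    · refine ⟨s * a, hq.smul hs hsc, ?_⟩
      rw [mul_assoc, ← mul_assoc a s a, ← hsc a, mul_assoc s a a, ← mul_assoc s s, hss, h1, neg_mul_neg, one_mul]
  obtain ⟨a1, hq1, ha⟩ := step hq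
  obtain ⟨b1, hq2, hb⟩ := step hq1.rot
  obtain ⟨c1, hq3, hc⟩ := step hq2.swap
  obtain ⟨d1, hq4, hd⟩ := step hq3.rot
  exact ⟨b1, a1, d1, c1, hq4.swap, hb, ha, hd, hc⟩

/-- the reflection -/
theorem PQuad.exists_refl [Nonempty ι] [Finite F] (h : PGrp R) (h2 : (2 : F) ≠ 0) (hq : PQuad R a b c d) (haa : a * a = 1) (hcc : c * c = 1) :
    ∃ t : GL ι F, t ∈ Cfsg.Geo.subgroupNormalizer R ∧ t * t = 1 ∧
      (t : Matrix ι ι F) = (2 : F)⁻¹ • (1 - (a : Matrix ι ι F) - (c : Matrix ι ι F) - (a : Matrix ι ι F) * (c : Matrix ι ι F)) := by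
  have h4 : (4 : F) ≠ 0 := by
    have : (4 : F) = 2 * 2 := by norm_num
    rw [this]; exact mul_ne_zero h2 h2
  have ha' : (a : Matrix ι ι F) * a = 1 := by rw [← Units.val_mul, haa]; rfl
  have hc' : (c : Matrix ι ι F) * c = 1 := by rw [← Units.val_mul, hcc]; rfl
  have hca' : (c : Matrix ι ι F) * a = a * c := by rw [← Units.val_mul, ← Units.val_mul, hq.ac]
  set X := (1 : Matrix ι ι F) - (a : Matrix ι ι F) - (c : Matrix ι ι F) - (a : Matrix ι ι F) * (c : Matrix ι ι F) with hX
  have hXX : X * X = 4 := refl_sq ha' hc' hca'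
  have hTT : ((2 : F)⁻¹ • X) * ((2 : F)⁻¹ • X) = 1 := by
    rw [smul_mul_smul_comm, hXX]
    have h5 : (4 : Matrix ι ι F) = (4 : F) • (1 : Matrix ι ι F) := by
      rw [← Algebra.algebraMap_eq_smul_one, map_ofNat]
    rw [h5, smul_smul]
    have h6 : (2 : F)⁻¹ * (2 : F)⁻¹ * 4 = 1 := by field_simp; norm_num
    rw [h6, one_smul]
  let t : GL ι F := ⟨(2 : F)⁻¹ • X, (2 : F)⁻¹ • X, hTT, hTT⟩
  have ht : (t : Matrix ι ι F) = (2 : F)⁻¹ • X := rfl
  refine ⟨t, ?_, Units.ext (by rw [Units.val_mul, ht]; exact hTT), rfl⟩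
  have hneg : ∀ w ∈ R, -w ∈ R := fun w hw => by rw [← neg_one_mul]; exact R.mul_mem h.neg hw
  have hconj : ∀ u w : GL ι F, X * (u : Matrix ι ι F) = (w : Matrix ι ι F) * X → t * u * t⁻¹ = w := by
    intro u w huw
    rw [mul_inv_eq_iff_eq_mul]
    apply Units.ext
    rw [Units.val_mul, Units.val_mul, ht, Matrix.smul_mul, Matrix.mul_smul, huw]
  apply hq.mem_normalizer h
  · rw [hconj a a]
    · exact hq.ha
    · rw [hX]; simp only [sub_mul, mul_sub, one_mul, mul_one, mul_assoc, hca']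
  · rw [hconj b (-(b * c))]
    · exact hneg _ (R.mul_mem hq.hb hq.hc)
    · rw [Units.val_neg, Units.val_mul, hX]
      apply refl_conj ha' hc' hca'
      · rw [← Units.val_mul, ← Units.val_mul, ← Units.val_neg, hq.ab, neg_neg]
      · rw [← Units.val_mul, ← Units.val_mul, hq.bc]
  · rw [hconj c c]
    · exact hq.hc
    · rw [hX]; simp only [sub_mul, mul_sub, one_mul, mul_one, mul_assoc, hc']
      rw [← mul_assoc (c : Matrix ι ι F) a c, hca', mul_assoc, hc', mul_one]
  · rw [hconj d (-(d * a))]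
    · exact hneg _ (R.mul_mem hq.hd hq.ha)
    · rw [Units.val_neg, Units.val_mul, hX]
      have h5 := refl_conj (A := (c : Matrix ι ι F)) (C := (a : Matrix ι ι F)) (B := (d : Matrix ι ι F)) hc' ha' hca'.symm
        (by rw [← Units.val_mul, ← Units.val_mul, ← Units.val_neg, hq.cd, neg_neg]) (by rw [← Units.val_mul, ← Units.val_mul, hq.ad])
      have h6 : (1 : Matrix ι ι F) - (c : Matrix ι ι F) - (a : Matrix ι ι F) - (c : Matrix ι ι F) * (a : Matrix ι ι F) =
        1 - (a : Matrix ι ι F) - (c : Matrix ι ι F) - (a : Matrix ι ι F) * (c : Matrix ι ι F) := by rw [hca']; abel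
      rw [h6] at h5
      exact h5

/-- the quaternion element of order three -/
theorem exists_quat (h2 : (2 : F) ≠ 0) {I J : GL ι F} (hI : I * I = -1) (hJ : J * J = -1) (hIJ : I * J = -(J * I)) :
    ∃ q : GL ι F, (q : Matrix ι ι F) = (-(2 : F)⁻¹) • (1 + (I : Matrix ι ι F) + (J : Matrix ι ι F) + (I : Matrix ι ι F) * (J : Matrix ι ι F)) ∧
      ((q⁻¹ : GL ι F) : Matrix ι ι F) = (-(2 : F)⁻¹) • (1 - (I : Matrix ι ι F) - (J : Matrix ι ι F) - (I : Matrix ι ι F) * (J : Matrix ι ι F)) ∧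
      q ^ 3 = 1 ∧ q * I * q⁻¹ = J ∧ q * J * q⁻¹ = I * J ∧ (∀ w : GL ι F, w * I = I * w → w * J = J * w → q * w = w * q) ∧
      (q : Matrix ι ι F) * q + q + 1 = 0 := by
  have hI' : (I : Matrix ι ι F) * I = -1 := by rw [← Units.val_mul, hI]; rfl
  have hJ' : (J : Matrix ι ι F) * J = -1 := by rw [← Units.val_mul, hJ]; rfl
  have hJI' : (J : Matrix ι ι F) * I = -((I : Matrix ι ι F) * J) := by rw [← Units.val_mul, ← Units.val_mul, ← Units.val_neg, hIJ, neg_neg]
  set X := 1 + (I : Matrix ι ι F) + (J : Matrix ι ι F) + (I : Matrix ι ι F) * (J : Matrix ι ι F) with hX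
  set Y := 1 - (I : Matrix ι ι F) - (J : Matrix ι ι F) - (I : Matrix ι ι F) * (J : Matrix ι ι F) with hY
  have hXY : X * Y = 4 := quat_mul hI' hJ' hJI'
  have hYX : Y * X = 4 := quat_mul' hI' hJ' hJI'
  have h5 : (4 : Matrix ι ι F) = (4 : F) • (1 : Matrix ι ι F) := by
    rw [← Algebra.algebraMap_eq_smul_one, map_ofNat]
  have h6 : (-(2 : F)⁻¹) * (-(2 : F)⁻¹) * 4 = 1 := by field_simp; norm_num
  have e1 : ((-(2 : F)⁻¹) • X) * ((-(2 : F)⁻¹) • Y) = 1 := by
    rw [smul_mul_smul_comm, hXY, h5, smul_smul, h6, one_smul]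
  have e2 : ((-(2 : F)⁻¹) • Y) * ((-(2 : F)⁻¹) • X) = 1 := by
    rw [smul_mul_smul_comm, hYX, h5, smul_smul, h6, one_smul]
  let q : GL ι F := ⟨(-(2 : F)⁻¹) • X, (-(2 : F)⁻¹) • Y, e1, e2⟩
  have hq : (q : Matrix ι ι F) = (-(2 : F)⁻¹) • X := rfl
  have hqi : ((q⁻¹ : GL ι F) : Matrix ι ι F) = (-(2 : F)⁻¹) • Y := rfl
  have hqq : (q : Matrix ι ι F) * q = ((q⁻¹ : GL ι F) : Matrix ι ι F) := by
    rw [hq, hqi, smul_mul_smul_comm, quat_sq hI' hJ' hJI']
    have h7 : (-2 : Matrix ι ι F) = (-2 : F) • (1 : Matrix ι ι F) := by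
      rw [← Algebra.algebraMap_eq_smul_one, map_neg, map_ofNat]
    rw [h7, Matrix.smul_mul, one_mul, smul_smul]
    congr 1
    field_simp
  have hconj : ∀ u w : GL ι F, X * (u : Matrix ι ι F) = (w : Matrix ι ι F) * X → q * u * q⁻¹ = w := by
    intro u w huw
    rw [mul_inv_eq_iff_eq_mul]
    apply Units.ext
    rw [Units.val_mul, Units.val_mul, hq, Matrix.smul_mul, Matrix.mul_smul, huw]
  refine ⟨q, rfl, rfl, ?_, ?_, ?_, ?_, ?_⟩
  · have h7 : q * q = q⁻¹ := Units.ext (by rw [Units.val_mul]; exact hqq)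
    rw [pow_succ, pow_two, h7, inv_mul_cancel]
  · exact hconj I J (quat_conj1 hI' hJ' hJI')
  · exact hconj J (I * J) (by rw [Units.val_mul]; exact quat_conj2 hI' hJ' hJI')
  · intro w hwI hwJ
    have hwI' : (w : Matrix ι ι F) * I = I * w := by rw [← Units.val_mul, hwI, Units.val_mul]
    have hwJ' : (w : Matrix ι ι F) * J = J * w := by rw [← Units.val_mul, hwJ, Units.val_mul]
    apply Units.ext
    rw [Units.val_mul, Units.val_mul, hq, Matrix.smul_mul, Matrix.mul_smul, hX]
    congr 1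
    simp only [add_mul, mul_add, one_mul, mul_one, mul_assoc, hwI', hwJ']
    rw [← mul_assoc (w : Matrix ι ι F) I J, hwI', mul_assoc, hwJ']
  · rw [hqq, hqi, hq, ← smul_add]
    have h7 : Y + X = 2 := by
      rw [hX, hY]
      have : (2 : Matrix ι ι F) = 1 + 1 := by norm_num
      rw [this]
      abel
    rw [h7]
    have h8 : (2 : Matrix ι ι F) = (2 : F) • (1 : Matrix ι ι F) := by
      rw [← Algebra.algebraMap_eq_smul_one, map_ofNat]
    rw [h8, smul_smul, neg_mul, inv_mul_cancel₀ h2, neg_smul, one_smul, neg_add_cancel]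

end Cfsg.Agent.H99
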