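import Cfsg.Agent.H99.PauliJ
import Cfsg.Agent.H99.ConjType
import Cfsg.Agent.H99.CentDet
import Cfsg.Agent.H99.SLConj

set_option autoImplicit false
set_option linter.all false

/-!
Conjugacy by the dimension of the fixed space; traces.
-/

namespace Cfsg.Agent.H99

open Module Polynomial
open scoped Matrix MatrixGroups

universe u

section conj
variable {F : Type u} [Field F] [Fintype F] {p : ℕ} [Fact p.Prime] [CharP F p] {r : ℕ} [hrpr : Fact r.Prime]
  {V : Type u} [AddCommGroup V] [Module F V] [FiniteDimensional F V]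

theorem conj_of_ker (hrp : r ≠ p) (hi : orderOf ((Fintype.card F : ℕ) : ZMod r) = r - 1) (f g : V →ₗ[F] V)
    (hf : f ^ r = 1) (hg : g ^ r = 1) (hk : finrank F (LinearMap.ker (f - 1)) = finrank F (LinearMap.ker (g - 1))) :
    ∃ e : V ≃ₗ[F] V, ∀ v, e (f v) = g (e v) := by
  classical
  have hr := hrpr.out
  have hr1 : 1 ≤ r - 1 := by have := hr.two_le; omega
  have hcyc : ∀ Q : F[X], Q.Monic → Q ∣ cyclotomic r F → Q.natDegree = r - 1 → Q = cyclotomic r F := by
    intro Q hQ hQd hQn
    have h1 : (cyclotomic r F).natDegree = r - 1 := by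
      rw [natDegree_cyclotomic, Nat.totient_prime Fact.out]
    exact (eq_of_monic_of_dvd_of_natDegree_le hQ (cyclotomic.monic r F) hQd (by rw [h1, hQn])).symm
  have hrF : (r : F) ≠ 0 := natCast_ne_zero_of_ne (p := p) hr hrp
  have hne : cyclotomic r F ≠ X - C 1 := by
    intro h
    have h2 := congrArg (Polynomial.eval 1) h
    rw [eval_one_cyclotomic_prime, eval_sub, eval_X, eval_C, sub_self] at h2
    exact hrF h2
  have key : ∀ f : V →ₗ[F] V, f ^ r = 1 → ∃ (k : ℕ) (P : Fin k → F[X]) (_ : CycDecomp f P),
      (Nat.card {j // P j = X - C 1} = finrank F (LinearMap.ker (f - 1))) ∧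
      (Nat.card {j // P j = cyclotomic r F} * (r - 1) + finrank F (LinearMap.ker (f - 1)) = finrank F V) ∧
      ∀ j, P j = cyclotomic r F ∨ P j = X - C 1 := by
    intro f hf
    obtain ⟨k, P, hP, ⟨D⟩⟩ := exists_decomp_one hrp f hf
    have h1 : ∀ j, P j = cyclotomic r F ∨ P j = X - C 1 := by
      intro j
      rcases (hP j).2.2 with h | h
      · exact Or.inr h
      · exact Or.inl (hcyc _ (hP j).1 h.1 (by rw [h.2, hi]))
    set A : Finset (Fin k) := Finset.univ.filter (fun j => P j = X - C 1) with hA
    have hker : LinearMap.ker (f - 1) = D.sub (A : Set (Fin k)) := by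
      apply le_antisymm
      · intro v hv
        rw [LinearMap.mem_ker, LinearMap.sub_apply, sub_eq_zero, Module.End.one_apply] at hv
        obtain ⟨u, hu, w, hw, huw⟩ := Submodule.mem_sup.mp (show v ∈ D.sub (A : Set (Fin k)) ⊔ D.sub (A : Set (Fin k))ᶜ by
          rw [(D.isCompl_sub _).sup_eq_top]; exact Submodule.mem_top)
        have h3 := D.aeval_sub_eq_zero (A : Set (Fin k)) (X - C 1) (fun j hj => by
          rw [(Finset.mem_filter.mp (Finset.mem_coe.mp hj)).2]) hu
        rw [map_sub, aeval_X, aeval_C, map_one, LinearMap.sub_apply, sub_eq_zero, Module.End.one_apply] at h3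
        have h4 : f w = w := by
          have : f v = f u + f w := by rw [← huw, map_add]
          rw [hv, h3, ← huw] at this
          exact (add_left_cancel this).symm
        have h5 := D.aeval_sub_eq_zero ((A : Set (Fin k))ᶜ) (cyclotomic r F) (fun j hj => by
          have : ¬ P j = X - C 1 := fun h => hj (Finset.mem_coe.mpr (Finset.mem_filter.mpr ⟨Finset.mem_univ _, h⟩))
          rw [(h1 j).resolve_right this]) hw
        have h6 : ∀ s : ℕ, (f ^ s) w = w := by
          intro s
          induction s with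
          | zero => rfl
          | succ s ih => rw [pow_succ, Module.End.mul_apply, h4, ih]
        rw [cyclotomic_prime, map_sum] at h5
        simp only [map_pow, aeval_X, LinearMap.sum_apply, h6, Finset.sum_const, Finset.card_range] at h5
        rw [← Nat.cast_smul_eq_nsmul F] at h5
        have h7 : w = 0 := (smul_eq_zero.mp h5).resolve_left hrF
        rw [← huw, h7, add_zero]
        exact hu
      · intro v hv
        have h3 := D.aeval_sub_eq_zero (A : Set (Fin k)) (X - C 1) (fun j hj => by
          rw [(Finset.mem_filter.mp (Finset.mem_coe.mp hj)).2]) hv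
        rw [map_sub, aeval_X, aeval_C, map_one] at h3
        exact h3
    have hkc : finrank F (LinearMap.ker (f - 1)) = A.card := by
      rw [hker, D.finrank_sub A, Finset.sum_congr rfl (g := fun _ => 1) (fun j hj => by
        rw [(Finset.mem_filter.mp hj).2, natDegree_X_sub_C]), Finset.sum_const, smul_eq_mul, mul_one]
    have hsum := D.finrank_eq
    rw [← Finset.sum_filter_add_sum_filter_not Finset.univ (fun j => P j = X - C 1)] at hsum
    have h3 : ∀ j ∈ Finset.univ.filter (fun j => P j = X - C 1), (P j).natDegree = 1 := by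
      intro j hj
      rw [(Finset.mem_filter.mp hj).2, natDegree_X_sub_C]
    have h4 : ∀ j ∈ Finset.univ.filter (fun j => ¬ P j = X - C 1), (P j).natDegree = r - 1 := by
      intro j hj
      rw [(h1 j).resolve_right (Finset.mem_filter.mp hj).2, natDegree_cyclotomic, Nat.totient_prime Fact.out]
    rw [Finset.sum_congr rfl h3, Finset.sum_congr rfl h4, Finset.sum_const, Finset.sum_const, smul_eq_mul, smul_eq_mul,
      mul_one] at hsum
    refine ⟨k, P, D, ?_, ?_, h1⟩
    · rw [hkc, Nat.card_eq_fintype_card, Fintype.card_subtype]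
    · rw [hkc, hsum, add_comm]
      congr 2
      rw [Nat.card_eq_fintype_card, Fintype.card_subtype]
      congr 1
      ext j
      simp only [Finset.mem_filter, Finset.mem_univ, true_and]
      constructor
      · intro h h'
        exact hne (h.symm.trans h')
      · intro h
        exact (h1 j).resolve_right h
  obtain ⟨k, P, D, hD1, hD2, hD3⟩ := key f hf
  obtain ⟨k', P', D', hD1', hD2', hD3'⟩ := key g hg
  apply D.conj_of_card D'
  intro Q
  by_cases h1 : Q = cyclotomic r F
  · subst h1
    rw [← hD2', hk] at hD2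
    exact Nat.eq_of_mul_eq_mul_right (by omega) (Nat.add_right_cancel hD2)
  by_cases h2 : Q = X - C 1
  · subst h2
    rw [hD1, hD1', hk]
  · have e1 : IsEmpty {j // P j = Q} := ⟨fun j => by
      rcases hD3 j.1 with h | h
      · exact h1 (j.2.symm.trans h)
      · exact h2 (j.2.symm.trans h)⟩
    have e2 : IsEmpty {j // P' j = Q} := ⟨fun j => by
      rcases hD3' j.1 with h | h
      · exact h1 (j.2.symm.trans h)
      · exact h2 (j.2.symm.trans h)⟩
    rw [Nat.card_of_isEmpty, Nat.card_of_isEmpty]

end conj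

section trace
variable {F : Type*} [Field F] {V : Type*} [AddCommGroup V] [Module F V] [FiniteDimensional F V]

theorem sum_trace_pow {r : ℕ} (hrF : (r : F) ≠ 0) (f : V →ₗ[F] V) (hf : f ^ r = 1) :
    ∑ j ∈ Finset.range r, LinearMap.trace F V (f ^ j) = (r : F) * (finrank F (LinearMap.ker (f - 1)) : F) := by
  have h6 : ∀ w, f w = w → ∀ s : ℕ, (f ^ s) w = w := by
    intro w hw s
    induction s with
    | zero => rfl
    | succ s ih => rw [pow_succ, Module.End.mul_apply, hw, ih]
  set N : V →ₗ[F] V := ∑ j ∈ Finset.range r, f ^ j with hN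
  have hfN : f * N = N := by
    rw [hN, Finset.mul_sum]
    have h1 : ∀ j ∈ Finset.range r, f * f ^ j = f ^ (j + 1) := fun j _ => (pow_succ' f j).symm
    rw [Finset.sum_congr rfl h1]
    have h2 := Finset.sum_range_succ' (fun j => f ^ j) r
    rw [Finset.sum_range_succ, hf, pow_zero] at h2
    exact (add_right_cancel h2).symm
  have hproj : LinearMap.IsProj (LinearMap.ker (f - 1)) ((r : F)⁻¹ • N) := by
    constructor
    · intro v
      rw [LinearMap.mem_ker, LinearMap.sub_apply, sub_eq_zero, Module.End.one_apply, LinearMap.smul_apply, map_smul]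
      congr 1
      have := LinearMap.congr_fun hfN v
      exact this
    · intro v hv
      rw [LinearMap.mem_ker, LinearMap.sub_apply, sub_eq_zero, Module.End.one_apply] at hv
      rw [LinearMap.smul_apply, hN, LinearMap.sum_apply, Finset.sum_congr rfl (fun j _ => h6 v hv j), Finset.sum_const, Finset.card_range,
        ← Nat.cast_smul_eq_nsmul F, smul_smul, inv_mul_cancel₀ hrF, one_smul]
  have h1 := hproj.trace
  rw [map_smul, hN, map_sum, smul_eq_mul] at h1
  rw [← h1, ← mul_assoc, mul_inv_cancel₀ hrF, one_mul]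

end trace

section glsec
variable {n : ℕ} {F : Type*} [Field F] [Fintype F] {p : ℕ} [Fact p.Prime] [CharP F p] {r : ℕ} [hrpr : Fact r.Prime]

lemma toLin_pow_GL {x : GL (Fin n) F} (hx : x ^ r = 1) : (Matrix.toLin' (x : Matrix (Fin n) (Fin n) F)) ^ r = 1 := by
  rw [← Matrix.toLin'_pow, ← Units.val_pow_eq_pow_val, hx, Units.val_one, Matrix.toLin'_one]
  rfl

theorem SL_conj_of_ker (hn : 0 < n) (hrp : r ≠ p) (hi : orderOf ((Fintype.card F : ℕ) : ZMod r) = r - 1) {x y : GL (Fin n) F}
    (hx : x ^ r = 1) (hy : y ^ r = 1)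
    (hk : finrank F (LinearMap.ker (Matrix.toLin' (x : Matrix (Fin n) (Fin n) F) - 1)) =
      finrank F (LinearMap.ker (Matrix.toLin' (y : Matrix (Fin n) (Fin n) F) - 1))) :
    ∃ g ∈ Cfsg.Geo.specialLinear (Fin n) F, g⁻¹ * x * g = y := by
  have hrF : (r : F) ≠ 0 := natCast_ne_zero_of_ne (p := p) hrpr.out hrp
  obtain ⟨e, he⟩ := conj_of_ker (p := p) hrp hi _ _ (toLin_pow_GL hy) (toLin_pow_GL hx) hk.symm
  have hC : CentSurj (x : Matrix (Fin n) (Fin n) F) := by
    apply centSurj_of_pow_eq hn _ r 1 one_ne_zero hrF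
    rw [← Units.val_pow_eq_pow_val, hx, one_smul]
    rfl
  obtain ⟨S, hS⟩ := hC.exists_sl (LinearMap.toMatrix' e.toLinearMap) (y : Matrix (Fin n) (Fin n) F) (det_ne_zero_of_equiv e) (by
    apply Matrix.toLin'.injective
    apply LinearMap.ext
    intro v
    rw [Matrix.toLin'_mul, Matrix.toLin'_mul, Matrix.toLin'_toMatrix', LinearMap.comp_apply, LinearMap.comp_apply]
    exact (he v).symm)
  refine ⟨Matrix.SpecialLinearGroup.toGL S, ?_, ?_⟩
  · rw [Cfsg.Geo.specialLinear, MonoidHom.mem_ker]
    apply Units.ext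
    exact S.2
  · rw [mul_assoc, inv_mul_eq_iff_eq_mul]
    apply Units.ext
    exact hS

end glsec

end Cfsg.Agent.H99
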