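import Cfsg.Agent.H99.PauliK

set_option autoImplicit false
set_option linter.all false

/-!
Centre of order four: elements of order three in the normaliser and their fixed spaces.
-/

namespace Cfsg.Agent.H99

open Module
open scoped Matrix MatrixGroups

variable {ι : Type} [Fintype ι] [DecidableEq ι] {F : Type*} [Field F] {R : Subgroup (GL ι F)} {a b c d : GL ι F}

lemma trace_anti_zero (h2 : (2 : F) ≠ 0) {u Y : Matrix ι ι F} {w : GL ι F} (hu : (w : Matrix ι ι F) * u = -(u * w))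
    (hY : (w : Matrix ι ι F) * Y = Y * w) : (u * Y).trace = 0 := by
  have h1 : ((w : Matrix ι ι F) * (u * Y) * ((w⁻¹ : GL ι F) : Matrix ι ι F)).trace = (u * Y).trace := by
    rw [Matrix.trace_mul_comm, ← mul_assoc, ← Units.val_mul, inv_mul_cancel, Units.val_one, one_mul]
  have h3 : (w : Matrix ι ι F) * (u * Y) * ((w⁻¹ : GL ι F) : Matrix ι ι F) = -(u * Y) := by
    rw [← mul_assoc, hu, neg_mul, mul_assoc u, hY, ← mul_assoc, neg_mul, mul_assoc, ← Units.val_mul, mul_inv_cancel, Units.val_one, mul_one]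
  rw [h3, Matrix.trace_neg] at h1
  have h5 : (2 : F) * (u * Y).trace = 0 := by linear_combination -h1
  exact (mul_eq_zero.mp h5).resolve_left h2

lemma trace_quat (h2 : (2 : F) ≠ 0) {I J : GL ι F} (hIJ : I * J = -(J * I)) {Y : Matrix ι ι F}
    (hYI : (I : Matrix ι ι F) * Y = Y * I) (hYJ : (J : Matrix ι ι F) * Y = Y * J) (ε : F) :
    ((1 + ε • (I : Matrix ι ι F) + ε • (J : Matrix ι ι F) + ε • ((I : Matrix ι ι F) * (J : Matrix ι ι F))) * Y).trace = Y.trace := by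
  have hIJ' : (I : Matrix ι ι F) * J = -((J : Matrix ι ι F) * I) := by rw [← Units.val_mul, hIJ, Units.val_neg, Units.val_mul]
  rw [add_mul, add_mul, add_mul, one_mul, Matrix.trace_add, Matrix.trace_add, Matrix.trace_add, Matrix.smul_mul, Matrix.smul_mul, Matrix.smul_mul,
    Matrix.trace_smul, Matrix.trace_smul, Matrix.trace_smul]
  rw [trace_anti_zero h2 (w := J) (u := (I : Matrix ι ι F)) (by rw [hIJ', neg_neg]) hYJ,
    trace_anti_zero h2 (w := I) (u := (J : Matrix ι ι F)) hIJ' hYI,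
    trace_anti_zero h2 (w := I) (u := (I : Matrix ι ι F) * (J : Matrix ι ι F)) (by
      rw [hIJ', mul_neg, neg_mul, neg_neg, ← mul_assoc, hIJ', neg_mul, neg_neg]) hYI]
  simp

/-- commuting elements of order three with prescribed traces -/
theorem PQuad.exists_three [Nonempty ι] [Finite F] (h : PGrp R) (h2 : (2 : F) ≠ 0) (hι : Fintype.card ι = 4) (hq : PQuad R a b c d)
    (haa : a * a = 1) (hbb : b * b = 1) (hcc : c * c = 1) (hdd : d * d = 1)
    {s : GL ι F} (hs : s ∈ R) (hsc : ∀ v : GL ι F, s * v = v * s) (hss : s * s = -1) :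
    ∃ t1 t2 : GL ι F, t1 ∈ Cfsg.Geo.subgroupNormalizer R ∧ t2 ∈ Cfsg.Geo.subgroupNormalizer R ∧ t1 ^ 3 = 1 ∧ t2 ^ 3 = 1 ∧ t1 * t2 = t2 * t1 ∧
      (t1 : Matrix ι ι F).trace = -2 ∧ ((t1⁻¹ : GL ι F) : Matrix ι ι F).trace = -2 ∧ ((t1 * t2 : GL ι F) : Matrix ι ι F).trace = 1 ∧
      (((t1 * t2)⁻¹ : GL ι F) : Matrix ι ι F).trace = 1 ∧
      (t1 : Matrix ι ι F) = (-(2 : F)⁻¹) • (1 + ((s * a : GL ι F) : Matrix ι ι F) + ((s * b : GL ι F) : Matrix ι ι F) + ((s * a : GL ι F) : Matrix ι ι F) * ((s * b : GL ι F) : Matrix ι ι F)) ∧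
      (t2 : Matrix ι ι F) = (-(2 : F)⁻¹) • (1 + ((s * c : GL ι F) : Matrix ι ι F) + ((s * d : GL ι F) : Matrix ι ι F) + ((s * c : GL ι F) : Matrix ι ι F) * ((s * d : GL ι F) : Matrix ι ι F)) ∧
      ((t1⁻¹ : GL ι F) : Matrix ι ι F) = (-(2 : F)⁻¹) • (1 - ((s * a : GL ι F) : Matrix ι ι F) - ((s * b : GL ι F) : Matrix ι ι F) - ((s * a : GL ι F) : Matrix ι ι F) * ((s * b : GL ι F) : Matrix ι ι F)) ∧
      ((t2⁻¹ : GL ι F) : Matrix ι ι F) = (-(2 : F)⁻¹) • (1 - ((s * c : GL ι F) : Matrix ι ι F) - ((s * d : GL ι F) : Matrix ι ι F) - ((s * c : GL ι F) : Matrix ι ι F) * ((s * d : GL ι F) : Matrix ι ι F)) := by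
  have hsq : ∀ x : GL ι F, x * x = 1 → (s * x) * (s * x) = -1 := by
    intro x hx
    rw [mul_assoc, ← mul_assoc x s x, ← hsc x, mul_assoc s x x, hx, mul_one, hss]
  have hsant : ∀ x y : GL ι F, x * y = -(y * x) → (s * x) * (s * y) = -((s * y) * (s * x)) := by
    intro x y hxy
    rw [mul_assoc, ← mul_assoc x s y, ← hsc x, mul_assoc s x y, hxy, mul_assoc s y, ← mul_assoc y s x, ← hsc y, mul_assoc s y x, mul_neg, mul_neg]
  have hscom : ∀ x y : GL ι F, x * y = y * x → (s * x) * (s * y) = (s * y) * (s * x) := by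
    intro x y hxy
    rw [mul_assoc, ← mul_assoc x s y, ← hsc x, mul_assoc s x y, hxy, mul_assoc s y, ← mul_assoc y s x, ← hsc y, mul_assoc s y x]
  have hcom1 : ∀ x y : GL ι F, x * y = y * x → x * (s * y) = (s * y) * x := by
    intro x y hxy
    rw [← mul_assoc, ← hsc x, mul_assoc, hxy, mul_assoc]
  obtain ⟨t1, v1, w1, p1, q1, r1, k1, m1⟩ := exists_quat h2 (hsq a haa) (hsq b hbb) (hsant a b hq.ab)
  obtain ⟨t2, v2, w2, p2, q2, r2, k2, m2⟩ := exists_quat h2 (hsq c hcc) (hsq d hdd) (hsant c d hq.cd)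
  have hstrip : ∀ t x y : GL ι F, t * (s * x) * t⁻¹ = s * y → t * x * t⁻¹ = y := by
    intro t x y hxy
    have h3 : t * (s * x) * t⁻¹ = s * (t * x * t⁻¹) := by
      rw [← mul_assoc t s x, ← hsc t]; simp only [mul_assoc]
    rw [h3] at hxy
    exact mul_left_cancel hxy
  have hsab : (s * a) * (s * b) = s * (s * (a * b)) := by
    rw [mul_assoc, ← mul_assoc a s b, ← hsc a, mul_assoc s a b]
  have hscd : (s * c) * (s * d) = s * (s * (c * d)) := by
    rw [mul_assoc, ← mul_assoc c s d, ← hsc c, mul_assoc s c d]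
  have c1 : ∀ w : GL ι F, w * a = a * w → w * b = b * w → t1 * w * t1⁻¹ = w := by
    intro w hwa hwb
    rw [k1 w (hcom1 w a hwa) (hcom1 w b hwb), mul_inv_cancel_right]
  have c2 : ∀ w : GL ι F, w * c = c * w → w * d = d * w → t2 * w * t2⁻¹ = w := by
    intro w hwa hwb
    rw [k2 w (hcom1 w c hwa) (hcom1 w d hwb), mul_inv_cancel_right]
  have n1 : t1 ∈ Cfsg.Geo.subgroupNormalizer R := by
    apply hq.mem_normalizer h
    · rw [hstrip t1 a b q1]; exact hq.hb
    · rw [hstrip t1 b (s * (a * b)) (by rw [r1, hsab])]; exact R.mul_mem hs (R.mul_mem hq.ha hq.hb)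
    · rw [c1 c hq.ac.symm hq.bc.symm]; exact hq.hc
    · rw [c1 d hq.ad.symm hq.bd.symm]; exact hq.hd
  have n2 : t2 ∈ Cfsg.Geo.subgroupNormalizer R := by
    apply hq.mem_normalizer h
    · rw [c2 a hq.ac hq.ad]; exact hq.ha
    · rw [c2 b hq.bc hq.bd]; exact hq.hb
    · rw [hstrip t2 c d q2]; exact hq.hd
    · rw [hstrip t2 d (s * (c * d)) (by rw [r2, hscd])]; exact R.mul_mem hs (R.mul_mem hq.hc hq.hd)
  -- commuting
  have e1 : (s * a) * t2 = t2 * (s * a) := by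
    rw [k2 (s * a) (hscom a c hq.ac) (hscom a d hq.ad)]
  have e2 : (s * b) * t2 = t2 * (s * b) := by
    rw [k2 (s * b) (hscom b c hq.bc) (hscom b d hq.bd)]
  have e3 : t1 * t2 = t2 * t1 := k1 t2 e1.symm e2.symm
  have hval : ∀ {x y : GL ι F}, x * y = y * x → (x : Matrix ι ι F) * (y : Matrix ι ι F) = (y : Matrix ι ι F) * (x : Matrix ι ι F) := by
    intro x y hxy
    rw [← Units.val_mul, hxy, Units.val_mul]
  have e1' := hval e1
  have e2' := hval e2
  have e1i : ((s * a : GL ι F) : Matrix ι ι F) * ((t2⁻¹ : GL ι F) : Matrix ι ι F) = ((t2⁻¹ : GL ι F) : Matrix ι ι F) * ((s * a : GL ι F) : Matrix ι ι F) := by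
    apply hval
    rw [mul_inv_eq_iff_eq_mul, mul_assoc, e1, inv_mul_cancel_left]
  have e2i : ((s * b : GL ι F) : Matrix ι ι F) * ((t2⁻¹ : GL ι F) : Matrix ι ι F) = ((t2⁻¹ : GL ι F) : Matrix ι ι F) * ((s * b : GL ι F) : Matrix ι ι F) := by
    apply hval
    rw [mul_inv_eq_iff_eq_mul, mul_assoc, e2, inv_mul_cancel_left]
  have T : ∀ {I J : GL ι F}, I * J = -(J * I) → ∀ ε : F,
      (1 + ε • (I : Matrix ι ι F) + ε • (J : Matrix ι ι F) + ε • ((I : Matrix ι ι F) * (J : Matrix ι ι F))).trace = 4 := by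
    intro I J hIJ ε
    have := trace_quat h2 hIJ (Y := 1) (by rw [mul_one, one_mul]) (by rw [mul_one, one_mul]) ε
    rw [mul_one, Matrix.trace_one, hι] at this
    exact_mod_cast this
  have h22 : -(2 : F)⁻¹ * 4 = -2 := by field_simp; norm_num
  have pos : ∀ I J : Matrix ι ι F, 1 + I + J + I * J = 1 + (1 : F) • I + (1 : F) • J + (1 : F) • (I * J) := by
    intro I J; simp only [one_smul]
  have neg : ∀ I J : Matrix ι ι F, 1 - I - J - I * J = 1 + (-1 : F) • I + (-1 : F) • J + (-1 : F) • (I * J) := by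
    intro I J; simp only [neg_smul, one_smul, sub_eq_add_neg]
  have tr1 : (t1 : Matrix ι ι F).trace = -2 := by
    rw [v1, Matrix.trace_smul, pos, T (hsant a b hq.ab), smul_eq_mul, h22]
  have tr1i : ((t1⁻¹ : GL ι F) : Matrix ι ι F).trace = -2 := by
    rw [w1, Matrix.trace_smul, neg, T (hsant a b hq.ab), smul_eq_mul, h22]
  have tr2 : (t2 : Matrix ι ι F).trace = -2 := by
    rw [v2, Matrix.trace_smul, pos, T (hsant c d hq.cd), smul_eq_mul, h22]
  have tr2i : ((t2⁻¹ : GL ι F) : Matrix ι ι F).trace = -2 := by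
    rw [w2, Matrix.trace_smul, neg, T (hsant c d hq.cd), smul_eq_mul, h22]
  have h23 : -(2 : F)⁻¹ * -2 = 1 := by field_simp
  refine ⟨t1, t2, n1, n2, p1, p2, e3, tr1, tr1i, ?_, ?_, v1, v2, w1, w2⟩
  · rw [Units.val_mul, v1, Matrix.smul_mul, Matrix.trace_smul, pos, trace_quat h2 (hsant a b hq.ab) e1' e2', tr2, smul_eq_mul, h23]
  · rw [e3, mul_inv_rev, Units.val_mul, w1, Matrix.smul_mul, Matrix.trace_smul, neg, trace_quat h2 (hsant a b hq.ab) e1i e2i, tr2i, smul_eq_mul, h23]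

section fin
variable {n : ℕ} {F : Type*} [Field F]

lemma ker_two {x : GL (Fin n) F} (h2 : (2 : F) ≠ 0) (hx : x ^ 2 = 1) :
    (n : F) + (x : Matrix (Fin n) (Fin n) F).trace = 2 * (finrank F (LinearMap.ker (Matrix.toLin' (x : Matrix (Fin n) (Fin n) F) - 1)) : F) := by
  have h1 := sum_trace_pow (r := 2) (by exact_mod_cast h2) (Matrix.toLin' (x : Matrix (Fin n) (Fin n) F)) (by
    rw [← Matrix.toLin'_pow, ← Units.val_pow_eq_pow_val, hx, Units.val_one, Matrix.toLin'_one]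
    rfl)
  rw [Finset.sum_range_succ, Finset.sum_range_one, pow_zero, pow_one, LinearMap.trace_one, Matrix.trace_toLin'_eq, finrank_fintype_fun_eq_card, Fintype.card_fin] at h1
  exact_mod_cast h1

lemma ker_three {x : GL (Fin n) F} (h3 : (3 : F) ≠ 0) (hx : x ^ 3 = 1) :
    (n : F) + (x : Matrix (Fin n) (Fin n) F).trace + ((x⁻¹ : GL (Fin n) F) : Matrix (Fin n) (Fin n) F).trace =
      3 * (finrank F (LinearMap.ker (Matrix.toLin' (x : Matrix (Fin n) (Fin n) F) - 1)) : F) := by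
  have h1 := sum_trace_pow (r := 3) (by exact_mod_cast h3) (Matrix.toLin' (x : Matrix (Fin n) (Fin n) F)) (by
    rw [← Matrix.toLin'_pow, ← Units.val_pow_eq_pow_val, hx, Units.val_one, Matrix.toLin'_one]
    rfl)
  have hx2 : x ^ 2 = x⁻¹ := by
    rw [eq_inv_iff_mul_eq_one, ← pow_succ, hx]
  rw [Finset.sum_range_succ, Finset.sum_range_succ, Finset.sum_range_one, pow_zero, pow_one, LinearMap.trace_one, Matrix.trace_toLin'_eq, finrank_fintype_fun_eq_card, Fintype.card_fin,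
    ← Matrix.toLin'_pow, ← Units.val_pow_eq_pow_val, hx2, Matrix.trace_toLin'_eq] at h1
  exact_mod_cast h1

lemma scalar_mem_normalizer {ι : Type} [Fintype ι] [DecidableEq ι] {R : Subgroup (GL ι F)} {s : GL ι F} {c : F}
    (hs : (s : Matrix ι ι F) = c • (1 : Matrix ι ι F)) : s ∈ Cfsg.Geo.subgroupNormalizer R := by
  change s ∈ Subgroup.normalizer (R : Set (GL ι F))
  rw [Subgroup.mem_normalizer_iff]
  intro v
  rw [comm_of_val_smul hs v, mul_inv_cancel_right]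

/-- a scalar matrix -/
lemma exists_scalar_GL {ι : Type} [Fintype ι] [DecidableEq ι] {c : F} (hc : c ≠ 0) : ∃ s : GL ι F, (s : Matrix ι ι F) = c • (1 : Matrix ι ι F) ∧
    ((s⁻¹ : GL ι F) : Matrix ι ι F) = c⁻¹ • (1 : Matrix ι ι F) := by
  refine ⟨⟨c • 1, c⁻¹ • 1, ?_, ?_⟩, rfl, rfl⟩
  · rw [smul_mul_smul_comm, mul_inv_cancel₀ hc, one_smul, mul_one]
  · rw [smul_mul_smul_comm, inv_mul_cancel₀ hc, one_smul, mul_one]

end fin

end Cfsg.Agent.H99
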