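import Cfsg.Agent.H99.PauliM
import Cfsg.Agent.H99.UniEig
import Cfsg.Agent.Uni.Stab
import Cfsg.Agent.Uni.Eich

set_option autoImplicit false
set_option linter.all false

/-!
Elements of order two, three and five of four-dimensional unitary groups.
-/

namespace Cfsg.Agent.H99

open Module Matrix Uni
open scoped MatrixGroups

section adj
variable {n : ℕ} {F : Type*} [Field F] [Fintype F] {q : ℕ}

/-- adjoint pairs for the hermitian form -/
def Adj (q : ℕ) (M N : Matrix (Fin n) (Fin n) F) : Prop := ∀ u v, Cfsg.hermForm n F q (M *ᵥ u) v = Cfsg.hermForm n F q u (N *ᵥ v)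

lemma Adj.add (hF : Fintype.card F = q ^ 2) {M N M' N' : Matrix (Fin n) (Fin n) F} (h : Adj q M N) (h' : Adj q M' N') : Adj q (M + M') (N + N') := by
  intro u v
  rw [Matrix.add_mulVec, Matrix.add_mulVec, hermForm_add_left, hermForm_add_right hF, h, h']

lemma Adj.smul (hF : Fintype.card F = q ^ 2) {M N : Matrix (Fin n) (Fin n) F} (h : Adj q M N) {c : F} (hc : c ^ q = c) : Adj q (c • M) (c • N) := by
  intro u v
  rw [Matrix.smul_mulVec, Matrix.smul_mulVec, hermForm_smul_left, hermForm_smul_right, h, hc]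

lemma Adj.one : Adj q (1 : Matrix (Fin n) (Fin n) F) 1 := by
  intro u v
  rw [Matrix.one_mulVec, Matrix.one_mulVec]

lemma Adj.of_GU {g : GL (Fin n) F} (hg : g ∈ Cfsg.GU n F q) : Adj q (g : Matrix (Fin n) (Fin n) F) ((g⁻¹ : GL (Fin n) F) : Matrix (Fin n) (Fin n) F) := by
  intro u v
  have h := mem_GU.mp hg u (((g⁻¹ : GL (Fin n) F) : Matrix (Fin n) (Fin n) F) *ᵥ v)
  rw [gl_mulVec_inv] at h
  exact h

lemma Adj.neg (hF : Fintype.card F = q ^ 2) {M N : Matrix (Fin n) (Fin n) F} (h : Adj q M N) : Adj q (-M) (-N) := by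
  intro u v
  rw [Matrix.neg_mulVec, Matrix.neg_mulVec, hermForm_neg_left, hermForm_neg_right hF, h]

lemma Adj.mem_GU {g : GL (Fin n) F} (h : Adj q (g : Matrix (Fin n) (Fin n) F) ((g⁻¹ : GL (Fin n) F) : Matrix (Fin n) (Fin n) F)) : g ∈ Cfsg.GU n F q := by
  rw [Uni.mem_GU]
  intro u v
  rw [h, gl_inv_mulVec]

lemma two_pow_q (hF : Fintype.card F = q ^ 2) : (2 : F) ^ q = 2 := by
  have h : (2 : F) = 1 + 1 := by norm_num
  rw [h, add_pow_q hF, one_pow]

/-- the quaternion elements are unitary -/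
lemma quat_mem_GU (hF : Fintype.card F = q ^ 2) {I J g : GL (Fin n) F} (hI : I ∈ Cfsg.GU n F q) (hJ : J ∈ Cfsg.GU n F q) (hII : I * I = -1) (hJJ : J * J = -1)
    (hIJ : I * J = -(J * I))
    (hg : (g : Matrix (Fin n) (Fin n) F) = (-(2 : F)⁻¹) • (1 + (I : Matrix (Fin n) (Fin n) F) + (J : Matrix (Fin n) (Fin n) F) + (I : Matrix (Fin n) (Fin n) F) * (J : Matrix (Fin n) (Fin n) F)))
    (hgi : ((g⁻¹ : GL (Fin n) F) : Matrix (Fin n) (Fin n) F) = (-(2 : F)⁻¹) • (1 - (I : Matrix (Fin n) (Fin n) F) - (J : Matrix (Fin n) (Fin n) F) - (I : Matrix (Fin n) (Fin n) F) * (J : Matrix (Fin n) (Fin n) F))) :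
    g ∈ Cfsg.GU n F q := by
  apply Adj.mem_GU
  rw [hg, hgi]
  have hinv : ∀ x : GL (Fin n) F, x * x = -1 → x⁻¹ = -x := by
    intro x hx
    apply inv_eq_of_mul_eq_one_right
    rw [mul_neg, hx, neg_neg]
  have hK : (I * J) * (I * J) = -1 := by
    have h1 : J * I = -(I * J) := by rw [hIJ, neg_neg]
    rw [mul_assoc, ← mul_assoc J I J, h1, neg_mul, mul_neg, mul_assoc I J J, hJJ, mul_neg, mul_neg, neg_neg, mul_one, hII]
  have a1 := Adj.of_GU hI
  have a2 := Adj.of_GU hJ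
  have a3 := Adj.of_GU ((Cfsg.GU n F q).mul_mem hI hJ)
  rw [hinv I hII, Units.val_neg] at a1
  rw [hinv J hJJ, Units.val_neg] at a2
  rw [hinv _ hK, Units.val_neg, Units.val_mul] at a3
  have h4 := ((((Adj.one (q := q) (n := n) (F := F)).add hF a1).add hF a2).add hF a3).smul hF (c := -(2 : F)⁻¹) (by
    rw [neg_pow_q hF, inv_pow, two_pow_q hF])
  simp only [← sub_eq_add_neg] at h4
  exact h4

lemma refl_mem_GU (hF : Fintype.card F = q ^ 2) {a c t : GL (Fin n) F} (ha : a ∈ Cfsg.GU n F q) (hc : c ∈ Cfsg.GU n F q) (haa : a * a = 1) (hcc : c * c = 1)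
    (hac : a * c = c * a) (htt : t * t = 1)
    (ht : (t : Matrix (Fin n) (Fin n) F) = (2 : F)⁻¹ • (1 - (a : Matrix (Fin n) (Fin n) F) - (c : Matrix (Fin n) (Fin n) F) - (a : Matrix (Fin n) (Fin n) F) * (c : Matrix (Fin n) (Fin n) F))) :
    t ∈ Cfsg.GU n F q := by
  apply Adj.mem_GU
  rw [inv_eq_of_mul_eq_one_right htt, ht]
  have a1 := (Adj.of_GU ha).neg hF
  have a2 := (Adj.of_GU hc).neg hF
  have a3 := (Adj.of_GU ((Cfsg.GU n F q).mul_mem ha hc)).neg hF
  rw [inv_eq_of_mul_eq_one_right haa] at a1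
  rw [inv_eq_of_mul_eq_one_right hcc] at a2
  rw [_root_.mul_inv_rev, inv_eq_of_mul_eq_one_right haa, inv_eq_of_mul_eq_one_right hcc, ← hac, Units.val_mul] at a3
  have h4 := ((((Adj.one (q := q) (n := n) (F := F)).add hF a1).add hF a2).add hF a3).smul hF (c := (2 : F)⁻¹) (by
    rw [inv_pow, two_pow_q hF])
  simp only [← sub_eq_add_neg] at h4
  exact h4

end adj

section gram
variable {F : Type*} [Field F] [Fintype F] {q : ℕ}

/-- a family with permutation Gram matrix is independent -/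
lemma linInd_of_gram {σ : Equiv.Perm (Fin 4)} {v : Fin 4 → Fin 4 → F} (hv : ∀ i j, Cfsg.hermForm 4 F q (v i) (v j) = if j = σ i then 1 else 0) :
    LinearIndependent F v := by
  rw [Fintype.linearIndependent_iff]
  intro c hc i
  have h1 : Cfsg.hermForm 4 F q (∑ j, c j • v j) (v (σ i)) = 0 := by rw [hc, hermForm_zero_left]
  rw [hermForm_sum_left, Finset.sum_eq_single i] at h1
  · rw [hermForm_smul_left, hv, if_pos rfl, mul_one] at h1
    exact h1
  · intro j _ hj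
    rw [hermForm_smul_left, hv, if_neg, mul_zero]
    intro h
    exact hj (σ.injective h).symm
  · intro h
    exact absurd (Finset.mem_univ i) h

theorem conj_of_gram (hF : Fintype.card F = q ^ 2) {σ : Equiv.Perm (Fin 4)} (hσ : σ 0 = 1) (hσ' : σ 1 = 0) {c : Fin 4 → F} (hc : c 0 * c 1 ^ q = 1)
    {x y : GL (Fin 4) F} (hx : x ∈ Cfsg.GU 4 F q) (hy : y ∈ Cfsg.GU 4 F q) {v w : Fin 4 → Fin 4 → F}
    (hv : ∀ i j, Cfsg.hermForm 4 F q (v i) (v j) = if j = σ i then 1 else 0)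
    (hw : ∀ i j, Cfsg.hermForm 4 F q (w i) (w j) = if j = σ i then 1 else 0)
    (hxv : ∀ i, (x : Matrix (Fin 4) (Fin 4) F) *ᵥ v i = c i • v i) (hyw : ∀ i, (y : Matrix (Fin 4) (Fin 4) F) *ᵥ w i = c i • w i) :
    ∃ g ∈ Cfsg.GU 4 F q ⊓ Cfsg.Geo.specialLinear (Fin 4) F, g⁻¹ * x * g = y := by
  obtain ⟨g0, hg0⟩ := exists_GU_of_family hF (linInd_of_gram hw) (linInd_of_gram hv) (fun i j => by rw [hv, hw])
  have hyp : Hyp q (v 0) (v 1) := by
    refine ⟨?_, ?_, ?_⟩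
    · rw [hv, if_neg]; rw [hσ]; decide
    · rw [hv, if_neg]; rw [hσ']; decide
    · rw [hv, if_pos]; rw [hσ]
  set δ : F := ((g0 : GL (Fin 4) F) : Matrix (Fin 4) (Fin 4) F).det with hδ
  have hδn : δ ^ (q + 1) = 1 := Pres.det_norm hF g0.2
  have hδ0 : δ ≠ 0 := by
    intro h
    rw [h, zero_pow (by omega)] at hδn
    exact zero_ne_one hδn
  obtain ⟨a, ha0, ha⟩ := exists_hilbert90 hF (c := δ⁻¹) (by rw [inv_pow, hδn, inv_one])
  obtain ⟨s, hs, hsd⟩ := exists_gtorus hF hyp ha0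
  have hsd' : ((s : GL (Fin 4) F) : Matrix (Fin 4) (Fin 4) F).det = δ⁻¹ := by
    rw [detHom_coe] at hsd
    rw [hsd]
    have haq : a ^ q ≠ 0 := pow_ne_zero _ ha0
    rw [mul_inv_eq_iff_eq_mul₀ haq]
    exact ha
  have hc1 : c 1 * c 0 ^ q = 1 := by
    have h1 := congrArg (fun t => t ^ q) hc
    simp only [mul_pow, one_pow, pow_q_pow_q hF] at h1
    rw [mul_comm]; exact h1
  have hBx : ∀ z i, c i ^ q * Cfsg.hermForm 4 F q ((x : Matrix (Fin 4) (Fin 4) F) *ᵥ z) (v i) = Cfsg.hermForm 4 F q z (v i) := by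
    intro z i
    rw [← hermForm_smul_right, ← hxv]
    exact mem_GU.mp hx z (v i)
  have hB1 : ∀ z, Cfsg.hermForm 4 F q ((x : Matrix (Fin 4) (Fin 4) F) *ᵥ z) (v 1) = c 0 * Cfsg.hermForm 4 F q z (v 1) := by
    intro z
    rw [← hBx z 1, ← mul_assoc, hc, one_mul]
  have hB0 : ∀ z, Cfsg.hermForm 4 F q ((x : Matrix (Fin 4) (Fin 4) F) *ᵥ z) (v 0) = c 1 * Cfsg.hermForm 4 F q z (v 0) := by
    intro z
    rw [← hBx z 0, ← mul_assoc, hc1, one_mul]
  have hsv : ∀ z, ((s : GL (Fin 4) F) : Matrix (Fin 4) (Fin 4) F) *ᵥ z = z + ((a - 1) * Cfsg.hermForm 4 F q z (v 1)) • v 0 +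
      (((a ^ q)⁻¹ - 1) * Cfsg.hermForm 4 F q z (v 0)) • v 1 := fun z => hs z
  have hsx : (s : GL (Fin 4) F) * x = x * s := by
    apply Units.ext
    apply ext_single
    intro i
    rw [Units.val_mul, Units.val_mul, ← Matrix.mulVec_mulVec, ← Matrix.mulVec_mulVec]
    generalize (Pi.single i 1 : Fin 4 → F) = z
    rw [hsv, hsv, hB1, hB0, Matrix.mulVec_add, Matrix.mulVec_add, Matrix.mulVec_smul, Matrix.mulVec_smul, hxv, hxv, smul_smul, smul_smul]
    congr 2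
    · congr 1; ring
    · ring
  have hxg : x * (g0 : GL (Fin 4) F) = (g0 : GL (Fin 4) F) * y := by
    have hb : ∀ z : Fin 4 → F, ((x * (g0 : GL (Fin 4) F) : GL (Fin 4) F) : Matrix (Fin 4) (Fin 4) F) *ᵥ z =
        (((g0 : GL (Fin 4) F) * y : GL (Fin 4) F) : Matrix (Fin 4) (Fin 4) F) *ᵥ z := by
      have hli := linInd_of_gram hw
      let b := basisOfLinearIndependentOfCardEqFinrank hli (by simp)
      have hbw : ∀ i, b i = w i := fun i => by simp [b]
      have h1 : Matrix.toLin' ((x * (g0 : GL (Fin 4) F) : GL (Fin 4) F) : Matrix (Fin 4) (Fin 4) F) =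
          Matrix.toLin' (((g0 : GL (Fin 4) F) * y : GL (Fin 4) F) : Matrix (Fin 4) (Fin 4) F) := by
        apply b.ext
        intro i
        rw [hbw, Matrix.toLin'_apply, Matrix.toLin'_apply, Units.val_mul, Units.val_mul, ← Matrix.mulVec_mulVec, ← Matrix.mulVec_mulVec,
          hg0, hxv, hyw, Matrix.mulVec_smul, hg0]
      intro z
      rw [← Matrix.toLin'_apply, h1, Matrix.toLin'_apply]
    apply Units.ext
    apply ext_single
    intro i
    exact hb _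
  refine ⟨s * g0, ⟨Subgroup.mul_mem _ s.2 g0.2, ?_⟩, ?_⟩
  · apply mem_SL.mpr
    rw [Units.val_mul, Matrix.det_mul, hsd', ← hδ, inv_mul_cancel₀ hδ0]
  · rw [mul_assoc, inv_mul_eq_iff_eq_mul, ← mul_assoc, ← hsx, mul_assoc, mul_assoc, hxg]

end gram

section three
variable {F : Type*} [Field F] [Fintype F] {q : ℕ} {x : GL (Fin 4) F} {ω : F}

lemma eig_orth (hx : x ∈ Cfsg.GU 4 F q) {l m : F} {a b : Fin 4 → F} (ha : (x : Matrix (Fin 4) (Fin 4) F) *ᵥ a = l • a)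
    (hb : (x : Matrix (Fin 4) (Fin 4) F) *ᵥ b = m • b) (hlm : l * m ^ q ≠ 1) : Cfsg.hermForm 4 F q a b = 0 := by
  have h := mem_GU.mp hx a b
  rw [ha, hb, hermForm_smul_left, hermForm_smul_right, ← mul_assoc] at h
  by_contra h0
  apply hlm
  apply mul_right_cancel₀ h0
  rw [one_mul]; exact h

/-- the partner of an eigenvector -/
lemma exists_partner (hF : Fintype.card F = q ^ 2) (h3 : (3 : F) ≠ 0) (hx : x ∈ Cfsg.GU 4 F q) (hx3 : x ^ 3 = 1) (hω : ω ^ 2 + ω + 1 = 0) (hωq : ω ^ q = ω)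
    {W : Submodule F (Fin 4 → F)} (hW : ∀ v ∈ W, (x : Matrix (Fin 4) (Fin 4) F) *ᵥ v ∈ W) (hN : Uni.ND q W) {e : Fin 4 → F} (he : e ∈ W) (he0 : e ≠ 0)
    (hxe : (x : Matrix (Fin 4) (Fin 4) F) *ᵥ e = ω • e) : ∃ f ∈ W, (x : Matrix (Fin 4) (Fin 4) F) *ᵥ f = ω ^ 2 • f ∧ Hyp q e f := by
  have hω3 : ω ^ 3 = 1 := by linear_combination (ω - 1) * hω
  have hω1 : ω ≠ 1 := by
    rintro rfl
    apply h3; linear_combination hω
  have hω2 : ω ^ 2 ≠ 1 := by
    intro h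
    apply hω1
    calc ω = ω ^ 3 := by rw [pow_succ, h, one_mul]
      _ = 1 := hω3
  obtain ⟨v, hv, hev⟩ : ∃ v ∈ W, Cfsg.hermForm 4 F q e v ≠ 0 := by
    by_contra hcon
    push Not at hcon
    exact he0 (hN e he hcon)
  set f : (Fin 4 → F) → (Fin 4 → F) := fun v => (x : Matrix (Fin 4) (Fin 4) F) *ᵥ v with hf
  have hfff : ∀ v, f (f (f v)) = v := by
    intro v
    simp only [hf]
    rw [Matrix.mulVec_mulVec, Matrix.mulVec_mulVec, ← Units.val_mul, ← Units.val_mul]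
    have : x * x * x = 1 := by rw [← hx3, pow_succ, pow_two]
    rw [this, Units.val_one, Matrix.one_mulVec]
  have hfa : ∀ u v, f (u + v) = f u + f v := fun u v => Matrix.mulVec_add _ _ _
  have hfs : ∀ (c : F) v, f (c • v) = c • f v := fun c v => Matrix.mulVec_smul _ _ _
  have hfx : ∀ v, (x : Matrix (Fin 4) (Fin 4) F) *ᵥ v = f v := fun v => rfl
  set p0 := v + f v + f (f v) with hp0
  set p1 := v + ω ^ 2 • f v + ω • f (f v) with hp1
  set p2 := v + ω • f v + ω ^ 2 • f (f v) with hp2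
  have e0 : f p0 = (1 : F) • p0 := by rw [hp0, hfa, hfa, hfff, one_smul]; abel
  have e1 : f p1 = ω • p1 := by
    rw [hp1, hfa, hfa, hfs, hfs, hfff, smul_add, smul_add, smul_smul, smul_smul, ← pow_succ', hω3, one_smul, ← pow_two]
    abel
  have e2 : f p2 = ω ^ 2 • p2 := by
    rw [hp2, hfa, hfa, hfs, hfs, hfff, smul_add, smul_add, smul_smul, smul_smul, ← pow_succ, hω3, one_smul]
    have : ω ^ 2 * ω ^ 2 = ω := by
      calc ω ^ 2 * ω ^ 2 = ω ^ 3 * ω := by ring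
        _ = ω := by rw [hω3, one_mul]
    rw [this]
    abel
  have hsum : (3 : F) • v = p0 + p1 + p2 := by
    have : p0 + p1 + p2 = (3 : F) • v + (ω ^ 2 + ω + 1) • f v + (ω ^ 2 + ω + 1) • f (f v) := by
      have h30 : (3 : F) = 1 + 1 + 1 := by norm_num
      rw [hp0, hp1, hp2, h30]
      simp only [add_smul, one_smul]
      abel
    rw [this, hω, zero_smul, zero_smul, add_zero, add_zero]
  have hxe' : (x : Matrix (Fin 4) (Fin 4) F) *ᵥ e = ω • e := hxe
  have z0 : Cfsg.hermForm 4 F q e p0 = 0 := eig_orth hx hxe' e0 (by rw [one_pow, mul_one]; exact hω1)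
  have z1 : Cfsg.hermForm 4 F q e p1 = 0 := eig_orth hx hxe' e1 (by rw [hωq, ← pow_two]; exact hω2)
  have hβ : Cfsg.hermForm 4 F q e p2 ≠ 0 := by
    have h4 : Cfsg.hermForm 4 F q e ((3 : F) • v) = Cfsg.hermForm 4 F q e p2 := by
      rw [hsum, hermForm_add_right hF, hermForm_add_right hF, z0, z1, zero_add, zero_add]
    rw [hermForm_smul_right] at h4
    rw [← h4]
    exact mul_ne_zero (pow_ne_zero _ h3) hev
  set β := Cfsg.hermForm 4 F q e p2 with hβdef
  have hp2W : p2 ∈ W := by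
    rw [hp2]
    exact W.add_mem (W.add_mem hv (W.smul_mem _ (hW v hv))) (W.smul_mem _ (hW _ (hW v hv)))
  refine ⟨(β⁻¹) ^ q • p2, W.smul_mem _ hp2W, ?_, ?_, ?_, ?_⟩
  · rw [hfx, hfs, e2, smul_comm]
  · exact eig_orth hx hxe' hxe' (by rw [hωq, ← pow_two]; exact hω2)
  · rw [hermForm_smul_left, hermForm_smul_right, eig_orth hx e2 e2, mul_zero, mul_zero]
    rw [← pow_mul, mul_comm 2 q, pow_mul, hωq, ← pow_add]
    have : ω ^ (2 + 2) = ω := by
      calc ω ^ (2 + 2) = ω ^ 3 * ω := by ring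
        _ = ω := by rw [hω3, one_mul]
    rw [this]; exact hω1
  · rw [hermForm_smul_right, pow_q_pow_q hF, ← hβdef, inv_mul_cancel₀ hβ]

lemma exists_pair_three (hF : Fintype.card F = q ^ 2) (h3 : (3 : F) ≠ 0) (hx : x ∈ Cfsg.GU 4 F q) (hx3 : x ^ 3 = 1) (hω : ω ^ 2 + ω + 1 = 0) (hωq : ω ^ q = ω)
    {W : Submodule F (Fin 4 → F)} (hW : ∀ v ∈ W, (x : Matrix (Fin 4) (Fin 4) F) *ᵥ v ∈ W) (hN : Uni.ND q W) (hne : ∃ w ∈ W, (x : Matrix (Fin 4) (Fin 4) F) *ᵥ w ≠ w) :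
    ∃ e ∈ W, ∃ f ∈ W, (x : Matrix (Fin 4) (Fin 4) F) *ᵥ e = ω • e ∧ (x : Matrix (Fin 4) (Fin 4) F) *ᵥ f = ω ^ 2 • f ∧ Hyp q e f := by
  have hω3 : ω ^ 3 = 1 := by linear_combination (ω - 1) * hω
  obtain ⟨v, hv, hvv⟩ := hne
  set f : (Fin 4 → F) → (Fin 4 → F) := fun v => (x : Matrix (Fin 4) (Fin 4) F) *ᵥ v with hf
  have hfff : ∀ v, f (f (f v)) = v := by
    intro v
    simp only [hf]
    rw [Matrix.mulVec_mulVec, Matrix.mulVec_mulVec, ← Units.val_mul, ← Units.val_mul]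
    have : x * x * x = 1 := by rw [← hx3, pow_succ, pow_two]
    rw [this, Units.val_one, Matrix.one_mulVec]
  have hfa : ∀ u v, f (u + v) = f u + f v := fun u v => Matrix.mulVec_add _ _ _
  have hfs : ∀ (c : F) v, f (c • v) = c • f v := fun c v => Matrix.mulVec_smul _ _ _
  have hfx : ∀ v, (x : Matrix (Fin 4) (Fin 4) F) *ᵥ v = f v := fun v => rfl
  set p0 := v + f v + f (f v) with hp0
  set p1 := v + ω ^ 2 • f v + ω • f (f v) with hp1
  set p2 := v + ω • f v + ω ^ 2 • f (f v) with hp2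
  have e0 : f p0 = p0 := by rw [hp0, hfa, hfa, hfff]; abel
  have e1 : f p1 = ω • p1 := by
    rw [hp1, hfa, hfa, hfs, hfs, hfff, smul_add, smul_add, smul_smul, smul_smul, ← pow_succ', hω3, one_smul, ← pow_two]
    abel
  have e2 : f p2 = ω ^ 2 • p2 := by
    rw [hp2, hfa, hfa, hfs, hfs, hfff, smul_add, smul_add, smul_smul, smul_smul, ← pow_succ, hω3, one_smul]
    have : ω ^ 2 * ω ^ 2 = ω := by
      calc ω ^ 2 * ω ^ 2 = ω ^ 3 * ω := by ring
        _ = ω := by rw [hω3, one_mul]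
    rw [this]
    abel
  have hsum : (3 : F) • v = p0 + p1 + p2 := by
    have : p0 + p1 + p2 = (3 : F) • v + (ω ^ 2 + ω + 1) • f v + (ω ^ 2 + ω + 1) • f (f v) := by
      have h30 : (3 : F) = 1 + 1 + 1 := by norm_num
      rw [hp0, hp1, hp2, h30]
      simp only [add_smul, one_smul]
      abel
    rw [this, hω, zero_smul, zero_smul, add_zero, add_zero]
  have w1 : p1 ∈ W := by
    rw [hp1]
    exact W.add_mem (W.add_mem hv (W.smul_mem _ (hW v hv))) (W.smul_mem _ (hW _ (hW v hv)))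
  have w2 : p2 ∈ W := by
    rw [hp2]
    exact W.add_mem (W.add_mem hv (W.smul_mem _ (hW v hv))) (W.smul_mem _ (hW _ (hW v hv)))
  by_cases h1 : p1 = 0
  · by_cases h2 : p2 = 0
    · exfalso
      apply hvv
      rw [h1, h2, add_zero, add_zero] at hsum
      have h4 : f ((3 : F) • v) = (3 : F) • v := by rw [hsum, e0]
      rw [hfs] at h4
      have h5 := congrArg (fun z => (3 : F)⁻¹ • z) h4
      simpa [smul_smul, inv_mul_cancel₀ h3] using h5
    · have hω' : (ω ^ 2) ^ 2 + ω ^ 2 + 1 = 0 := by linear_combination (ω ^ 2 - ω + 1) * hω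
      obtain ⟨e, he, hxe, hyp⟩ := exists_partner hF h3 hx hx3 hω' (by rw [← pow_mul, mul_comm, pow_mul, hωq]) hW hN w2 h2 e2
      refine ⟨e, he, p2, w2, ?_, e2, hyp.symm hF⟩
      rw [hxe]
      congr 1
      calc (ω ^ 2) ^ 2 = ω ^ 3 * ω := by ring
        _ = ω := by rw [hω3, one_mul]
  · obtain ⟨e, he, hxe, hyp⟩ := exists_partner hF h3 hx hx3 hω hωq hW hN w1 h1 e1
    exact ⟨p1, w1, e, he, e1, hxe, hyp⟩

/-- the two types of elements of order three -/
theorem types_three (hF : Fintype.card F = q ^ 2) (h3 : (3 : F) ≠ 0) (hx : x ∈ Cfsg.GU 4 F q) (hx3 : x ^ 3 = 1) (hx1 : x ≠ 1) (hω : ω ^ 2 + ω + 1 = 0) (hωq : ω ^ q = ω) :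
    (∃ v : Fin 4 → Fin 4 → F, (∀ i j, Cfsg.hermForm 4 F q (v i) (v j) = if j = Equiv.swap 0 1 i then 1 else 0) ∧
      ∀ i, (x : Matrix (Fin 4) (Fin 4) F) *ᵥ v i = (![ω, ω ^ 2, 1, 1] : Fin 4 → F) i • v i) ∨
    (∃ v : Fin 4 → Fin 4 → F, (∀ i j, Cfsg.hermForm 4 F q (v i) (v j) = if j = (Equiv.swap (0 : Fin 4) 1 * Equiv.swap 2 3 : Equiv.Perm (Fin 4)) i then 1 else 0) ∧
      ∀ i, (x : Matrix (Fin 4) (Fin 4) F) *ᵥ v i = (![ω, ω ^ 2, ω, ω ^ 2] : Fin 4 → F) i • v i) := by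
  obtain ⟨e, -, f, -, he, hf, hyp⟩ := exists_pair_three hF h3 hx hx3 hω hωq (W := ⊤) (fun _ _ => Submodule.mem_top) (nd_top hF) (by
    by_contra hcon
    push Not at hcon
    apply hx1
    apply Units.ext
    apply ext_single
    intro i
    rw [hcon _ Submodule.mem_top, Units.val_one, Matrix.one_mulVec])
  set P := Submodule.span F {e, f} with hP
  have hPN := hyp.nd hF
  have hPinv : ∀ v ∈ P, (x : Matrix (Fin 4) (Fin 4) F) *ᵥ v ∈ P := by
    intro v hv
    obtain ⟨a, b, rfl⟩ := Submodule.mem_span_pair.mp hv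
    rw [Matrix.mulVec_add, Matrix.mulVec_smul, Matrix.mulVec_smul, he, hf]
    exact P.add_mem (P.smul_mem _ (P.smul_mem _ (Submodule.subset_span (by simp)))) (P.smul_mem _ (P.smul_mem _ (Submodule.subset_span (by simp))))
  have hω0 : ω ≠ 0 := by
    rintro rfl
    norm_num at hω
  have hWinv : ∀ v ∈ Uni.perp q P, (x : Matrix (Fin 4) (Fin 4) F) *ᵥ v ∈ Uni.perp q P := by
    intro v hv
    rw [hP, Hyp.mem_perp_iff hF] at hv ⊢
    have k1 := mem_GU.mp hx v e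
    have k2 := mem_GU.mp hx v f
    rw [he, hermForm_smul_right, hv.1] at k1
    rw [hf, hermForm_smul_right, hv.2] at k2
    exact ⟨(mul_eq_zero.mp k1).resolve_left (pow_ne_zero _ hω0), (mul_eq_zero.mp k2).resolve_left (pow_ne_zero _ (pow_ne_zero _ hω0))⟩
  have hWN := hPN.perp hF
  have hWf := hyp.finrank_perp hF
  have hcross : ∀ w ∈ Uni.perp q P, Cfsg.hermForm 4 F q w e = 0 ∧ Cfsg.hermForm 4 F q w f = 0 ∧ Cfsg.hermForm 4 F q e w = 0 ∧ Cfsg.hermForm 4 F q f w = 0 := by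
    intro w hw
    rw [hP, Hyp.mem_perp_iff hF] at hw
    exact ⟨hw.1, hw.2, (hermForm_eq_zero_comm hF).1 hw.1, (hermForm_eq_zero_comm hF).1 hw.2⟩
  by_cases hall : ∀ w ∈ Uni.perp q P, (x : Matrix (Fin 4) (Fin 4) F) *ᵥ w = w
  · left
    obtain ⟨z1, hz1, hz11⟩ := hWN.exists_unit hF (by
      intro h
      rw [h, finrank_bot] at hWf
      norm_num at hWf)
    obtain ⟨u, hu⟩ := ND.exists_ON hF 2 hWN (by rw [hWf])
    have hus : ∀ i, u i ∈ Uni.perp q P := fun i => hu.2.1 i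
    have huO : Uni.IsON q u := hu.1
    refine ⟨![e, f, u 0, u 1], ?_, ?_⟩
    · have c0 := hcross _ (hus 0)
      have c1 := hcross _ (hus 1)
      have o00 : Cfsg.hermForm 4 F q (u 0) (u 0) = 1 := by simpa using huO 0 0
      have o01 : Cfsg.hermForm 4 F q (u 0) (u 1) = 0 := by simpa using huO 0 1
      have o10 : Cfsg.hermForm 4 F q (u 1) (u 0) = 0 := by simpa using huO 1 0
      have o11 : Cfsg.hermForm 4 F q (u 1) (u 1) = 1 := by simpa using huO 1 1
      have hfe := (hyp.symm hF).2.2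
      have s0 : (Equiv.swap (0 : Fin 4) 1) 0 = 1 := by decide
      have s1 : (Equiv.swap (0 : Fin 4) 1) 1 = 0 := by decide
      have s2 : (Equiv.swap (0 : Fin 4) 1) 2 = 2 := by decide
      have s3 : (Equiv.swap (0 : Fin 4) 1) 3 = 3 := by decide
      intro i j
      fin_cases i <;> fin_cases j <;>
        simp [hyp.1, hyp.2.1, hyp.2.2, hfe, c0, c1, o00, o01, o10, o11, s0, s1, s2, s3]
    · intro i
      fin_cases i
      · exact he
      · exact hf
      · simpa using hall _ (hus 0)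
      · simpa using hall _ (hus 1)
  · right
    push Not at hall
    obtain ⟨e', he'W, f', hf'W, he', hf', hyp'⟩ := exists_pair_three hF h3 hx hx3 hω hωq hWinv hWN hall
    refine ⟨![e, f, e', f'], ?_, ?_⟩
    · have c0 := hcross _ he'W
      have c1 := hcross _ hf'W
      have hfe := (hyp.symm hF).2.2
      have hfe' := (hyp'.symm hF).2.2
      have s0 : (Equiv.swap (0 : Fin 4) 1 * Equiv.swap 2 3 : Equiv.Perm (Fin 4)) 0 = 1 := by decide
      have s1 : (Equiv.swap (0 : Fin 4) 1 * Equiv.swap 2 3 : Equiv.Perm (Fin 4)) 1 = 0 := by decide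
      have s2 : (Equiv.swap (0 : Fin 4) 1 * Equiv.swap 2 3 : Equiv.Perm (Fin 4)) 2 = 3 := by decide
      have s3 : (Equiv.swap (0 : Fin 4) 1 * Equiv.swap 2 3 : Equiv.Perm (Fin 4)) 3 = 2 := by decide
      intro i j
      fin_cases i <;> fin_cases j <;>
        simp only [Fin.zero_eta, Fin.mk_one, Fin.reduceFinMk, s0, s1, s2, s3, Matrix.cons_val_zero, Matrix.cons_val_one, Matrix.cons_val,
          hyp.1, hyp.2.1, hyp.2.2, hfe, hyp'.1, hyp'.2.1, hyp'.2.2, hfe', c0.1, c0.2.1, c0.2.2.1, c0.2.2.2, c1.1, c1.2.1, c1.2.2.1, c1.2.2.2] <;> simp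
    · intro i
      fin_cases i
      · exact he
      · exact hf
      · exact he'
      · exact hf'

end three

end Cfsg.Agent.H99
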