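import Cfsg.Agent.H99.PauliN
import Cfsg.Agent.H99.SympElt

set_option autoImplicit false
set_option linter.all false

/-!
Involutions, elements of order five and transvections in four-dimensional unitary groups.
-/

namespace Cfsg.Agent.H99

open Module Matrix Uni
open scoped MatrixGroups

section invol
variable {F : Type*} [Field F] [Fintype F] {q : ℕ} {y y' : GL (Fin 4) F} {N : ℕ}

/-- unitary involutions with `N` eigenvalues one -/
def InvN (q : ℕ) (y : GL (Fin 4) F) (N : ℕ) : Prop := ∃ g ∈ Cfsg.GU 4 F q, ∃ e : Fin 4 → F,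
  (y : Matrix (Fin 4) (Fin 4) F) * (g : Matrix (Fin 4) (Fin 4) F) = (g : Matrix (Fin 4) (Fin 4) F) * Matrix.diagonal e ∧ (∀ i, e i = 1 ∨ e i = -1) ∧
  Nat.card {i // e i = 1} = N

lemma exists_InvN (hF : Fintype.card F = q ^ 2) (hq : Odd q) {p : ℕ} [Fact p.Prime] [CharP F p] (hp2 : 2 ≠ p) (hy : y ∈ Cfsg.GU 4 F q) (hyy : y * y = 1) :
    ∃ N, InvN q y N := by
  have : Fact (Nat.Prime 2) := ⟨Nat.prime_two⟩
  obtain ⟨g, c, hg, hgc, hc⟩ := exists_GU_diag (r := 2) hF hp2 (by obtain ⟨k, rfl⟩ := hq; exact ⟨k + 1, by ring⟩)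
    (M := (y : Matrix (Fin 4) (Fin 4) F)) (mem_GU.mp hy) (by rw [pow_two, ← Units.val_mul, hyy]; rfl)
  refine ⟨_, g, hg, c, hgc, ?_, rfl⟩
  intro i
  exact mul_self_eq_one_iff.mp (by rw [← pow_two]; exact hc i)

lemma InvN.le (h : InvN q y N) : N ≤ 4 := by
  obtain ⟨g, hg, e, h1, h2, rfl⟩ := h
  have := Finite.card_subtype_le (fun i : Fin 4 => e i = 1)
  simpa using this

lemma InvN.trace (h : InvN q y N) : (y : Matrix (Fin 4) (Fin 4) F).trace = 2 * N - 4 := by
  classical
  obtain ⟨g, hg, e, h1, h2, rfl⟩ := h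
  have h3 : ((g⁻¹ * y * g : GL (Fin 4) F) : Matrix (Fin 4) (Fin 4) F) = Matrix.diagonal e := by
    rw [mul_assoc, Units.val_mul, Units.val_mul, h1, ← mul_assoc, ← Units.val_mul, inv_mul_cancel, Units.val_one, one_mul]
  rw [← GL_conj_trace y g, h3, Matrix.trace_diagonal]
  have h4 : ∀ i, e i = 2 * (if e i = 1 then 1 else 0) - 1 := by
    intro i
    split_ifs with h
    · rw [h]; ring
    · rw [(h2 i).resolve_left h]; ring
  rw [Finset.sum_congr rfl (fun i _ => h4 i), Finset.sum_sub_distrib, ← Finset.mul_sum, Finset.sum_boole, Finset.sum_const, Finset.card_univ, Fintype.card_fin,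
    Nat.card_eq_fintype_card, Fintype.card_subtype]
  simp

lemma InvN.eq_one (h : InvN q y 4) : y = 1 := by
  classical
  obtain ⟨g, hg, e, h1, h2, h3⟩ := h
  have h4 : ∀ i, e i = 1 := by
    rw [Nat.card_eq_fintype_card, Fintype.card_subtype] at h3
    have h5 : Finset.univ.filter (fun i => e i = 1) = Finset.univ := by
      apply Finset.eq_univ_of_card
      rw [h3]; rfl
    intro i
    have := Finset.mem_univ i
    rw [← h5] at this
    exact (Finset.mem_filter.mp this).2
  have h5 : Matrix.diagonal e = 1 := by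
    rw [← Matrix.diagonal_one]; congr 1; funext i; exact h4 i
  rw [h5, mul_one] at h1
  have h6 : y * g = g := Units.ext h1
  exact mul_eq_right.mp h6

lemma InvN.neg (h2 : (2 : F) ≠ 0) (h : InvN q y N) : InvN q (-y) (4 - N) := by
  classical
  obtain ⟨g, hg, e, h1, h3, rfl⟩ := h
  refine ⟨g, hg, fun i => -e i, ?_, ?_, ?_⟩
  · rw [Units.val_neg, neg_mul, h1, ← Matrix.mul_neg]
    congr 1
    ext i j
    by_cases hij : i = j
    · subst hij; simp
    · simp [hij]
  · intro i
    rcases h3 i with h | h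
    · right; simp only [h]
    · left; simp only [h, neg_neg]
  · rw [Nat.card_eq_fintype_card, Fintype.card_subtype, Nat.card_eq_fintype_card, Fintype.card_subtype]
    have h4 := Finset.card_filter_add_card_filter_not (s := (Finset.univ : Finset (Fin 4))) (fun i => e i = 1)
    have h5 : Finset.univ.filter (fun i => -e i = 1) = Finset.univ.filter (fun i => ¬ e i = 1) := by
      ext i
      simp only [Finset.mem_filter, Finset.mem_univ, true_and]
      constructor
      · intro h h'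
        rw [h'] at h
        apply h2
        linear_combination -h
      · intro h
        rw [(h3 i).resolve_left h, neg_neg]
    rw [h5]
    rw [Finset.card_univ, Fintype.card_fin] at h4
    omega

lemma InvN.eq_neg_one (h2 : (2 : F) ≠ 0) (h : InvN q y 0) : y = -1 := by
  have h3 := (h.neg h2).eq_one
  rw [← h3, neg_neg]

lemma InvN.conj (hF : Fintype.card F = q ^ 2) (h2 : (2 : F) ≠ 0) (h : InvN q y N) (h' : InvN q y' N) :
    ∃ g ∈ Cfsg.GU 4 F q ⊓ Cfsg.Geo.specialLinear (Fin 4) F, g⁻¹ * y * g = y' := by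
  classical
  obtain ⟨g, hg, e, h1, h3, h4⟩ := h
  obtain ⟨g', hg', e', h1', h3', h4'⟩ := h'
  have hcd : ∀ z, Nat.card {j // e j = z} = Nat.card {j // e' j = z} := by
    intro z
    have hn : ∀ e : Fin 4 → F, (∀ i, e i = 1 ∨ e i = -1) → Nat.card {i // e i = 1} = N → Nat.card {i // e i = -1} = 4 - N := by
      intro e he hN
      rw [Nat.card_eq_fintype_card, Fintype.card_subtype] at hN ⊢
      have h5 : Finset.univ.filter (fun i => e i = -1) = Finset.univ.filter (fun i => ¬ e i = 1) := by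
        ext i
        simp only [Finset.mem_filter, Finset.mem_univ, true_and]
        constructor
        · intro h h'
          rw [h'] at h
          apply h2
          linear_combination h
        · intro h
          exact (he i).resolve_left h
      have h4 := Finset.card_filter_add_card_filter_not (s := (Finset.univ : Finset (Fin 4))) (fun i => e i = 1)
      rw [Finset.card_univ, Fintype.card_fin] at h4
      rw [h5]
      omega
    by_cases hz : z = 1
    · rw [hz, h4, h4']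
    by_cases hz' : z = -1
    · rw [hz', hn e h3 h4, hn e' h3' h4']
    · have e1 : IsEmpty {j // e j = z} := ⟨fun j => by
        rcases h3 j.1 with h | h
        · exact hz (j.2.symm.trans h)
        · exact hz' (j.2.symm.trans h)⟩
      have e2 : IsEmpty {j // e' j = z} := ⟨fun j => by
        rcases h3' j.1 with h | h
        · exact hz (j.2.symm.trans h)
        · exact hz' (j.2.symm.trans h)⟩
      rw [Nat.card_of_isEmpty, Nat.card_of_isEmpty]
  obtain ⟨u, hu, hud, huv⟩ := conj_SU hF (by norm_num) hg hg' h1 h1' hcd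
  refine ⟨u, ⟨hu, mem_SL.mpr hud⟩, ?_⟩
  rw [mul_assoc, inv_mul_eq_iff_eq_mul]
  exact Units.ext huv

end invol

section five
variable {F : Type*} [Field F] [Fintype F] {q : ℕ}

theorem exists_five_SU (hF : Fintype.card F = q ^ 2) (h2 : (2 : F) ≠ 0) (h5 : (5 : F) ≠ 0) {τ : F} (hτ : τ ^ 2 + τ = 1) (hτq : τ ^ q = τ) :
    ∃ M : Matrix (Fin 2) (Fin 2) F, M.det = 1 ∧ M ^ 5 = 1 ∧ M ≠ 1 ∧ ∃ x ∈ Cfsg.GU 4 F q ⊓ Cfsg.Geo.specialLinear (Fin 4) F,
      (x : Matrix (Fin 4) (Fin 4) F) = psiM M ∧ ((x⁻¹ : GL (Fin 4) F) : Matrix (Fin 4) (Fin 4) F) = psiM M.adjugate := by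
  set a : F := τ * (2 : F)⁻¹ with ha
  have haq : a ^ q = a := by rw [ha, mul_pow, inv_pow, two_pow_q hF, hτq]
  obtain ⟨b, hb⟩ := exists_norm_eq hF (c := 1 - a * a) (by rw [sub_pow_q hF, mul_pow, haq, one_pow])
  have hbb : b * b ^ q = 1 - a * a := by rw [← hb, pow_succ']
  set M : Matrix (Fin 2) (Fin 2) F := !![a, b; -(b ^ q), a] with hM
  have hd : M.det = 1 := by
    rw [hM, Matrix.det_fin_two_of]
    linear_combination hbb
  have htr : M.trace = τ := by
    rw [hM, Matrix.trace_fin_two_of, ha]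
    field_simp
    ring
  have hM5 : M ^ 5 = 1 := by
    have h1 := sq_eq_trace hd
    rw [htr] at h1
    have e2 : M ^ 2 = τ • M - (1 : F) • (1 : Matrix (Fin 2) (Fin 2) F) := by rw [pow_two, h1, one_smul]
    have step : ∀ a b : F, (a • M - b • (1 : Matrix (Fin 2) (Fin 2) F)) * M = (a * τ - b) • M - a • (1 : Matrix (Fin 2) (Fin 2) F) := by
      intro a b
      rw [sub_mul, Matrix.smul_mul, h1, Matrix.smul_mul, one_mul, smul_sub, smul_smul, sub_smul]
      abel
    rw [pow_succ, pow_succ, pow_succ, e2, step, step, step]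
    have e3 : ((τ * τ - 1) * τ - τ) * τ - (τ * τ - 1) = 0 := by linear_combination (τ ^ 2 - τ - 1) * hτ
    have e4 : (τ * τ - 1) * τ - τ = -1 := by linear_combination (τ - 1) * hτ
    rw [e3, e4, zero_smul, zero_sub, neg_smul, neg_neg, one_smul]
  have hM1 : M ≠ 1 := by
    intro h
    rw [h, Matrix.trace_one, Fintype.card_fin] at htr
    apply h5
    rw [← htr] at hτ
    push_cast at hτ
    linear_combination hτ
  clear_value a
  obtain ⟨x, hxS, hx, hxi⟩ := exists_psiGL hd
  refine ⟨M, hd, hM5, hM1, x, ⟨?_, hxS⟩, hx, hxi⟩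
  apply mem_GU.mpr
  intro u v
  have hval : ∀ w : Fin 4 → F, psiM M *ᵥ w = ![a * w 0 + b * w 1, -(b ^ q) * w 0 + a * w 1, w 2, w 3] := by
    intro w
    ext i
    have h3 : ∀ i j, psiM M i j = Matrix.fromBlocks M 0 0 (1 : Matrix (Fin 2) (Fin 2) F) (finSumFinEquiv.symm i) (finSumFinEquiv.symm j) := fun i j => rfl
    have s0 : (finSumFinEquiv.symm (0 : Fin 4) : Fin 2 ⊕ Fin 2) = Sum.inl 0 := by decide
    have s1 : (finSumFinEquiv.symm (1 : Fin 4) : Fin 2 ⊕ Fin 2) = Sum.inl 1 := by decide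
    have s2 : (finSumFinEquiv.symm (2 : Fin 4) : Fin 2 ⊕ Fin 2) = Sum.inr 0 := by decide
    have s3 : (finSumFinEquiv.symm (3 : Fin 4) : Fin 2 ⊕ Fin 2) = Sum.inr 1 := by decide
    have m00 : M 0 0 = a := by rw [hM]; rfl
    have m01 : M 0 1 = b := by rw [hM]; rfl
    have m10 : M 1 0 = -(b ^ q) := by rw [hM]; rfl
    have m11 : M 1 1 = a := by rw [hM]; rfl
    rw [Matrix.mulVec, dotProduct, Fin.sum_univ_four]
    fin_cases i <;> simp [h3, s0, s1, s2, s3, m00, m01, m10, m11]
  rw [hx, hval, hval, hermForm_def, hermForm_def, Fin.sum_univ_four, Fin.sum_univ_four]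
  simp only [Matrix.cons_val_zero, Matrix.cons_val_one, Matrix.cons_val]
  rw [add_pow_q hF, add_pow_q hF, mul_pow, mul_pow, mul_pow, mul_pow, neg_pow_q hF, pow_q_pow_q hF, haq]
  linear_combination (u 0 * v 0 ^ q + u 1 * v 1 ^ q) * hbb

/-- unitary transvections -/
theorem exists_transv_SU (hF : Fintype.card F = q ^ 2) {p : ℕ} [Fact p.Prime] [CharP F p] : ∃ x ∈ Cfsg.GU 4 F q ⊓ Cfsg.Geo.specialLinear (Fin 4) F, x ^ p = 1 ∧ x ≠ 1 ∧
    finrank F (LinearMap.ker (Matrix.toLin' (x : Matrix (Fin 4) (Fin 4) F) - 1)) = 3 := by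
  obtain ⟨u, hu0, huu⟩ : ∃ u : Fin 4 → F, u ≠ 0 ∧ Cfsg.hermForm 4 F q u u = 0 := by
    obtain ⟨a, ha⟩ := exists_norm_neg_one (q := q) hF
    refine ⟨![1, a, 0, 0], ?_, ?_⟩
    · intro h
      have := congrFun h 0
      simp at this
    · rw [hermForm_def, Fin.sum_univ_four]
      simp only [Matrix.cons_val_zero, Matrix.cons_val_one, Matrix.cons_val, one_pow, mul_one]
      rw [← pow_succ', ha]
      simp
  obtain ⟨a, ha0, haq⟩ := exists_skew (q := q) hF
  obtain ⟨g, -, hg⟩ := exists_transv hF huu haq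
  set x : GL (Fin 4) F := Matrix.SpecialLinearGroup.toGL (g : Matrix.SpecialLinearGroup (Fin 4) F) with hx
  have hxv : ∀ z, (x : Matrix (Fin 4) (Fin 4) F) *ᵥ z = z + (a * Cfsg.hermForm 4 F q z u) • u := fun z => hg z
  have hxG : x ∈ Cfsg.GU 4 F q := by
    rw [mem_GU]
    intro w z
    exact act_form g w z
  have hxS : x ∈ Cfsg.Geo.specialLinear (Fin 4) F := mem_SL.mpr (g : Matrix.SpecialLinearGroup (Fin 4) F).2
  have hker : LinearMap.ker (Matrix.toLin' (x : Matrix (Fin 4) (Fin 4) F) - 1) = perp q (Submodule.span F {u}) := by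
    ext z
    rw [LinearMap.mem_ker, LinearMap.sub_apply, sub_eq_zero, Matrix.toLin'_apply, Module.End.one_apply, hxv, mem_perp_span hF]
    simp only [Set.mem_singleton_iff, forall_eq]
    constructor
    · intro h
      have h1 : (a * Cfsg.hermForm 4 F q z u) • u = 0 := by
        have := congrArg (fun t => t - z) h
        simpa using this
      rcases smul_eq_zero.mp h1 with h2 | h2
      · exact (mul_eq_zero.mp h2).resolve_left ha0
      · exact absurd h2 hu0
    · intro h
      rw [h, mul_zero, zero_smul, add_zero]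
  have hfin : finrank F (LinearMap.ker (Matrix.toLin' (x : Matrix (Fin 4) (Fin 4) F) - 1)) = 3 := by
    rw [hker]
    have h1 := Uni.finrank_perp hF (Submodule.span F {u})
    rw [finrank_span_singleton hu0] at h1
    omega
  refine ⟨x, ⟨hxG, hxS⟩, ?_, ?_, hfin⟩
  · have hk : ∀ k : ℕ, ∀ z, ((x ^ k : GL (Fin 4) F) : Matrix (Fin 4) (Fin 4) F) *ᵥ z = z + ((k : F) * (a * Cfsg.hermForm 4 F q z u)) • u := by
      intro k
      induction k with
      | zero => intro z; simp
      | succ k ih =>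
        intro z
        rw [pow_succ, Units.val_mul, ← Matrix.mulVec_mulVec, hxv, ih, hermForm_add_left, hermForm_smul_left, huu, mul_zero, add_zero, add_assoc, ← add_smul]
        congr 2
        push_cast
        ring
    apply Units.ext
    apply ext_single
    intro i
    rw [hk, CharP.cast_eq_zero, zero_mul, zero_smul, add_zero, Units.val_one, Matrix.one_mulVec]
  · intro h
    rw [h] at hfin
    have h1 : LinearMap.ker (Matrix.toLin' ((1 : GL (Fin 4) F) : Matrix (Fin 4) (Fin 4) F) - 1) = ⊤ := by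
      rw [Units.val_one, Matrix.toLin'_one]
      have : (LinearMap.id - 1 : (Fin 4 → F) →ₗ[F] (Fin 4 → F)) = 0 := sub_self _
      rw [this, LinearMap.ker_zero]
    rw [h1, finrank_top] at hfin
    simp at hfin

/-- elements of order five act fixed point freely -/
theorem free_five (hF : Fintype.card F = q ^ 2) (hq5 : q % 5 = 2 ∨ q % 5 = 3) (h5 : (5 : F) ≠ 0) {x : GL (Fin 4) F} (hx : x ∈ Cfsg.GU 4 F q) (hx5 : x ^ 5 = 1) (hx1 : x ≠ 1)
    (v : Fin 4 → F) (hv : (x : Matrix (Fin 4) (Fin 4) F) *ᵥ v = v) : v = 0 := by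
  classical
  by_contra hv0
  set W := LinearMap.ker (Matrix.toLin' (x : Matrix (Fin 4) (Fin 4) F) - 1) with hW
  have hWm : ∀ z, z ∈ W ↔ (x : Matrix (Fin 4) (Fin 4) F) *ᵥ z = z := by
    intro z
    rw [hW, LinearMap.mem_ker, LinearMap.sub_apply, sub_eq_zero, Matrix.toLin'_apply, Module.End.one_apply]
  have hWN : Uni.ND q W := by
    intro u hu huz
    apply hermForm_nondeg hF
    intro z
    have hpow : ∀ j : ℕ, Cfsg.hermForm 4 F q u (((x ^ j : GL (Fin 4) F) : Matrix (Fin 4) (Fin 4) F) *ᵥ z) = Cfsg.hermForm 4 F q u z := by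
      intro j
      induction j with
      | zero => simp
      | succ j ih =>
        rw [pow_succ', Units.val_mul, ← Matrix.mulVec_mulVec, ← ih]
        conv_lhs => rw [← (hWm u).mp hu]
        exact mem_GU.mp hx _ _
    have hN : ∑ j ∈ Finset.range 5, ((x ^ j : GL (Fin 4) F) : Matrix (Fin 4) (Fin 4) F) *ᵥ z ∈ W := by
      rw [hWm, Matrix.mulVec_sum]
      have h1 : ∀ j ∈ Finset.range 5, (x : Matrix (Fin 4) (Fin 4) F) *ᵥ (((x ^ j : GL (Fin 4) F) : Matrix (Fin 4) (Fin 4) F) *ᵥ z) =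
          ((x ^ (j + 1) : GL (Fin 4) F) : Matrix (Fin 4) (Fin 4) F) *ᵥ z := by
        intro j _
        rw [Matrix.mulVec_mulVec, ← Units.val_mul, pow_succ']
      rw [Finset.sum_congr rfl h1]
      have h2 := Finset.sum_range_succ' (fun j => ((x ^ j : GL (Fin 4) F) : Matrix (Fin 4) (Fin 4) F) *ᵥ z) 5
      have h3 := Finset.sum_range_succ (fun j => ((x ^ j : GL (Fin 4) F) : Matrix (Fin 4) (Fin 4) F) *ᵥ z) 5
      rw [h3] at h2
      simp only [hx5, pow_zero] at h2
      exact (add_right_cancel h2).symm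
    have h4 := huz _ hN
    rw [hermForm_sum_right hF, Finset.sum_congr rfl (fun j _ => hpow j), Finset.sum_const, Finset.card_range, nsmul_eq_mul] at h4
    exact (mul_eq_zero.mp h4).resolve_left (by exact_mod_cast h5)
  obtain ⟨z0, hz0W, hz0⟩ := hWN.exists_unit hF (by
    intro h
    have := (hWm v).mpr hv
    rw [h, Submodule.mem_bot] at this
    exact hv0 this)
  -- stabiliser
  let S : Subgroup (Cfsg.GU 4 F q) :=
    { carrier := {g | ((g : GL (Fin 4) F) : Matrix (Fin 4) (Fin 4) F) *ᵥ z0 = z0}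
      one_mem' := by simp
      mul_mem' := by
        intro g h hg hh
        simp only [Set.mem_ofPred_eq] at hg hh ⊢
        rw [Subgroup.coe_mul, gl_mul_mulVec, hh, hg]
      inv_mem' := by
        intro g hg
        simp only [Set.mem_ofPred_eq] at hg ⊢
        rw [Subgroup.coe_inv]
        conv_lhs => rw [← hg]
        rw [gl_inv_mulVec] }
  have hSm : ∀ g : Cfsg.GU 4 F q, g ∈ S ↔ ((g : GL (Fin 4) F) : Matrix (Fin 4) (Fin 4) F) *ᵥ z0 = z0 := fun g => Iff.rfl
  have hidx : Nat.card {u : Fin 4 → F // Cfsg.hermForm 4 F q u u = 1} = S.index := by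
    apply card_eq_index (fun g : Cfsg.GU 4 F q => (⟨((g : GL (Fin 4) F) : Matrix (Fin 4) (Fin 4) F) *ᵥ z0, by
      rw [mem_GU.mp g.2]; exact hz0⟩ : {u : Fin 4 → F // Cfsg.hermForm 4 F q u u = 1}))
    · rintro ⟨u, hu⟩
      obtain ⟨g, hg⟩ := exists_GU_of_unit hF hz0 hu
      exact ⟨g, Subtype.ext hg⟩
    · intro g k
      rw [hSm, Subtype.mk.injEq, Subgroup.coe_mul, gl_mul_mulVec, Subgroup.coe_inv]
      constructor
      · intro h
        rw [← h, gl_inv_mulVec]
      · intro h
        have h1 := congrArg (fun t => ((g : GL (Fin 4) F) : Matrix (Fin 4) (Fin 4) F) *ᵥ t) h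
        simp only [gl_mulVec_inv] at h1
        exact h1.symm
  have hcard := S.card_mul_index
  rw [← hidx, card_GU_eq_prod hF, Finset.prod_range_succ] at hcard
  have hcnt : Nat.card {u : Fin 4 → F // Cfsg.hermForm 4 F q u u = 1} = cnt (3 + 1) F q 1 := rfl
  rw [hcnt] at hcard
  have hpos : 0 < cnt (3 + 1) F q 1 := by
    have : Nonempty {u : Fin 4 → F // Cfsg.hermForm 4 F q u u = 1} := ⟨⟨z0, hz0⟩⟩
    exact Nat.card_pos
  have hS := Nat.eq_of_mul_eq_mul_right hpos hcard
  have h5S : 5 ∣ Nat.card S := by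
    have h6 : orderOf (⟨⟨x, hx⟩, (hSm _).mpr ((hWm z0).mp hz0W)⟩ : S) = 5 := by
      have : Fact (Nat.Prime 5) := ⟨by norm_num⟩
      apply orderOf_eq_prime
      · exact Subtype.ext (Subtype.ext hx5)
      · intro h
        exact hx1 (congrArg (fun s : S => ((s : Cfsg.GU 4 F q) : GL (Fin 4) F)) h)
    rw [← h6]
    exact orderOf_dvd_natCard _
  rw [hS, Finset.prod_range_succ, Finset.prod_range_succ, Finset.prod_range_one, cnt_succ_one_eq hF, cnt_succ_one_eq hF, cnt_succ_one_eq hF] at h5S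
  have hp5 : Nat.Prime 5 := by norm_num
  have hq0 := q_pos hF
  have e0 : Even 0 := ⟨0, rfl⟩
  have e1 : ¬ Even 1 := by decide
  have e2 : Even 2 := ⟨1, rfl⟩
  rw [if_pos e0, if_neg e1, if_pos e2, pow_zero, one_mul] at h5S
  have hq : ¬ 5 ∣ q := by omega
  have hqk : ∀ k, ¬ 5 ∣ q ^ k := fun k h => hq (hp5.dvd_of_dvd_pow h)
  rcases (hp5.dvd_mul.mp h5S) with h | h
  · rcases (hp5.dvd_mul.mp h) with h | h
    · rw [zero_add, pow_one] at h
      omega
    · rcases (hp5.dvd_mul.mp h) with h | h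
      · exact hqk _ h
      · have h7 : q ^ (1 + 1) % 5 = 4 := by
          rw [Nat.pow_mod]
          rcases hq5 with h8 | h8 <;> rw [h8]
        have h9 : 1 ≤ q ^ (1 + 1) := Nat.one_le_pow _ _ hq0
        omega
  · rcases (hp5.dvd_mul.mp h) with h | h
    · exact hqk _ h
    · have h7 : q ^ (2 + 1) % 5 = 3 ∨ q ^ (2 + 1) % 5 = 2 := by
        rw [Nat.pow_mod]
        rcases hq5 with h8 | h8 <;> rw [h8] <;> decide
      omega

end five

end Cfsg.Agent.H99
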