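import Mathlib
import Cfsg.Agent.H99.PermDecomp

set_option autoImplicit false

/-! Dimension estimates for endomorphisms permuting summands (helper99). -/

namespace Cfsg.Agent.H99

open Module

section
variable {F V : Type*} [Field F] [AddCommGroup V] [Module F V] [FiniteDimensional F V] {t : ℕ}

lemma finrank_sup_le_sum {ι : Type*} [DecidableEq ι] (T : Finset ι) (W : ι → Submodule F V) :
    finrank F (T.sup W : Submodule F V) ≤ ∑ j ∈ T, finrank F (W j) := by
  induction T using Finset.induction_on with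
  | empty => simp
  | insert j T hj ih =>
    rw [Finset.sup_insert, Finset.sum_insert hj]
    have h1 := Submodule.finrank_sup_add_finrank_inf_eq (W j) (T.sup W)
    omega

lemma finrank_sup_of_indep {ι : Type*} [DecidableEq ι] {W : ι → Submodule F V} (h : iSupIndep W) (T : Finset ι) :
    finrank F (T.sup W : Submodule F V) = ∑ j ∈ T, finrank F (W j) := by
  induction T using Finset.induction_on with
  | empty => simp
  | insert j T hj ih =>
    rw [Finset.sup_insert, Finset.sum_insert hj, ← ih]
    have h1 := Submodule.finrank_sup_add_finrank_inf_eq (W j) (T.sup W)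
    have h2 : Disjoint (W j) (T.sup W) := by
      apply (h j).mono_right
      apply Finset.sup_le
      intro i hi
      have hij : i ≠ j := fun h => hj (h ▸ hi)
      exact le_iSup_of_le i (le_iSup_of_le hij le_rfl)
    rw [h2.eq_bot, finrank_bot, add_zero] at h1
    exact h1

omit [FiniteDimensional F V] in
/-- the trace of an element lies in the fixed space -/
lemma trace_mem_ker {f : V →ₗ[F] V} {r : ℕ} (hf : f ^ r = 1) (v : V) :
    ∑ s ∈ Finset.range r, (f ^ s) v ∈ LinearMap.ker (f - 1) := by
  rw [LinearMap.mem_ker, LinearMap.sub_apply, Module.End.one_apply, map_sum, sub_eq_zero]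
  have h1 : ∀ s, f ((f ^ s) v) = (f ^ (s + 1)) v := fun s => by rw [pow_succ']; rfl
  simp only [h1]
  have h2 := Finset.sum_range_succ (fun s => (f ^ s) v) r
  have h3 := Finset.sum_range_succ' (fun s => (f ^ s) v) r
  rw [h2, hf] at h3
  rw [pow_zero] at h3
  exact (add_right_cancel h3).symm

/-- a moved summand contributes its dimension to the fixed space -/
theorem le_finrank_ker_of_moved {f : V →ₗ[F] V} {D : Fin t → Submodule F V} (hind : iSupIndep D)
    {σ : Equiv.Perm (Fin t)} (hσ : ∀ j, (D j).map f = D (σ j)) {r : ℕ} (hr : r.Prime) (hσr : σ ^ r = 1) (hf : f ^ r = 1)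
    {j : Fin t} (hj : σ j ≠ j) : finrank F (D j) ≤ finrank F (LinearMap.ker (f - 1)) := by
  let T : V →ₗ[F] LinearMap.ker (f - 1) :=
    (∑ s ∈ Finset.range r, f ^ s : V →ₗ[F] V).codRestrict _ (fun v => by
      rw [LinearMap.sum_apply]
      exact trace_mem_ker hf v)
  apply LinearMap.finrank_le_finrank_of_injective (f := T.domRestrict (D j))
  rw [← LinearMap.ker_eq_bot, LinearMap.ker_eq_bot']
  intro v hv
  have h4 : (∑ s ∈ Finset.range r, f ^ s : V →ₗ[F] V) (v : V) = 0 := congrArg Subtype.val hv
  rw [LinearMap.sum_apply] at h4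
  exact Subtype.ext (trace_injective hind hσ hr hσr hj v.2 h4)

/-- if there is an orbit of length `r`, the fixed space has dimension at most `(t - (r - 1)) a` -/
theorem finrank_ker_le_of_moved {f : V →ₗ[F] V} {D : Fin t → Submodule F V} {a : ℕ} (hfin : ∀ j, finrank F (D j) = a)
    (htop : iSup D = ⊤)
    {σ : Equiv.Perm (Fin t)} (hσ : ∀ j, (D j).map f = D (σ j)) {r : ℕ} (hr : r.Prime) (hσr : σ ^ r = 1) (hf : f ^ r = 1)
    (hrF : (r : F) ≠ 0) {j : Fin t} (hj : σ j ≠ j) : finrank F (LinearMap.ker (f - 1)) + (r - 1) * a ≤ t * a := by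
  classical
  set Tr : V →ₗ[F] V := ∑ s ∈ Finset.range r, f ^ s with hTr
  have hTrv : ∀ v, Tr v = ∑ s ∈ Finset.range r, (f ^ s) v := fun v => by rw [hTr, LinearMap.sum_apply]
  -- the kernel is the range of the trace
  have hker : LinearMap.ker (f - 1) ≤ LinearMap.range Tr := by
    intro v hv
    rw [LinearMap.mem_ker, LinearMap.sub_apply, Module.End.one_apply, sub_eq_zero] at hv
    refine ⟨(r : F)⁻¹ • v, ?_⟩
    have h1 : ∀ s : ℕ, (f ^ s) v = v := by
      intro s
      induction s with
      | zero => rfl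
      | succ s ih => rw [pow_succ, Module.End.mul_apply, hv, ih]
    rw [hTrv]
    simp only [map_smul, h1, Finset.sum_const, Finset.card_range]
    rw [← Nat.cast_smul_eq_nsmul F, smul_smul, mul_inv_cancel₀ hrF, one_smul]
  have hTrf : ∀ v, Tr (f v) = Tr v := by
    intro v
    rw [hTrv, hTrv]
    have h1 : ∀ s, (f ^ s) (f v) = (f ^ (s + 1)) v := fun s => by rw [pow_succ]; rfl
    simp only [h1]
    have h2 := Finset.sum_range_succ (fun s => (f ^ s) v) r
    have h3 := Finset.sum_range_succ' (fun s => (f ^ s) v) r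
    rw [h2, hf] at h3
    rw [pow_zero] at h3
    exact (add_right_cancel h3).symm
  have hTrfs : ∀ (s : ℕ) v, Tr ((f ^ s) v) = Tr v := by
    intro s
    induction s with
    | zero => intro v; rfl
    | succ s ih =>
      intro v
      rw [pow_succ, Module.End.mul_apply, ih, hTrf]
  have hmapD : ∀ s : ℕ, (D ((σ ^ s) j)).map Tr = (D j).map Tr := by
    intro s
    rw [← map_pow_decomp hσ, ← Submodule.map_comp]
    congr 1
    apply LinearMap.ext
    intro v
    exact hTrfs s v
  -- the moved copies
  let S : Finset (Fin t) := (Finset.range (r - 1)).image (fun s => (σ ^ (s + 1)) j)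
  have hScard : S.card = r - 1 := by
    rw [Finset.card_image_of_injOn, Finset.card_range]
    intro s hs s' hs' hss
    rw [Finset.mem_coe, Finset.mem_range] at hs hs'
    by_contra hne
    have key : ∀ a b : ℕ, a < b → b < r - 1 → (σ ^ (a + 1)) j = (σ ^ (b + 1)) j → False := by
      intro a b hab hb h
      have h1 : (σ ^ (b - a)) j = j := by
        have h2 : (σ ^ (b + 1)) j = (σ ^ (a + 1)) ((σ ^ (b - a)) j) := by
          rw [← Equiv.Perm.mul_apply, ← pow_add]
          congr 2
          omega
        rw [h2] at h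
        exact ((σ ^ (a + 1)).injective h).symm
      exact perm_pow_ne hr hσr hj (b - a) (by omega) (by omega) h1
    rcases Nat.lt_or_ge s s' with h | h
    · exact key s s' h hs' hss
    · exact key s' s (lt_of_le_of_ne h (Ne.symm hne)) hs hss.symm
  have hjS : j ∉ S := by
    intro h
    rw [Finset.mem_image] at h
    obtain ⟨s, hs, h1⟩ := h
    rw [Finset.mem_range] at hs
    exact perm_pow_ne hr hσr hj (s + 1) (by omega) (by omega) h1
  have hrange : LinearMap.range Tr ≤ Sᶜ.sup (fun i => (D i).map Tr) := by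
    rw [LinearMap.range_eq_map, ← htop, Submodule.map_iSup]
    apply iSup_le
    intro i
    by_cases hi : i ∈ S
    · rw [Finset.mem_image] at hi
      obtain ⟨s, _, rfl⟩ := hi
      rw [hmapD]
      exact Finset.le_sup (f := fun i => (D i).map Tr) (Finset.mem_compl.mpr hjS)
    · exact Finset.le_sup (f := fun i => (D i).map Tr) (Finset.mem_compl.mpr hi)
  have h1 : finrank F (LinearMap.ker (f - 1)) ≤ ∑ i ∈ Sᶜ, finrank F ((D i).map Tr) :=
    (Submodule.finrank_mono (hker.trans hrange)).trans (finrank_sup_le_sum _ _)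
  have h2 : ∑ i ∈ Sᶜ, finrank F ((D i).map Tr) ≤ ∑ i ∈ Sᶜ, a := by
    apply Finset.sum_le_sum
    intro i _
    rw [← hfin i]
    exact Submodule.finrank_map_le Tr (D i)
  rw [Finset.sum_const, smul_eq_mul, Finset.card_compl, Fintype.card_fin, hScard] at h2
  have h3 : r - 1 ≤ t := by
    rw [← hScard]
    exact (Finset.card_le_univ S).trans (by simp)
  have h4 : (t - (r - 1)) * a + (r - 1) * a = t * a := by
    rw [← add_mul, Nat.sub_add_cancel h3]
  omega

/-- all summands fixed: the fixed space contains the direct sum of the fixed spaces of the summands -/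
theorem sum_fixed_le {f : V →ₗ[F] V} {D : Fin t → Submodule F V} (hind : iSupIndep D) :
    ∑ j, finrank F (D j ⊓ LinearMap.ker (f - 1) : Submodule F V) ≤ finrank F (LinearMap.ker (f - 1)) := by
  classical
  have h1 : iSupIndep (fun j => D j ⊓ LinearMap.ker (f - 1)) := hind.mono (fun j => inf_le_left)
  rw [← finrank_sup_of_indep h1]
  apply Submodule.finrank_mono
  apply Finset.sup_le
  intro j _
  exact inf_le_right

/-- one-dimensional summands: `n ≤ r dim C_V(f)` -/
theorem le_mul_finrank_ker {f : V →ₗ[F] V} {D : Fin t → Submodule F V} (hfin : ∀ j, finrank F (D j) = 1)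
    (hind : iSupIndep D) (htop : iSup D = ⊤)
    {σ : Equiv.Perm (Fin t)} (hσ : ∀ j, (D j).map f = D (σ j)) {r : ℕ} (hr : r.Prime) (hσr : σ ^ r = 1) (hf : f ^ r = 1)
    (hrF : (r : F) ≠ 0) (hfix : ∀ j, σ j = j → ∀ v ∈ D j, f v = v) : t ≤ r * finrank F (LinearMap.ker (f - 1)) := by
  classical
  set Tr : V →ₗ[F] V := ∑ s ∈ Finset.range r, f ^ s with hTr
  have hTrv : ∀ v, Tr v = ∑ s ∈ Finset.range r, (f ^ s) v := fun v => by rw [hTr, LinearMap.sum_apply]
  -- nonzero vectors in the summands
  have hex : ∀ j, ∃ v : V, v ∈ D j ∧ v ≠ 0 := by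
    intro j
    have h1 : D j ≠ ⊥ := by
      intro h
      have := hfin j
      rw [h, finrank_bot] at this
      omega
    exact (Submodule.ne_bot_iff _).mp h1 |>.imp (fun v hv => ⟨hv.1, hv.2⟩)
  choose b hbD hb0 using hex
  -- traces are nonzero
  have hTr0 : ∀ j, Tr (b j) ≠ 0 := by
    intro j h0
    rw [hTrv] at h0
    by_cases hj : σ j = j
    · have h1 : ∀ s : ℕ, (f ^ s) (b j) = b j := by
        intro s
        induction s with
        | zero => rfl
        | succ s ih => rw [pow_succ, Module.End.mul_apply, hfix j hj _ (hbD j), ih]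
      simp only [h1, Finset.sum_const, Finset.card_range] at h0
      rw [← Nat.cast_smul_eq_nsmul F] at h0
      exact hb0 j ((smul_eq_zero.mp h0).resolve_left hrF)
    · exact hb0 j (trace_injective hind hσ hr hσr hj (hbD j) h0)
  -- orbits
  let Ω := Quotient (Equiv.Perm.SameCycle.setoid σ)
  have : Fintype Ω := Fintype.ofFinite Ω
  let rep : Ω → Fin t := Quotient.out
  have hrep : ∀ j, Equiv.Perm.SameCycle σ (rep (Quotient.mk _ j)) j := fun j => Quotient.mk_out (s := Equiv.Perm.SameCycle.setoid σ) j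
  -- grouping the summands by orbits
  let U : Ω → Submodule F V := fun ω => ⨆ j : {j // Quotient.mk (Equiv.Perm.SameCycle.setoid σ) j = ω}, D j
  have hU : iSupIndep U := by
    intro ω
    have h2 : Disjoint (⨆ j ∈ {j | Quotient.mk (Equiv.Perm.SameCycle.setoid σ) j = ω}, D j)
        (⨆ j ∈ {j | Quotient.mk (Equiv.Perm.SameCycle.setoid σ) j ≠ ω}, D j) := by
      apply hind.disjoint_biSup_biSup
      rw [Set.disjoint_left]
      intro j hj hj'
      exact hj' hj
    apply h2.mono
    · apply iSup_le
      rintro ⟨j, hj⟩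
      exact le_iSup₂_of_le j hj le_rfl
    · apply iSup_le
      intro ω'
      apply iSup_le
      intro hω'
      apply iSup_le
      rintro ⟨j, hj⟩
      exact le_iSup₂_of_le j (fun h => hω' (hj.symm.trans h)) le_rfl
  have hTrU : ∀ ω, Tr (b (rep ω)) ∈ U ω := by
    intro ω
    rw [hTrv]
    apply Submodule.sum_mem
    intro s _
    have h1 := pow_apply_mem hσ s (rep ω) (hbD (rep ω))
    have h2 : Quotient.mk (Equiv.Perm.SameCycle.setoid σ) ((σ ^ s) (rep ω)) = ω := by
      have h3 : Equiv.Perm.SameCycle σ ((σ ^ s) (rep ω)) (rep ω) :=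
        (Equiv.Perm.SameCycle.symm ⟨s, by simp⟩)
      have h4 : Quotient.mk (Equiv.Perm.SameCycle.setoid σ) ((σ ^ s) (rep ω)) = Quotient.mk _ (rep ω) := Quotient.sound h3
      rw [h4]
      exact Quotient.out_eq ω
    exact Submodule.mem_iSup_of_mem (⟨(σ ^ s) (rep ω), h2⟩ : {j // Quotient.mk (Equiv.Perm.SameCycle.setoid σ) j = ω}) h1
  have hcardΩ : Fintype.card Ω ≤ finrank F (LinearMap.ker (f - 1)) := by
    have h1 : LinearIndependent F (fun ω : Ω => Tr (b (rep ω))) := hU.linearIndependent U hTrU (fun ω => hTr0 _)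
    have h2 : ∀ ω, Tr (b (rep ω)) ∈ LinearMap.ker (f - 1) := fun ω => by
      rw [hTrv]
      exact trace_mem_ker hf _
    have h3 : LinearIndependent F (fun ω : Ω => (⟨Tr (b (rep ω)), h2 ω⟩ : LinearMap.ker (f - 1))) := by
      rw [← LinearMap.linearIndependent_iff (LinearMap.ker (f - 1)).subtype (Submodule.ker_subtype _)]
      exact h1
    exact h3.fintype_card_le_finrank
  -- counting
  have hsurj : Function.Surjective (fun x : Ω × Fin r => (σ ^ (x.2 : ℕ)) (rep x.1)) := by
    intro j
    obtain ⟨m, hm⟩ := hrep j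
    have hr0 : (0 : ℤ) < r := by exact_mod_cast hr.pos
    obtain ⟨s, hs⟩ : ∃ s : ℕ, (s : ℤ) = m % r := ⟨(m % r).toNat, Int.toNat_of_nonneg (Int.emod_nonneg _ hr0.ne')⟩
    have hsr : s < r := by
      have := Int.emod_lt_of_pos m hr0
      omega
    refine ⟨(Quotient.mk _ j, ⟨s, hsr⟩), ?_⟩
    change (σ ^ s) (rep (Quotient.mk _ j)) = j
    have h1 : σ ^ m = σ ^ s := by
      have h2 : m = r * (m / r) + s := by rw [hs]; exact (Int.mul_ediv_add_emod m r).symm
      rw [h2, zpow_add, zpow_mul, zpow_natCast, hσr, one_zpow, one_mul, zpow_natCast]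
    rw [← h1]
    exact hm
  have h1 := Fintype.card_le_of_surjective _ hsurj
  rw [Fintype.card_prod, Fintype.card_fin, Fintype.card_fin] at h1
  calc t ≤ Fintype.card Ω * r := h1
    _ ≤ finrank F (LinearMap.ker (f - 1)) * r := Nat.mul_le_mul_right _ hcardΩ
    _ = _ := mul_comm _ _

end

end Cfsg.Agent.H99
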