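import Mathlib
import Cfsg.Prelude.Def_GeometricClasses
import Cfsg.Agent.H99.SqForms
import Cfsg.Agent.H99.FinFieldTwo
import Cfsg.Agent.H99.SLConj

set_option autoImplicit false

/-! Quadratic field subalgebras of the matrix algebra (helper99). -/

namespace Cfsg.Agent.H99

open Module Matrix

section
variable {F : Type*} [Field F] {n : ℕ} {K : Subalgebra F (Matrix (Fin n) (Fin n) F)}

lemma fieldSub_mulVec_inj {r : ℕ} (hK : Cfsg.Geo.IsFieldSubalgebra r K) {k : Matrix (Fin n) (Fin n) F} (hk : k ∈ K)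
    (v : Fin n → F) (hv : v ≠ 0) (h : k *ᵥ v = 0) : k = 0 := by
  by_contra hne
  obtain ⟨y, hy, hky⟩ := hK.inv k hk hne
  apply hv
  rw [hK.comm k hk y hy] at hky
  have := congrArg (fun u => y *ᵥ u) h
  simp only [Matrix.mulVec_mulVec, hky, Matrix.one_mulVec, Matrix.mulVec_zero] at this
  exact this

lemma quadSub_exists_gen (hn : 0 < n) (hK : Cfsg.Geo.IsFieldSubalgebra 2 K) :
    ∃ κ ∈ K, (∀ c : F, κ ≠ c • (1 : Matrix (Fin n) (Fin n) F)) ∧
      (∀ k ∈ K, ∃ a b : F, k = a • (1 : Matrix (Fin n) (Fin n) F) + b • κ) := by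
  have : Nonempty (Fin n) := ⟨⟨0, hn⟩⟩
  have h2 := hK.finrank_eq
  have hfd : FiniteDimensional F K := inferInstance
  have hex : ∃ κ : K, ∀ c : F, κ ≠ c • (1 : K) := by
    by_contra hcon
    push Not at hcon
    have h3 : finrank F K ≤ 1 := by
      apply finrank_le_one (1 : K)
      intro w
      obtain ⟨c, hc⟩ := hcon w
      exact ⟨c, hc.symm⟩
    omega
  obtain ⟨κ, hκ⟩ := hex
  have hli : LinearIndependent F ![(1 : K), κ] := by
    rw [LinearIndependent.pair_iff' (by exact one_ne_zero)]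
    intro a h
    exact hκ a h.symm
  have hspan := hli.span_eq_top_of_card_eq_finrank' (by simp [h2])
  refine ⟨κ, κ.2, fun c hc => hκ c (Subtype.ext hc), fun k hk => ?_⟩
  have h4 : (⟨k, hk⟩ : K) ∈ Submodule.span F (Set.range ![(1 : K), κ]) := by
    rw [hspan]; exact Submodule.mem_top
  rw [Matrix.range_cons, Matrix.range_cons, Matrix.range_empty, Set.union_empty, Set.singleton_union,
    Submodule.mem_span_pair] at h4
  obtain ⟨a, b, hab⟩ := h4
  exact ⟨a, b, (congrArg Subtype.val hab).symm⟩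

/-- an element of the normalizer is not a scalar plus a rank one map (dimension at least 3) -/
lemma not_normalize_rankOne (hn : 3 ≤ n) (hK : Cfsg.Geo.IsFieldSubalgebra 2 K) (g : GL (Fin n) F)
    (hg : g ∈ Cfsg.Geo.subalgebraNormalizer K) (w : F) (hw : w ≠ 0) (φ : (Fin n → F) →ₗ[F] F) (u : Fin n → F)
    (hφ : φ ≠ 0) (hu : u ≠ 0) (h : ∀ v, (g : Matrix (Fin n) (Fin n) F) *ᵥ v = w • v + φ v • u) : False := by
  obtain ⟨κ, hκ, hκs, -⟩ := quadSub_exists_gen (by omega) hK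
  set κ' := (g : Matrix (Fin n) (Fin n) F) * κ * ((g⁻¹ : GL (Fin n) F) : Matrix (Fin n) (Fin n) F) with hκ'
  have hκ'K : κ' ∈ K := (hg κ).mp hκ
  have hcomm : (g : Matrix (Fin n) (Fin n) F) * κ = κ' * (g : Matrix (Fin n) (Fin n) F) := by
    rw [hκ', mul_assoc, ← Units.val_mul, inv_mul_cancel, Units.val_one, mul_one]
  have hcv : ∀ v, w • (κ *ᵥ v) + φ (κ *ᵥ v) • u = w • (κ' *ᵥ v) + φ v • (κ' *ᵥ u) := by
    intro v
    rw [← h, Matrix.mulVec_mulVec, hcomm, ← Matrix.mulVec_mulVec, h, Matrix.mulVec_add, Matrix.mulVec_smul,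
      Matrix.mulVec_smul]
  by_cases hkk : κ' = κ
  · have h1 : ∃ v, φ v = 1 := by
      have : ∃ v, φ v ≠ 0 := by
        by_contra hcon
        push Not at hcon
        exact hφ (LinearMap.ext hcon)
      obtain ⟨v, hv⟩ := this
      exact ⟨(φ v)⁻¹ • v, by rw [map_smul, smul_eq_mul, inv_mul_cancel₀ hv]⟩
    obtain ⟨v, hv⟩ := h1
    have h2 := hcv v
    rw [hkk, hv, one_smul] at h2
    have h3 := add_left_cancel h2
    have h4 : (κ - φ (κ *ᵥ v) • (1 : Matrix (Fin n) (Fin n) F)) *ᵥ u = 0 := by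
      rw [Matrix.sub_mulVec, Matrix.smul_mulVec, Matrix.one_mulVec, h3, sub_self]
    have h5 := fieldSub_mulVec_inj hK (K.sub_mem hκ (K.smul_mem K.one_mem _)) u hu h4
    exact hκs _ (sub_eq_zero.mp h5)
  · have hex : ∃ v : Fin n → F, v ≠ 0 ∧ φ v = 0 ∧ φ (κ *ᵥ v) = 0 := by
      set ψ : (Fin n → F) →ₗ[F] (Fin 2 → F) := LinearMap.pi ![φ, φ ∘ₗ Matrix.toLin' κ] with hψ
      have hker : LinearMap.ker ψ ≠ ⊥ := by
        apply LinearMap.ker_ne_bot_of_finrank_lt
        simp only [Module.finrank_fin_fun]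
        omega
      obtain ⟨v, hv, hv0⟩ := Submodule.exists_mem_ne_zero_of_ne_bot hker
      rw [LinearMap.mem_ker] at hv
      exact ⟨v, hv0, congrFun hv 0, congrFun hv 1⟩
    obtain ⟨v, hv0, h1, h2⟩ := hex
    have h3 := hcv v
    rw [h1, h2, zero_smul, zero_smul, add_zero, add_zero] at h3
    have h4 := smul_right_injective _ hw h3
    have h5 : (κ' - κ) *ᵥ v = 0 := by
      rw [Matrix.sub_mulVec]
      exact sub_eq_zero.mpr h4.symm
    exact hkk (sub_eq_zero.mp (fieldSub_mulVec_inj hK (K.sub_mem hκ'K hκ) v hv0 h5))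

/-- characteristic not two: a generator with scalar square, not a square of the base field -/
lemma quadSub_exists_sq (hn : 0 < n) (h2 : (2 : F) ≠ 0) (hK : Cfsg.Geo.IsFieldSubalgebra 2 K) :
    ∃ κ ∈ K, ∃ u : F, κ * κ = u • (1 : Matrix (Fin n) (Fin n) F) ∧ (∀ w, w * w ≠ u) ∧
      (∀ k ∈ K, ∃ a b : F, k = a • (1 : Matrix (Fin n) (Fin n) F) + b • κ) := by
  have : Nonempty (Fin n) := ⟨⟨0, hn⟩⟩
  have : NeZero (2 : F) := ⟨h2⟩
  obtain ⟨κ₀, hκ₀, hs, hgen⟩ := quadSub_exists_gen hn hK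
  obtain ⟨d, t, hdt⟩ := hgen (κ₀ * κ₀) (K.mul_mem hκ₀ hκ₀)
  set κ := κ₀ - (t / 2) • (1 : Matrix (Fin n) (Fin n) F) with hκ
  have hκK : κ ∈ K := K.sub_mem hκ₀ (K.smul_mem K.one_mem _)
  have hsq : κ * κ = (d + t * t / 4) • (1 : Matrix (Fin n) (Fin n) F) := by
    have : κ * κ = κ₀ * κ₀ - t • κ₀ + (t / 2 * (t / 2)) • (1 : Matrix (Fin n) (Fin n) F) := by
      rw [hκ, sub_mul, mul_sub, mul_sub, smul_mul_assoc, mul_smul_comm, one_mul, mul_one, smul_mul_smul_comm, mul_one]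
      have h3 : t • κ₀ = (t / 2) • κ₀ + (t / 2) • κ₀ := by
        rw [← add_smul, add_halves]
      rw [h3]
      abel
    rw [this, hdt, add_sub_cancel_right, ← add_smul]
    congr 1
    have h4 : (4 : F) = 2 * 2 := by norm_num
    rw [h4]
    field_simp
    try ring
  have hκs : ∀ c : F, κ ≠ c • (1 : Matrix (Fin n) (Fin n) F) := by
    intro c hc
    rw [hκ, sub_eq_iff_eq_add, ← add_smul] at hc
    exact hs _ hc
  refine ⟨κ, hκK, _, hsq, ?_, ?_⟩
  · intro w hw
    have h3 : (κ - w • (1 : Matrix (Fin n) (Fin n) F)) * (κ + w • (1 : Matrix (Fin n) (Fin n) F)) = 0 := by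
      rw [sub_mul, mul_add, mul_add, hsq, ← hw, smul_mul_assoc, mul_smul_comm, smul_mul_smul_comm, one_mul, mul_one,
        mul_one]
      abel
    by_cases h4 : κ - w • (1 : Matrix (Fin n) (Fin n) F) = 0
    · exact hκs w (sub_eq_zero.mp h4)
    · obtain ⟨y, hy, hyy⟩ := hK.inv _ (K.sub_mem hκK (K.smul_mem K.one_mem w)) h4
      rw [hK.comm _ (K.sub_mem hκK (K.smul_mem K.one_mem w)) y hy] at hyy
      have h5 := congrArg (fun M => y * M) h3
      simp only [← mul_assoc, hyy, one_mul, mul_zero] at h5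
      apply hκs (-w)
      rw [neg_smul]
      exact eq_neg_of_add_eq_zero_left h5
  · intro k hk
    obtain ⟨a, b, rfl⟩ := hgen k hk
    refine ⟨a + b * (t / 2), b, ?_⟩
    rw [hκ, smul_sub, add_smul, smul_smul]
    abel

/-- criterion for membership in the normalizer -/
lemma mem_normalizer_of_conj (g : GL (Fin n) F)
    (h : ∀ k ∈ K, ∃ k' ∈ K, (g : Matrix (Fin n) (Fin n) F) * k = k' * (g : Matrix (Fin n) (Fin n) F)) :
    g ∈ Cfsg.Geo.subalgebraNormalizer K := by
  have h1 : ∀ k ∈ K, (g : Matrix (Fin n) (Fin n) F) * k * ((g⁻¹ : GL (Fin n) F) : Matrix (Fin n) (Fin n) F) ∈ K := by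
    intro k hk
    obtain ⟨k', hk', h2⟩ := h k hk
    rw [h2, mul_assoc, ← Units.val_mul, mul_inv_cancel, Units.val_one, mul_one]
    exact hk'
  let c : K →ₗ[F] K :=
    { toFun := fun k => ⟨_, h1 k k.2⟩
      map_add' := fun a b => by
        apply Subtype.ext
        change _ * ((a : Matrix (Fin n) (Fin n) F) + b) * _ = _ * (a : Matrix (Fin n) (Fin n) F) * _ + _ * (b : Matrix (Fin n) (Fin n) F) * _
        rw [mul_add, add_mul]
      map_smul' := fun r a => by
        apply Subtype.ext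
        change _ * (r • (a : Matrix (Fin n) (Fin n) F)) * _ = r • (_ * (a : Matrix (Fin n) (Fin n) F) * _)
        rw [mul_smul_comm, smul_mul_assoc] }
  have hci : Function.Injective c := by
    intro a b hab
    apply Subtype.ext
    have h2 : (g : Matrix (Fin n) (Fin n) F) * (a : Matrix (Fin n) (Fin n) F) * ((g⁻¹ : GL (Fin n) F) : Matrix (Fin n) (Fin n) F)
      = (g : Matrix (Fin n) (Fin n) F) * (b : Matrix (Fin n) (Fin n) F) * ((g⁻¹ : GL (Fin n) F) : Matrix (Fin n) (Fin n) F) :=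
      congrArg Subtype.val hab
    have h3 := congrArg (fun M => ((g⁻¹ : GL (Fin n) F) : Matrix (Fin n) (Fin n) F) * M * (g : Matrix (Fin n) (Fin n) F)) h2
    simpa [mul_assoc, ← Units.val_mul, ← mul_assoc] using h3
  have hcs : Function.Surjective c := (LinearMap.injective_iff_surjective).mp hci
  intro k
  constructor
  · exact h1 k
  · intro hk
    obtain ⟨k', hk'⟩ := hcs ⟨_, hk⟩
    have h2 : (g : Matrix (Fin n) (Fin n) F) * (k' : Matrix (Fin n) (Fin n) F) * ((g⁻¹ : GL (Fin n) F) : Matrix (Fin n) (Fin n) F)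
      = (g : Matrix (Fin n) (Fin n) F) * k * ((g⁻¹ : GL (Fin n) F) : Matrix (Fin n) (Fin n) F) :=
      congrArg Subtype.val hk'
    have h3 := congrArg (fun M => ((g⁻¹ : GL (Fin n) F) : Matrix (Fin n) (Fin n) F) * M * (g : Matrix (Fin n) (Fin n) F)) h2
    have h4 : (k' : Matrix (Fin n) (Fin n) F) = k := by
      simpa [mul_assoc, ← Units.val_mul, ← mul_assoc] using h3
    rw [← h4]
    exact k'.2

end

end Cfsg.Agent.H99
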