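import Cfsg.Agent.H68.SL2CA
import Cfsg.Agent.S2302
import Cfsg.Agent.H67.Basic
import Cfsg.Agent.H81.SL2Card
import Cfsg.Agent.H21.RecogSL2
import Cfsg.Agent.H14.SubField
import Cfsg.Prelude.Def_LocalEven

/-! Pieces of S2755: Sylow 2-subgroups of `PSL₂(2ⁿ)` are TI, those of `PSL₂(q)`, `q ≡ ±3 mod 8` and of groups of Ree type
are abelian. -/

set_option autoImplicit false
set_option linter.style.haveILetI false

namespace Cfsg.Agent.H99.Rt

open Subgroup

theorem card_centr_sl2 {F : Type*} [Field F] [Fintype F] {n : ℕ} (hn : 1 ≤ n) (hF : Fintype.card F = 2 ^ n)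
    {g : Matrix.SpecialLinearGroup (Fin 2) F} (hg : orderOf g = 2) :
    Nat.card (centralizer ({g} : Set (Matrix.SpecialLinearGroup (Fin 2) F))) = 2 ^ n := by
  classical
  haveI := (H68.CA.isCA_psl2 hn hF).1
  have h1 := (S2302.result g g hg hg).2
  have h2 : (ConjClasses.mk g).carrier.ncard = (centralizer ({g} : Set (Matrix.SpecialLinearGroup (Fin 2) F))).index :=
    H67.ncard_carrier_eq_index g
  have h5 := card_mul_index (centralizer ({g} : Set (Matrix.SpecialLinearGroup (Fin 2) F)))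
  rw [← h2, ← Nat.card_coe_set_eq, h1, H81.card_sl2, hF] at h5
  have hq : 2 ≤ 2 ^ n := by
    calc 2 = 2 ^ 1 := by norm_num
      _ ≤ 2 ^ n := Nat.pow_le_pow_right (by norm_num) hn
  have h3 : (2 ^ n) ^ 2 - 1 = (2 ^ n - 1) * (2 ^ n + 1) := by
    have h3 := Nat.sq_sub_sq (2 ^ n) 1
    rw [one_pow] at h3
    rw [h3, mul_comm]
  rw [h3] at h5
  have h4 : 0 < (2 ^ n - 1) * (2 ^ n + 1) := Nat.mul_pos (by omega) (by omega)
  exact Nat.eq_of_mul_eq_mul_right h4 h5

theorem card_centr_psl2 {F : Type*} [Field F] [Fintype F] {n : ℕ} (hn : 1 ≤ n) (hF : Fintype.card F = 2 ^ n)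
    {t : Matrix.ProjectiveSpecialLinearGroup (Fin 2) F} (ht : orderOf t = 2) :
    Nat.card (centralizer ({t} : Set (Matrix.ProjectiveSpecialLinearGroup (Fin 2) F))) = 2 ^ n := by
  haveI := (H68.CA.isCA_psl2 hn hF).1
  obtain ⟨e⟩ := H21.nonempty_mulEquiv_psl2 (F := F)
  rw [← card_centr_sl2 hn hF (g := e.symm t) (by rw [MulEquiv.orderOf_eq, ht])]
  refine Nat.card_congr ⟨fun x => ⟨e.symm x, ?_⟩, fun x => ⟨e x, ?_⟩, ?_, ?_⟩
  · rw [mem_centralizer_singleton_iff, ← map_mul, mem_centralizer_singleton_iff.1 x.2, map_mul]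
  · rw [mem_centralizer_singleton_iff]
    have h := congrArg e (mem_centralizer_singleton_iff.1 x.2)
    rw [map_mul, map_mul, e.apply_symm_apply] at h
    exact h
  · intro x; apply Subtype.ext; exact e.apply_symm_apply _
  · intro x; apply Subtype.ext; exact e.symm_apply_apply _

theorem exists_two_of_ne_one {G : Type*} [Group G] [Finite G] {S : Subgroup G} (hS : IsPGroup 2 S) {g : G} (hg : g ∈ S)
    (hg1 : g ≠ 1) : ∃ k : ℕ, orderOf (g ^ k) = 2 := by
  obtain ⟨m, hm⟩ := hS ⟨g, hg⟩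
  have hm' : g ^ 2 ^ m = 1 := congrArg Subtype.val hm
  obtain ⟨i, -, hi⟩ := (Nat.dvd_prime_pow Nat.prime_two).1 (orderOf_dvd_of_pow_eq_one hm')
  have hi0 : i ≠ 0 := by
    rintro rfl
    rw [pow_zero, orderOf_eq_one_iff] at hi
    exact hg1 hi
  obtain ⟨j, rfl⟩ := Nat.exists_eq_succ_of_ne_zero hi0
  refine ⟨2 ^ j, ?_⟩
  rw [orderOf_pow, hi, Nat.gcd_eq_right (pow_dvd_pow 2 (Nat.le_succ j)), pow_succ]
  exact Nat.mul_div_cancel_left _ (by positivity)

theorem psl2_even_ti {F : Type*} [Field F] [Fintype F] (n : ℕ) (hn : 1 ≤ n) (hF : Fintype.card F = 2 ^ n)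
    (S T : Sylow 2 (Matrix.ProjectiveSpecialLinearGroup (Fin 2) F)) (h : S ≠ T) :
    S.toSubgroup ⊓ T.toSubgroup = ⊥ := by
  haveI : Fact (Nat.Prime 2) := ⟨Nat.prime_two⟩
  have hCA := (H68.CA.isCA_psl2 hn hF).2
  by_contra hne
  obtain ⟨⟨g, hg⟩, hg1'⟩ := Subgroup.ne_bot_iff_exists_ne_one.1 hne
  have hg1 : g ≠ 1 := fun h0 => hg1' (Subtype.ext h0)
  obtain ⟨k, hk⟩ := exists_two_of_ne_one S.2 hg.1 hg1
  set t := g ^ k with ht
  have htS : t ∈ S.toSubgroup := S.toSubgroup.pow_mem hg.1 k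
  have htT : t ∈ T.toSubgroup := T.toSubgroup.pow_mem hg.2 k
  have ht1 : t ≠ 1 := by
    intro h0
    rw [h0, orderOf_one] at hk
    omega
  have hC2 : IsPGroup 2 (centralizer ({t} : Set (Matrix.ProjectiveSpecialLinearGroup (Fin 2) F))) :=
    IsPGroup.of_card (card_centr_psl2 hn hF hk)
  have key : ∀ P : Sylow 2 (Matrix.ProjectiveSpecialLinearGroup (Fin 2) F), t ∈ P.toSubgroup →
      P.toSubgroup = centralizer ({t} : Set (Matrix.ProjectiveSpecialLinearGroup (Fin 2) F)) := by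
    intro P htP
    haveI : Nontrivial P.toSubgroup := ⟨⟨⟨t, htP⟩, 1, fun h0 => ht1 (congrArg Subtype.val h0)⟩⟩
    obtain ⟨z, hz, hz1⟩ : ∃ z : P.toSubgroup, z ∈ center P.toSubgroup ∧ z ≠ 1 := by
      have h1 := P.2.center_nontrivial
      obtain ⟨z, hz⟩ := exists_ne (1 : center P.toSubgroup)
      exact ⟨z, z.2, fun h0 => hz (Subtype.ext h0)⟩
    refine (P.3 hC2 ?_).symm
    intro x hx
    rw [mem_centralizer_singleton_iff]
    by_cases hx1 : x = 1
    · rw [hx1, one_mul, mul_one]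
    have h1 : (z : Matrix.ProjectiveSpecialLinearGroup (Fin 2) F) * x = x * z := by
      have := (mem_center_iff.1 hz ⟨x, hx⟩)
      exact (congrArg Subtype.val this).symm
    have h2 : (z : Matrix.ProjectiveSpecialLinearGroup (Fin 2) F) * t = t * z := by
      have := (mem_center_iff.1 hz ⟨t, htP⟩)
      exact (congrArg Subtype.val this).symm
    have hz1' : (z : Matrix.ProjectiveSpecialLinearGroup (Fin 2) F) ≠ 1 := fun h0 => hz1 (Subtype.ext h0)
    exact hCA x z t hx1 hz1' ht1 h1.symm h2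
  apply h
  apply Sylow.ext
  rw [key S htS, key T htT]

theorem card_sylow_four {F : Type*} [Field F] [Fintype F] (q : ℕ) (hF : Fintype.card F = q)
    (hq : q % 8 = 3 ∨ q % 8 = 5) (S : Sylow 2 (Matrix.ProjectiveSpecialLinearGroup (Fin 2) F)) : Nat.card S = 4 := by
  haveI : Fact (Nat.Prime 2) := ⟨Nat.prime_two⟩
  have hodd : Odd (Fintype.card F) := by rw [hF, Nat.odd_iff]; omega
  have h1 := H14.SubField.card_PSL2_odd hodd
  rw [hF] at h1
  obtain ⟨i, hi⟩ := S.2.exists_card_eq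
  have h2 : Nat.card S * S.index = Nat.card (Matrix.ProjectiveSpecialLinearGroup (Fin 2) F) := S.card_mul_index
  have h3 : ¬ 2 ∣ S.index := S.not_dvd_index
  rw [← h2, hi] at h1
  -- q (q - 1) (q + 1) = 8 * odd
  obtain ⟨c, hc, hcodd⟩ : ∃ c, q * ((q - 1) * (q + 1)) = 8 * c ∧ c % 2 = 1 := by
    rcases hq with hq | hq
    · obtain ⟨m, rfl⟩ : ∃ m, q = 8 * m + 3 := ⟨q / 8, by omega⟩
      refine ⟨(8 * m + 3) * ((4 * m + 1) * (2 * m + 1)), ?_, ?_⟩
      · have : 8 * m + 3 - 1 = 8 * m + 2 := by omega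
        rw [this]; ring
      · rw [Nat.mul_mod, Nat.mul_mod (4 * m + 1)]
        have h4 : (8 * m + 3) % 2 = 1 := by omega
        have h5 : (4 * m + 1) % 2 = 1 := by omega
        have h6 : (2 * m + 1) % 2 = 1 := by omega
        rw [h4, h5, h6]
    · obtain ⟨m, rfl⟩ : ∃ m, q = 8 * m + 5 := ⟨q / 8, by omega⟩
      refine ⟨(8 * m + 5) * ((2 * m + 1) * (4 * m + 3)), ?_, ?_⟩
      · have : 8 * m + 5 - 1 = 8 * m + 4 := by omega
        rw [this]; ring
      · rw [Nat.mul_mod, Nat.mul_mod (2 * m + 1)]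
        have h4 : (8 * m + 5) % 2 = 1 := by omega
        have h5 : (2 * m + 1) % 2 = 1 := by omega
        have h6 : (4 * m + 3) % 2 = 1 := by omega
        rw [h4, h5, h6]
  rw [hc] at h1
  have h7 : 2 ^ i * S.index = 4 * c := by omega
  have hc2 : ¬ 2 ∣ c := by omega
  rw [hi]
  rcases Nat.lt_trichotomy i 2 with h8 | h8 | h8
  · exfalso
    interval_cases i
    · rw [pow_zero, one_mul] at h7; exact h3 ⟨2 * c, by omega⟩
    · rw [pow_one] at h7; exact h3 ⟨c, by omega⟩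
  · rw [h8]; norm_num
  · exfalso
    obtain ⟨j, rfl⟩ := Nat.exists_eq_add_of_lt h8
    apply hc2
    refine ⟨2 ^ j * S.index, ?_⟩
    have : 2 ^ (2 + j + 1) = 4 * (2 * 2 ^ j) := by ring
    rw [this] at h7
    have h9 : 4 * (2 * (2 ^ j * S.index)) = 4 * c := by rw [← h7]; ring
    omega

theorem psl2_38_ab {F : Type*} [Field F] [Fintype F] (q : ℕ) (hF : Fintype.card F = q) (hq : q % 8 = 3 ∨ q % 8 = 5)
    (S : Sylow 2 (Matrix.ProjectiveSpecialLinearGroup (Fin 2) F)) : ∀ x ∈ S, ∀ y ∈ S, x * y = y * x := by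
  haveI : Fact (Nat.Prime 2) := ⟨Nat.prime_two⟩
  have h4 := card_sylow_four q hF hq S
  have hc : ∀ x y : S, x * y = y * x := by
    have := IsPGroup.isMulCommutative_of_card_eq_prime_sq (p := 2) (G := S) (by rw [h4]; norm_num)
    exact this.is_comm.comm
  intro x hx y hy
  exact congrArg Subtype.val (hc ⟨x, hx⟩ ⟨y, hy⟩)

/-- abelian Sylow 2-subgroups pass to all 2-subgroups -/
theorem comm_of_two {G : Type*} [Group G] [Finite G] (h : ∀ S : Sylow 2 G, ∀ x ∈ S, ∀ y ∈ S, x * y = y * x)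
    (A : Subgroup G) (hA : IsPGroup 2 A) : ∀ x ∈ A, ∀ y ∈ A, x * y = y * x := by
  obtain ⟨P, hP⟩ := hA.exists_le_sylow
  intro x hx y hy
  exact h P x (hP hx) y (hP hy)

theorem three_pow_odd (n : ℕ) : 3 ^ (2 * n + 1) % 8 = 3 := by
  induction n with
  | zero => rfl
  | succ n ih =>
    have : 3 ^ (2 * (n + 1) + 1) = 9 * 3 ^ (2 * n + 1) := by ring
    rw [this]; omega

theorem sylow_conj_comm {G : Type*} [Group G] [Finite G] (A : Subgroup G) (hA : IsPGroup 2 A)
    (hAc : ∀ x ∈ A, ∀ y ∈ A, x * y = y * x) (hidx : ¬ 2 ∣ A.index) :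
    ∀ S : Sylow 2 G, ∀ x ∈ S, ∀ y ∈ S, x * y = y * x := by
  haveI : Fact (Nat.Prime 2) := ⟨Nat.prime_two⟩
  let P : Sylow 2 G := hA.toSylow hidx
  intro S x hx y hy
  obtain ⟨g, rfl⟩ := MulAction.exists_smul_eq G P S
  have hmem : ∀ z : G, z ∈ ((g • P : Sylow 2 G) : Subgroup G) → g⁻¹ * z * g ∈ A := by
    intro z hz
    rw [Sylow.coe_subgroup_smul, Subgroup.mem_pointwise_smul_iff_inv_smul_mem] at hz
    simpa [P, MulAut.smul_def, MulAut.conj_apply, mul_assoc, ← map_inv] using hz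
  have h1 := hAc _ (hmem x hx) _ (hmem y hy)
  have h2 : g⁻¹ * x * g * (g⁻¹ * y * g) = g⁻¹ * (x * y) * g := by group
  have h3 : g⁻¹ * y * g * (g⁻¹ * x * g) = g⁻¹ * (y * x) * g := by group
  rw [h2, h3] at h1
  exact mul_left_cancel (mul_right_cancel h1)

theorem ree_ab {G : Type*} [Group G] [Finite G] (h : Cfsg.IsReeType G) :
    ∀ S : Sylow 2 G, ∀ x ∈ S, ∀ y ∈ S, x * y = y * x := by
  haveI : Fact (Nat.Prime 2) := ⟨Nat.prime_two⟩
  obtain ⟨-, -, t, K, n, hn, ht, hidx, ⟨htC, hKC, hcomm, hinf, hsup⟩, F, _, _, hF, ⟨e⟩⟩ := h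
  have hKab : ∀ S : Sylow 2 K, ∀ x ∈ S, ∀ y ∈ S, x * y = y * x := by
    intro S x hx y hy
    have h1 : IsPGroup 2 ((S : Subgroup K).map e.toMonoidHom) := S.2.map _
    have h2 := comm_of_two (psl2_38_ab (F := F) _ hF (Or.inl (three_pow_odd n))) _ h1 (e x) ⟨x, hx, rfl⟩ (e y)
      ⟨y, hy, rfl⟩
    apply e.injective
    rw [map_mul, map_mul, h2]
  set C := centralizer ({t} : Set G) with hC
  obtain ⟨Q⟩ : Nonempty (Sylow 2 C) := inferInstance
  have hQ2 : IsPGroup 2 ((Q : Subgroup C).map C.subtype) := Q.2.map _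
  refine sylow_conj_comm ((Q : Subgroup C).map C.subtype) hQ2 ?_ ?_
  · -- commutativity
    let S' : Subgroup K :=
      { carrier := {k | ∃ z ∈ zpowers t, z * (k : G) ∈ (Q : Subgroup C).map C.subtype}
        one_mem' := ⟨1, one_mem _, by rw [OneMemClass.coe_one, mul_one]; exact one_mem _⟩
        mul_mem' := by
          rintro a b ⟨z, hz, ha⟩ ⟨w, hw, hb⟩
          refine ⟨z * w, mul_mem hz hw, ?_⟩
          have h1 : z * w * ((a * b : K) : G) = z * a * (w * b) := by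
            rw [Subgroup.coe_mul, mul_assoc z w, ← mul_assoc w, hcomm w hw a a.2]
            group
          rw [h1]
          exact mul_mem ha hb
        inv_mem' := by
          rintro a ⟨z, hz, ha⟩
          refine ⟨z⁻¹, inv_mem hz, ?_⟩
          have h1 : z⁻¹ * ((a⁻¹ : K) : G) = (z * a)⁻¹ := by
            rw [Subgroup.coe_inv, hcomm z hz a a.2, mul_inv_rev]
          rw [h1]
          exact inv_mem ha }
    have hS' : IsPGroup 2 S' := by
      rintro ⟨k, z, hz, hk⟩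
      obtain ⟨m, hm⟩ := hQ2 ⟨_, hk⟩
      have hm' : (z * (k : G)) ^ 2 ^ m = 1 := congrArg Subtype.val hm
      rw [(show Commute z (k : G) from hcomm z hz k k.2).mul_pow] at hm'
      refine ⟨m, ?_⟩
      apply Subtype.ext
      apply Subtype.ext
      have h1 : (k : G) ^ 2 ^ m = (z ^ 2 ^ m)⁻¹ := eq_inv_of_mul_eq_one_right hm'
      have h2 : (k : G) ^ 2 ^ m ∈ zpowers t ⊓ K :=
        mem_inf.2 ⟨by rw [h1]; exact (zpowers t).inv_mem ((zpowers t).pow_mem hz _), K.pow_mem k.2 _⟩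
      rw [hinf, mem_bot] at h2
      exact h2
    have hS'c := comm_of_two hKab S' hS'
    have hdec : ∀ x ∈ (Q : Subgroup C).map C.subtype, ∃ z ∈ zpowers t, ∃ k : K, k ∈ S' ∧ x = z * k := by
      intro x hx
      have hxC : x ∈ C := by
        obtain ⟨y, -, rfl⟩ := hx
        exact y.2
      rw [← hsup] at hxC
      let D : Subgroup G :=
          { carrier := {x | ∃ z ∈ zpowers t, ∃ k ∈ K, x = z * k}
            one_mem' := ⟨1, one_mem _, 1, one_mem _, by simp⟩
            mul_mem' := by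
              rintro a b ⟨z, hz, k, hk, rfl⟩ ⟨w, hw, l, hl, rfl⟩
              refine ⟨z * w, mul_mem hz hw, k * l, mul_mem hk hl, ?_⟩
              have := hcomm w hw k hk
              rw [mul_assoc z k, ← mul_assoc k w, ← this]
              group
            inv_mem' := by
              rintro a ⟨z, hz, k, hk, rfl⟩
              exact ⟨z⁻¹, (zpowers t).inv_mem hz, k⁻¹, K.inv_mem hk, by
                rw [hcomm z hz k hk, mul_inv_rev]⟩ }
      have hle : zpowers t ⊔ K ≤ D := by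
        rw [sup_le_iff]
        exact ⟨fun z hz => ⟨z, hz, 1, one_mem _, by rw [mul_one]⟩, fun k hk => ⟨1, one_mem _, k, hk, by rw [one_mul]⟩⟩
      obtain ⟨z, hz, k, hk, rfl⟩ := hle hxC
      exact ⟨z, hz, ⟨k, hk⟩, ⟨z, hz, hx⟩, rfl⟩
    intro x hx y hy
    obtain ⟨z, hz, k, hk, rfl⟩ := hdec x hx
    obtain ⟨w, hw, l, hl, rfl⟩ := hdec y hy
    have h1 : (k : G) * l = l * k := congrArg Subtype.val (hS'c k hk l hl)
    have h2 := hcomm w hw k k.2
    have h3 := hcomm z hz l l.2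
    have h4 : z * w = w * z := by
      obtain ⟨i, rfl⟩ := mem_zpowers_iff.1 hz
      obtain ⟨j, rfl⟩ := mem_zpowers_iff.1 hw
      rw [← zpow_add, ← zpow_add, add_comm]
    calc z * k * (w * l) = z * (k * w) * l := by group
      _ = z * (w * k) * l := by rw [h2]
      _ = (z * w) * (k * l) := by group
      _ = (w * z) * (l * k) := by rw [h4, h1]
      _ = w * (z * l) * k := by group
      _ = w * (l * z) * k := by rw [h3]
      _ = w * l * (z * k) := by group
  · -- odd index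
    intro h2
    have h3 : ((Q : Subgroup C).map C.subtype).index = (Q : Subgroup C).index * C.index := by
      rw [Subgroup.index_map_subtype]
    rw [h3] at h2
    rcases (Nat.Prime.dvd_mul Nat.prime_two).1 h2 with h2 | h2
    · exact Q.not_dvd_index h2
    · rw [Nat.odd_iff] at hidx
      omega

end Cfsg.Agent.H99.Rt
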