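import Cfsg.Agent.H99.ConjType
import Cfsg.Agent.H99.SLConj
import Cfsg.Agent.H99.SLOrder
import Cfsg.Agent.H99.OrthDim
import Cfsg.Agent.H99.UniElt

set_option autoImplicit false
set_option linter.unusedVariables false
open scoped MatrixGroups

namespace Cfsg.Agent.H99.SD

open Module Matrix Polynomial Cfsg.Agent.H99

/-- `x` is a similitude of a non-degenerate form with respect to `σ` -/
def Sml {F V : Type*} [Field F] [AddCommGroup V] [Module F V] (σ : F →+* F) (x : V →ₗ[F] V) : Prop :=
  ∃ B : V → V → F, EForm σ 1 B ∧ ND B (⊤ : Submodule F V) ∧ ∃ l : F, l ≠ 0 ∧ ∀ u v, B (x u) (x v) = l * B u v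

section
variable {F V : Type*} [Field F] [AddCommGroup V] [Module F V]

theorem mem_eig {x : V →ₗ[F] V} {c : F} (v : V) : v ∈ LinearMap.ker (x - c • (1 : V →ₗ[F] V)) ↔ x v = c • v := by
  rw [LinearMap.mem_ker, LinearMap.sub_apply, sub_eq_zero]
  rfl

theorem eig_le [Finite F] [FiniteDimensional F V] {σ : F →+* F} {ε : F} {B : V → V → F} (hE : EForm σ ε B) (hND : ND B (⊤ : Submodule F V))
    {x : V →ₗ[F] V} {l c d : F} (hx : ∀ u v, B (x u) (x v) = l * B u v) (hd : d ≠ 0) (hcd : c * σ d = l) :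
    finrank F (LinearMap.ker (x - d • (1 : V →ₗ[F] V))) ≤ finrank F (LinearMap.ker (x - c • (1 : V →ₗ[F] V))) := by
  have h1 : LinearMap.range (x - c • (1 : V →ₗ[F] V)) ≤ orth hE.oform (LinearMap.ker (x - d • (1 : V →ₗ[F] V))) := by
    rintro _ ⟨u, rfl⟩ v hv
    rw [mem_eig] at hv
    have h2 := hx u v
    rw [hv, hE.smul_right] at h2
    have hσ : σ d ≠ 0 := (map_ne_zero σ).mpr hd
    have h3 : B ((x - c • (1 : V →ₗ[F] V)) u) v = B (x u) v - c * B u v := by
      rw [LinearMap.sub_apply, LinearMap.smul_apply, Module.End.one_apply, hE.oform.sub_left, hE.smul_left]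
    rw [h3]
    apply mul_left_cancel₀ hσ
    rw [mul_zero]
    linear_combination h2 + (-B u v) * hcd
  have h2 := hE.finrank_add_orth hND (LinearMap.ker (x - d • (1 : V →ₗ[F] V)))
  have h3 := LinearMap.finrank_range_add_finrank_ker (x - c • (1 : V →ₗ[F] V))
  have h4 := Submodule.finrank_mono h1
  omega

end

section chi
variable {F : Type*} [Field F] {r : ℕ} [Fact r.Prime]

/-- characters of `ZMod r` -/
def chi (ζ : F) (a : ZMod r) : F := ζ ^ a.val

variable {ζ : F} (hζ : orderOf ζ = r)
set_option linter.unusedSectionVars false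
include hζ

theorem zeta_ne : ζ ≠ 0 := by
  rintro rfl
  have hr : r.Prime := Fact.out
  have h := pow_orderOf_eq_one (0 : F)
  rw [hζ, zero_pow hr.ne_zero] at h
  exact zero_ne_one h

theorem chi_add (a b : ZMod r) : chi ζ (a + b) = chi ζ a * chi ζ b := by
  have hp : ζ ^ r = 1 := hζ ▸ pow_orderOf_eq_one ζ
  unfold chi
  rw [ZMod.val_add, ← pow_add]
  exact (pow_eq_pow_mod _ hp).symm

theorem chi_zero : chi ζ (0 : ZMod r) = 1 := by
  unfold chi
  rw [ZMod.val_zero, pow_zero]

theorem chi_sum {ι : Type*} (s : Finset ι) (D : ι → ZMod r) : ∏ i ∈ s, chi ζ (D i) = chi ζ (∑ i ∈ s, D i) := by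
  classical
  induction s using Finset.induction_on with
  | empty => rw [Finset.prod_empty, Finset.sum_empty, chi_zero hζ]
  | insert i s hi ih => rw [Finset.prod_insert hi, Finset.sum_insert hi, chi_add hζ, ih]

theorem chi_ne (a : ZMod r) : chi ζ a ≠ 0 := pow_ne_zero _ (zeta_ne hζ)

theorem chi_pow (a : ZMod r) : chi ζ a ^ r = 1 := by
  have hp : ζ ^ r = 1 := hζ ▸ pow_orderOf_eq_one ζ
  unfold chi
  rw [← pow_mul, mul_comm, pow_mul, hp, one_pow]

theorem chi_inj {a b : ZMod r} (h : chi ζ a = chi ζ b) : a = b := by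
  unfold chi at h
  have ha : a.val < orderOf ζ := by rw [hζ]; exact ZMod.val_lt a
  have hb : b.val < orderOf ζ := by rw [hζ]; exact ZMod.val_lt b
  exact ZMod.val_injective r (pow_injOn_Iio_orderOf ha hb h)

theorem chi_surj {c : F} (hc : c ^ r = 1) : ∃ a : ZMod r, chi ζ a = c := by
  have hr : r.Prime := Fact.out
  have hprim : IsPrimitiveRoot ζ r := by
    rw [← hζ]
    exact IsPrimitiveRoot.orderOf ζ
  have : NeZero r := ⟨hr.ne_zero⟩
  obtain ⟨i, hi, h⟩ := hprim.eq_pow_of_pow_eq_one hc
  refine ⟨(i : ZMod r), ?_⟩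
  unfold chi
  rw [ZMod.val_natCast, Nat.mod_eq_of_lt hi, h]

end chi

section sym

/-- an involution from symmetric fibre cardinalities -/
theorem exists_invol {α : Type*} [Finite α] {r : ℕ} [Fact r.Prime] (D : α → ZMod r) (τ : ZMod r → ZMod r) (hτ : ∀ a, τ (τ a) = a)
    (h : ∀ a, Nat.card {i // D i = a} = Nat.card {i // D i = τ a}) :
    ∃ π : α → α, (∀ i, π (π i) = i) ∧ ∀ i, D (π i) = τ (D i) := by
  classical
  obtain ⟨e, he⟩ := exists_equiv_of_card_fiber D (fun i => τ (D i)) (by
    intro a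
    rw [h a]
    apply Nat.card_congr
    apply Equiv.subtypeEquivRight
    intro i
    constructor
    · intro h1
      rw [h1, hτ]
    · intro h1
      rw [← h1, hτ])
  have he1 : ∀ i, D (e i) = τ (D i) := by
    intro i
    have := he i
    rw [← this, hτ]
  have he2 : ∀ i, D (e.symm i) = τ (D i) := by
    intro i
    have := he1 (e.symm i)
    rw [e.apply_symm_apply] at this
    rw [this, hτ]
  refine ⟨fun i => if (D i).val < (τ (D i)).val then e i else if (τ (D i)).val < (D i).val then e.symm i else i, ?_, ?_⟩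
  · intro i
    simp only
    rcases lt_trichotomy (D i).val (τ (D i)).val with h1 | h1 | h1
    · rw [if_pos h1, he1, hτ, if_neg (not_lt.mpr h1.le), if_pos h1, e.symm_apply_apply]
    · have ha : ¬ (D i).val < (τ (D i)).val := by omega
      have hb : ¬ (τ (D i)).val < (D i).val := by omega
      rw [if_neg ha, if_neg hb, if_neg ha, if_neg hb]
    · rw [if_neg (not_lt.mpr h1.le), if_pos h1, he2, hτ, if_pos h1, e.apply_symm_apply]
  · intro i
    simp only
    rcases lt_trichotomy (D i).val (τ (D i)).val with h1 | h1 | h1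
    · rw [if_pos h1, he1]
    · rw [if_neg (by omega), if_neg (by omega)]
      exact ZMod.val_injective r h1
    · rw [if_neg (not_lt.mpr h1.le), if_pos h1, he2]

end sym

section form
variable {F : Type*} [Field F] {V ι : Type*} [AddCommGroup V] [Module F V] [Fintype ι] [DecidableEq ι]

/-- the form with `B (b i) (b (π i)) = 1` -/
theorem exists_perm_form {σ : F →+* F} (hσ : ∀ a, σ (σ a) = a) (b : Basis ι F V) (π : ι → ι) (hπ : ∀ i, π (π i) = i) :
    ∃ B : V → V → F, EForm σ 1 B ∧ ND B (⊤ : Submodule F V) ∧ ∀ u v, B u v = ∑ i, b.repr u i * σ (b.repr v (π i)) := by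
  let πe : ι ≃ ι := ⟨π, π, hπ, hπ⟩
  refine ⟨fun u v => ∑ i, b.repr u i * σ (b.repr v (π i)), ⟨?_, ?_, ?_, by ring⟩, ?_, fun _ _ => rfl⟩
  · intro x y v
    rw [← Finset.sum_add_distrib]
    apply Finset.sum_congr rfl
    intro i _
    rw [map_add, Finsupp.add_apply, add_mul]
  · intro c x v
    rw [Finset.mul_sum]
    apply Finset.sum_congr rfl
    intro i _
    rw [map_smul, Finsupp.smul_apply, smul_eq_mul, mul_assoc]
  · intro x y
    rw [one_mul, map_sum, ← Equiv.sum_comp πe]
    apply Finset.sum_congr rfl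
    intro i _
    change b.repr y (π i) * σ (b.repr x (π (π i))) = σ (b.repr x i * σ (b.repr y (π i)))
    rw [hπ, map_mul, hσ, mul_comm]
  · intro u _ h
    apply b.repr.map_eq_zero_iff.mp
    ext j
    have h1 := h (b (π j)) Submodule.mem_top
    simp only [Basis.repr_self] at h1
    rw [Finset.sum_eq_single j] at h1
    · rw [Finsupp.single_eq_same, map_one, mul_one] at h1
      exact h1
    · intro i _ hij
      rw [Finsupp.single_eq_of_ne, map_zero, mul_zero]
      intro h2
      apply hij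
      have := congrArg π h2
      rw [hπ, hπ] at this
      exact this
    · intro h2
      exact absurd (Finset.mem_univ _) h2

end form

end Cfsg.Agent.H99.SD
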