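import Cfsg.Agent.H99.SimDer

set_option autoImplicit false
set_option linter.unusedVariables false
set_option linter.unusedSectionVars false
open scoped MatrixGroups

namespace Cfsg.Agent.H99.SD

open Module Matrix Polynomial Cfsg.Agent.H99

section comb
variable {r : ℕ} [Fact r.Prime]

theorem cast_ne (hr5 : 5 ≤ r) (m : ℕ) (hm : 0 < m) (hm2 : m < 5 ∨ m = 6) : ((m : ℕ) : ZMod r) ≠ 0 := by
  have hr : r.Prime := Fact.out
  intro h
  rw [CharP.cast_eq_zero_iff (ZMod r) r] at h
  rcases hm2 with h2 | h2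
  · have := Nat.le_of_dvd hm h
    omega
  · subst h2
    rcases (Nat.Prime.dvd_mul hr).mp (show r ∣ 2 * 3 by exact h) with h3 | h3
    · have := Nat.le_of_dvd (by norm_num) h3
      omega
    · have := Nat.le_of_dvd (by norm_num) h3
      omega

theorem comb1 (hr2 : r ≠ 2) (k : ℕ) (b : ZMod r)
    (h : ∀ a : ZMod r, (if (1 : ZMod r) = a then 1 else 0) + ((if (1 : ZMod r) = a then 1 else 0) + ((if (-2 : ZMod r) = a then 1 else 0) + (if (0 : ZMod r) = a then k else 0))) =
      (if (1 : ZMod r) = b - a then 1 else 0) + ((if (1 : ZMod r) = b - a then 1 else 0) + ((if (-2 : ZMod r) = b - a then 1 else 0) + (if (0 : ZMod r) = b - a then k else 0)))) :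
    (k = 0 ∧ r = 3) ∨ (k = 2 ∧ r = 5) ∨ (k = 3 ∧ r = 3) := by
  have hr : r.Prime := Fact.out
  by_cases hr3 : r = 3
  · subst hr3
    have e30 : (3 : ZMod 3) = 0 := by
      have := ZMod.natCast_self 3
      exact_mod_cast this
    have e1 : (1 : ZMod 3) ≠ 0 := one_ne_zero
    have e2 : (2 : ZMod 3) ≠ 0 := fun h => e1 (by linear_combination e30 - h)
    have em : (-2 : ZMod 3) = 1 := by linear_combination -e30
    rw [em] at h
    have h0 := h 0
    have h1 := h 1
    rw [if_neg e1, if_pos rfl, sub_zero] at h0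
    rw [if_pos rfl, if_neg e1.symm] at h1
    by_cases c1 : (1 : ZMod 3) = b - 1
    · have hb : b = 2 := by linear_combination -c1
      subst hb
      have m1 : ¬ (1 : ZMod 3) = 2 := fun h => e1 (by linear_combination -h)
      rw [if_neg m1, if_neg e2.symm] at h0
      exact Or.inl ⟨by omega, rfl⟩
    · rw [if_neg c1] at h1
      by_cases c2 : (0 : ZMod 3) = b - 1
      · rw [if_pos c2] at h1
        exact Or.inr (Or.inr ⟨by omega, rfl⟩)
      · rw [if_neg c2] at h1
        omega
  · have hr4 : r ≠ 4 := by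
      rintro rfl
      revert hr
      decide
    have hr5 : 5 ≤ r := by
      have := hr.two_le
      omega
    have e1 : (1 : ZMod r) ≠ 0 := one_ne_zero
    have e2 : (2 : ZMod r) ≠ 0 := by
      have := cast_ne hr5 2 (by norm_num) (by norm_num)
      exact_mod_cast this
    have e3 : (3 : ZMod r) ≠ 0 := by
      have := cast_ne hr5 3 (by norm_num) (by norm_num)
      exact_mod_cast this
    have e4 : (4 : ZMod r) ≠ 0 := by
      have := cast_ne hr5 4 (by norm_num) (by norm_num)
      exact_mod_cast this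
    have e6 : (6 : ZMod r) ≠ 0 := by
      have := cast_ne hr5 6 (by norm_num) (by norm_num)
      exact_mod_cast this
    have h1 := h 1
    have h2 := h (-2)
    have n1 : ¬ (-2 : ZMod r) = 1 := fun h => e3 (by linear_combination -h)
    have n2 : ¬ (0 : ZMod r) = 1 := fun h => e1 h.symm
    have n3 : ¬ (1 : ZMod r) = -2 := fun h => n1 h.symm
    have n4 : ¬ (0 : ZMod r) = -2 := fun h => e2 (by linear_combination h)
    rw [if_pos rfl, if_neg n1, if_neg n2] at h1
    rw [if_neg n3, if_pos rfl, if_neg n4] at h2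
    by_cases c1 : (1 : ZMod r) = b - 1
    · exfalso
      have hb : b = 2 := by linear_combination -c1
      subst hb
      have m1 : ¬ (1 : ZMod r) = 2 - -2 := fun h => e3 (by linear_combination -h)
      have m2 : ¬ (-2 : ZMod r) = 2 - -2 := fun h => e6 (by linear_combination -h)
      have m3 : ¬ (0 : ZMod r) = 2 - -2 := fun h => e4 (by linear_combination -h)
      rw [if_neg m1, if_neg m2, if_neg m3] at h2
      omega
    · rw [if_neg c1] at h1
      by_cases c2 : (0 : ZMod r) = b - 1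
      · have hb : b = 1 := by linear_combination -c2
        subst hb
        have m0 : ¬ (-2 : ZMod r) = 1 - 1 := fun h => e2 (by linear_combination -h)
        rw [if_neg m0, if_pos c2] at h1
        have m1 : ¬ (1 : ZMod r) = 1 - -2 := fun h => e2 (by linear_combination -h)
        have m3 : ¬ (0 : ZMod r) = 1 - -2 := fun h => e3 (by linear_combination -h)
        rw [if_neg m1, if_neg m3] at h2
        right; left
        refine ⟨by omega, ?_⟩
        by_cases c3 : (-2 : ZMod r) = 1 - -2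
        · have h5 : ((5 : ℕ) : ZMod r) = 0 := by
            push_cast
            linear_combination -c3
          rw [CharP.cast_eq_zero_iff (ZMod r) r] at h5
          exact (Nat.prime_dvd_prime_iff_eq hr Nat.prime_five).mp h5
        · rw [if_neg c3] at h2
          omega
      · exfalso
        rw [if_neg c2] at h1
        split_ifs at h1 <;> omega

theorem comb2 (hr2 : r ≠ 2) (k : ℕ) (hk : 2 ≤ k) (b : ZMod r)
    (h : ∀ a : ZMod r, (if (1 : ZMod r) = a then 1 else 0) + (if (0 : ZMod r) = a then k else 0) =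
      (if (1 : ZMod r) = b - a then 1 else 0) + (if (0 : ZMod r) = b - a then k else 0)) : False := by
  have hr : r.Prime := Fact.out
  have e1 : (1 : ZMod r) ≠ 0 := one_ne_zero
  have e2 : ¬ (1 : ZMod r) = 0 - 1 := by
    intro h
    have h1 : ((2 : ℕ) : ZMod r) = 0 := by
      push_cast
      linear_combination h
    rw [CharP.cast_eq_zero_iff (ZMod r) r] at h1
    exact hr2 ((Nat.prime_dvd_prime_iff_eq hr Nat.prime_two).mp h1)
  have h0 := h 0
  have h1 := h 1
  rw [if_neg e1, if_pos rfl, sub_zero] at h0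
  rw [if_pos rfl, if_neg e1.symm] at h1
  by_cases c1 : (0 : ZMod r) = b
  · subst c1
    rw [if_neg e2] at h1
    have e3 : ¬ (0 : ZMod r) = 0 - 1 := fun h => e1 (by linear_combination h)
    rw [if_neg e3] at h1
    omega
  · rw [if_neg c1] at h0
    split_ifs at h0 <;> omega

end comb

section fwd
variable {F : Type*} [Field F] [Fintype F] {r : ℕ} [Fact r.Prime] {n : ℕ}

theorem mult_symm {σ : F →+* F} {ζ : F} (hζ : orderOf ζ = r) (hσ : ∀ a : ZMod r, σ (chi ζ a) = chi ζ a) (hn : 0 < n) {w : F} (hw : w ≠ 0)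
    (D : Fin n → ZMod r) (h : Sml σ (Matrix.toLin' (Matrix.diagonal fun i => w * chi ζ (D i)))) :
    ∃ b : ZMod r, ∀ a, Nat.card {i // D i = a} = Nat.card {i // D i = b - a} := by
  classical
  obtain ⟨B, hE, hND, l, hl, hx⟩ := h
  obtain ⟨i, j, hij⟩ : ∃ i j : Fin n, B (Pi.single i 1) (Pi.single j 1) ≠ 0 := by
    by_contra hcon
    push Not at hcon
    have h1 : (Pi.single ⟨0, hn⟩ 1 : Fin n → F) = 0 := by
      apply hND _ Submodule.mem_top
      intro v _
      rw [← Finset.univ_sum_single v, hE.sum_right]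
      apply Finset.sum_eq_zero
      intro k _
      have h2 : (Pi.single k (v k) : Fin n → F) = v k • (Pi.single k 1 : Fin n → F) := by
        rw [← Pi.single_smul, smul_eq_mul, mul_one]
      rw [h2, hE.smul_right, hcon, mul_zero]
    have h2 := congrFun h1 ⟨0, hn⟩
    rw [Pi.single_eq_same] at h2
    exact one_ne_zero h2
  have hxi : ∀ k, Matrix.toLin' (Matrix.diagonal fun i => w * chi ζ (D i)) (Pi.single k 1 : Fin n → F) = (w * chi ζ (D k)) • (Pi.single k 1 : Fin n → F) := by
    intro k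
    rw [Matrix.toLin'_apply, Matrix.diagonal_mulVec_single, ← Pi.single_smul, smul_eq_mul]
  have hlam : w * σ w * chi ζ (D i + D j) = l := by
    have h1 := hx (Pi.single i 1) (Pi.single j 1)
    rw [hxi, hxi, hE.smul_left, hE.smul_right, map_mul, hσ] at h1
    apply mul_right_cancel₀ hij
    rw [← h1, chi_add hζ]
    ring
  have key : ∀ a, Nat.card {k // D k = D i + D j - a} ≤ Nat.card {k // D k = a} := by
    intro a
    have h1 := eig_le hE hND hx (c := w * chi ζ a) (d := w * chi ζ (D i + D j - a)) (mul_ne_zero hw (chi_ne hζ _)) (by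
      rw [map_mul, hσ, ← hlam]
      have h2 : chi ζ (D i + D j) = chi ζ a * chi ζ (D i + D j - a) := by rw [← chi_add hζ, add_sub_cancel]
      rw [h2]
      ring)
    rw [finrank_ker_diagonal, finrank_ker_diagonal] at h1
    have h3 : ∀ a : ZMod r, Nat.card {k // w * chi ζ (D k) = w * chi ζ a} = Nat.card {k // D k = a} := by
      intro a
      apply Nat.card_congr
      apply Equiv.subtypeEquivRight
      intro k
      constructor
      · intro h4
        exact chi_inj hζ (mul_left_cancel₀ hw h4)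
      · intro h4
        rw [h4]
    rw [h3, h3] at h1
    exact h1
  refine ⟨D i + D j, fun a => le_antisymm ?_ (key a)⟩
  have h1 := key (D i + D j - a)
  rwa [sub_sub_cancel] at h1

theorem der_D {σ : F →+* F} {ζ : F} (hζ : orderOf ζ = r) (hσ : ∀ a : ZMod r, σ (chi ζ a) = chi ζ a) (hn : 0 < n)
    (hfix : ∀ x : Matrix.SpecialLinearGroup (Fin n) F,
      (∃ z : F, ((x ^ r : Matrix.SpecialLinearGroup (Fin n) F) : Matrix (Fin n) (Fin n) F) = z • (1 : Matrix (Fin n) (Fin n) F)) →
      (∀ z : F, (x : Matrix (Fin n) (Fin n) F) ≠ z • (1 : Matrix (Fin n) (Fin n) F)) → Sml σ (Matrix.toLin' (x : Matrix (Fin n) (Fin n) F)))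
    {w : F} (D : Fin n → ZMod r) (hD : ∃ i j, D i ≠ D j) (hw : w ^ n * chi ζ (∑ i, D i) = 1) :
    ∃ b : ZMod r, ∀ a, Nat.card {i // D i = a} = Nat.card {i // D i = b - a} := by
  classical
  have hr : r.Prime := Fact.out
  have hw0 : w ≠ 0 := by
    rintro rfl
    rw [zero_pow hn.ne', zero_mul] at hw
    exact zero_ne_one hw
  have hdet : (Matrix.diagonal fun i => w * chi ζ (D i)).det = 1 := by
    rw [Matrix.det_diagonal, Finset.prod_mul_distrib, Finset.prod_const, Finset.card_univ, Fintype.card_fin, chi_sum hζ, hw]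
  obtain ⟨x, hx⟩ : ∃ x : Matrix.SpecialLinearGroup (Fin n) F, (x : Matrix (Fin n) (Fin n) F) = Matrix.diagonal fun i => w * chi ζ (D i) := ⟨⟨_, hdet⟩, rfl⟩
  have h1 := hfix x ⟨w ^ r, by
    rw [Matrix.SpecialLinearGroup.coe_pow, hx, Matrix.diagonal_pow, ← Matrix.diagonal_one, ← Matrix.diagonal_smul]
    congr 1
    funext i
    simp only [Pi.pow_apply, Pi.smul_apply, smul_eq_mul, mul_one]
    rw [mul_pow, chi_pow hζ, mul_one]⟩ (by
    intro z hz
    obtain ⟨i, j, hij⟩ := hD
    apply hij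
    rw [hx] at hz
    have h1 := congrFun (congrFun hz i) i
    have h2 := congrFun (congrFun hz j) j
    rw [Matrix.diagonal_apply_eq, Matrix.smul_apply, Matrix.one_apply_eq, smul_eq_mul, mul_one] at h1 h2
    rw [← h2] at h1
    exact chi_inj hζ (mul_left_cancel₀ hw0 h1))
  rw [hx] at h1
  exact mult_symm hζ hσ hn hw0 D h1

theorem card_fib {m : ℕ} (D : Fin m → ZMod r) (a : ZMod r) : Nat.card {i // D i = a} = ∑ i, if D i = a then 1 else 0 := by
  classical
  rw [Nat.card_eq_fintype_card, Fintype.card_subtype, Finset.card_filter]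

theorem exists_ord {k : ℕ} (hk : k ∣ Fintype.card F - 1) : ∃ ζ : F, orderOf ζ = k := by
  classical
  obtain ⟨g, hg⟩ := IsCyclic.exists_ofOrder_eq_natCard (α := Fˣ)
  rw [Nat.card_eq_fintype_card, Fintype.card_units] at hg
  have hpos : 0 < Fintype.card F - 1 := by
    have := Fintype.one_lt_card (α := F)
    omega
  obtain ⟨m, hm⟩ := hk
  have hm0 : 0 < m := by
    rcases Nat.eq_zero_or_pos m with h | h
    · subst h
      omega
    · exact h
  refine ⟨((g ^ m : Fˣ) : F), ?_⟩
  rw [orderOf_units, orderOf_pow_of_dvd hm0.ne' (by rw [hg, hm]; exact dvd_mul_left m k), hg, hm, Nat.mul_div_cancel _ hm0]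

theorem forward_e1 {σ : F →+* F} (hr2 : r ≠ 2) (hrq : r ∣ Fintype.card F - 1) (hσ : ∀ c : F, c ^ r = 1 → σ c = c) (hn : 3 ≤ n) (hgap : ¬ (n = 6 ∧ r = 3))
    (hfix : ∀ x : Matrix.SpecialLinearGroup (Fin n) F,
      (∃ z : F, ((x ^ r : Matrix.SpecialLinearGroup (Fin n) F) : Matrix (Fin n) (Fin n) F) = z • (1 : Matrix (Fin n) (Fin n) F)) →
      (∀ z : F, (x : Matrix (Fin n) (Fin n) F) ≠ z • (1 : Matrix (Fin n) (Fin n) F)) → Sml σ (Matrix.toLin' (x : Matrix (Fin n) (Fin n) F))) :
    (r = 3 ∨ r = 5) ∧ n = r ∧ padicValNat r (Fintype.card F - 1) = 1 := by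
  classical
  have hr : r.Prime := Fact.out
  have hpos : 0 < Fintype.card F - 1 := by
    have := Fintype.one_lt_card (α := F)
    omega
  obtain ⟨ζ, hζ⟩ := exists_ord hrq
  have hσ' : ∀ a : ZMod r, σ (chi ζ a) = chi ζ a := fun a => hσ _ (chi_pow hζ a)
  have step1 : (r = 3 ∨ r = 5) ∧ n = r := by
    obtain ⟨k, rfl⟩ : ∃ k, n = k + 3 := ⟨n - 3, by omega⟩
    by_cases hk3 : k = 0 ∧ r = 3
    · exact ⟨Or.inl hk3.2, by omega⟩
    obtain ⟨b, hb⟩ := der_D hζ hσ' (by omega) hfix (w := 1) (Fin.cons 1 (Fin.cons 1 (Fin.cons (-2) (fun _ : Fin k => 0))))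
      (by
        rcases Nat.eq_zero_or_pos k with hk | hk
        · refine ⟨0, 2, ?_⟩
          subst hk
          intro h
          have h1 : (1 : ZMod r) = -2 := h
          have h2 : ((3 : ℕ) : ZMod r) = 0 := by
            push_cast
            linear_combination h1
          rw [CharP.cast_eq_zero_iff (ZMod r) r] at h2
          exact hk3 ⟨rfl, (Nat.prime_dvd_prime_iff_eq hr Nat.prime_three).mp h2⟩
        · refine ⟨0, Fin.succ (Fin.succ (Fin.succ ⟨0, hk⟩)), ?_⟩
          rw [Fin.cons_zero, Fin.cons_succ, Fin.cons_succ, Fin.cons_succ]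
          exact one_ne_zero) (by
        rw [one_pow, one_mul, Fin.sum_univ_succ, Fin.sum_univ_succ, Fin.sum_univ_succ]
        simp only [Fin.cons_zero, Fin.cons_succ, Finset.sum_const_zero, add_zero]
        have : (1 : ZMod r) + (1 + -2) = 0 := by ring
        rw [this, chi_zero hζ])
    have hm : ∀ a : ZMod r, Nat.card {i : Fin (k + 3) // (Fin.cons 1 (Fin.cons 1 (Fin.cons (-2) (fun _ : Fin k => 0))) : Fin (k + 3) → ZMod r) i = a} =
        (if (1 : ZMod r) = a then 1 else 0) + ((if (1 : ZMod r) = a then 1 else 0) + ((if (-2 : ZMod r) = a then 1 else 0) + (if (0 : ZMod r) = a then k else 0))) := by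
      intro a
      rw [card_fib, Fin.sum_univ_succ, Fin.sum_univ_succ, Fin.sum_univ_succ]
      simp only [Fin.cons_zero, Fin.cons_succ, Finset.sum_const, Finset.card_univ, Fintype.card_fin, smul_eq_mul]
      split_ifs <;> simp
    simp only [hm] at hb
    rcases comb1 hr2 k b hb with ⟨h1, h2⟩ | ⟨h1, h2⟩ | ⟨h1, h2⟩
    · exact ⟨Or.inl h2, by omega⟩
    · exact ⟨Or.inr h2, by omega⟩
    · exact absurd ⟨by omega, h2⟩ hgap
  refine ⟨step1.1, step1.2, ?_⟩
  have hnr := step1.2
  by_contra hv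
  have hv1 : 1 ≤ padicValNat r (Fintype.card F - 1) := one_le_padicValNat_of_dvd hpos.ne' hrq
  have hdvd : r ^ 2 ∣ Fintype.card F - 1 := (padicValNat_dvd_iff_le hpos.ne').mpr (by omega)
  obtain ⟨η, hη⟩ := exists_ord hdvd
  have hη0 : η ≠ 0 := by
    rintro rfl
    have h := pow_orderOf_eq_one (0 : F)
    rw [hη, zero_pow (pow_ne_zero _ hr.ne_zero)] at h
    exact zero_ne_one h
  have hζ' : orderOf (η ^ r) = r := by
    rw [orderOf_pow_of_dvd hr.ne_zero (by rw [hη]; exact dvd_pow_self r two_ne_zero), hη, pow_two, Nat.mul_div_cancel _ hr.pos]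
  have hσ'' : ∀ a : ZMod r, σ (chi (η ^ r) a) = chi (η ^ r) a := fun a => hσ _ (chi_pow hζ' a)
  subst hnr
  obtain ⟨k, hk⟩ : ∃ k, n = k + 1 := ⟨n - 1, by omega⟩
  have hval1 : (1 : ZMod n).val = 1 := by
    haveI : Fact (1 < n) := ⟨by omega⟩
    exact ZMod.val_one n
  have hcast : ∀ (N : ℕ) (hN : N = k + 1) (ρ : ZMod n), ∃ D : Fin N → ZMod n, (∑ i, D i = ρ) ∧ (∀ a, (∑ i, if D i = a then 1 else 0) = (if ρ = a then 1 else 0) + (if (0 : ZMod n) = a then k else 0)) ∧
      (0 < k → ρ ≠ 0 → ∃ i j, D i ≠ D j) := by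
    intro N hN ρ
    subst hN
    refine ⟨Fin.cons ρ (fun _ => 0), ?_, ?_, ?_⟩
    · rw [Fin.sum_univ_succ]
      simp only [Fin.cons_zero, Fin.cons_succ, Finset.sum_const_zero, add_zero]
    · intro a
      rw [Fin.sum_univ_succ]
      simp only [Fin.cons_zero, Fin.cons_succ, Finset.sum_const, Finset.card_univ, Fintype.card_fin, smul_eq_mul]
      split_ifs <;> simp
    · intro hk0 hρ
      refine ⟨0, Fin.succ ⟨0, hk0⟩, ?_⟩
      rw [Fin.cons_zero, Fin.cons_succ]
      exact hρ
  obtain ⟨D, hD1, hD2, hD3⟩ := hcast n hk 1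
  obtain ⟨b, hb⟩ := der_D hζ' hσ'' (by omega) hfix (w := η⁻¹) D (hD3 (by omega) one_ne_zero) (by
    rw [hD1]
    unfold chi
    rw [hval1, pow_one, ← mul_pow, inv_mul_cancel₀ hη0, one_pow])
  simp only [card_fib, hD2] at hb
  exact comb2 hr2 k (by omega) b hb

end fwd

end Cfsg.Agent.H99.SD
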