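import Cfsg.Agent.H99.SimDer2
import Cfsg.Agent.H99.SympElt

set_option autoImplicit false
set_option linter.unusedVariables false
set_option linter.unusedSectionVars false
open scoped MatrixGroups

namespace Cfsg.Agent.H99.SD

open Module Matrix Polynomial Cfsg.Agent.H99

section sym

theorem sum_fib {r : ℕ} [NeZero r] {α : Type*} [Fintype α] (D : α → ZMod r) :
    (∑ a : ZMod r, Nat.card {i // D i = a}) = Fintype.card α ∧ (∑ a : ZMod r, (Nat.card {i // D i = a} : ZMod r) * a) = ∑ i, D i := by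
  classical
  have h : ∀ a : ZMod r, Nat.card {i // D i = a} = (Finset.univ.filter (fun i => D i = a)).card := by
    intro a
    rw [Nat.card_eq_fintype_card, Fintype.card_subtype]
  simp only [h]
  constructor
  · rw [← Finset.card_univ, Finset.card_eq_sum_card_fiberwise (f := D) (t := Finset.univ) (fun _ _ => Finset.mem_univ _)]
  · rw [← Finset.sum_fiberwise' Finset.univ D (fun a => a)]
    apply Finset.sum_congr rfl
    intro a _
    rw [Finset.sum_const, nsmul_eq_mul]

theorem sym3 {α : Type*} [Fintype α] (hα : Fintype.card α = 3) (D : α → ZMod 3) (hD : ∑ i, D i = 0) :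
    ∃ b : ZMod 3, ∀ a, Nat.card {i // D i = a} = Nat.card {i // D i = b - a} := by
  obtain ⟨h1, h2⟩ := sum_fib D
  rw [hα] at h1
  rw [hD] at h2
  set m : ZMod 3 → ℕ := fun a => Nat.card {i // D i = a} with hm
  change (∑ a : ZMod 3, m a) = 3 at h1
  change (∑ a : ZMod 3, (m a : ZMod 3) * a) = 0 at h2
  change ∃ b : ZMod 3, ∀ a, m a = m (b - a)
  have h3 : m 0 + m 1 + m 2 = 3 := (Fin.sum_univ_three m).symm.trans h1
  have h4 : 3 ∣ m 1 + 2 * m 2 := by
    rw [← CharP.cast_eq_zero_iff (ZMod 3) 3, ← h2]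
    have h5 := Fin.sum_univ_three (fun a : ZMod 3 => (m a : ZMod 3) * a)
    have h6 : (∑ a : ZMod 3, (m a : ZMod 3) * a) = (m 0 : ZMod 3) * 0 + (m 1 : ZMod 3) * 1 + (m 2 : ZMod 3) * 2 := h5
    rw [h6]
    push_cast
    ring
  have h5 : m 1 = m 2 ∨ m 0 = m 1 ∨ m 0 = m 2 := by omega
  rcases h5 with h5 | h5 | h5
  · refine ⟨0, fun a => ?_⟩
    fin_cases a
    · rfl
    · exact h5
    · exact h5.symm
  · refine ⟨1, fun a => ?_⟩
    fin_cases a
    · exact h5
    · exact h5.symm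
    · rfl
  · refine ⟨2, fun a => ?_⟩
    fin_cases a
    · exact h5
    · rfl
    · exact h5.symm

set_option maxHeartbeats 4000000 in
theorem five_aux (a0 a1 a2 a3 a4 : ℕ) (h3 : a0 + a1 + a2 + a3 + a4 = 5) (h4 : 5 ∣ a1 + 2 * a2 + 3 * a3 + 4 * a4) :
    (a1 = a4 ∧ a2 = a3) ∨ (a0 = a1 ∧ a2 = a4) ∨ (a0 = a2 ∧ a3 = a4) ∨ (a0 = a3 ∧ a1 = a2) ∨ (a0 = a4 ∧ a1 = a3) := by
  obtain ⟨k, hk⟩ := h4
  have h0 : a0 ≤ 5 := by omega
  have h6 : a1 ≤ 5 - a0 := by omega
  have h7 : a2 ≤ 5 - a0 - a1 := by omega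
  interval_cases a0 <;> interval_cases a1 <;> interval_cases a2 <;> omega

theorem sym5 {α : Type*} [Fintype α] (hα : Fintype.card α = 5) (D : α → ZMod 5) (hD : ∑ i, D i = 0) :
    ∃ b : ZMod 5, ∀ a, Nat.card {i // D i = a} = Nat.card {i // D i = b - a} := by
  obtain ⟨h1, h2⟩ := sum_fib D
  rw [hα] at h1
  rw [hD] at h2
  set m : ZMod 5 → ℕ := fun a => Nat.card {i // D i = a} with hm
  change (∑ a : ZMod 5, m a) = 5 at h1
  change (∑ a : ZMod 5, (m a : ZMod 5) * a) = 0 at h2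
  change ∃ b : ZMod 5, ∀ a, m a = m (b - a)
  have h3 : m 0 + m 1 + m 2 + m 3 + m 4 = 5 := (Fin.sum_univ_five m).symm.trans h1
  have h4 : 5 ∣ m 1 + 2 * m 2 + 3 * m 3 + 4 * m 4 := by
    rw [← CharP.cast_eq_zero_iff (ZMod 5) 5, ← h2]
    have h5 := Fin.sum_univ_five (fun a : ZMod 5 => (m a : ZMod 5) * a)
    have h6 : (∑ a : ZMod 5, (m a : ZMod 5) * a) = (m 0 : ZMod 5) * 0 + (m 1 : ZMod 5) * 1 + (m 2 : ZMod 5) * 2 + (m 3 : ZMod 5) * 3 + (m 4 : ZMod 5) * 4 := h5
    rw [h6]
    push_cast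
    ring
  have h5 : (m 1 = m 4 ∧ m 2 = m 3) ∨ (m 0 = m 1 ∧ m 2 = m 4) ∨ (m 0 = m 2 ∧ m 3 = m 4) ∨ (m 0 = m 3 ∧ m 1 = m 2) ∨ (m 0 = m 4 ∧ m 1 = m 3) := five_aux _ _ _ _ _ h3 h4
  rcases h5 with ⟨h5, h6⟩ | ⟨h5, h6⟩ | ⟨h5, h6⟩ | ⟨h5, h6⟩ | ⟨h5, h6⟩
  · refine ⟨0, fun a => ?_⟩
    fin_cases a
    · rfl
    · exact h5
    · exact h6
    · exact h6.symm
    · exact h5.symm
  · refine ⟨1, fun a => ?_⟩
    fin_cases a
    · exact h5
    · exact h5.symm
    · exact h6
    · rfl
    · exact h6.symm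
  · refine ⟨2, fun a => ?_⟩
    fin_cases a
    · exact h5
    · rfl
    · exact h5.symm
    · exact h6
    · exact h6.symm
  · refine ⟨3, fun a => ?_⟩
    fin_cases a
    · exact h5
    · exact h6
    · exact h6.symm
    · exact h5.symm
    · rfl
  · refine ⟨4, fun a => ?_⟩
    fin_cases a
    · exact h5
    · exact h6
    · rfl
    · exact h6.symm
    · exact h5.symm

end sym

section bwd
universe u
variable {F : Type u} [Field F] [Fintype F] {p : ℕ} [Fact p.Prime] [CharP F p] {r : ℕ} [Fact r.Prime]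

theorem backward_e1 {σ : F →+* F} (hσσ : ∀ a, σ (σ a) = a) (hrp : r ≠ p) (hr2 : r ≠ 2) (hrq : r ∣ Fintype.card F - 1) (hσ : ∀ c : F, c ^ r = 1 → σ c = c)
    (hr : r = 3 ∨ r = 5) (hv : padicValNat r (Fintype.card F - 1) = 1)
    (x : Matrix.SpecialLinearGroup (Fin r) F) (z : F)
    (hz : ((x ^ r : Matrix.SpecialLinearGroup (Fin r) F) : Matrix (Fin r) (Fin r) F) = z • (1 : Matrix (Fin r) (Fin r) F)) :
    Sml σ (Matrix.toLin' (x : Matrix (Fin r) (Fin r) F)) := by
  classical
  have hrr : r.Prime := Fact.out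
  have hodd : Odd r := hrr.odd_of_ne_two hr2
  have hfd : finrank F (Fin r → F) = r := by rw [finrank_fintype_fun_eq_card, Fintype.card_fin]
  have hpos : 0 < Fintype.card F - 1 := by
    have := Fintype.one_lt_card (α := F)
    omega
  have hzr : z ^ r = 1 := by
    have h1 := congrArg Matrix.det hz
    rw [Matrix.det_smul, Matrix.det_one, mul_one, Fintype.card_fin, Matrix.SpecialLinearGroup.det_coe] at h1
    exact h1.symm
  rw [Matrix.SpecialLinearGroup.coe_pow] at hz
  have hf : (Matrix.toLin' (x : Matrix (Fin r) (Fin r) F)) ^ r = z • (1 : (Fin r → F) →ₗ[F] (Fin r → F)) := toLin_pow_eq hz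
  have hz1 : z = 1 := by
    by_cases hw : ∃ w : F, w ^ r = z
    · obtain ⟨w, hw⟩ := hw
      have hw0 : w ≠ 0 := by
        rintro rfl
        rw [zero_pow hrr.ne_zero] at hw
        rw [← hw, zero_pow hrr.ne_zero] at hzr
        exact zero_ne_one hzr
      have h1 : w ^ (r ^ 2) = 1 := by rw [pow_two, pow_mul, hw, hzr]
      have h2 : w ^ (Fintype.card F - 1) = 1 := FiniteField.pow_card_sub_one_eq_one w hw0
      have h3 := pow_gcd_eq_one.mpr ⟨h1, h2⟩
      obtain ⟨i, hi, hg⟩ := (Nat.dvd_prime_pow hrr).mp (Nat.gcd_dvd_left (r ^ 2) (Fintype.card F - 1))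
      rw [hg] at h3
      have hi1 : i ≤ 1 := by
        by_contra h4
        have h5 : i = 2 := by omega
        have h6 : r ^ 2 ∣ Fintype.card F - 1 := by
          rw [h5] at hg
          rw [← hg]
          exact Nat.gcd_dvd_right _ _
        have h7 := (padicValNat_dvd_iff_le (p := r) hpos.ne').mp h6
        omega
      obtain ⟨j, hj⟩ : r ^ i ∣ r := by
        have := pow_dvd_pow r hi1
        rwa [pow_one] at this
      have h8 : w ^ r = 1 := by
        conv_lhs => rw [hj]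
        rw [pow_mul, h3, one_pow]
      rw [← hw, h8]
    · push Not at hw
      obtain ⟨-, hdet⟩ := det_of_nonpower hrr z hw _ hf
      rw [LinearMap.det_toLin', Matrix.SpecialLinearGroup.det_coe, hfd, Nat.div_self hrr.pos, pow_one, (hodd.add_one).neg_one_pow, one_mul] at hdet
      exact hdet.symm
  rw [hz1, one_smul] at hf
  obtain ⟨b, c, hc1, hc2⟩ := exists_eigenbasis (p := p) (r := r) hrp hrq (Matrix.toLin' (x : Matrix (Fin r) (Fin r) F)) hf
  obtain ⟨ζ, hζ⟩ := exists_ord hrq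
  have hσ' : ∀ a : ZMod r, σ (chi ζ a) = chi ζ a := fun a => hσ _ (chi_pow hζ a)
  choose D hD using fun j => chi_surj hζ (hc1 j)
  have hdet := det_of_eigenbasis b _ c hc2
  rw [LinearMap.det_toLin', Matrix.SpecialLinearGroup.det_coe] at hdet
  have hsum : ∑ j, D j = 0 := by
    apply chi_inj hζ
    rw [← chi_sum hζ, chi_zero hζ, hdet]
    exact Finset.prod_congr rfl (fun j _ => hD j)
  have hcard : Fintype.card (Fin (finrank F (Fin r → F))) = r := by rw [Fintype.card_fin, hfd]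
  obtain ⟨β, hβ⟩ : ∃ β : ZMod r, ∀ a, Nat.card {i // D i = a} = Nat.card {i // D i = β - a} := by
    rcases hr with rfl | rfl
    · exact sym3 hcard D hsum
    · exact sym5 hcard D hsum
  obtain ⟨π, hπ1, hπ2⟩ := exists_invol D (fun a => β - a) (fun a => sub_sub_cancel β a) hβ
  obtain ⟨B, hB1, hB2, hB3⟩ := exists_perm_form hσσ b π hπ1
  refine ⟨B, hB1, hB2, chi ζ β, chi_ne hζ β, ?_⟩
  have hrep : ∀ u i, b.repr (Matrix.toLin' (x : Matrix (Fin r) (Fin r) F) u) i = c i * b.repr u i := by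
    intro u i
    have h1 : Matrix.toLin' (x : Matrix (Fin r) (Fin r) F) u = ∑ j, (b.repr u j * c j) • b j := by
      conv_lhs => rw [← b.sum_repr u]
      rw [map_sum]
      apply Finset.sum_congr rfl
      intro j _
      rw [map_smul, hc2, smul_smul]
    rw [h1, b.repr_sum_self, mul_comm]
  intro u v
  rw [hB3, hB3, Finset.mul_sum]
  apply Finset.sum_congr rfl
  intro i _
  rw [hrep, hrep, map_mul, ← hD i, ← hD (π i), hσ', hπ2]
  have h1 : chi ζ β = chi ζ (D i) * chi ζ (β - D i) := by rw [← chi_add hζ, add_sub_cancel]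
  rw [h1]
  ring

end bwd

section block
variable {F : Type*} [Field F] [Fintype F] {p : ℕ} [Fact p.Prime] [CharP F p] {r : ℕ} [Fact r.Prime] {n : ℕ}

theorem exists_sub_le' {V : Type*} [AddCommGroup V] [Module F V] [FiniteDimensional F V] {W : Submodule F V} {m : ℕ} (h : m ≤ finrank F W) :
    ∃ U ≤ W, finrank F U = m := by
  have hli : LinearIndependent F (fun i : Fin m => ((finBasis F W (Fin.castLE h i) : W) : V)) :=
    ((finBasis F W).linearIndependent.map' W.subtype W.ker_subtype).comp _ (Fin.castLE_injective h)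
  refine ⟨Submodule.span F (Set.range (fun i : Fin m => ((finBasis F W (Fin.castLE h i) : W) : V))), ?_, ?_⟩
  · rw [Submodule.span_le]
    rintro _ ⟨i, rfl⟩
    exact (finBasis F W (Fin.castLE h i)).2
  · rw [finrank_span_eq_card hli, Fintype.card_fin]

/-- elements of order `r` with a prescribed number of blocks -/
theorem exists_block_elt (hrp : r ≠ p) (hrq : ¬ r ∣ Fintype.card F - 1) (a : ℕ) (ha0 : 0 < a) (ha : a * orderOf ((Fintype.card F : ℕ) : ZMod r) ≤ n) :
    ∃ x : Matrix.SpecialLinearGroup (Fin n) F, x ^ r = 1 ∧ (Matrix.toLin' (x : Matrix (Fin n) (Fin n) F)) ^ r = 1 ∧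
      (∀ z : F, (x : Matrix (Fin n) (Fin n) F) ≠ z • (1 : Matrix (Fin n) (Fin n) F)) ∧
      finrank F (LinearMap.ker (Matrix.toLin' (x : Matrix (Fin n) (Fin n) F) - 1)) + a * orderOf ((Fintype.card F : ℕ) : ZMod r) = n := by
  classical
  have hr : r.Prime := Fact.out
  have hfd : finrank F (Fin n → F) = n := by rw [finrank_fintype_fun_eq_card, Fintype.card_fin]
  set e := orderOf ((Fintype.card F : ℕ) : ZMod r) with he
  have hepos : 0 < e := orderOf_pos_of_not_dvd (prime_not_dvd_card (F := F) hrp)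
  have hae : 0 < a * e := Nat.mul_pos ha0 hepos
  obtain ⟨U, hU⟩ : ∃ U : Submodule F (Fin n → F), finrank F U = a * e := by
    obtain ⟨U, -, hU⟩ := exists_sub_le' (F := F) (W := (⊤ : Submodule F (Fin n → F))) (m := a * e) (by rw [finrank_top, hfd]; exact ha)
    exact ⟨U, hU⟩
  obtain ⟨U', hc⟩ := Submodule.exists_isCompl U
  obtain ⟨f, hf1, hf2, -⟩ := exists_endo_order (F := F) (V := U) hrp a (by rw [hU])
  rw [hU, ← he] at hf2
  have hk : finrank F (LinearMap.ker (f - 1)) = 0 := by omega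
  set y := glue hc f (1 : U' →ₗ[F] U') with hy
  have hyr : y ^ r = 1 := by
    rw [hy, glue_pow, hf1, one_pow, glue_one]
  have hky : finrank F (LinearMap.ker (y - 1)) + a * e = n := by
    have h1 : (1 - 1 : U' →ₗ[F] U') = 0 := by
      apply LinearMap.ext
      intro v
      rw [LinearMap.sub_apply, LinearMap.zero_apply]
      exact _root_.sub_self _
    rw [hy, finrank_ker_glue, hk, h1, LinearMap.ker_zero, finrank_top]
    have := Submodule.finrank_add_eq_of_isCompl hc
    rw [hfd, hU] at this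
    omega
  have hdet : LinearMap.det y = 1 := by
    apply eq_one_of_pow_eq_one hrq
    rw [← map_pow, hyr, map_one]
  obtain ⟨x, hx1, hx2⟩ := exists_sl_of_endo y hdet 1 (r := r) (by rw [hyr, one_smul])
  refine ⟨x, ?_, by rw [hx1]; exact hyr, ?_, by rw [hx1]; exact hky⟩
  · apply Subtype.ext
    rw [hx2, one_smul]
    rfl
  · intro z hz
    have h1 : y = z • (1 : (Fin n → F) →ₗ[F] (Fin n → F)) := by
      rw [← hx1, hz, map_smul, Matrix.toLin'_one]
      rfl
    have h2 : z ^ r = 1 := by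
      have h3 := hyr
      rw [h1, _root_.smul_pow, one_pow] at h3
      have h4 := congrFun (LinearMap.congr_fun h3 (Pi.single ⟨0, by omega⟩ 1)) ⟨0, by omega⟩
      simp at h4
      exact h4
    have h3 := eq_one_of_pow_eq_one hrq h2
    rw [h3, one_smul] at h1
    rw [h1, sub_self, LinearMap.ker_zero, finrank_top, hfd] at hky
    omega

end block

end Cfsg.Agent.H99.SD
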