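import Cfsg.Agent.H99.UniND2
import Cfsg.Agent.H99.UniPair

set_option autoImplicit false
set_option linter.unusedSectionVars false
open scoped MatrixGroups
open Cfsg

namespace Cfsg.Agent.H99.UT

open Module Matrix Polynomial Cfsg.Agent.H99

section
variable {F : Type*} [Field F] [Fintype F] {q n m : ℕ}

theorem exists_ND_sub_in (hF : Fintype.card F = q ^ 2) {V : Type*} [AddCommGroup V] [Module F V] [FiniteDimensional F V] {B : V → V → F}
    (hB : EForm (Uni.conjHom hF) 1 B) {W : Submodule F V} (hW : ND B W) {k : ℕ} (hk : k ≤ finrank F W) :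
    ∃ U ≤ W, ND B U ∧ finrank F U = k := by
  have hND' : ND (fun u v : W => B (u : V) (v : V)) (⊤ : Submodule F W) := by
    intro u _ hu
    apply Subtype.ext
    exact hW u u.2 (fun v hv => hu ⟨v, hv⟩ Submodule.mem_top)
  obtain ⟨U, h1, h2⟩ := exists_ND_sub' hF (hB.restrict W) hND' hk
  refine ⟨U.map W.subtype, Submodule.map_subtype_le W U, ?_, by rw [Submodule.finrank_map_subtype_eq, h2]⟩
  rintro _ ⟨a, ha, rfl⟩ h
  rw [h1 a ha (fun v hv => h v ⟨v, hv, rfl⟩), map_zero]

theorem exists_sqrt (hF : Fintype.card F = q ^ 2) (h2F : (2 : F) ≠ 0) {z : F} (hzn : z ^ (q + 1) = 1) : ∃ w : F, w ^ 2 = z ∧ w ≠ 0 := by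
  have hz0 : z ≠ 0 := by
    rintro rfl
    rw [zero_pow (by omega)] at hzn
    exact zero_ne_one hzn
  have h1 : IsSquare z := by
    rw [FiniteField.isSquare_iff (by
      intro h
      apply h2F
      have := ringChar.of_eq h
      exact CharTwo.two_eq_zero) hz0, hF]
    have hodd : Odd q := by
      rcases Nat.even_or_odd q with h | h
      · exfalso
        apply h2F
        obtain ⟨p, e, hp, hcp, he, hqe⟩ := Uni.q_prime_pow hF
        have h4 : 2 ∣ p := Nat.prime_two.dvd_of_dvd_pow (by rw [← hqe]; exact h.two_dvd)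
        have h5 : p = 2 := ((Nat.prime_dvd_prime_iff_eq Nat.prime_two hp).mp h4).symm
        subst h5
        exact CharTwo.two_eq_zero
      · exact h
    obtain ⟨k, hk⟩ := hodd
    have h3 : q ^ 2 / 2 = (q + 1) * k := by
      rw [hk]
      have : (2 * k + 1) ^ 2 = 2 * ((2 * k + 1 + 1) * k) + 1 := by ring
      rw [this]
      omega
    rw [h3, pow_mul, hzn, one_pow]
  obtain ⟨w, hw⟩ := h1
  refine ⟨w, by rw [hw, pow_two], ?_⟩
  rintro rfl
  apply hz0
  rw [hw, mul_zero]

theorem odd_q (hF : Fintype.card F = q ^ 2) (h2F : (2 : F) ≠ 0) : Odd q := by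
  rcases Nat.even_or_odd q with h | h
  · exfalso
    apply h2F
    obtain ⟨p, e, hp, hcp, he, hqe⟩ := Uni.q_prime_pow hF
    have h4 : 2 ∣ p := Nat.prime_two.dvd_of_dvd_pow (by rw [← hqe]; exact h.two_dvd)
    have h5 : p = 2 := ((Nat.prime_dvd_prime_iff_eq Nat.prime_two hp).mp h4).symm
    subst h5
    exact CharTwo.two_eq_zero
  · exact h

end

section
variable {F : Type*} [Field F] {V : Type*} [AddCommGroup V] [Module F V]

theorem mem_eig_pos {y : V →ₗ[F] V} (v : V) : v ∈ LinearMap.ker (y - 1) ↔ y v = v := by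
  rw [LinearMap.mem_ker, LinearMap.sub_apply, sub_eq_zero]
  rfl

theorem mem_eig_neg {y : V →ₗ[F] V} (v : V) : v ∈ LinearMap.ker (y + 1) ↔ y v = -v := by
  rw [LinearMap.mem_ker, LinearMap.add_apply, add_eq_zero_iff_eq_neg]
  rfl

theorem eig_isCompl (h2F : (2 : F) ≠ 0) {y : V →ₗ[F] V} (hyy : ∀ v, y (y v) = v) :
    IsCompl (LinearMap.ker (y - 1)) (LinearMap.ker (y + 1)) := by
  constructor
  · rw [Submodule.disjoint_def]
    intro v h1 h2
    rw [mem_eig_pos] at h1
    rw [mem_eig_neg, h1] at h2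
    have h3 : (2 : F) • v = 0 := by
      rw [two_smul]
      nth_rewrite 2 [h2]
      exact add_neg_cancel v
    exact (smul_eq_zero.mp h3).resolve_left h2F
  · rw [codisjoint_iff, eq_top_iff]
    intro v _
    have h1 : v = (2 : F)⁻¹ • (v + y v) + (2 : F)⁻¹ • (v - y v) := by
      rw [← smul_add]
      have : v + y v + (v - y v) = (2 : F) • v := by rw [two_smul]; abel
      rw [this, smul_smul, inv_mul_cancel₀ h2F, one_smul]
    rw [h1]
    apply Submodule.add_mem_sup
    · rw [mem_eig_pos, map_smul, map_add, hyy, add_comm]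
    · rw [mem_eig_neg, map_smul, map_sub, hyy, ← smul_neg, neg_sub]

theorem eig_iso {σ : F →+* F} {ε : F} {B : V → V → F} (h2F : (2 : F) ≠ 0) (hA : EForm σ ε B) {y : V →ₗ[F] V}
    (hyB : ∀ u v, B (y u) (y v) = - B u v) :
    (∀ u ∈ LinearMap.ker (y - 1), ∀ v ∈ LinearMap.ker (y - 1), B u v = 0) ∧
    (∀ u ∈ LinearMap.ker (y + 1), ∀ v ∈ LinearMap.ker (y + 1), B u v = 0) := by
  constructor
  · intro u hu v hv
    have h3 := hyB u v
    rw [(mem_eig_pos u).mp hu, (mem_eig_pos v).mp hv] at h3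
    have h4 : 2 * B u v = 0 := by linear_combination h3
    exact (mul_eq_zero.mp h4).resolve_left h2F
  · intro u hu v hv
    have h3 := hyB u v
    rw [(mem_eig_neg u).mp hu, (mem_eig_neg v).mp hv, hA.neg_right, hA.oform.neg_left] at h3
    have h4 : 2 * B u v = 0 := by linear_combination h3
    exact (mul_eq_zero.mp h4).resolve_left h2F

variable [Finite F] [FiniteDimensional F V]

theorem eig_half {σ : F →+* F} {ε : F} {B : V → V → F} (h2F : (2 : F) ≠ 0) (hA : EForm σ ε B) (hND : ND B (⊤ : Submodule F V)) {y : V →ₗ[F] V}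
    (hyy : ∀ v, y (y v) = v) (hyB : ∀ u v, B (y u) (y v) = - B u v) :
    2 * finrank F (LinearMap.ker (y - 1)) = finrank F V ∧ 2 * finrank F (LinearMap.ker (y + 1)) = finrank F V := by
  obtain ⟨h1, h2⟩ := eig_iso h2F hA hyB
  have h3 := Submodule.finrank_add_eq_of_isCompl (eig_isCompl h2F hyy)
  have h4 := hA.two_mul_finrank_le hND _ h1
  have h5 := hA.two_mul_finrank_le hND _ h2
  omega

theorem eig_even {σ : F →+* F} {ε : F} {B : V → V → F} (h2F : (2 : F) ≠ 0) (hA : EForm σ ε B) {y : V →ₗ[F] V}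
    (hyy : ∀ v, y (y v) = v) (hyB : ∀ u v, B (y u) (y v) = - B u v) {W : Submodule F V} (hW : ∀ v ∈ W, y v ∈ W) (hWN : ND B W) :
    Even (finrank F W) := by
  have h := eig_half (V := W) h2F (hA.restrict W) (by
    intro u _ hu
    apply Subtype.ext
    exact hWN u u.2 (fun v hv => hu ⟨v, hv⟩ Submodule.mem_top)) (y := y.restrict hW) (fun v => Subtype.ext (hyy v)) (fun u v => hyB u v)
  rw [← h.1]
  exact even_two_mul _

/-- a non-degenerate subspace spanned by parts of two complementary totally isotropic spaces -/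
theorem exists_ND_pair {σ : F →+* F} {ε : F} {B : V → V → F} (hA : EForm σ ε B) (hND : ND B (⊤ : Submodule F V)) {P N : Submodule F V} (hc : IsCompl P N)
    (hP : ∀ u ∈ P, ∀ v ∈ P, B u v = 0) (hN : ∀ u ∈ N, ∀ v ∈ N, B u v = 0) {l : ℕ} (hl : l ≤ finrank F P)
    (hPN : finrank F P = finrank F N) :
    ∃ U ≤ P, ∃ N' ≤ N, finrank F U = l ∧ finrank F N' = l ∧ ND B (U ⊔ N') := by
  have : Fintype F := Fintype.ofFinite F
  obtain ⟨U, hU1, hU2⟩ := exists_sub_le hl
  set K := N ⊓ orth hA.oform U with hK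
  have hPU : P ≤ orth hA.oform U := fun u hu v hv => hP u hu v (hU1 hv)
  have h1 : orth hA.oform U = P ⊔ K := by
    rw [hK, ← sup_inf_assoc_of_le N hPU, hc.sup_eq_top, top_inf_eq]
  have h2 := hA.finrank_add_orth hND U
  have h3 := Submodule.finrank_add_eq_of_isCompl hc
  have h4 := Submodule.finrank_sup_add_finrank_inf_eq P K
  have h5 : P ⊓ K = ⊥ := by
    rw [eq_bot_iff]
    exact (inf_le_inf_left P (inf_le_left : K ≤ N)).trans hc.inf_eq_bot.le
  rw [← h1, h5, finrank_bot] at h4
  obtain ⟨C, hC⟩ := Submodule.exists_isCompl K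
  have hKN : K ≤ N := inf_le_left
  have h6 : K ⊔ (N ⊓ C) = N := by
    rw [inf_comm, ← sup_inf_assoc_of_le C hKN, hC.sup_eq_top, top_inf_eq]
  have h7 : K ⊓ (N ⊓ C) = ⊥ := by
    rw [eq_bot_iff]
    exact (inf_le_inf_left K (inf_le_right : N ⊓ C ≤ C)).trans hC.inf_eq_bot.le
  have h8 := Submodule.finrank_sup_add_finrank_inf_eq K (N ⊓ C)
  rw [h6, h7, finrank_bot] at h8
  refine ⟨U, hU1, N ⊓ C, inf_le_left, hU2, by omega, ?_⟩
  intro w hw hz
  obtain ⟨u, hu, v, hv, rfl⟩ := Submodule.mem_sup.mp hw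
  have hv0 : v = 0 := by
    have h9 : v ∈ K := by
      refine ⟨hv.1, fun a ha => ?_⟩
      have h10 := hz a (Submodule.mem_sup_left ha)
      rw [hA.add_left, hP u (hU1 hu) a (hU1 ha), zero_add] at h10
      exact h10
    have h10 : v ∈ K ⊓ (N ⊓ C) := ⟨h9, hv⟩
    rw [h7] at h10
    exact (Submodule.mem_bot F).mp h10
  subst hv0
  rw [add_zero] at hz ⊢
  apply hND u Submodule.mem_top
  intro a _
  obtain ⟨b, hb, c, hc', rfl⟩ := Submodule.mem_sup.mp (show a ∈ P ⊔ N by rw [hc.sup_eq_top]; exact Submodule.mem_top)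
  rw [hA.add_right, hP u (hU1 hu) b hb, zero_add]
  obtain ⟨d, hd, e, he, rfl⟩ := Submodule.mem_sup.mp (show c ∈ K ⊔ (N ⊓ C) by rw [h6]; exact hc')
  rw [hA.add_right, hz e (Submodule.mem_sup_right he), add_zero]
  exact hA.oform.refl _ _ (hd.2 u hu)

end

section
variable {F : Type*} [Field F] [Fintype F] {q n m : ℕ}

theorem exists_SU_det (x : (Fin n → F) →ₗ[F] (Fin n → F))
    (hx : ∀ u v, Cfsg.hermForm n F q (x u) (x v) = Cfsg.hermForm n F q u v) (hdet : LinearMap.det x = 1) :
    ∃ M : Matrix.SpecialLinearGroup (Fin n) F, M ∈ Cfsg.SU n F q ∧ Matrix.toLin' (M : Matrix (Fin n) (Fin n) F) = x := by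
  set A := LinearMap.toMatrix' x with hA
  have hAx : Matrix.toLin' A = x := Matrix.toLin'_toMatrix' x
  have hd : A.det = 1 := by rw [← LinearMap.det_toLin', hAx, hdet]
  obtain ⟨M, hM⟩ : ∃ M : Matrix.SpecialLinearGroup (Fin n) F, (M : Matrix (Fin n) (Fin n) F) = A := ⟨⟨A, hd⟩, rfl⟩
  refine ⟨M, ?_, by rw [hM]; exact hAx⟩
  rw [Uni.mem_SU, hM]
  intro u v
  rw [← Matrix.toLin'_apply, ← Matrix.toLin'_apply, hAx]
  exact hx u v

theorem nd_case_two (hF : Fintype.card F = q ^ 2) (h2F : (2 : F) ≠ 0) (hn : 3 ≤ n) (hm : 1 ≤ m) (hmn : 2 * m < n) :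
    (∀ x : Matrix.SpecialLinearGroup (Fin n) F, x ∈ Cfsg.SU n F q →
      (∃ z : F, ((x ^ 2 : Matrix.SpecialLinearGroup (Fin n) F) : Matrix (Fin n) (Fin n) F) = z • (1 : Matrix (Fin n) (Fin n) F)) →
      (∀ z : F, (x : Matrix (Fin n) (Fin n) F) ≠ z • (1 : Matrix (Fin n) (Fin n) F)) →
      ∃ W : Submodule F (Fin n → F), Module.finrank F ↥W = m ∧ ND (Cfsg.hermForm n F q) W ∧
        W.map (Matrix.toLin' (x : Matrix (Fin n) (Fin n) F)) ≤ W) ↔
    (Odd n ∨ Even m ∨ (padicValNat 2 n ≤ padicValNat 2 (q + 1) ∧ q % 4 = 3)) := by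
  classical
  have hA := herm_eform (n := n) hF
  have hND := herm_ND (n := n) hF
  have hfd : finrank F (Fin n → F) = n := by rw [finrank_fintype_fun_eq_card, Fintype.card_fin]
  have hq := Uni.two_le_q hF
  have hqodd := odd_q hF h2F
  have hneg1 : (-1 : F) ≠ 1 := by
    intro h
    apply h2F
    linear_combination -h
  constructor
  · intro hfix
    by_contra hcon
    push Not at hcon
    obtain ⟨hc1, hc2, hc3⟩ := hcon
    obtain ⟨n', hn'⟩ := Nat.not_odd_iff_even.mp (fun h => hc1 h)
    -- the scalar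
    obtain ⟨z, hz1, hz2⟩ : ∃ z : F, z ^ ((q + 1) / 2) = -1 ∧ z ^ n' = (-1) ^ n' := by
      by_cases hq4 : q % 4 = 3
      · have hv : padicValNat 2 (q + 1) + 1 ≤ padicValNat 2 n := by
          by_contra h
          exact hc3 (by omega) hq4
        obtain ⟨ζ, hζ, hζq⟩ := exists_order hF (k := 2 ^ padicValNat 2 (q + 1)) pow_padicValNat_dvd
        have h4 : Even ((q + 1) / 2) := ⟨(q + 1) / 4, by omega⟩
        refine ⟨-ζ, ?_, ?_⟩
        · rw [h4.neg_pow]
          have h5 : ζ ^ ((q + 1) / 2) * ζ ^ ((q + 1) / 2) = 1 := by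
            rw [← pow_add, ← two_mul, Nat.mul_div_cancel' (by omega), hζq]
          rcases mul_self_eq_one_iff.mp h5 with h6 | h6
          · exfalso
            have h7 := orderOf_dvd_iff_pow_eq_one.mpr h6
            rw [hζ] at h7
            have h8 : 2 ^ (padicValNat 2 (q + 1) + 1) ∣ q + 1 := by
              rw [pow_succ, mul_comm]
              have := Nat.mul_dvd_mul_left 2 h7
              rwa [Nat.mul_div_cancel' (by omega)] at this
            have h9 := (padicValNat_dvd_iff_le (p := 2) (by omega)).mp h8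
            omega
          · exact h6
        · rw [neg_pow]
          have h5 : 2 ^ (padicValNat 2 (q + 1)) ∣ n' := by
            have h6 : 2 ^ (padicValNat 2 (q + 1) + 1) ∣ n := (padicValNat_dvd_iff_le (by omega)).mpr hv
            rw [pow_succ, mul_comm, hn', ← two_mul] at h6
            exact Nat.dvd_of_mul_dvd_mul_left (by norm_num) h6
          have h6 : ζ ^ n' = 1 := orderOf_dvd_iff_pow_eq_one.mp (by rw [hζ]; exact h5)
          rw [h6, mul_one]
      · refine ⟨-1, ?_, rfl⟩
        apply Odd.neg_one_pow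
        rw [Nat.odd_iff] at hqodd ⊢
        omega
    obtain ⟨w, hw, hw0⟩ := exists_sqrt hF h2F (z := z) (by
      have : q + 1 = (q + 1) / 2 * 2 := by
        rw [Nat.odd_iff] at hqodd
        omega
      rw [this, pow_mul, hz1]; ring)
    have hwq : w ^ (q + 1) = -1 := by
      have : q + 1 = 2 * ((q + 1) / 2) := by
        rw [Nat.odd_iff] at hqodd
        omega
      rw [this, pow_mul, hw, hz1]
    obtain ⟨W₁, W₂, hW₁, hW₂, hsup, hd1, hd2⟩ := uni_hyperbolic hF n' (W := (⊤ : Submodule F (Fin n → F))) (fun u hu h => hND u hu h) (by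
      rw [finrank_top, hfd]; omega)
    have hinf : W₁ ⊓ W₂ = ⊥ := by
      have h1 := Submodule.finrank_sup_add_finrank_inf_eq W₁ W₂
      rw [hsup, finrank_top, hfd] at h1
      exact Submodule.finrank_eq_zero.mp (by omega)
    have hc : IsCompl W₁ W₂ := ⟨disjoint_iff.mpr hinf, codisjoint_iff.mpr hsup⟩
    set y := glue hc (1 : W₁ →ₗ[F] W₁) (-1 : W₂ →ₗ[F] W₂) with hy
    have hy1 : ∀ v ∈ W₁, y v = v := fun v hv => by
      have := glue_left hc (1 : W₁ →ₗ[F] W₁) (-1 : W₂ →ₗ[F] W₂) ⟨v, hv⟩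
      exact this
    have hy2 : ∀ v ∈ W₂, y v = -v := fun v hv => by
      have := glue_right hc (1 : W₁ →ₗ[F] W₁) (-1 : W₂ →ₗ[F] W₂) ⟨v, hv⟩
      exact this
    have hsplit : ∀ v : Fin n → F, ∃ a ∈ W₁, ∃ b ∈ W₂, v = a + b := by
      intro v
      obtain ⟨a, ha, b, hb, h⟩ := Submodule.mem_sup.mp (show v ∈ W₁ ⊔ W₂ by rw [hsup]; exact Submodule.mem_top)
      exact ⟨a, ha, b, hb, h.symm⟩
    have hyy : ∀ v, y (y v) = v := by
      intro v
      obtain ⟨a, ha, b, hb, rfl⟩ := hsplit v
      rw [map_add, map_add, hy1 a ha, hy2 b hb, hy1 a ha, map_neg, hy2 b hb, neg_neg]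
    have hyB : ∀ u v, Cfsg.hermForm n F q (y u) (y v) = - Cfsg.hermForm n F q u v := by
      intro u v
      obtain ⟨a, ha, b, hb, rfl⟩ := hsplit u
      obtain ⟨c, hc, d, hd, rfl⟩ := hsplit v
      rw [map_add, map_add, hy1 a ha, hy2 b hb, hy1 c hc, hy2 d hd]
      simp only [hA.add_left, hA.add_right, hA.neg_right, hA.oform.neg_left]
      rw [hW₁ a ha c hc, hW₂ b hb d hd]
      ring
    have hdety : LinearMap.det y = (-1) ^ n' := by rw [det_invol hc hy1 hy2, hd2]
    obtain ⟨x, hx1, hx2⟩ := exists_SU_det (q := q) (w • y) (by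
      intro u v
      rw [LinearMap.smul_apply, LinearMap.smul_apply, Uni.hermForm_smul_left, Uni.hermForm_smul_right, hyB]
      rw [pow_succ'] at hwq
      linear_combination (-Cfsg.hermForm n F q u v) * hwq) (by
      rw [LinearMap.det_smul, hfd, hdety, hn', ← two_mul, pow_mul, hw, hz2, ← pow_add, ← two_mul, pow_mul]
      norm_num)
    have hxx : ((x ^ 2 : Matrix.SpecialLinearGroup (Fin n) F) : Matrix (Fin n) (Fin n) F) = z • (1 : Matrix (Fin n) (Fin n) F) := by
      apply Matrix.toLin'.injective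
      rw [Matrix.SpecialLinearGroup.coe_pow, Matrix.toLin'_pow, hx2]
      apply LinearMap.ext
      intro v
      rw [pow_two, Module.End.mul_apply, LinearMap.smul_apply, LinearMap.smul_apply, map_smul, hyy, smul_smul, ← pow_two, hw, map_smul, Matrix.toLin'_one]
      rfl
    obtain ⟨W, g1, g2, g3⟩ := hfix x hx1 ⟨z, hxx⟩ (by
      intro c hc'
      -- `y` would be scalar
      have h1 : ∀ v, w • y v = c • v := by
        intro v
        have h2 : Matrix.toLin' (x : Matrix (Fin n) (Fin n) F) v = c • v := by rw [hc', map_smul, Matrix.toLin'_one]; rfl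
        rw [hx2] at h2
        exact h2
      obtain ⟨a, ha, ha0⟩ : ∃ a ∈ W₁, a ≠ 0 := by
        by_contra h
        push Not at h
        have h2 : W₁ = ⊥ := by
          rw [eq_bot_iff]
          intro a ha
          exact (Submodule.mem_bot F).mpr (h a ha)
        rw [h2, finrank_bot] at hd1
        omega
      obtain ⟨b, hb, hb0⟩ : ∃ a ∈ W₂, a ≠ 0 := by
        by_contra h
        push Not at h
        have h2 : W₂ = ⊥ := by
          rw [eq_bot_iff]
          intro a ha
          exact (Submodule.mem_bot F).mpr (h a ha)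
        rw [h2, finrank_bot] at hd2
        omega
      have h2 := h1 a
      have h3 := h1 b
      rw [hy1 a ha, ← sub_eq_zero, ← sub_smul] at h2
      rw [hy2 b hb, smul_neg, ← neg_smul, ← sub_eq_zero, ← sub_smul] at h3
      have h4 := (smul_eq_zero.mp h2).resolve_right ha0
      have h5 := (smul_eq_zero.mp h3).resolve_right hb0
      have h6 : 2 * w = 0 := by linear_combination h4 - h5
      exact (mul_ne_zero h2F hw0) h6)
    rw [hx2] at g3
    apply hc2
    rw [← g1]
    refine eig_even h2F hA hyy hyB ?_ g2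
    intro v hv
    have h1 : (w • y) v ∈ W := g3 ⟨v, hv, rfl⟩
    have h2 := W.smul_mem w⁻¹ h1
    rwa [LinearMap.smul_apply, smul_smul, inv_mul_cancel₀ hw0, one_smul] at h2
  · rintro hcond x hx ⟨z, hz⟩ hns
    have hpr : Uni.Pres q ((x ^ 2 : Matrix.SpecialLinearGroup (Fin n) F) : Matrix (Fin n) (Fin n) F) := Subgroup.pow_mem _ hx 2
    have hzn := scalar_norm (by omega) hpr hz
    obtain ⟨w, hw, hw0⟩ := exists_sqrt hF h2F hzn
    set y := w⁻¹ • Matrix.toLin' (x : Matrix (Fin n) (Fin n) F) with hy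
    have hyy : ∀ v, y (y v) = v := by
      intro v
      have h1 : (x : Matrix (Fin n) (Fin n) F) * (x : Matrix (Fin n) (Fin n) F) = z • (1 : Matrix (Fin n) (Fin n) F) := by
        rw [← hz, Matrix.SpecialLinearGroup.coe_pow, pow_two]
      rw [hy, LinearMap.smul_apply, LinearMap.smul_apply, map_smul, Matrix.toLin'_apply, Matrix.toLin'_apply, Matrix.mulVec_mulVec, h1, Matrix.smul_mulVec, Matrix.one_mulVec,
        smul_smul, smul_smul, ← hw]
      have : w⁻¹ * w⁻¹ * w ^ 2 = 1 := by field_simp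
      rw [this, one_smul]
    have hmapW : ∀ W : Submodule F (Fin n → F), (∀ v ∈ W, y v ∈ W) → W.map (Matrix.toLin' (x : Matrix (Fin n) (Fin n) F)) ≤ W :=
      fun W hW => map_le_of_smul (inv_ne_zero hw0) hW
    set δ : F := (w ^ (q + 1))⁻¹ with hδ
    have hδδ : δ * δ = 1 := by
      rw [hδ, ← mul_inv, ← pow_two, ← pow_mul, mul_comm (q + 1), pow_mul, hw, hzn, inv_one]
    have hyB : ∀ u v, Cfsg.hermForm n F q (y u) (y v) = δ * Cfsg.hermForm n F q u v := by
      intro u v
      rw [hy, LinearMap.smul_apply, LinearMap.smul_apply, Uni.hermForm_smul_left, Uni.hermForm_smul_right, Matrix.toLin'_apply, Matrix.toLin'_apply]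
      have h5 := (Uni.mem_SU.mp hx) u v
      rw [h5, hδ, pow_succ', mul_inv, inv_pow]
      ring
    set P := LinearMap.ker (y - 1) with hP
    set N := LinearMap.ker (y + 1) with hN
    have hmP : ∀ v, v ∈ P ↔ y v = v := mem_eig_pos
    have hmN : ∀ v, v ∈ N ↔ y v = -v := mem_eig_neg
    have hc : IsCompl P N := eig_isCompl h2F hyy
    have hdim := Submodule.finrank_add_eq_of_isCompl hc
    rw [hfd] at hdim
    rcases mul_self_eq_one_iff.mp hδδ with h1 | h1
    · -- orthogonal eigenspaces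
      rw [h1] at hyB
      simp only [one_mul] at hyB
      have hPN : ∀ u ∈ P, ∀ v ∈ N, Cfsg.hermForm n F q u v = 0 := by
        intro u hu v hv
        have h3 := hyB u v
        rw [(hmP u).mp hu, (hmN v).mp hv, hA.neg_right] at h3
        have h4 : 2 * Cfsg.hermForm n F q u v = 0 := by linear_combination -h3
        exact (mul_eq_zero.mp h4).resolve_left h2F
      have hNDP : ND (Cfsg.hermForm n F q) P := by
        intro u hu h3
        apply hND u Submodule.mem_top
        intro v _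
        obtain ⟨a, ha, b, hb, rfl⟩ := Submodule.mem_sup.mp (show v ∈ P ⊔ N by rw [hc.sup_eq_top]; exact Submodule.mem_top)
        rw [hA.add_right, h3 a ha, hPN u hu b hb, add_zero]
      have hNDN : ND (Cfsg.hermForm n F q) N := by
        intro u hu h3
        apply hND u Submodule.mem_top
        intro v _
        obtain ⟨a, ha, b, hb, rfl⟩ := Submodule.mem_sup.mp (show v ∈ P ⊔ N by rw [hc.sup_eq_top]; exact Submodule.mem_top)
        rw [hA.add_right, h3 b hb, hA.oform.refl _ _ (hPN a ha u hu), add_zero]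
      obtain ⟨j1, j2, hj, hj1, hj2⟩ : ∃ j1 j2, j1 + j2 = m ∧ j1 ≤ finrank F P ∧ j2 ≤ finrank F N := by
        rcases Nat.le_total m (finrank F P) with h3 | h3
        · exact ⟨m, 0, by omega, by omega, by omega⟩
        · exact ⟨finrank F P, m - finrank F P, by omega, by omega, by omega⟩
      obtain ⟨U1, a1, a2, a3⟩ := exists_ND_sub_in hF hA hNDP hj1
      obtain ⟨U2, b1, b2, b3⟩ := exists_ND_sub_in hF hA hNDN hj2
      refine ⟨U1 ⊔ U2, ?_, ?_, hmapW _ ?_⟩
      · have h8 := Submodule.finrank_sup_add_finrank_inf_eq U1 U2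
        rw [disjoint_iff.mp (hc.disjoint.mono a1 b1), finrank_bot, a3, b3] at h8
        omega
      · exact ND_sup hA.oform a2 b2 (fun a ha b hb => hPN a (a1 ha) b (b1 hb))
      · intro v hv
        obtain ⟨a, ha, b, hb, rfl⟩ := Submodule.mem_sup.mp hv
        rw [map_add]
        apply Submodule.add_mem_sup
        · rw [(hmP a).mp (a1 ha)]; exact ha
        · rw [(hmN b).mp (b1 hb)]; exact U2.neg_mem hb
    · -- isotropic eigenspaces
      rw [h1] at hyB
      have hyB' : ∀ u v, Cfsg.hermForm n F q (y u) (y v) = - Cfsg.hermForm n F q u v := by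
        intro u v
        rw [hyB]; ring
      obtain ⟨hPi, hNi⟩ := eig_iso h2F hA hyB'
      obtain ⟨hd1, hd2⟩ := eig_half h2F hA hND hyy hyB'
      rw [hfd, ← hP] at hd1
      rw [hfd, ← hN] at hd2
      have hev : Even m := by
        rcases hcond with h3 | h3 | ⟨h3, h4⟩
        · exfalso
          rw [Nat.odd_iff] at h3
          omega
        · exact h3
        · exfalso
          have hwq : w ^ (q + 1) = -1 := by
            rw [hδ] at h1
            have h5 : w ^ (q + 1) = (-1)⁻¹ := by rw [← h1, inv_inv]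
            rw [h5]
            norm_num
          have hdet : LinearMap.det y = (-1) ^ finrank F N := det_invol hc (fun v hv => (hmP v).mp hv) (fun v hv => (hmN v).mp hv)
          rw [hy, LinearMap.det_smul, LinearMap.det_toLin', Matrix.SpecialLinearGroup.det_coe, mul_one, hfd, inv_pow] at hdet
          have hwn : w ^ n = (-1) ^ finrank F N := by
            rw [← _root_.inv_inj, hdet, ← inv_pow]
            norm_num
          obtain ⟨v, hv⟩ : 2 ^ (padicValNat 2 (q + 1)) ∣ q + 1 := pow_padicValNat_dvd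
          obtain ⟨k, hk⟩ : 2 ^ (padicValNat 2 n) ∣ n := pow_padicValNat_dvd
          have hkodd : Odd k := by
            by_contra he
            rw [Nat.not_odd_iff_even] at he
            obtain ⟨u, hu⟩ := he
            have h5 : 2 ^ (padicValNat 2 n + 1) ∣ n := ⟨u, by
              nth_rewrite 1 [hk]
              rw [hu, pow_succ]; ring⟩
            have h6 := (padicValNat_dvd_iff_le (p := 2) (by omega)).mp h5
            omega
          obtain ⟨t, ht⟩ : ∃ t, padicValNat 2 (q + 1) = padicValNat 2 n + t := ⟨padicValNat 2 (q + 1) - padicValNat 2 n, by omega⟩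
          have h7 : n * (v * 2 ^ t) = (q + 1) * k := by
            have e1 : n * (v * 2 ^ t) = (2 ^ padicValNat 2 n * k) * (v * 2 ^ t) := congrArg (· * (v * 2 ^ t)) hk
            have e2 : (q + 1) * k = (2 ^ padicValNat 2 (q + 1) * v) * k := congrArg (· * k) hv
            rw [e1, e2, ht, pow_add]
            ring
          have h5 : w ^ (n * (v * 2 ^ t)) = -1 := by rw [h7, pow_mul, hwq, hkodd.neg_one_pow]
          have h6 : w ^ (n * (v * 2 ^ t)) = 1 := by
            rw [pow_mul, hwn, ← pow_mul]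
            apply Even.neg_one_pow
            obtain ⟨g, hg⟩ : 4 ∣ q + 1 := by omega
            refine ⟨g * k, ?_⟩
            have h8 : 2 * (finrank F N * (v * 2 ^ t)) = 2 * (g * k + g * k) := by
              calc 2 * (finrank F N * (v * 2 ^ t)) = (2 * finrank F N) * (v * 2 ^ t) := by ring
                _ = (q + 1) * k := by rw [hd2, h7]
                _ = _ := by rw [hg]; ring
            omega
          rw [h5] at h6
          exact hneg1 h6
      obtain ⟨l, hl⟩ := hev
      obtain ⟨U, hU, N', hN', e1, e2, e3⟩ := exists_ND_pair hA hND hc hPi hNi (l := l) (by omega) (by omega)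
      refine ⟨U ⊔ N', ?_, e3, hmapW _ ?_⟩
      · have h8 := Submodule.finrank_sup_add_finrank_inf_eq U N'
        rw [disjoint_iff.mp (hc.disjoint.mono hU hN'), finrank_bot, e1, e2] at h8
        omega
      · intro v hv
        obtain ⟨a, ha, b, hb, rfl⟩ := Submodule.mem_sup.mp hv
        rw [map_add]
        apply Submodule.add_mem_sup
        · rw [(hmP a).mp (hU ha)]; exact ha
        · rw [(hmN b).mp (hN' hb)]; exact N'.neg_mem hb

end

end Cfsg.Agent.H99.UT
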