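import Cfsg.Agent.H99.SimDer3
import Cfsg.Agent.H99.SqForms
import Cfsg.Agent.H99.OrthUnip
import Cfsg.Agent.H99.UniPair
import Cfsg.Agent.H99.UniND3
import Cfsg.Agent.OrthCount.Orders
import Cfsg.Agent.GeoMax.OTransport

set_option autoImplicit false
set_option linter.unusedVariables false
set_option linter.unusedSectionVars false
open scoped MatrixGroups

namespace Cfsg.Agent.H99.SD

open Module Matrix Polynomial Cfsg.Agent.H99
open QuadraticMap (polar polarBilin)
open Cfsg.Agent.GeoMax.Ort (toQF toQF_nondeg coe_toQF)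

section
variable {F : Type*} [Field F] [Fintype F] {n : ℕ}

theorem polar_of_sim {V : Type*} [AddCommGroup V] [Module F V] {Q : V → F} (y : V →ₗ[F] V) {c : F} (h : ∀ v, Q (y v) = c * Q v) (u v : V) :
    polar Q (y u) (y v) = c * polar Q u v := by
  unfold QuadraticMap.polar
  rw [← map_add, h, h, h]
  ring

theorem Q_eform {Q : (Fin n → F) → F} (hQ : Cfsg.Geo.IsNondegenerateQuadraticForm Q) : EForm (RingHom.id F) 1 (polar Q) :=
  polar_eform (toQF hQ)

theorem Q_ND {Q : (Fin n → F) → F} (hQ : Cfsg.Geo.IsNondegenerateQuadraticForm Q) : ND (polar Q) (⊤ : Submodule F (Fin n → F)) :=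
  ND_polar (toQF_nondeg hQ)

theorem sml_of_conjQ {Q : (Fin n → F) → F} (hQ : Cfsg.Geo.IsNondegenerateQuadraticForm Q)
    (x g : GL (Fin n) F) (h : g⁻¹ * x * g ∈ Cfsg.Geo.quadSimilarityGroup Q) :
    Sml (RingHom.id F) (Matrix.toLin' (x : Matrix (Fin n) (Fin n) F)) := by
  obtain ⟨c, hc⟩ := h
  have hE := Q_eform hQ
  let G : (Fin n → F) →ₗ[F] (Fin n → F) := Matrix.toLin' ((g⁻¹ : GL (Fin n) F) : Matrix (Fin n) (Fin n) F)
  have hG : ∀ v, G v = ((g⁻¹ : GL (Fin n) F) : Matrix (Fin n) (Fin n) F) *ᵥ v := fun v => Matrix.toLin'_apply _ _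
  refine ⟨fun u v => polar Q (G u) (G v), hE.comp G, ?_, (c : F), c.ne_zero, ?_⟩
  · intro u _ hu
    have h1 : G u = 0 := by
      apply Q_ND hQ _ Submodule.mem_top
      intro v _
      have h2 := hu ((g : Matrix (Fin n) (Fin n) F) *ᵥ v) Submodule.mem_top
      have h3 : G ((g : Matrix (Fin n) (Fin n) F) *ᵥ v) = v := by
        rw [hG, Matrix.mulVec_mulVec, ← Units.val_mul, inv_mul_cancel, Units.val_one, Matrix.one_mulVec]
      change polar Q (G u) (G ((g : Matrix (Fin n) (Fin n) F) *ᵥ v)) = 0 at h2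
      rwa [h3] at h2
    have h2 : (g : Matrix (Fin n) (Fin n) F) *ᵥ (G u) = u := by
      rw [hG, Matrix.mulVec_mulVec, ← Units.val_mul, mul_inv_cancel, Units.val_one, Matrix.one_mulVec]
    rw [← h2, h1, Matrix.mulVec_zero]
  · intro u v
    have h3 : ∀ w, G (Matrix.toLin' (x : Matrix (Fin n) (Fin n) F) w) = Matrix.toLin' ((g⁻¹ * x * g : GL (Fin n) F) : Matrix (Fin n) (Fin n) F) (G w) := by
      intro w
      rw [hG, hG, Matrix.toLin'_apply, Matrix.toLin'_apply, Matrix.mulVec_mulVec, Matrix.mulVec_mulVec, ← Units.val_mul, ← Units.val_mul]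
      congr 2
      group
    change polar Q (G (Matrix.toLin' (x : Matrix (Fin n) (Fin n) F) u)) (G (Matrix.toLin' (x : Matrix (Fin n) (Fin n) F) v)) = (c : F) * polar Q (G u) (G v)
    rw [h3, h3]
    exact polar_of_sim _ (fun v => by rw [Matrix.toLin'_apply]; exact hc v) _ _

/-- for the odd characteristic prime, transvections are not similitudes -/
theorem forward_p {p : ℕ} [Fact p.Prime] [CharP F p] (h2 : (2 : F) ≠ 0) (hn : 2 ≤ n)
    (hfix : ∀ x : Matrix.SpecialLinearGroup (Fin n) F,
      (∃ z : F, ((x ^ p : Matrix.SpecialLinearGroup (Fin n) F) : Matrix (Fin n) (Fin n) F) = z • (1 : Matrix (Fin n) (Fin n) F)) →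
      (∀ z : F, (x : Matrix (Fin n) (Fin n) F) ≠ z • (1 : Matrix (Fin n) (Fin n) F)) → Sml (RingHom.id F) (Matrix.toLin' (x : Matrix (Fin n) (Fin n) F))) : False := by
  classical
  have hp : p.Prime := Fact.out
  let i : Fin n := ⟨0, by omega⟩
  let j : Fin n := ⟨1, by omega⟩
  have hij : i ≠ j := by
    intro h
    have := congrArg Fin.val h
    simp [i, j] at this
  have hne : Nonempty (Fin n) := ⟨i⟩
  let x : Matrix.SpecialLinearGroup (Fin n) F := ⟨Matrix.transvection i j 1, Matrix.det_transvection_of_ne i j hij 1⟩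
  have hxM : (x : Matrix (Fin n) (Fin n) F) = 1 + Matrix.single i j (1 : F) := rfl
  have hxv : ∀ v, Matrix.toLin' (x : Matrix (Fin n) (Fin n) F) v = v + v j • Pi.single i (1 : F) := by
    intro v
    rw [hxM, Matrix.toLin'_apply, Matrix.add_mulVec, Matrix.one_mulVec]
    congr 1
    ext k
    rw [Matrix.single_mulVec, one_mul, Pi.smul_apply, smul_eq_mul, Function.update_apply, Pi.single_apply]
    split_ifs <;> simp
  have hpow : (x : Matrix (Fin n) (Fin n) F) ^ p = 1 := by
    have hcp : CharP (Matrix (Fin n) (Fin n) F) p := Matrix.charP p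
    rw [hxM, add_pow_char_of_commute p (Commute.one_left _), one_pow]
    have h1 : (Matrix.single i j (1 : F)) ^ 2 = 0 := by
      rw [pow_two, Matrix.single_mul_single_of_ne]
      exact hij.symm
    rw [show p = 2 + (p - 2) by have := hp.two_le; omega, pow_add, h1, zero_mul, add_zero]
  have hns : ∀ z : F, (x : Matrix (Fin n) (Fin n) F) ≠ z • (1 : Matrix (Fin n) (Fin n) F) := by
    intro z h
    have h1 := congrFun (congrFun h i) j
    rw [hxM] at h1
    simp [hij] at h1
  obtain ⟨B, hE, hND, l, hl, hB⟩ := hfix x ⟨1, by rw [Matrix.SpecialLinearGroup.coe_pow, hpow, one_smul]⟩ hns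
  have hnt : Nontrivial (Fin n → F) := inferInstance
  have hei : (Pi.single i (1 : F) : Fin n → F) ≠ 0 := by
    intro h
    have := congrFun h i
    simp at this
  have hll : l = 1 := by
    obtain ⟨v, huv⟩ : ∃ v, B (Pi.single i (1 : F)) v ≠ 0 := by
      by_contra hcon
      push Not at hcon
      exact hei (hND _ Submodule.mem_top (fun v _ => hcon v))
    have h1 : ∀ k : ℕ, B (((Matrix.toLin' (x : Matrix (Fin n) (Fin n) F)) ^ k) (Pi.single i (1 : F))) (((Matrix.toLin' (x : Matrix (Fin n) (Fin n) F)) ^ k) v) = l ^ k * B (Pi.single i (1 : F)) v := by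
      intro k
      induction k with
      | zero => rw [pow_zero, pow_zero, one_mul]; rfl
      | succ k ih => rw [pow_succ', Module.End.mul_apply, Module.End.mul_apply, hB, ih, pow_succ']; ring
    have h2 := h1 p
    rw [← Matrix.toLin'_pow, hpow, Matrix.toLin'_one] at h2
    have h3 : l ^ p = 1 := by
      have h4 : (l ^ p - 1) * B (Pi.single i (1 : F)) v = 0 := by
        have h5 : B (Pi.single i (1 : F)) v = l ^ p * B (Pi.single i (1 : F)) v := h2
        linear_combination -h5
      exact sub_eq_zero.mp ((mul_eq_zero.mp h4).resolve_right huv)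
    have h4 : (l - 1) ^ p = 0 := by
      rw [sub_pow_char, h3, one_pow, sub_self]
    exact sub_eq_zero.mp (eq_zero_of_pow_eq_zero h4)
  subst hll
  have hexp : ∀ u v : Fin n → F, v j * B u (Pi.single i (1 : F)) + (u j * B (Pi.single i (1 : F)) v + u j * v j * B (Pi.single i (1 : F)) (Pi.single i (1 : F))) = 0 := by
    intro u v
    have h1 := hB u v
    rw [hxv, hxv, hE.add_left, hE.add_right, hE.add_right, hE.smul_left, hE.smul_left, hE.smul_right, hE.smul_right, RingHom.id_apply] at h1
    linear_combination h1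
  have hsym : ∀ u v, B u v = B v u := by
    intro u v
    have h1 := hE.symm v u
    rwa [RingHom.id_apply, one_mul] at h1
  have hii : B (Pi.single i (1 : F)) (Pi.single i (1 : F)) = 0 := by
    have h1 := hexp (Pi.single j (1 : F)) (Pi.single i (1 : F))
    rw [Pi.single_eq_same, Pi.single_eq_of_ne hij.symm] at h1
    linear_combination h1
  have hjj : B (Pi.single i (1 : F)) (Pi.single j (1 : F)) = 0 := by
    have h1 := hexp (Pi.single j (1 : F)) (Pi.single j (1 : F))
    rw [Pi.single_eq_same, hii, hsym (Pi.single j (1 : F)) (Pi.single i (1 : F))] at h1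
    have h3 : (2 : F) * B (Pi.single i (1 : F)) (Pi.single j (1 : F)) = 0 := by
      linear_combination h1
    exact (mul_eq_zero.mp h3).resolve_left h2
  apply hei
  apply hND _ Submodule.mem_top
  intro v _
  have h1 := hexp (Pi.single j (1 : F)) v
  rw [Pi.single_eq_same, hii, hsym (Pi.single j (1 : F)) (Pi.single i (1 : F)), hjj] at h1
  linear_combination h1

end

end Cfsg.Agent.H99.SD
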