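import Cfsg.Agent.H99.SimOrt1

set_option autoImplicit false
set_option linter.unusedVariables false
set_option linter.unusedSectionVars false
open scoped MatrixGroups

namespace Cfsg.Agent.H99.SD

open Module Matrix Polynomial Cfsg.Agent.H99
open QuadraticMap (polar polarBilin)
open Cfsg.Agent.GeoMax.Ort (toQF toQF_nondeg coe_toQF)

section
variable {F : Type*} [Field F] [Fintype F] {n : ℕ}
variable {p : ℕ} [Fact p.Prime] [CharP F p] {r : ℕ} [Fact r.Prime]

theorem mult_one (hrq : ¬ r ∣ Fintype.card F - 1) {V : Type*} [AddCommGroup V] [Module F V] {B : V → V → F} {y : V →ₗ[F] V} {l : F}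
    (hB : ∀ u v, B (y u) (y v) = l * B u v) (hy : y ^ r = 1) (h : ∃ u v, B u v ≠ 0) : l = 1 := by
  obtain ⟨u, v, huv⟩ := h
  apply eq_one_of_pow_eq_one hrq
  have h1 : ∀ k : ℕ, B ((y ^ k) u) ((y ^ k) v) = l ^ k * B u v := by
    intro k
    induction k with
    | zero => rw [pow_zero, pow_zero, one_mul]; rfl
    | succ k ih => rw [pow_succ', Module.End.mul_apply, Module.End.mul_apply, hB, ih, pow_succ']; ring
  have h2 := h1 r
  rw [hy] at h2
  have h3 : (l ^ r - 1) * B u v = 0 := by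
    have h4 : B u v = l ^ r * B u v := h2
    linear_combination -h4
  exact sub_eq_zero.mp ((mul_eq_zero.mp h3).resolve_right huv)

theorem forward_odd_e (hr2 : r ≠ 2) (hrp : r ≠ p) (hrq : ¬ r ∣ Fintype.card F - 1) (hn : 0 < n)
    (he : Odd (orderOf ((Fintype.card F : ℕ) : ZMod r))) (hen : orderOf ((Fintype.card F : ℕ) : ZMod r) ≤ n)
    (hfix : ∀ x : Matrix.SpecialLinearGroup (Fin n) F,
      (∃ z : F, ((x ^ r : Matrix.SpecialLinearGroup (Fin n) F) : Matrix (Fin n) (Fin n) F) = z • (1 : Matrix (Fin n) (Fin n) F)) →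
      (∀ z : F, (x : Matrix (Fin n) (Fin n) F) ≠ z • (1 : Matrix (Fin n) (Fin n) F)) → Sml (RingHom.id F) (Matrix.toLin' (x : Matrix (Fin n) (Fin n) F))) : False := by
  have hfd : finrank F (Fin n → F) = n := by rw [finrank_fintype_fun_eq_card, Fintype.card_fin]
  obtain ⟨x, hx1, hx2, hx3, hx4⟩ := exists_block_elt (F := F) (n := n) hrp hrq 1 one_pos (by rw [one_mul]; exact hen)
  obtain ⟨B, hE, hND, l, hl, hB⟩ := hfix x ⟨1, by rw [hx1, one_smul]; rfl⟩ hx3
  set y := Matrix.toLin' (x : Matrix (Fin n) (Fin n) F) with hy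
  have hne : Nontrivial (Fin n → F) := by
    have : Nonempty (Fin n) := ⟨⟨0, by omega⟩⟩
    infer_instance
  have hlr : l = 1 := by
    apply mult_one hrq hB hx2
    by_contra hcon
    push Not at hcon
    obtain ⟨u, hu⟩ := exists_ne (0 : Fin n → F)
    exact hu (hND u Submodule.mem_top (fun v _ => hcon u v))
  rw [hlr] at hB
  simp only [one_mul] at hB
  obtain ⟨s1, s2, s3, s4, s5⟩ := split_fixed hrp hE hB hx2 (W := ⊤) (fun _ _ => Submodule.mem_top) hND
  have hns : ¬ SelfDual r 1 (Fintype.card F) := by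
    rw [selfDual_iff_even hr2 (prime_not_dvd_card (F := F) hrp), Nat.not_even_iff_odd]
    exact he
  obtain ⟨hdvd, -⟩ := exists_isoBlocks hr2 hrp hE (N := 1) ⟨0, (pow_zero p).symm⟩ (fun a => by rw [pow_one]; rfl)
    (c := 2 * orderOf ((Fintype.card F : ℕ) : ZMod r)) (Or.inr ⟨hns, rfl⟩) hB hx2 _ s2 s3 s4 rfl
  rw [top_inf_eq, top_inf_eq, finrank_top, hfd] at s5
  rw [top_inf_eq, top_inf_eq] at hdvd
  rw [one_mul] at hx4
  have h1 : finrank F (orth hE.oform (LinearMap.ker (y - 1)) : Submodule F (Fin n → F)) = orderOf ((Fintype.card F : ℕ) : ZMod r) := by omega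
  rw [h1] at hdvd
  have hepos : 0 < orderOf ((Fintype.card F : ℕ) : ZMod r) := he.pos
  have := Nat.le_of_dvd hepos hdvd
  omega

/-- an isometry of prime order without fixed points: number of singular vectors is 1 mod r -/
theorem free_card {V : Type*} [AddCommGroup V] [Module F V] [Finite V] {Q : V → F} {y : V →ₗ[F] V} (hy : y ^ r = 1) (hyQ : ∀ v, Q (y v) = Q v)
    (hfix : ∀ v, y v = v → v = 0) (hQ0 : Q 0 = 0) : Nat.card {v : V // Q v = 0} ≡ 1 [MOD r] := by
  classical
  haveI : Fintype {v : V // Q v = 0} := Fintype.ofFinite _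
  let f : Function.End {v : V // Q v = 0} := fun v => ⟨y v.1, (hyQ _).trans v.2⟩
  have hfk : ∀ (k : ℕ) (v : {v : V // Q v = 0}), ((f ^ k) v).1 = (y ^ k) v.1 := by
    intro k
    induction k with
    | zero => intro v; rfl
    | succ k ih =>
      intro v
      have h1 : (f ^ (k + 1)) v = f ((f ^ k) v) := by rw [pow_succ']; rfl
      rw [h1, pow_succ', Module.End.mul_apply, ← ih]
  have hf : f ^ r ^ 1 = 1 := by
    funext v
    apply Subtype.ext
    rw [hfk, pow_one, hy]
    rfl
  have h1 := Equiv.Perm.card_fixedPoints_modEq hf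
  have h2 : Fintype.card (Function.fixedPoints f) = 1 := by
    rw [Fintype.card_eq_one_iff]
    refine ⟨⟨⟨0, hQ0⟩, Subtype.ext (map_zero y)⟩, ?_⟩
    rintro ⟨⟨v, hv⟩, hfv⟩
    apply Subtype.ext
    apply Subtype.ext
    exact hfix v (congrArg Subtype.val hfv)
  rw [h2] at h1
  rwa [Nat.card_eq_fintype_card]

end

end Cfsg.Agent.H99.SD
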