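import Cfsg.Agent.H99.SimOrt2

set_option autoImplicit false
set_option linter.unusedVariables false
set_option linter.unusedSectionVars false
open scoped MatrixGroups

namespace Cfsg.Agent.H99.SD

open Module Matrix Polynomial Cfsg.Agent.H99
open QuadraticMap (polar polarBilin)
open Cfsg.Agent.GeoMax.Ort (toQF toQF_nondeg coe_toQF)

section
variable {F : Type*} [Field F] [Fintype F] {n : ℕ}

theorem card_iso_congr {ι ι' : Type} [Fintype ι] [DecidableEq ι] [Fintype ι'] [DecidableEq ι'] (Q : QuadraticForm F (ι → F)) (Q' : QuadraticForm F (ι' → F))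
    (T : (ι → F) ≃ₗ[F] (ι' → F)) (hT : ∀ v, Q' (T v) = Q v) :
    Nat.card (Cfsg.isometryGroup F (fun v => Q v)) = Nat.card (Cfsg.isometryGroup F (fun v => Q' v)) :=
  (OrthCount.card_isometryGroup Q).trans ((OrthCount.card_OG_congr Q Q' T hT).trans (OrthCount.card_isometryGroup Q').symm)

theorem card_zero_congr {ι ι' : Type} [Fintype ι] [DecidableEq ι] [Fintype ι'] [DecidableEq ι'] (Q : QuadraticForm F (ι → F)) (Q' : QuadraticForm F (ι' → F))
    (T : (ι → F) ≃ₗ[F] (ι' → F)) (hT : ∀ v, Q' (T v) = Q v) :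
    Nat.card {v // Q v = 0} = Nat.card {v // Q' v = 0} :=
  Nat.card_congr (T.toEquiv.subtypeEquiv (fun v => by
    change Q v = 0 ↔ Q' (T v) = 0
    rw [hT]))

theorem polar_csmul {V : Type*} [AddCommGroup V] [Module F V] (Q : QuadraticForm F V) (c : F) (u v : V) : polar (c • Q) u v = c * polar Q u v := by
  change c * Q (u + v) - c * Q u - c * Q v = c * (Q (u + v) - Q u - Q v)
  ring

theorem smul_nd {V : Type*} [AddCommGroup V] [Module F V] {Q : QuadraticForm F V} (hQ : (polarBilin Q).Nondegenerate) {c : F} (hc : c ≠ 0) :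
    (polarBilin (c • Q)).Nondegenerate := by
  apply nondegenerate_of_ND
  intro u _ hu
  apply ND_polar hQ _ Submodule.mem_top
  intro v hv
  have h1 := hu v hv
  change polar (c • Q) u v = 0 at h1
  rw [polar_csmul] at h1
  exact (mul_eq_zero.mp h1).resolve_left hc

theorem odd_isom {V V' : Type*} [AddCommGroup V] [Module F V] [FiniteDimensional F V] [AddCommGroup V'] [Module F V'] [FiniteDimensional F V']
    (h2 : (2 : F) ≠ 0) {Q : QuadraticForm F V} (hQ : (polarBilin Q).Nondegenerate) {Q' : QuadraticForm F V'} (hQ' : (polarBilin Q').Nondegenerate)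
    (hdim : finrank F V = finrank F V') (hodd : Odd (finrank F V)) :
    ∃ c : F, c ≠ 0 ∧ ∃ T : V ≃ₗ[F] V', ∀ v, Q' (T v) = c * Q v := by
  set b := finBasis F V
  set b' := finBasis F V'
  have hd := Orth.gram_det_ne_zero hQ b
  have hd' := Orth.gram_det_ne_zero hQ' b'
  refine ⟨(Orth.gram Q b).det * (Orth.gram Q' b').det, mul_ne_zero hd hd', ?_⟩
  set c := (Orth.gram Q b).det * (Orth.gram Q' b').det with hc
  have hc0 : c ≠ 0 := mul_ne_zero hd hd'
  have hg : (Orth.gram (c • Q) b) = c • Orth.gram Q b := by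
    ext i j
    change polar (c • Q) (b i) (b j) = c * polar Q (b i) (b j)
    rw [polar_csmul]
  have hsq : IsSquare ((Orth.gram (c • Q) b).det * (Orth.gram Q' b').det) := by
    rw [hg, Matrix.det_smul, Fintype.card_fin, mul_assoc, ← hc]
    obtain ⟨k, hk⟩ := hodd
    rw [hk]
    exact ⟨c ^ (k + 1), by ring⟩
  obtain ⟨T, hT⟩ := Orth.exists_isom_of_disc h2 (smul_nd hQ hc0) hQ' hdim b b' hsq
  exact ⟨T, fun v => by rw [hT]; rfl⟩

theorem index_mul {Q : (Fin n → F) → F} : ∃ k, (Cfsg.Geo.quadSimilarityGroup Q).index * (Nat.card (Cfsg.isometryGroup F Q) * k) = Fintype.card F ^ (∑ j ∈ Finset.range n, j) * qfac (Fintype.card F) n := by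
  classical
  have hle : Cfsg.isometryGroup F Q ≤ Cfsg.Geo.quadSimilarityGroup Q := by
    intro g hg
    refine ⟨1, fun v => ?_⟩
    rw [Units.val_one, one_mul]
    exact hg v 0
  obtain ⟨k, hk⟩ := Subgroup.card_dvd_of_le hle
  refine ⟨k, ?_⟩
  rw [← hk, Subgroup.index_mul_card, card_GL_qfac]

theorem dvd_or {r : ℕ} [Fact r.Prime] {q N m : ℕ} (hrq : ¬ r ∣ q) (hq : 0 < q) (h : r ∣ q ^ N * ∏ i ∈ Finset.range m, (q ^ (2 * i + 1) - 1)) :
    ∃ j, Odd j ∧ ((q : ℕ) : ZMod r) ^ j = 1 := by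
  have hr : r.Prime := Fact.out
  rcases (Nat.Prime.dvd_mul hr).mp h with h5 | h5
  · exact absurd (hr.dvd_of_dvd_pow h5) hrq
  · obtain ⟨i, hi, h6⟩ := (Prime.dvd_finsetProd_iff hr.prime _).mp h5
    exact ⟨2 * i + 1, ⟨i, rfl⟩, (UT.zmod_sub _ _ hq).mp h6⟩

theorem ort_index (h2 : (2 : F) ≠ 0) (hn : 0 < n) {Q : (Fin n → F) → F} (hQ : Cfsg.Geo.IsNondegenerateQuadraticForm Q) {r : ℕ} [Fact r.Prime]
    (hrq : ¬ r ∣ Fintype.card F) (h : r ∣ (Cfsg.Geo.quadSimilarityGroup Q).index) :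
    (∃ j, Odd j ∧ ((Fintype.card F : ℕ) : ZMod r) ^ j = 1) ∨
    ∃ m, n = 2 * m ∧ 1 ≤ m ∧
      ((((Fintype.card F : ℕ) : ZMod r) ^ m = -1 ∧ Fintype.card F * Nat.card {v // Q v = 0} + Fintype.card F ^ m = Fintype.card F ^ (2 * m) + Fintype.card F ^ (m + 1)) ∨
      (((Fintype.card F : ℕ) : ZMod r) ^ m = 1 ∧ Fintype.card F * Nat.card {v // Q v = 0} + Fintype.card F ^ (m + 1) = Fintype.card F ^ (2 * m) + Fintype.card F ^ m)) := by
  classical
  have hr : r.Prime := Fact.out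
  have hfd : finrank F (Fin n → F) = n := by rw [finrank_fintype_fun_eq_card, Fintype.card_fin]
  obtain ⟨k, hk⟩ := index_mul (F := F) (Q := Q)
  set q := Fintype.card F with hq
  have hq2 : 2 ≤ q := Fintype.one_lt_card
  have hNq : Nat.card F = q := Nat.card_eq_fintype_card
  have hpos : ∀ j, 0 < q ^ (j + 1) - 1 := by
    intro j
    have h3 : 1 < q ^ (j + 1) := Nat.one_lt_pow (by omega) (by omega)
    omega
  have hP0 : ∀ m, 0 < ∏ i ∈ Finset.range m, (q ^ (2 * (i + 1)) - 1) := fun m => Finset.prod_pos (fun i _ => hpos (2 * i + 1))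
  rcases Nat.even_or_odd' n with ⟨m, hm | hm⟩
  · have hm1 : 1 ≤ m := by omega
    obtain ⟨m', rfl⟩ : ∃ m', m = m' + 1 := ⟨m - 1, by omega⟩
    have hqf : qfac q n = (∏ i ∈ Finset.range (m' + 1), (q ^ (2 * i + 1) - 1)) * ((∏ i ∈ Finset.range m', (q ^ (2 * (i + 1)) - 1)) * ((q ^ (m' + 1) + 1) * (q ^ (m' + 1) - 1))) := by
      rw [hm, qfac_two_mul, Finset.prod_range_succ (fun i => q ^ (2 * (i + 1)) - 1)]
      congr 2
      have := Nat.sq_sub_sq (q ^ (m' + 1)) 1
      rwa [one_pow, ← pow_mul, mul_comm (m' + 1) 2] at this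
    rcases Orth.classify_even hm1 (hfd.trans hm) (toQF_nondeg hQ) with ⟨T, hT⟩ | ⟨ζ, hζ, T, hT⟩
    · have hc := card_iso_congr (toQF hQ) (Orth.qfPlus (m' + 1) F) T hT
      have hz := card_zero_congr (toQF hQ) (Orth.qfPlus (m' + 1) F) T hT
      have hZ := OrthCount.zeros_plus (F := F) (m' + 1)
      have hO := OrthCount.order_plus (F := F) (m' + 1) (by omega)
      change Nat.card (Cfsg.isometryGroup F Q) = Nat.card (Cfsg.isometryGroup F (Cfsg.quadFormPlus (m' + 1) F)) at hc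
      change Nat.card {v // Q v = 0} = Nat.card {v // Cfsg.quadFormPlus (m' + 1) F v = 0} at hz
      rw [hNq] at hZ hO
      rw [hc, hO, hqf] at hk
      rw [← hz] at hZ
      simp only [Nat.add_sub_cancel] at hk
      have h3 : (Cfsg.Geo.quadSimilarityGroup Q).index * (2 * q ^ ((m' + 1) * m') * k) = q ^ (∑ j ∈ Finset.range n, j) * (∏ i ∈ Finset.range (m' + 1), (q ^ (2 * i + 1) - 1)) * (q ^ (m' + 1) + 1) := by
        apply Nat.eq_of_mul_eq_mul_left (Nat.mul_pos (hpos m') (hP0 m'))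
        calc _ = (Cfsg.Geo.quadSimilarityGroup Q).index * (2 * q ^ ((m' + 1) * m') * (q ^ (m' + 1) - 1) * (∏ i ∈ Finset.range m', (q ^ (2 * (i + 1)) - 1)) * k) := by ring
          _ = _ := hk
          _ = _ := by ring
      have h4 : r ∣ q ^ (∑ j ∈ Finset.range n, j) * (∏ i ∈ Finset.range (m' + 1), (q ^ (2 * i + 1) - 1)) * (q ^ (m' + 1) + 1) := by
        rw [← h3]
        exact h.mul_right _
      rcases (Nat.Prime.dvd_mul hr).mp h4 with h5 | h5
      · left
        exact dvd_or hrq (by omega) h5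
      · right
        exact ⟨m' + 1, hm, by omega, Or.inl ⟨(UT.zmod_add _ _).mp h5, hZ⟩⟩
    · have hab := Orth.aniso_of_root hζ
      have hc := card_iso_congr (toQF hQ) (Orth.qfMinus m' F 1 ζ) T hT
      have hz := card_zero_congr (toQF hQ) (Orth.qfMinus m' F 1 ζ) T hT
      have hZ := OrthCount.zeros_minus (F := F) m' (OrthCount.aniso_of hab)
      have hO := OrthCount.order_minus (F := F) m' (OrthCount.aniso_of hab)
      change Nat.card (Cfsg.isometryGroup F Q) = Nat.card (Cfsg.isometryGroup F (Cfsg.quadFormMinus m' F 1 ζ)) at hc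
      change Nat.card {v // Q v = 0} = Nat.card {v // Cfsg.quadFormMinus m' F 1 ζ v = 0} at hz
      rw [hNq] at hZ hO
      rw [hc, hO, hqf] at hk
      rw [← hz] at hZ
      have h3 : (Cfsg.Geo.quadSimilarityGroup Q).index * (2 * q ^ ((m' + 1) * m') * k) = q ^ (∑ j ∈ Finset.range n, j) * (∏ i ∈ Finset.range (m' + 1), (q ^ (2 * i + 1) - 1)) * (q ^ (m' + 1) - 1) := by
        have hB0 : 0 < q ^ (m' + 1) + 1 := Nat.succ_pos _
        apply Nat.eq_of_mul_eq_mul_left (Nat.mul_pos hB0 (hP0 m'))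
        calc _ = (Cfsg.Geo.quadSimilarityGroup Q).index * (2 * q ^ ((m' + 1) * m') * (q ^ (m' + 1) + 1) * (∏ i ∈ Finset.range m', (q ^ (2 * (i + 1)) - 1)) * k) := by ring
          _ = _ := hk
          _ = _ := by ring
      have h4 : r ∣ q ^ (∑ j ∈ Finset.range n, j) * (∏ i ∈ Finset.range (m' + 1), (q ^ (2 * i + 1) - 1)) * (q ^ (m' + 1) - 1) := by
        rw [← h3]
        exact h.mul_right _
      rcases (Nat.Prime.dvd_mul hr).mp h4 with h5 | h5
      · left
        exact dvd_or hrq (by omega) h5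
      · right
        refine ⟨m' + 1, hm, by omega, Or.inr ⟨(UT.zmod_sub _ _ (by omega)).mp h5, ?_⟩⟩
        rw [show 2 * (m' + 1) = 2 * m' + 2 by ring, show m' + 1 + 1 = m' + 2 by ring]
        exact hZ
  · left
    have hdim : finrank F (Fin n → F) = finrank F (Unit ⊕ (Fin m ⊕ Fin m) → F) := by
      rw [hfd, finrank_fintype_fun_eq_card]
      simp only [Fintype.card_sum, Fintype.card_fin, Fintype.card_unit]
      omega
    obtain ⟨c, hc0, T, hT⟩ := odd_isom h2 (toQF_nondeg hQ) (Orth.qfOdd_nondegenerate (m := m) (F := F) h2) hdim (by rw [hfd, hm]; exact ⟨m, rfl⟩)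
    have hc := card_iso_congr (c • toQF hQ) (Orth.qfOdd m F) T hT
    have hO := OrthCount.order_odd (F := F) h2 m
    change Nat.card (Cfsg.isometryGroup F (fun v => (c • toQF hQ) v)) = Nat.card (Cfsg.isometryGroup F (Cfsg.quadFormOdd m F)) at hc
    have hcc : Cfsg.isometryGroup F (fun v => (c • toQF hQ) v) = Cfsg.isometryGroup F Q := by
      ext g
      have h6 : g ∈ Cfsg.isometryGroup F Q ↔ ∀ v, Q ((g : Matrix (Fin n) (Fin n) F) *ᵥ v) = Q v := ⟨fun h v => h v 0, fun h v _ => h v⟩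
      have h7 : g ∈ Cfsg.isometryGroup F (fun v => (c • toQF hQ) v) ↔ ∀ v, c * Q ((g : Matrix (Fin n) (Fin n) F) *ᵥ v) = c * Q v := ⟨fun h v => h v 0, fun h v _ => h v⟩
      rw [h6, h7]
      exact forall_congr' (fun v => mul_right_inj' hc0)
    rw [hcc] at hc
    rw [hNq] at hO
    have hqf : qfac q n = (∏ i ∈ Finset.range m, (q ^ (2 * i + 1) - 1)) * (∏ i ∈ Finset.range m, (q ^ (2 * (i + 1)) - 1)) * (q ^ (2 * m + 1) - 1) := by
      rw [hm, qfac_succ, qfac_two_mul]
    rw [hc, hO, hqf] at hk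
    have h3 : (Cfsg.Geo.quadSimilarityGroup Q).index * (2 * q ^ (m ^ 2) * k) = q ^ (∑ j ∈ Finset.range n, j) * (∏ i ∈ Finset.range (m + 1), (q ^ (2 * i + 1) - 1)) := by
      apply Nat.eq_of_mul_eq_mul_left (hP0 m)
      rw [Finset.prod_range_succ]
      calc _ = (Cfsg.Geo.quadSimilarityGroup Q).index * (2 * q ^ (m ^ 2) * (∏ i ∈ Finset.range m, (q ^ (2 * (i + 1)) - 1)) * k) := by ring
        _ = _ := hk
        _ = _ := by ring
    apply dvd_or hrq (by omega) (m := m + 1) (N := ∑ j ∈ Finset.range n, j)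
    rw [← h3]
    exact h.mul_right _

end

end Cfsg.Agent.H99.SD
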