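import Cfsg.Agent.H99.SimOrt3

set_option autoImplicit false
set_option linter.unusedVariables false
set_option linter.unusedSectionVars false
open scoped MatrixGroups

namespace Cfsg.Agent.H99.SD

open Module Matrix Polynomial Cfsg.Agent.H99
open QuadraticMap (polar polarBilin)
open Cfsg.Agent.GeoMax.Ort (toQF toQF_nondeg coe_toQF)

section
variable {F : Type*} [Field F] [Fintype F] {n : ℕ}
variable {p : ℕ} [Fact p.Prime] [CharP F p] {r : ℕ} [Fact r.Prime]

theorem forward_even_e (h2 : (2 : F) ≠ 0) (hr2 : r ≠ 2) (hrp : r ≠ p) (hrq : ¬ r ∣ Fintype.card F - 1) (hn : 0 < n)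
    {Q : (Fin n → F) → F} (hQ : Cfsg.Geo.IsNondegenerateQuadraticForm Q)
    (he : Even (orderOf ((Fintype.card F : ℕ) : ZMod r))) (hidx : r ∣ (Cfsg.Geo.quadSimilarityGroup Q).index)
    (hfix : ∀ x : Matrix.SpecialLinearGroup (Fin n) F, x ^ r = 1 →
      (∀ z : F, (x : Matrix (Fin n) (Fin n) F) ≠ z • (1 : Matrix (Fin n) (Fin n) F)) →
      ∃ g : GL (Fin n) F, g⁻¹ * Matrix.SpecialLinearGroup.toGL x * g ∈ Cfsg.Geo.quadSimilarityGroup Q) : False := by
  classical
  have hfd : finrank F (Fin n → F) = n := by rw [finrank_fintype_fun_eq_card, Fintype.card_fin]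
  have hq2 : 2 ≤ Fintype.card F := Fintype.one_lt_card
  have hrr : r.Prime := Fact.out
  have hQr := prime_not_dvd_card (F := F) hrp
  have hepos : 0 < orderOf ((Fintype.card F : ℕ) : ZMod r) := orderOf_pos_of_not_dvd hQr
  have hne1 : ((Fintype.card F : ℕ) : ZMod r) ≠ 1 := by
    intro h
    apply hrq
    have h3 := (UT.zmod_sub (r := r) (Fintype.card F) 1 (by omega)).mpr (by rw [pow_one, h])
    rwa [pow_one] at h3
  have h2r : (2 : ZMod r) ≠ 0 := by
    intro h
    have h6 : ((2 : ℕ) : ZMod r) = 0 := by exact_mod_cast h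
    rw [CharP.cast_eq_zero_iff (ZMod r) r] at h6
    exact hr2 ((Nat.prime_dvd_prime_iff_eq hrr Nat.prime_two).mp h6)
  rcases ort_index h2 hn hQ hQr hidx with ⟨j, hj, hj1⟩ | ⟨m, hm, hm1, hcase⟩
  · have h1 := orderOf_dvd_of_pow_eq_one hj1
    obtain ⟨k, hk⟩ := h1
    rw [hk, Nat.odd_mul] at hj
    exact Nat.not_even_iff_odd.mpr hj.1 he
  · have hqn : ((Fintype.card F : ℕ) : ZMod r) ^ n = 1 := by
      rw [hm, mul_comm, pow_mul]
      rcases hcase with ⟨h1, -⟩ | ⟨h1, -⟩
      · rw [h1]; ring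
      · rw [h1]; ring
    obtain ⟨a, ha⟩ := orderOf_dvd_of_pow_eq_one hqn
    have ha0 : 0 < a := by
      rcases Nat.eq_zero_or_pos a with h | h
      · rw [h, mul_zero] at ha; omega
      · exact h
    obtain ⟨x, hx1, hx2, hx3, hx4⟩ := exists_block_elt (F := F) (n := n) hrp hrq a ha0 (by rw [mul_comm, ← ha])
    have hker : finrank F (LinearMap.ker (Matrix.toLin' (x : Matrix (Fin n) (Fin n) F) - 1)) = 0 := by
      rw [mul_comm, ← ha] at hx4
      omega
    rw [Submodule.finrank_eq_zero] at hker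
    obtain ⟨g, c, hc⟩ := hfix x hx1 hx3
    set y : (Fin n → F) →ₗ[F] (Fin n → F) := Matrix.toLin' ((g⁻¹ * Matrix.SpecialLinearGroup.toGL x * g : GL (Fin n) F) : Matrix (Fin n) (Fin n) F) with hy
    have hyQ : ∀ v, Q (y v) = (c : F) * Q v := fun v => by
      rw [hy, Matrix.toLin'_apply]
      exact hc v
    have hyr : y ^ r = 1 := by
      rw [hy, ← Matrix.toLin'_pow, ← Units.val_pow_eq_pow_val]
      have h1 : (g⁻¹ * Matrix.SpecialLinearGroup.toGL x * g : GL (Fin n) F) ^ r = 1 := by
        have h3 := conj_pow (i := r) (a := g⁻¹) (b := Matrix.SpecialLinearGroup.toGL x)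
        rw [inv_inv] at h3
        rw [h3, ← map_pow, hx1, map_one, mul_one, inv_mul_cancel]
      rw [h1, Units.val_one, Matrix.toLin'_one]
      rfl
    have hne : Nontrivial (Fin n → F) := by
      have : Nonempty (Fin n) := ⟨⟨0, by omega⟩⟩
      infer_instance
    have hc1 : (c : F) = 1 := by
      apply mult_one hrq (B := polar Q) (fun u v => polar_of_sim y hyQ u v) hyr
      by_contra hcon
      push Not at hcon
      obtain ⟨u, hu⟩ := exists_ne (0 : Fin n → F)
      exact hu (Q_ND hQ u Submodule.mem_top (fun v _ => hcon u v))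
    rw [hc1] at hyQ
    simp only [one_mul] at hyQ
    have hyfix : ∀ v, y v = v → v = 0 := by
      intro v hv
      have h1 : (g : Matrix (Fin n) (Fin n) F) *ᵥ v ∈ LinearMap.ker (Matrix.toLin' (x : Matrix (Fin n) (Fin n) F) - 1) := by
        rw [LinearMap.mem_ker, LinearMap.sub_apply, Module.End.one_apply, sub_eq_zero, Matrix.toLin'_apply]
        rw [hy, Matrix.toLin'_apply] at hv
        have h3 := congrArg (fun w => (g : Matrix (Fin n) (Fin n) F) *ᵥ w) hv
        simp only [Matrix.mulVec_mulVec, ← Units.val_mul] at h3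
        rw [show g * (g⁻¹ * Matrix.SpecialLinearGroup.toGL x * g) = Matrix.SpecialLinearGroup.toGL x * g by group, Units.val_mul, ← Matrix.mulVec_mulVec] at h3
        exact h3
      rw [hker, Submodule.mem_bot] at h1
      have h3 := congrArg (fun w => ((g⁻¹ : GL (Fin n) F) : Matrix (Fin n) (Fin n) F) *ᵥ w) h1
      simp only [Matrix.mulVec_mulVec, ← Units.val_mul, inv_mul_cancel, Units.val_one, Matrix.one_mulVec, Matrix.mulVec_zero] at h3
      exact h3
    have hZ := free_card hyr hyQ hyfix (QuadraticMap.map_zero (toQF hQ))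
    have hZ1 : ((Nat.card {v // Q v = 0} : ℕ) : ZMod r) = 1 := by
      have h1 := (ZMod.natCast_eq_natCast_iff _ _ _).mpr hZ
      rw [h1, Nat.cast_one]
    rcases hcase with ⟨h1, h3⟩ | ⟨h1, h3⟩
    · have h4 := congrArg (Nat.cast : ℕ → ZMod r) h3
      push_cast at h4
      rw [hZ1, mul_comm 2 m, pow_mul, pow_succ ((Fintype.card F : ℕ) : ZMod r) m, h1] at h4
      apply hne1
      have h5 : (2 : ZMod r) * (((Fintype.card F : ℕ) : ZMod r) - 1) = 0 := by linear_combination h4
      exact sub_eq_zero.mp ((mul_eq_zero.mp h5).resolve_left h2r)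
    · have h4 := congrArg (Nat.cast : ℕ → ZMod r) h3
      push_cast at h4
      rw [hZ1, mul_comm 2 m, pow_mul, pow_succ ((Fintype.card F : ℕ) : ZMod r) m, h1] at h4
      apply hne1
      have h5 : (2 : ZMod r) * (((Fintype.card F : ℕ) : ZMod r) - 1) = 0 := by linear_combination h4
      exact sub_eq_zero.mp ((mul_eq_zero.mp h5).resolve_left h2r)

end

end Cfsg.Agent.H99.SD
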