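import Cfsg.Agent.H99.SimOrt4

set_option autoImplicit false
set_option linter.unusedVariables false
set_option linter.unusedSectionVars false
open scoped MatrixGroups

namespace Cfsg.Agent.H99.SD

open Module Matrix Polynomial Cfsg.Agent.H99
open QuadraticMap (polar polarBilin)
open Cfsg.Agent.GeoMax.Ort (toQF toQF_nondeg coe_toQF)

section
variable {F : Type*} [Field F] {V ι : Type*} [AddCommGroup V] [Module F V] [Fintype ι] [DecidableEq ι]

theorem sim_of_basis (h2 : (2 : F) ≠ 0) (b : Basis ι F V) (Q : QuadraticForm F V) (y : V →ₗ[F] V) (c : F)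
    (h : ∀ i j, polar Q (y (b i)) (y (b j)) = c * polar Q (b i) (b j)) (v : V) : Q (y v) = c * Q v := by
  have h1 : (polarBilin Q).compl₁₂ y y = c • polarBilin Q := by
    apply b.ext
    intro i
    apply b.ext
    intro j
    exact h i j
  have h3 : polar Q (y v) (y v) = c * polar Q v v := LinearMap.congr_fun (LinearMap.congr_fun h1 v) v
  rw [Orth.pself, Orth.pself] at h3
  apply mul_left_cancel₀ h2
  linear_combination h3

/-- a pair map -/
noncomputable def pmap {κ : Type*} [Fintype κ] [DecidableEq κ] (b : Basis (κ ⊕ κ) F V) (α β s t : κ → F) : V →ₗ[F] V :=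
  b.constr F (Sum.elim (fun i => s i • b (Sum.inl i) + (α i * t i) • b (Sum.inr i)) (fun i => (β i * t i) • b (Sum.inl i) - s i • b (Sum.inr i)))

theorem pmap_inl {κ : Type*} [Fintype κ] [DecidableEq κ] (b : Basis (κ ⊕ κ) F V) (α β s t : κ → F) (i : κ) :
    pmap b α β s t (b (Sum.inl i)) = s i • b (Sum.inl i) + (α i * t i) • b (Sum.inr i) := by
  unfold pmap
  rw [Basis.constr_basis]
  rfl

theorem pmap_inr {κ : Type*} [Fintype κ] [DecidableEq κ] (b : Basis (κ ⊕ κ) F V) (α β s t : κ → F) (i : κ) :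
    pmap b α β s t (b (Sum.inr i)) = (β i * t i) • b (Sum.inl i) - s i • b (Sum.inr i) := by
  unfold pmap
  rw [Basis.constr_basis]
  rfl

theorem pmap_sq {κ : Type*} [Fintype κ] [DecidableEq κ] (b : Basis (κ ⊕ κ) F V) (α β s t : κ → F) {z : F}
    (h : ∀ i, s i ^ 2 + (α i * β i) * t i ^ 2 = z) (v : V) : pmap b α β s t (pmap b α β s t v) = z • v := by
  have h1 : pmap b α β s t ∘ₗ pmap b α β s t = z • LinearMap.id := by
    apply b.ext
    rintro (i | i)
    · rw [LinearMap.comp_apply, pmap_inl, map_add, map_smul, map_smul, pmap_inl, pmap_inr, LinearMap.smul_apply, LinearMap.id_apply, ← h i]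
      module
    · rw [LinearMap.comp_apply, pmap_inr, map_sub, map_smul, map_smul, pmap_inl, pmap_inr, LinearMap.smul_apply, LinearMap.id_apply, ← h i]
      module
  exact LinearMap.congr_fun h1 v

theorem pmap_sim (h2 : (2 : F) ≠ 0) {κ : Type*} [Fintype κ] [DecidableEq κ] (b : Basis (κ ⊕ κ) F V) {Q : QuadraticForm F V} (hb : Orth.IsOrth Q b) (s t : κ → F) {z : F}
    (h : ∀ i, s i ^ 2 + (Q (b (Sum.inl i)) * Q (b (Sum.inr i))) * t i ^ 2 = z) (v : V) :
    Q (pmap b (fun i => Q (b (Sum.inl i))) (fun i => Q (b (Sum.inr i))) s t v) = z * Q v := by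
  have hll : ∀ i j, polar Q (b (Sum.inl i)) (b (Sum.inl j)) = if i = j then 2 * Q (b (Sum.inl i)) else 0 := by
    intro i j
    split_ifs with hij
    · rw [hij, Orth.pself]
    · exact hb.p _ _ (fun h => hij (Sum.inl_injective h))
  have hrr : ∀ i j, polar Q (b (Sum.inr i)) (b (Sum.inr j)) = if i = j then 2 * Q (b (Sum.inr i)) else 0 := by
    intro i j
    split_ifs with hij
    · rw [hij, Orth.pself]
    · exact hb.p _ _ (fun h => hij (Sum.inr_injective h))
  have hlr : ∀ i j, polar Q (b (Sum.inl i)) (b (Sum.inr j)) = 0 := fun i j => hb.p _ _ (fun h => by cases h)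
  have hrl : ∀ i j, polar Q (b (Sum.inr i)) (b (Sum.inl j)) = 0 := fun i j => hb.p _ _ (fun h => by cases h)
  have hE := polar_eform Q
  have e1 : ∀ u u' v, polar Q (u + u') v = polar Q u v + polar Q u' v := hE.add_left
  have e2 : ∀ (c : F) u v, polar Q (c • u) v = c * polar Q u v := hE.smul_left
  have e3 : ∀ u v v', polar Q u (v + v') = polar Q u v + polar Q u v' := hE.add_right
  have e4 : ∀ (c : F) u v, polar Q u (c • v) = c * polar Q u v := fun c u v => hE.smul_right c u v
  apply sim_of_basis h2 b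
  rintro (i | i) (j | j)
  · rw [pmap_inl, pmap_inl, e1, e3, e3, e2, e2, e2, e2, e4, e4, e4, e4, hll, hlr, hrl, hrr]
    split_ifs with hij
    · subst hij
      rw [← h i]
      ring
    · ring
  · rw [pmap_inl, pmap_inr, sub_eq_add_neg, ← neg_smul, e1, e3, e3, e2, e2, e2, e2, e4, e4, e4, e4, hll, hlr, hrl, hrr]
    split_ifs with hij
    · subst hij
      ring
    · ring
  · rw [pmap_inl, pmap_inr, sub_eq_add_neg, ← neg_smul, e1, e3, e3, e2, e2, e2, e2, e4, e4, e4, e4, hll, hlr, hrl, hrr]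
    split_ifs with hij
    · subst hij
      ring
    · ring
  · rw [pmap_inr, pmap_inr, sub_eq_add_neg, sub_eq_add_neg, ← neg_smul, ← neg_smul, e1, e3, e3, e2, e2, e2, e2, e4, e4, e4, e4, hll, hlr, hrl, hrr]
    split_ifs with hij
    · subst hij
      rw [← h i]
      ring
    · ring

end

section
variable {F : Type*} [Field F] [Fintype F] {n : ℕ}

theorem conj_of_sml_odd (h2 : (2 : F) ≠ 0) (hodd : Odd n) {Q : (Fin n → F) → F} (hQ : Cfsg.Geo.IsNondegenerateQuadraticForm Q)
    (x : Matrix.SpecialLinearGroup (Fin n) F) (hx : CentSurj (x : Matrix (Fin n) (Fin n) F))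
    (h : Sml (RingHom.id F) (Matrix.toLin' (x : Matrix (Fin n) (Fin n) F))) :
    ∃ P : Matrix.SpecialLinearGroup (Fin n) F,
      P⁻¹ * x * P ∈ (Cfsg.Geo.quadSimilarityGroup Q).comap (Matrix.SpecialLinearGroup.toGL : Matrix.SpecialLinearGroup (Fin n) F →* GL (Fin n) F) := by
  obtain ⟨B, hE, hND, l, hl, hB⟩ := h
  have hfd : finrank F (Fin n → F) = n := by rw [finrank_fintype_fun_eq_card, Fintype.card_fin]
  have hnd : (polarBilin (qOf hE)).Nondegenerate := by
    apply nondegenerate_of_ND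
    have h1 : (fun u v => polar (qOf hE) u v) = B := by
      funext u v
      exact polar_qOf h2 hE u v
    rw [h1]
    exact hND
  obtain ⟨c, hc0, T, hT⟩ := odd_isom h2 (toQF_nondeg hQ) hnd rfl (by rw [hfd]; exact hodd)
  have hqx : ∀ w, qOf hE (Matrix.toLin' (x : Matrix (Fin n) (Fin n) F) w) = l * qOf hE w := by
    intro w
    rw [qOf_apply, qOf_apply, hB]
    ring
  apply exists_conj_mem_comap' x hx (Cfsg.Geo.quadSimilarityGroup Q) (T.symm.toLinearMap ∘ₗ Matrix.toLin' (x : Matrix (Fin n) (Fin n) F) ∘ₗ T.toLinearMap) _ T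
  · intro v
    simp
  · intro g hg
    refine ⟨Units.mk0 l hl, fun v => ?_⟩
    rw [hg, Units.val_mk0]
    apply mul_left_cancel₀ hc0
    have h1 := hT (T.symm (Matrix.toLin' (x : Matrix (Fin n) (Fin n) F) (T v)))
    rw [T.apply_symm_apply, hqx, hT, coe_toQF] at h1
    simp only [LinearMap.comp_apply, LinearEquiv.coe_coe]
    rw [← h1]
    ring

theorem exists_orth_basis (h2 : (2 : F) ≠ 0) (hn : 0 < n) {Q : (Fin n → F) → F} (hQ : Cfsg.Geo.IsNondegenerateQuadraticForm Q) {ι : Type*} (b : Basis ι F (Fin n → F)) :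
    ∃ b' : Basis ι F (Fin n → F), Orth.IsOrth (toQF hQ) b' := by
  have hfd : finrank F (Fin n → F) = n := by rw [finrank_fintype_fun_eq_card, Fintype.card_fin]
  obtain ⟨k, rfl⟩ : ∃ k, n = k + 1 := ⟨n - 1, by omega⟩
  obtain ⟨b', d, hd, hb, -⟩ := Orth.exists_diag_basis (toQF_nondeg hQ) h2 hfd
  refine ⟨b'.reindex (b'.indexEquiv b), ?_, ?_⟩
  · intro i
    rw [Basis.reindex_apply]
    exact hb.q _
  · intro i j hij
    rw [Basis.reindex_apply, Basis.reindex_apply]
    exact hb.p _ _ (fun h => hij ((b'.indexEquiv b).symm.injective h))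

theorem back_two (h2 : (2 : F) ≠ 0) (hn : 0 < n) {Q : (Fin n → F) → F} (hQ : Cfsg.Geo.IsNondegenerateQuadraticForm Q)
    (x : Matrix.SpecialLinearGroup (Fin n) F) {z : F} (hz0 : z ≠ 0) (hz : (x : Matrix (Fin n) (Fin n) F) ^ 2 = z • (1 : Matrix (Fin n) (Fin n) F)) :
    ∃ P : Matrix.SpecialLinearGroup (Fin n) F,
      P⁻¹ * x * P ∈ (Cfsg.Geo.quadSimilarityGroup Q).comap (Matrix.SpecialLinearGroup.toGL : Matrix.SpecialLinearGroup (Fin n) F →* GL (Fin n) F) := by
  classical
  have hfd : finrank F (Fin n → F) = n := by rw [finrank_fintype_fun_eq_card, Fintype.card_fin]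
  have hf0 : (Matrix.toLin' (x : Matrix (Fin n) (Fin n) F)) ^ 2 = z • (1 : (Fin n → F) →ₗ[F] (Fin n → F)) := toLin_pow_eq hz
  have hf : ∀ v, Matrix.toLin' (x : Matrix (Fin n) (Fin n) F) (Matrix.toLin' (x : Matrix (Fin n) (Fin n) F) v) = z • v := by
    intro v
    have h1 := LinearMap.congr_fun hf0 v
    rw [pow_two, Module.End.mul_apply] at h1
    exact h1
  have hcs := centSurj_of_sq_eq hn _ z hz0 hz
  by_cases hsq : ∃ w, w * w = z
  · obtain ⟨w, hw⟩ := hsq
    have hw0 : w ≠ 0 := by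
      rintro rfl
      apply hz0
      rw [← hw, mul_zero]
    obtain ⟨a, a', b, hb1, hb2⟩ := sq_eigen_form z w hw hw0 h2 (Fin n → F) _ hf
    obtain ⟨b', hb'⟩ := exists_orth_basis h2 hn hQ b
    let ε : Fin a ⊕ Fin a' → F := Sum.elim (fun _ => w) (fun _ => -w)
    have hbε : ∀ i, Matrix.toLin' (x : Matrix (Fin n) (Fin n) F) (b i) = ε i • b i := by
      rintro (i | i)
      · exact hb1 i
      · exact hb2 i
    have hε : ∀ i, ε i * ε i = z := by
      rintro (i | i)
      · exact hw
      · change (-w) * (-w) = z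
        rw [← hw]; ring
    let y : (Fin n → F) →ₗ[F] (Fin n → F) := b'.constr F (fun i => ε i • b' i)
    have hy : ∀ i, y (b' i) = ε i • b' i := fun i => Basis.constr_basis _ _ _ _
    have hyQ : ∀ v, toQF hQ (y v) = z * toQF hQ v := by
      apply sim_of_basis h2 b'
      intro i j
      have hE := polar_eform (toQF hQ)
      have e2 : ∀ (c : F) u v, polar (toQF hQ) (c • u) v = c * polar (toQF hQ) u v := hE.smul_left
      have e4 : ∀ (c : F) u v, polar (toQF hQ) u (c • v) = c * polar (toQF hQ) u v := fun c u v => hE.smul_right c u v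
      rw [hy, hy, e2, e4]
      by_cases hij : i = j
      · subst hij
        rw [← hε i]
        ring
      · rw [hb'.p i j hij]
        ring
    apply exists_conj_mem_comap' x hcs (Cfsg.Geo.quadSimilarityGroup Q) y _ (b'.equiv b (Equiv.refl _))
    · intro v
      have h1 : (b'.equiv b (Equiv.refl _)).toLinearMap ∘ₗ y = Matrix.toLin' (x : Matrix (Fin n) (Fin n) F) ∘ₗ (b'.equiv b (Equiv.refl _)).toLinearMap := by
        apply b'.ext
        intro i
        rw [LinearMap.comp_apply, LinearMap.comp_apply, hy, map_smul, LinearEquiv.coe_coe, Basis.equiv_apply, Equiv.refl_apply, hbε]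
      exact LinearMap.congr_fun h1 v
    · intro g hg
      refine ⟨Units.mk0 z hz0, fun v => ?_⟩
      rw [hg, Units.val_mk0]
      exact hyQ v
  · push Not at hsq
    obtain ⟨κ, _, _, b, hb1, hb2⟩ := sq_nonsquare_form z hsq (Fin n → F) _ hf
    obtain ⟨b', hb'⟩ := exists_orth_basis h2 hn hQ b
    have hst : ∀ i : κ, ∃ s t : F, s ^ 2 + (toQF hQ (b' (Sum.inl i)) * toQF hQ (b' (Sum.inr i))) * t ^ 2 = z := by
      intro i
      obtain ⟨s, t, hst⟩ := Orth.exists_sum_sq (a := (1 : F)) (b := toQF hQ (b' (Sum.inl i)) * toQF hQ (b' (Sum.inr i))) one_ne_zero (mul_ne_zero (hb'.q _) (hb'.q _)) z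
      exact ⟨s, t, by rw [← hst, one_mul]⟩
    choose s t hst using hst
    set y := pmap b' (fun i => toQF hQ (b' (Sum.inl i))) (fun i => toQF hQ (b' (Sum.inr i))) s t with hy
    have hyQ : ∀ v, toQF hQ (y v) = z * toQF hQ v := fun v => pmap_sim h2 b' hb' s t hst v
    have hy2 : ∀ v, y (y v) = z • v := fun v => pmap_sq b' _ _ s t hst v
    obtain ⟨κ', _, _, c, hc1, hc2⟩ := sq_nonsquare_form z hsq (Fin n → F) y hy2
    have hcard : Fintype.card κ' = Fintype.card κ := by
      have h3 := finrank_eq_card_basis b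
      have h4 := finrank_eq_card_basis c
      rw [h3] at h4
      simp only [Fintype.card_sum] at h4
      omega
    let τ : κ' ≃ κ := Fintype.equivOfCardEq hcard
    let e : (Fin n → F) ≃ₗ[F] (Fin n → F) := c.equiv b (Equiv.sumCongr τ τ)
    apply exists_conj_mem_comap' x hcs (Cfsg.Geo.quadSimilarityGroup Q) y _ e
    · intro v
      have h1 : e.toLinearMap ∘ₗ y = Matrix.toLin' (x : Matrix (Fin n) (Fin n) F) ∘ₗ e.toLinearMap := by
        apply c.ext
        rintro (i | i)
        · rw [LinearMap.comp_apply, LinearMap.comp_apply, hc1, LinearEquiv.coe_coe, Basis.equiv_apply, Basis.equiv_apply, Equiv.sumCongr_apply, Equiv.sumCongr_apply, Sum.map_inl, Sum.map_inr, hb1]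
        · rw [LinearMap.comp_apply, LinearMap.comp_apply, hc2, map_smul, LinearEquiv.coe_coe, Basis.equiv_apply, Basis.equiv_apply, Equiv.sumCongr_apply, Equiv.sumCongr_apply, Sum.map_inl, Sum.map_inr, hb2]
      exact LinearMap.congr_fun h1 v
    · intro g hg
      refine ⟨Units.mk0 z hz0, fun v => ?_⟩
      rw [hg, Units.val_mk0]
      exact hyQ v

end

end Cfsg.Agent.H99.SD
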