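import Cfsg.Agent.H99.SimDer3
import Cfsg.Agent.H99.UniND3
import Cfsg.Agent.H99.SqForms
import Cfsg.Agent.H98.UniSim

set_option autoImplicit false
set_option linter.unusedVariables false
set_option linter.unusedSectionVars false
open scoped MatrixGroups

namespace Cfsg.Agent.H99.SD

open Module Matrix Polynomial Cfsg.Agent.H99

section
variable {F : Type*} [Field F] [Fintype F] {q n : ℕ}

theorem upow_eform (hF : Fintype.card F = q ^ 2) {f : (Fin n → F) → (Fin n → F) → F} (hf : Cfsg.Geo.IsUnitaryFormPow q f) :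
    EForm (Uni.conjHom hF) 1 f where
  add_left := hf.add_left
  smul_left := hf.smul_left
  symm x y := by
    rw [hf.herm y x, one_mul]
    rfl
  eps := by ring

theorem upow_ND {f : (Fin n → F) → (Fin n → F) → F} (hf : Cfsg.Geo.IsUnitaryFormPow q f) : ND f (⊤ : Submodule F (Fin n → F)) := by
  intro u _ h
  by_contra hu
  obtain ⟨-, ⟨w, hw⟩⟩ := hf.nondegenerate u hu
  exact hw (h w Submodule.mem_top)

theorem conj_of_sml (hF : Fintype.card F = q ^ 2) {f : (Fin n → F) → (Fin n → F) → F} (hf : Cfsg.Geo.IsUnitaryFormPow q f)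
    (x : Matrix.SpecialLinearGroup (Fin n) F) (hx : CentSurj (x : Matrix (Fin n) (Fin n) F))
    (h : Sml (Uni.conjHom hF) (Matrix.toLin' (x : Matrix (Fin n) (Fin n) F))) :
    ∃ P : Matrix.SpecialLinearGroup (Fin n) F,
      P⁻¹ * x * P ∈ (Cfsg.Geo.similarityGroup f).comap (Matrix.SpecialLinearGroup.toGL : Matrix.SpecialLinearGroup (Fin n) F →* GL (Fin n) F) := by
  obtain ⟨B, hE, hND, l, hl, hB⟩ := h
  have hfd : finrank F (Fin n → F) = n := by rw [finrank_fintype_fun_eq_card, Fintype.card_fin]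
  obtain ⟨T, hT⟩ := UT.exists_herm_std hF hE hND hfd
  obtain ⟨T', hT'⟩ := UT.exists_herm_std hF (upow_eform hF hf) (upow_ND hf) hfd
  let e : (Fin n → F) ≃ₗ[F] (Fin n → F) := T'.symm.trans T
  have he : ∀ u v, B (e u) (e v) = f u v := by
    intro u v
    have h1 := hT (T'.symm u) (T'.symm v)
    rw [← hT', T'.apply_symm_apply, T'.apply_symm_apply] at h1
    exact h1
  apply exists_conj_mem_comap' x hx (Cfsg.Geo.similarityGroup f) (e.symm.toLinearMap ∘ₗ Matrix.toLin' (x : Matrix (Fin n) (Fin n) F) ∘ₗ e.toLinearMap) _ e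
  · intro v
    simp
  · intro g hg
    refine ⟨Units.mk0 l hl, fun u v => ?_⟩
    rw [hg, hg, ← he, ← he]
    simp only [LinearMap.comp_apply, LinearEquiv.coe_coe, LinearEquiv.apply_symm_apply]
    rw [hB, Units.val_mk0]

theorem sml_of_conj (hF : Fintype.card F = q ^ 2) {f : (Fin n → F) → (Fin n → F) → F} (hf : Cfsg.Geo.IsUnitaryFormPow q f)
    (x g : GL (Fin n) F) (h : g⁻¹ * x * g ∈ Cfsg.Geo.similarityGroup f) :
    Sml (Uni.conjHom hF) (Matrix.toLin' (x : Matrix (Fin n) (Fin n) F)) := by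
  obtain ⟨c, hc⟩ := h
  have hE := upow_eform hF hf
  let G : (Fin n → F) →ₗ[F] (Fin n → F) := Matrix.toLin' ((g⁻¹ : GL (Fin n) F) : Matrix (Fin n) (Fin n) F)
  have hG : ∀ v, G v = ((g⁻¹ : GL (Fin n) F) : Matrix (Fin n) (Fin n) F) *ᵥ v := fun v => Matrix.toLin'_apply _ _
  refine ⟨fun u v => f (G u) (G v), hE.comp G, ?_, (c : F), c.ne_zero, ?_⟩
  · intro u _ hu
    have h1 : G u = 0 := by
      apply upow_ND hf _ Submodule.mem_top
      intro v _
      have h2 := hu ((g : Matrix (Fin n) (Fin n) F) *ᵥ v) Submodule.mem_top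
      have h3 : G ((g : Matrix (Fin n) (Fin n) F) *ᵥ v) = v := by
        rw [hG, Matrix.mulVec_mulVec, ← Units.val_mul, inv_mul_cancel, Units.val_one, Matrix.one_mulVec]
      change f (G u) (G ((g : Matrix (Fin n) (Fin n) F) *ᵥ v)) = 0 at h2
      rwa [h3] at h2
    have h2 : (g : Matrix (Fin n) (Fin n) F) *ᵥ (G u) = u := by
      rw [hG, Matrix.mulVec_mulVec, ← Units.val_mul, mul_inv_cancel, Units.val_one, Matrix.one_mulVec]
    rw [← h2, h1, Matrix.mulVec_zero]
  · intro u v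
    have h3 : ∀ w, G (Matrix.toLin' (x : Matrix (Fin n) (Fin n) F) w) = ((g⁻¹ * x * g : GL (Fin n) F) : Matrix (Fin n) (Fin n) F) *ᵥ (G w) := by
      intro w
      rw [hG, hG, Matrix.toLin'_apply, Matrix.mulVec_mulVec, Matrix.mulVec_mulVec, ← Units.val_mul, ← Units.val_mul]
      congr 2
      group
    change f (G (Matrix.toLin' (x : Matrix (Fin n) (Fin n) F) u)) (G (Matrix.toLin' (x : Matrix (Fin n) (Fin n) F) v)) = (c : F) * f (G u) (G v)
    rw [h3, h3, hc]

theorem sml_two_back (hF : Fintype.card F = q ^ 2) {p : ℕ} [Fact p.Prime] [CharP F p] (hn : 0 < n) (x : Matrix.SpecialLinearGroup (Fin n) F) {z : F}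
    (hz : (x : Matrix (Fin n) (Fin n) F) ^ 2 = z • (1 : Matrix (Fin n) (Fin n) F)) (hz0 : z ≠ 0)
    (hcond : p = 2 ∨ padicValNat 2 n ≤ padicValNat 2 (Fintype.card F - 1)) : Sml (Uni.conjHom hF) (Matrix.toLin' (x : Matrix (Fin n) (Fin n) F)) := by
  classical
  have hfd : finrank F (Fin n → F) = n := by rw [finrank_fintype_fun_eq_card, Fintype.card_fin]
  have hf : (Matrix.toLin' (x : Matrix (Fin n) (Fin n) F)) ^ 2 = z • (1 : (Fin n → F) →ₗ[F] (Fin n → F)) := toLin_pow_eq hz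
  haveI : Fact (Nat.Prime 2) := ⟨Nat.prime_two⟩
  obtain ⟨w, hw⟩ : ∃ w : F, w ^ 2 = z := by
    by_cases hp2 : p = 2
    · subst hp2
      have h1 : IsSquare z := FiniteField.isSquare_of_char_two (ringChar.eq F 2) z
      obtain ⟨w, hw⟩ := h1
      exact ⟨w, by rw [hw, pow_two]⟩
    · by_contra hcon
      push Not at hcon
      have hp : p.Prime := Fact.out
      have h2F : (2 : F) ≠ 0 := by
        intro h
        have h3 : ((2 : ℕ) : F) = 0 := by exact_mod_cast h
        rw [CharP.cast_eq_zero_iff F p] at h3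
        have := Nat.le_of_dvd (by norm_num) h3
        have := hp.two_le
        omega
      have hqodd := UT.odd_q hF h2F
      obtain ⟨k, hk⟩ := hqodd
      have hcard : Fintype.card F = 4 * (k * (k + 1)) + 1 := by rw [hF, hk]; ring
      obtain ⟨h1, hdet⟩ := det_of_nonpower Nat.prime_two z hcon _ hf
      rw [LinearMap.det_toLin', Matrix.SpecialLinearGroup.det_coe, hfd] at hdet
      rw [hfd] at h1
      exact no_nonpower_of_cond (F := F) (r := 2) hn h1 (by rw [hcard]; omega) ⟨hcond.resolve_left hp2, fun _ _ => by rw [hcard]; omega⟩ z hz0 hcon hdet.symm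
  have hw0 : w ≠ 0 := by
    rintro rfl
    apply hz0
    rw [← hw]
    ring
  set t := w⁻¹ • Matrix.toLin' (x : Matrix (Fin n) (Fin n) F) with ht
  have htt : ∀ v, t (t v) = (1 : F) • v := by
    intro v
    have h1 := LinearMap.congr_fun hf v
    rw [pow_two, Module.End.mul_apply] at h1
    rw [ht, LinearMap.smul_apply, LinearMap.smul_apply, map_smul, h1, LinearMap.smul_apply, Module.End.one_apply, smul_smul, smul_smul, ← hw]
    congr 1
    field_simp
  obtain ⟨κ, μ, _, _, _, _, b, c, hb1, hb2, hb3⟩ := sq_general_form (1 : F) n (Fin n → F) t htt hfd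
  obtain ⟨B, hB1, hB2, hB3⟩ := exists_perm_form (σ := Uni.conjHom hF) (fun a => Uni.pow_q_pow_q hF a) b id (fun _ => rfl)
  have hc : ∀ j, c j * Uni.conjHom hF (c j) = 1 := by
    intro j
    have h1 := htt (b (Sum.inr j))
    rw [hb3, map_smul, hb3, smul_smul] at h1
    have h2 : c j * c j = 1 := by
      have h3 := congrArg (fun v => b.repr v (Sum.inr j)) h1
      simp only [map_smul, Finsupp.smul_apply, Basis.repr_self, Finsupp.single_eq_same, smul_eq_mul, mul_one] at h3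
      exact h3
    rcases mul_self_eq_one_iff.mp h2 with h3 | h3
    · rw [h3, map_one, mul_one]
    · rw [h3, map_neg, map_one]; ring
  have hrep : ∀ u, (∀ i, b.repr (t u) (Sum.inl (Sum.inl i)) = b.repr u (Sum.inl (Sum.inr i))) ∧ (∀ i, b.repr (t u) (Sum.inl (Sum.inr i)) = b.repr u (Sum.inl (Sum.inl i))) ∧
      (∀ j, b.repr (t u) (Sum.inr j) = c j * b.repr u (Sum.inr j)) := by
    intro u
    have h1 : t u = ∑ k, (Sum.elim (Sum.elim (fun i => b.repr u (Sum.inl (Sum.inr i))) (fun i => b.repr u (Sum.inl (Sum.inl i)))) (fun j => c j * b.repr u (Sum.inr j)) : (κ ⊕ κ) ⊕ μ → F) k • b k := by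
      conv_lhs => rw [← b.sum_repr u]
      rw [map_sum, Fintype.sum_sum_type, Fintype.sum_sum_type, Fintype.sum_sum_type, Fintype.sum_sum_type]
      simp only [map_smul, hb1, hb2, hb3, one_smul, Sum.elim_inl, Sum.elim_inr]
      rw [add_comm (∑ x_1, b.repr u (Sum.inl (Sum.inl x_1)) • b (Sum.inl (Sum.inr x_1)))]
      congr 1
      apply Finset.sum_congr rfl
      intro j _
      rw [smul_smul, mul_comm]
    refine ⟨fun i => ?_, fun i => ?_, fun j => ?_⟩
    · rw [h1, b.repr_sum_self]; rfl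
    · rw [h1, b.repr_sum_self]; rfl
    · rw [h1, b.repr_sum_self]; rfl
  have htB : ∀ u v, B (t u) (t v) = B u v := by
    intro u v
    obtain ⟨u1, u2, u3⟩ := hrep u
    obtain ⟨v1, v2, v3⟩ := hrep v
    rw [hB3, hB3, Fintype.sum_sum_type, Fintype.sum_sum_type, Fintype.sum_sum_type, Fintype.sum_sum_type]
    simp only [id, u1, u2, u3, v1, v2, v3]
    rw [add_comm (∑ x, b.repr u (Sum.inl (Sum.inr x)) * (Uni.conjHom hF) (b.repr v (Sum.inl (Sum.inr x))))]
    congr 1
    apply Finset.sum_congr rfl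
    intro j _
    rw [map_mul]
    linear_combination (b.repr u (Sum.inr j) * (Uni.conjHom hF) (b.repr v (Sum.inr j))) * hc j
  refine ⟨B, hB1, hB2, w * Uni.conjHom hF w, mul_ne_zero hw0 ((_root_.map_ne_zero _).mpr hw0), ?_⟩
  intro u v
  have h1 : ∀ v, Matrix.toLin' (x : Matrix (Fin n) (Fin n) F) v = w • t v := by
    intro v
    rw [ht, LinearMap.smul_apply, smul_smul, mul_inv_cancel₀ hw0, one_smul]
  rw [h1, h1, hB1.smul_left, hB1.smul_right, htB]
  ring

theorem not_sml_two (hF : Fintype.card F = q ^ 2) (h2F : (2 : F) ≠ 0) {V : Type*} [AddCommGroup V] [Module F V] [Nontrivial V] {x : V →ₗ[F] V} {z : F}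
    (hx : ∀ v, x (x v) = z • v) (hz : ∀ w : F, w ^ 2 ≠ z) : ¬ Sml (Uni.conjHom hF) x := by
  rintro ⟨B, hE, hND, l, hl, hB⟩
  obtain ⟨u, hu⟩ := exists_ne (0 : V)
  obtain ⟨v, huv⟩ : ∃ v, B u v ≠ 0 := by
    by_contra hcon
    push Not at hcon
    exact hu (hND u Submodule.mem_top (fun v _ => hcon v))
  have h1 : l * l = z * z ^ q := by
    have h2 := hB (x u) (x v)
    rw [hx, hx, hB, hE.smul_left, hE.smul_right, Uni.conjHom_apply] at h2
    apply mul_right_cancel₀ huv
    linear_combination -h2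
  have h2 : l ^ q = l := by
    have h3 := hB v u
    rw [hE.symm (x u) (x v), hE.symm u v, hB, map_mul, one_mul, one_mul, Uni.conjHom_apply] at h3
    exact mul_right_cancel₀ ((_root_.map_ne_zero (Uni.conjHom hF)).mpr huv) h3
  obtain ⟨μ, hμ⟩ := Uni.exists_norm_eq hF h2
  have hz0 : z ≠ 0 := by
    rintro rfl
    rw [zero_mul] at h1
    exact hl (mul_self_eq_zero.mp h1)
  obtain ⟨s, hs, hs0⟩ := UT.exists_sqrt hF h2F (z := μ ^ 2 * z⁻¹) (by
    rw [mul_pow, ← pow_mul, mul_comm 2, pow_mul, hμ, pow_two, h1, inv_pow, pow_succ']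
    apply mul_inv_cancel₀
    exact mul_ne_zero hz0 (pow_ne_zero _ hz0))
  apply hz (μ * s⁻¹)
  have hμ0 : μ ≠ 0 := by
    rintro rfl
    rw [zero_pow (by omega)] at hμ
    exact hl hμ.symm
  rw [mul_pow, inv_pow, hs]
  field_simp

theorem uni_sim_index (hF : Fintype.card F = q ^ 2) (hn : 0 < n) {f : (Fin n → F) → (Fin n → F) → F} (hf : Cfsg.Geo.IsUnitaryFormPow q f)
    {r : ℕ} [Fact r.Prime] (hrq : ¬ r ∣ q)
    (h : r ∣ (Cfsg.Geo.similarityGroup f).relIndex (Cfsg.Geo.specialLinear (Fin n) F)) :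
    ∃ j, 1 ≤ j ∧ j ≤ n ∧ ((q : ℕ) : ZMod r) ^ j = -(-1) ^ j := by
  classical
  have hr : r.Prime := Fact.out
  have hq := Uni.two_le_q hF
  have hfd : finrank F (Fin n → F) = n := by rw [finrank_fintype_fun_eq_card, Fintype.card_fin]
  have h1 : r ∣ (Cfsg.Geo.similarityGroup f).index := by
    have h2 := relIndex_inf_SL_dvd (Cfsg.Geo.similarityGroup f) (⊤ : Subgroup (GL (Fin n) F))
    rw [top_inf_eq, Subgroup.relIndex_top_right] at h2
    exact h.trans h2
  obtain ⟨T, hT⟩ := UT.exists_herm_std hF (upow_eform hF hf) (upow_ND hf) hfd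
  set S : GL (Fin n) F := Matrix.GeneralLinearGroup.mkOfDetNeZero _ (det_ne_zero_of_equiv T) with hS
  have hSv : ∀ v, (S : Matrix (Fin n) (Fin n) F) *ᵥ v = T v := by
    intro v
    rw [hS]
    change (LinearMap.toMatrix' T.toLinearMap) *ᵥ v = T v
    rw [← Matrix.toLin'_apply, Matrix.toLin'_toMatrix']
    rfl
  have hmap := H98.UniMax.map_conj_similarityGroup (f := f) (f' := Cfsg.hermForm n F q) S (by
    intro x y
    rw [hSv, hSv, hT])
  have hcard : Nat.card (Cfsg.Geo.similarityGroup f) = Nat.card (Cfsg.Geo.similarityGroup (Cfsg.hermForm n F q)) := by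
    rw [← hmap]
    exact (Nat.card_congr ((Cfsg.Geo.similarityGroup (Cfsg.hermForm n F q)).equivMapOfInjective _ (MulAut.conj S).injective).toEquiv).symm
  have hle : Cfsg.GU n F q ≤ Cfsg.Geo.similarityGroup (Cfsg.hermForm n F q) := by
    intro g hg
    rw [Uni.mem_GU] at hg
    exact ⟨1, fun u v => by rw [hg, Units.val_one, one_mul]⟩
  obtain ⟨k, hk⟩ := Subgroup.card_dvd_of_le hle
  have hGL := (Cfsg.Geo.similarityGroup f).index_mul_card
  rw [hcard, hk, card_GL_qfac, Uni.card_GU hF, hF, Finset.sum_range_id] at hGL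
  have hprod : qfac (q ^ 2) n = (∏ i ∈ Finset.range n, (if Even i then q ^ (i + 1) + 1 else q ^ (i + 1) - 1)) * (∏ i ∈ Finset.range n, (if Even i then q ^ (i + 1) - 1 else q ^ (i + 1) + 1)) := by
    unfold qfac
    rw [← Finset.prod_mul_distrib]
    apply Finset.prod_congr rfl
    intro i _
    have h3 : (q ^ 2) ^ (i + 1) - 1 = (q ^ (i + 1) + 1) * (q ^ (i + 1) - 1) := by
      rw [← pow_mul, mul_comm 2, pow_mul]
      have := Nat.sq_sub_sq (q ^ (i + 1)) 1
      rwa [one_pow] at this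
    rw [h3]
    split_ifs
    · rfl
    · rw [mul_comm]
  have hA0 : 0 < ∏ i ∈ Finset.range n, (if Even i then q ^ (i + 1) + 1 else q ^ (i + 1) - 1) := by
    apply Finset.prod_pos
    intro i _
    have h3 : 1 < q ^ (i + 1) := Nat.one_lt_pow (by omega) (by omega)
    split_ifs <;> omega
  have hq0 : 0 < q ^ (n * (n - 1) / 2) := by positivity
  rw [hprod] at hGL
  have hGL2 : (Cfsg.Geo.similarityGroup f).index * k = q ^ (n * (n - 1) / 2) * ∏ i ∈ Finset.range n, (if Even i then q ^ (i + 1) - 1 else q ^ (i + 1) + 1) := by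
    apply Nat.eq_of_mul_eq_mul_left (Nat.mul_pos hq0 hA0)
    rw [← pow_mul, two_mul, pow_add] at hGL
    calc _ = (Cfsg.Geo.similarityGroup f).index * (q ^ (n * (n - 1) / 2) * (∏ i ∈ Finset.range n, (if Even i then q ^ (i + 1) + 1 else q ^ (i + 1) - 1)) * k) := by ring
      _ = _ := hGL
      _ = _ := by ring
  have h4 : r ∣ q ^ (n * (n - 1) / 2) * ∏ i ∈ Finset.range n, (if Even i then q ^ (i + 1) - 1 else q ^ (i + 1) + 1) := by
    rw [← hGL2]
    exact h1.mul_right k
  rcases (Nat.Prime.dvd_mul hr).mp h4 with h5 | h5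
  · exact absurd (hr.dvd_of_dvd_pow h5) hrq
  · obtain ⟨i, hi, h6⟩ := (Prime.dvd_finsetProd_iff hr.prime _).mp h5
    rw [Finset.mem_range] at hi
    refine ⟨i + 1, by omega, by omega, ?_⟩
    split_ifs at h6 with he
    · rw [UT.zmod_sub _ _ (by omega)] at h6
      rw [h6, pow_succ (-1 : ZMod r), he.neg_one_pow]
      ring
    · rw [UT.zmod_add] at h6
      rw [h6, pow_succ (-1 : ZMod r), (Nat.not_even_iff_odd.mp he).neg_one_pow]
      ring

theorem not_selfDual_of {q r j : ℕ} [Fact r.Prime] (hr2 : r ≠ 2) (h : ((q : ℕ) : ZMod r) ^ j = -(-1) ^ j) : ¬ SelfDual r q (q ^ 2) := by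
  rintro ⟨t, ht⟩
  have h1 : ((q : ℕ) : ZMod r) ^ (2 * t + 1) = -1 := by
    rw [← CharP.cast_eq_zero_iff (ZMod r) r] at ht
    push_cast at ht
    rw [pow_succ, pow_mul]
    linear_combination ht
  have h2 : (((q : ℕ) : ZMod r) ^ j) ^ (2 * t + 1) = (((q : ℕ) : ZMod r) ^ (2 * t + 1)) ^ j := by
    rw [← pow_mul, ← pow_mul, mul_comm]
  have ho : Odd (2 * t + 1) := ⟨t, rfl⟩
  rw [h, h1, ho.neg_pow, ← pow_mul, mul_comm j, pow_mul, ho.neg_one_pow] at h2
  have h3 : ((-1 : ZMod r) ^ j) ≠ 0 := pow_ne_zero _ (neg_ne_zero.mpr one_ne_zero)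
  have h4 : (2 : ZMod r) * (-1) ^ j = 0 := by linear_combination -h2
  have h5 := (mul_eq_zero.mp h4).resolve_right h3
  have h6 : ((2 : ℕ) : ZMod r) = 0 := by exact_mod_cast h5
  rw [CharP.cast_eq_zero_iff (ZMod r) r] at h6
  exact hr2 ((Nat.prime_dvd_prime_iff_eq Fact.out Nat.prime_two).mp h6)

end

end Cfsg.Agent.H99.SD
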