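import Mathlib
import Cfsg.Prelude.Def_GeometricClasses
import Cfsg.Agent.H99.ConjType
import Cfsg.Agent.H99.PrimeSL

set_option autoImplicit false

/-! Field subalgebras of full degree and their normalizers (helper99). -/

namespace Cfsg.Agent.H99

open Module Polynomial Matrix

section
variable {F : Type*} [Field F] {n : ℕ} {K : Subalgebra F (Matrix (Fin n) (Fin n) F)}

lemma fieldSub_isField (hn : 0 < n) {k : ℕ} (hK : Cfsg.Geo.IsFieldSubalgebra k K) : IsField K where
  exists_pair_ne := by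
    have : Nonempty (Fin n) := ⟨⟨0, hn⟩⟩
    exact ⟨0, 1, fun h => zero_ne_one (congrArg Subtype.val h)⟩
  mul_comm := fun x y => Subtype.ext (hK.comm x.1 x.2 y.1 y.2)
  mul_inv_cancel := by
    intro a ha
    obtain ⟨y, hy, h1⟩ := hK.inv a.1 a.2 (fun h => ha (Subtype.ext h))
    exact ⟨⟨y, hy⟩, Subtype.ext h1⟩

/-- the vector space is one-dimensional over a field subalgebra of full degree -/
theorem exists_singer_equiv (hK : Cfsg.Geo.IsFieldSubalgebra n K) (v : Fin n → F) (hv : v ≠ 0) :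
    ∃ e : K ≃ₗ[F] (Fin n → F), ∀ k : K, e k = (k : Matrix (Fin n) (Fin n) F) *ᵥ v := by
  let φ : K →ₗ[F] (Fin n → F) :=
  { toFun := fun k => (k : Matrix (Fin n) (Fin n) F) *ᵥ v
    map_add' := fun a b => by
      change ((a : Matrix (Fin n) (Fin n) F) + (b : Matrix (Fin n) (Fin n) F)) *ᵥ v = _
      rw [Matrix.add_mulVec]
    map_smul' := fun c a => by
      change (c • (a : Matrix (Fin n) (Fin n) F)) *ᵥ v = _
      rw [Matrix.smul_mulVec]
      rfl }
  have hφ : Function.Injective φ := by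
    rw [← LinearMap.ker_eq_bot, LinearMap.ker_eq_bot']
    intro k hk
    by_contra hne
    obtain ⟨y, hy, h1⟩ := hK.inv k.1 k.2 (fun h => hne (Subtype.ext h))
    apply hv
    have h2 : (y * (k : Matrix (Fin n) (Fin n) F)) *ᵥ v = 0 := by
      rw [← Matrix.mulVec_mulVec]
      have h3 : (k : Matrix (Fin n) (Fin n) F) *ᵥ v = 0 := hk
      rw [h3, Matrix.mulVec_zero]
    rwa [hK.comm y hy k.1 k.2, h1, Matrix.one_mulVec] at h2
  have hfin : finrank F K = finrank F (Fin n → F) := by rw [hK.finrank_eq]; simp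
  exact ⟨LinearEquiv.ofInjectiveOfFinrankEq φ hφ hfin, fun k => rfl⟩

/-- eigenspaces of noncentral elements of the normalizer are at most one-dimensional -/
theorem singer_eigenspace (hn : n.Prime) (hK : Cfsg.Geo.IsFieldSubalgebra n K) (g : GL (Fin n) F)
    (hg : g ∈ Cfsg.Geo.subalgebraNormalizer K)
    (hgs : ∀ c : F, (g : Matrix (Fin n) (Fin n) F) ≠ c • (1 : Matrix (Fin n) (Fin n) F)) (l : F) (u v : Fin n → F)
    (hu0 : u ≠ 0) (hu : (g : Matrix (Fin n) (Fin n) F) *ᵥ u = l • u) (hv : (g : Matrix (Fin n) (Fin n) F) *ᵥ v = l • v) :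
    ∃ c : F, v = c • u := by
  obtain ⟨e, he⟩ := exists_singer_equiv hK u hu0
  have hl : l ≠ 0 := by
    rintro rfl
    rw [zero_smul] at hu
    apply hu0
    have h1 : ((g⁻¹ : GL (Fin n) F) : Matrix (Fin n) (Fin n) F) *ᵥ ((g : Matrix (Fin n) (Fin n) F) *ᵥ u) = 0 := by
      rw [hu, Matrix.mulVec_zero]
    rw [Matrix.mulVec_mulVec, ← Units.val_mul, inv_mul_cancel] at h1
    simpa using h1
  have hcomm : ∀ k ∈ K, ∃ k' ∈ K, (g : Matrix (Fin n) (Fin n) F) * k = k' * g := by
    intro k hk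
    refine ⟨_, (hg k).mp hk, ?_⟩
    rw [mul_assoc, ← Units.val_mul, inv_mul_cancel, Units.val_one, mul_one]
  set k := e.symm v with hk
  have hkv : (k : Matrix (Fin n) (Fin n) F) *ᵥ u = v := by rw [← he, hk, LinearEquiv.apply_symm_apply]
  -- `g` commutes with `k`
  have hgk : (g : Matrix (Fin n) (Fin n) F) * k = k * g := by
    obtain ⟨k', hk', h1⟩ := hcomm k.1 k.2
    have h2 : (g : Matrix (Fin n) (Fin n) F) *ᵥ v = l • (k' *ᵥ u) := by
      rw [← hkv, Matrix.mulVec_mulVec, h1, ← Matrix.mulVec_mulVec, hu, Matrix.mulVec_smul]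
    rw [hv, ← hkv] at h2
    have h3 : (k : Matrix (Fin n) (Fin n) F) *ᵥ u = k' *ᵥ u := smul_right_injective _ hl h2
    have h4 : e k = e ⟨k', hk'⟩ := by rw [he, he]; exact h3
    have h5 : k = ⟨k', hk'⟩ := e.injective h4
    rw [h1]
    rw [show k' = (k : Matrix (Fin n) (Fin n) F) from (congrArg Subtype.val h5).symm]
  -- the subalgebra of elements of `K` commuting with `g`
  let C : Subalgebra F K := (Subalgebra.centralizer F {(g : Matrix (Fin n) (Fin n) F)}).comap K.val
  have hC : ∀ x : K, x ∈ C ↔ (g : Matrix (Fin n) (Fin n) F) * x = x * g := by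
    intro x
    rw [Subalgebra.mem_comap, Subalgebra.mem_centralizer_iff]
    simp
  have hf := fieldSub_isField hn.pos hK
  have hdom : IsDomain K := hf.isDomain
  have hsimple := Subalgebra.isSimpleOrder_of_finrank_prime F K (by rw [hK.finrank_eq]; exact hn)
  rcases hsimple.eq_bot_or_eq_top C with h | h
  · have h1 : k ∈ C := (hC k).mpr hgk
    rw [h, Algebra.mem_bot] at h1
    obtain ⟨c, hc⟩ := h1
    refine ⟨c, ?_⟩
    rw [← hkv, ← hc]
    change (algebraMap F (Matrix (Fin n) (Fin n) F) c) *ᵥ u = c • u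
    rw [Algebra.algebraMap_eq_smul_one, Matrix.smul_mulVec, Matrix.one_mulVec]
  · exfalso
    apply hgs l
    apply Matrix.toLin'.injective
    apply LinearMap.ext
    intro w
    obtain ⟨x, rfl⟩ := e.surjective w
    have h1 : x ∈ C := by rw [h]; exact Algebra.mem_top
    have h2 := (hC x).mp h1
    rw [he, Matrix.toLin'_apply, Matrix.mulVec_mulVec, h2, ← Matrix.mulVec_mulVec, hu, Matrix.mulVec_smul]
    simp

/-- the Frobenius element of the normalizer -/
theorem exists_frobenius_elt [Fintype F] (hn : 2 ≤ n) (hK : Cfsg.Geo.IsFieldSubalgebra n K) :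
    ∃ t : GL (Fin n) F, t ∈ Cfsg.Geo.subalgebraNormalizer K ∧
      (Matrix.toLin' (t : Matrix (Fin n) (Fin n) F)) ^ n = 1 ∧
      (∀ c : F, (t : Matrix (Fin n) (Fin n) F) ≠ c • (1 : Matrix (Fin n) (Fin n) F)) := by
  have hn0 : 0 < n := by omega
  let v₀ : Fin n → F := fun _ => 1
  have hv₀ : v₀ ≠ 0 := fun h => one_ne_zero (congrFun h ⟨0, hn0⟩)
  obtain ⟨e, he⟩ := exists_singer_equiv hK v₀ hv₀
  have hf := fieldSub_isField hn0 hK
  let iF : Field K := hf.toField
  have hfinK : Finite K := Finite.of_injective (fun k : K => (k : Matrix (Fin n) (Fin n) F)) Subtype.val_injective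
  have : Fintype K := Fintype.ofFinite K
  let φ : K ≃ₐ[F] K := FiniteField.frobeniusAlgEquivOfAlgebraic F K
  have hφn : φ ^ n = 1 := by
    have h1 := FiniteField.orderOf_frobeniusAlgEquivOfAlgebraic F K
    have h2 : finrank F K = n := hK.finrank_eq
    rw [h2] at h1
    exact orderOf_dvd_iff_pow_eq_one.mp (dvd_of_eq h1)
  have hφ1 : φ ≠ 1 := by
    intro h
    have h1 := FiniteField.orderOf_frobeniusAlgEquivOfAlgebraic F K
    have h2 : finrank F K = n := hK.finrank_eq
    rw [h2] at h1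
    have h3 : orderOf φ = n := h1
    rw [h, orderOf_one] at h3
    omega
  let T : (Fin n → F) ≃ₗ[F] (Fin n → F) := e.symm.trans (φ.toLinearEquiv.trans e)
  have hT : ∀ k : K, T (e k) = e (φ k) := fun k => by simp [T]
  have hTm : (LinearMap.toMatrix' T.toLinearMap).det ≠ 0 := by
    have h1 : LinearMap.toMatrix' T.toLinearMap * LinearMap.toMatrix' T.symm.toLinearMap = 1 := by
      rw [← LinearMap.toMatrix'_comp]
      simp
    intro h0
    have := congrArg Matrix.det h1
    rw [Matrix.det_mul, h0, zero_mul, Matrix.det_one] at this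
    exact zero_ne_one this
  let t : GL (Fin n) F := Matrix.GeneralLinearGroup.mkOfDetNeZero _ hTm
  have ht : Matrix.toLin' (t : Matrix (Fin n) (Fin n) F) = T.toLinearMap := Matrix.toLin'_toMatrix' _
  have htv : ∀ v, (t : Matrix (Fin n) (Fin n) F) *ᵥ v = T v := fun v => by
    rw [← Matrix.toLin'_apply, ht]; rfl
  -- `t k t⁻¹ = φ k`
  have hconj : ∀ k : K, (t : Matrix (Fin n) (Fin n) F) * k = (φ k : K) * (t : Matrix (Fin n) (Fin n) F) := by
    intro k
    apply Matrix.toLin'.injective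
    apply LinearMap.ext
    intro w
    obtain ⟨x, rfl⟩ := e.surjective w
    rw [Matrix.toLin'_apply, Matrix.toLin'_apply, ← Matrix.mulVec_mulVec, ← Matrix.mulVec_mulVec, htv, htv, hT]
    have h1 : (k : Matrix (Fin n) (Fin n) F) *ᵥ (e x) = e (k * x) := by
      rw [he, he, Matrix.mulVec_mulVec]; rfl
    have h2 : ((φ k : K) : Matrix (Fin n) (Fin n) F) *ᵥ (e (φ x)) = e (φ k * φ x) := by
      rw [he, he, Matrix.mulVec_mulVec]; rfl
    rw [h1, h2, hT, map_mul]
  have hconj' : ∀ k : K, (t : Matrix (Fin n) (Fin n) F) * k * ((t⁻¹ : GL (Fin n) F) : Matrix (Fin n) (Fin n) F) = (φ k : K) := by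
    intro k
    rw [hconj, mul_assoc, ← Units.val_mul, mul_inv_cancel, Units.val_one, mul_one]
  refine ⟨t, ?_, ?_, ?_⟩
  · intro k
    constructor
    · intro hk
      rw [hconj' ⟨k, hk⟩]
      exact (φ _).2
    · intro hk
      -- `t k t⁻¹ = φ x` for `x = φ⁻¹ (t k t⁻¹)`
      set y : K := ⟨_, hk⟩ with hy
      have h1 := hconj' (φ.symm y)
      rw [AlgEquiv.apply_symm_apply] at h1
      have h2 : (t : Matrix (Fin n) (Fin n) F) * k * ((t⁻¹ : GL (Fin n) F) : Matrix (Fin n) (Fin n) F)
          = (t : Matrix (Fin n) (Fin n) F) * (φ.symm y : K) * ((t⁻¹ : GL (Fin n) F) : Matrix (Fin n) (Fin n) F) := by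
        rw [h1]
      have h3 : k = ((φ.symm y : K) : Matrix (Fin n) (Fin n) F) := by
        have h4 := congrArg (fun M : Matrix (Fin n) (Fin n) F => ((t⁻¹ : GL (Fin n) F) : Matrix (Fin n) (Fin n) F) * M *
          (t : Matrix (Fin n) (Fin n) F)) h2
        simp only [mul_assoc] at h4
        rw [← Units.val_mul, inv_mul_cancel, Units.val_one, mul_one, mul_one, ← mul_assoc, ← mul_assoc, ← Units.val_mul,
          inv_mul_cancel, Units.val_one, one_mul, one_mul] at h4
        exact h4
      rw [h3]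
      exact (φ.symm y).2
  · rw [ht]
    apply LinearMap.ext
    intro w
    obtain ⟨x, rfl⟩ := e.surjective w
    have h1 : ∀ s : ℕ, (T.toLinearMap ^ s) (e x) = e ((φ ^ s) x) := by
      intro s
      induction s with
      | zero => rfl
      | succ s ih =>
        rw [pow_succ', Module.End.mul_apply, ih]
        change T (e ((φ ^ s) x)) = _
        rw [hT, pow_succ']
        rfl
    rw [h1, hφn]
    rfl
  · intro c hc
    apply hφ1
    ext x
    -- `t = c` commutes with everything, so `φ x = x`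
    have h1 := hconj' x
    rw [hc] at h1
    have h2 : (c • (1 : Matrix (Fin n) (Fin n) F)) * (x : Matrix (Fin n) (Fin n) F)
        = (x : Matrix (Fin n) (Fin n) F) * (c • (1 : Matrix (Fin n) (Fin n) F)) := by simp
    rw [h2, ← hc, mul_assoc, ← Units.val_mul, mul_inv_cancel, Units.val_one, mul_one] at h1
    rw [← h1]
    rfl

end

end Cfsg.Agent.H99
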