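import Mathlib
import Cfsg.Prelude.Def_GeometricClasses
import Cfsg.Agent.H4.CardSL
import Cfsg.Agent.H99.FinFieldTwo

set_option autoImplicit false

/-! The subfield subgroup (helper99). -/

namespace Cfsg.Agent.H99

open Matrix

section
variable {F : Type*} [Field F] {n : ℕ} (F₀ : Subfield F)

lemma mem_subfieldSubgroup_iff (g : GL (Fin n) F) :
    g ∈ Cfsg.Geo.subfieldSubgroup F₀ 1 ↔ ∃ (c : F) (M : Matrix (Fin n) (Fin n) F₀), c ≠ 0 ∧ M.det ≠ 0 ∧
      (g : Matrix (Fin n) (Fin n) F) = c • M.map (fun a => (a : F)) := by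
  have h1 : Cfsg.Geo.subfieldSubgroup F₀ (1 : GL (Fin n) F) =
      (Matrix.GeneralLinearGroup.map (F₀.subtype : F₀ →+* F)).range ⊔ Cfsg.Geo.scalars (Fin n) F := by
    unfold Cfsg.Geo.subfieldSubgroup
    rw [map_one]
    exact Subgroup.map_id _
  rw [h1]
  have hnorm : (Cfsg.Geo.scalars (Fin n) F).Normal := by
    refine ⟨fun a ha g => ?_⟩
    rw [Cfsg.Geo.mem_scalars_iff] at ha ⊢
    obtain ⟨c, hc⟩ := ha
    refine ⟨c, ?_⟩
    rw [Units.val_mul, Units.val_mul, hc, mul_smul_comm, mul_one, smul_mul_assoc, ← Units.val_mul, mul_inv_cancel,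
      Units.val_one]
  rw [Subgroup.mem_sup_of_normal_right]
  constructor
  · rintro ⟨_, ⟨M, rfl⟩, s, hs, rfl⟩
    rw [Cfsg.Geo.mem_scalars_iff] at hs
    obtain ⟨c, hc⟩ := hs
    refine ⟨c, (M : Matrix (Fin n) (Fin n) F₀), c.ne_zero, ?_, ?_⟩
    · have := (Matrix.GeneralLinearGroup.det M).ne_zero
      exact this
    · rw [Units.val_mul, hc, mul_smul_comm, mul_one]
      rfl
  · rintro ⟨c, M, hc, hM, hg⟩
    refine ⟨Matrix.GeneralLinearGroup.map (F₀.subtype : F₀ →+* F) (Matrix.GeneralLinearGroup.mkOfDetNeZero M hM), ⟨_, rfl⟩,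
      Units.map (Matrix.scalar (Fin n) : F →+* Matrix (Fin n) (Fin n) F).toMonoidHom (Units.mk0 c hc), ⟨_, rfl⟩, ?_⟩
    apply Units.ext
    rw [Units.val_mul, hg]
    ext i j
    simp [Matrix.GeneralLinearGroup.mkOfDetNeZero, mul_comm]

lemma mem_subfieldSubgroup_of_eq (g : GL (Fin n) F) (c : F) (M : Matrix (Fin n) (Fin n) F₀)
    (hg : (g : Matrix (Fin n) (Fin n) F) = c • M.map (fun a => (a : F))) (hn : 0 < n) :
    g ∈ Cfsg.Geo.subfieldSubgroup F₀ 1 := by
  have hd : (g : Matrix (Fin n) (Fin n) F).det ≠ 0 := (Matrix.GeneralLinearGroup.det g).ne_zero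
  rw [hg, Matrix.det_smul] at hd
  rw [mem_subfieldSubgroup_iff]
  refine ⟨c, M, ?_, ?_, hg⟩
  · rintro rfl
    rw [zero_pow (by simpa using hn.ne')] at hd
    simp at hd
  · intro h
    apply hd
    have : (M.map (fun a => (a : F))).det = ((M.det : F₀) : F) := by
      exact (RingHom.map_det F₀.subtype M).symm
    rw [this, h]
    simp

lemma odd_geom {a k : ℕ} (ha : Odd a) (hk : Odd k) : Odd (∑ i ∈ Finset.range k, a ^ i) := by
  rw [Finset.odd_sum_iff_odd_card_odd]
  rw [Finset.filter_true_of_mem]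
  · simpa using hk
  · intro i _
    exact ha.pow

lemma padicValNat_pow_sub_one {a k : ℕ} (ha : Odd a) (ha1 : 1 < a) (hk : Odd k) :
    padicValNat 2 (a ^ k - 1) = padicValNat 2 (a - 1) := by
  have h1 : (a - 1) * (∑ i ∈ Finset.range k, a ^ i) = a ^ k - 1 := by
    rw [mul_comm]
    exact geom_sum_mul_of_one_le ha1.le k
  rw [← h1, padicValNat.mul (by omega) ?_, padicValNat.eq_zero_of_not_dvd (n := ∑ i ∈ Finset.range k, a ^ i), add_zero]
  · intro h
    exact (Nat.not_even_iff_odd.mpr (odd_geom ha hk)) (even_iff_two_dvd.mpr h)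
  · intro h
    have := odd_geom ha hk
    rw [h] at this
    simp at this

lemma padicValNat_two_prod {ι : Type*} (s : Finset ι) (f : ι → ℕ) (h : ∀ i ∈ s, f i ≠ 0) :
    padicValNat 2 (∏ i ∈ s, f i) = ∑ i ∈ s, padicValNat 2 (f i) := by
  classical
  induction s using Finset.induction_on with
  | empty => simp
  | insert i s hi ih =>
    rw [Finset.prod_insert hi, Finset.sum_insert hi, padicValNat.mul (h i (Finset.mem_insert_self _ _))
      (Finset.prod_ne_zero_iff.mpr (fun j hj => h j (Finset.mem_insert_of_mem hj))),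
      ih (fun j hj => h j (Finset.mem_insert_of_mem hj))]

lemma padicValNat_prod_GL {q k : ℕ} (hq : Odd q) (hq1 : 1 < q) (hk : Odd k) (m : ℕ) :
    padicValNat 2 (∏ i : Fin m, ((q ^ k) ^ m - (q ^ k) ^ (i : ℕ))) =
      padicValNat 2 (∏ i : Fin m, (q ^ m - q ^ (i : ℕ))) := by
  have hk0 : k ≠ 0 := by rintro rfl; simp at hk
  have key : ∀ a : ℕ, Odd a → 1 < a → padicValNat 2 (∏ i : Fin m, (a ^ m - a ^ (i : ℕ))) =
      ∑ i : Fin m, padicValNat 2 (a ^ (m - (i : ℕ)) - 1) := by
    intro a ha ha1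
    rw [padicValNat_two_prod _ _ (fun i _ => ?_)]
    · apply Finset.sum_congr rfl
      intro i _
      have h1 : a ^ m - a ^ (i : ℕ) = a ^ (i : ℕ) * (a ^ (m - (i : ℕ)) - 1) := by
        rw [Nat.mul_sub, ← pow_add, mul_one, Nat.add_sub_cancel' i.2.le]
      have h2 : a ^ (m - (i : ℕ)) - 1 ≠ 0 := by
        have : 1 < a ^ (m - (i : ℕ)) := Nat.one_lt_pow (by have := i.2; omega) ha1
        omega
      rw [h1, padicValNat.mul (by positivity) h2, padicValNat.eq_zero_of_not_dvd, zero_add]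
      intro h
      exact (Nat.not_even_iff_odd.mpr (ha.pow (n := (i : ℕ)))) (even_iff_two_dvd.mpr h)
    · have : a ^ (i : ℕ) < a ^ m := Nat.pow_lt_pow_right ha1 i.2
      omega
  rw [key q hq hq1, key (q ^ k) hq.pow (Nat.one_lt_pow hk0 hq1)]
  apply Finset.sum_congr rfl
  intro i _
  rw [← pow_mul, mul_comm k, pow_mul]
  exact padicValNat_pow_sub_one hq.pow (Nat.one_lt_pow (by have := i.2; omega) hq1) hk

/-- the special linear group of a subfield of odd degree has odd index -/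
theorem index_SL_subfield [Fintype F] (F₀ : Subfield F) {k : ℕ} (hk : Odd k)
    (hodd : Odd (Fintype.card F)) (hcard : Fintype.card F = Nat.card F₀ ^ k) (hn : 0 < n) :
    ¬ 2 ∣ (Matrix.SpecialLinearGroup.map (n := Fin n) (F₀.subtype : F₀ →+* F)).range.index := by
  classical
  have : Fintype F₀ := Fintype.ofFinite F₀
  have hk0 : k ≠ 0 := by rintro rfl; simp at hk
  rw [Nat.card_eq_fintype_card] at hcard
  have h1 : 1 < Fintype.card F := Fintype.one_lt_card
  have h10 : 1 < Fintype.card F₀ := Fintype.one_lt_card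
  have hodd0 : Odd (Fintype.card F₀) := by
    rw [hcard] at hodd
    exact Nat.Odd.of_mul_left (m := Fintype.card F₀) (n := Fintype.card F₀ ^ (k - 1)) (by
      rw [← pow_succ', Nat.sub_add_cancel (Nat.pos_of_ne_zero hk0)]; exact hodd)
  have hinj : Function.Injective (Matrix.SpecialLinearGroup.map (n := Fin n) (F₀.subtype : F₀ →+* F)) := by
    intro a b hab
    apply Subtype.ext
    ext i j
    have h2 := congrArg (fun M : Matrix.SpecialLinearGroup (Fin n) F => (M : Matrix (Fin n) (Fin n) F) i j) hab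
    exact h2
  have hc1 := Cfsg.Agent.H4.card_SL_mul (F := F) n hn
  have hc2 := Cfsg.Agent.H4.card_SL_mul (F := F₀) n hn
  rw [Matrix.card_GL_field] at hc1 hc2
  have hc3 := Subgroup.card_mul_index (Matrix.SpecialLinearGroup.map (n := Fin n) (F₀.subtype : F₀ →+* F)).range
  have hc4 : Nat.card (Matrix.SpecialLinearGroup.map (n := Fin n) (F₀.subtype : F₀ →+* F)).range =
      Nat.card (Matrix.SpecialLinearGroup (Fin n) F₀) :=
    (Nat.card_congr (MonoidHom.ofInjective hinj).toEquiv).symm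
  rw [hc4] at hc3
  have h2 := padicValNat_prod_GL hodd0 h10 hk n
  rw [← hcard, ← hc1, ← hc2, padicValNat.mul (by omega) Nat.card_pos.ne',
    padicValNat.mul (by omega) Nat.card_pos.ne', hcard, padicValNat_pow_sub_one hodd0 h10 hk] at h2
  have hidx : (Matrix.SpecialLinearGroup.map (n := Fin n) (F₀.subtype : F₀ →+* F)).range.index ≠ 0 :=
    Subgroup.index_ne_zero_of_finite
  rw [← hc3, padicValNat.mul Nat.card_pos.ne' hidx] at h2
  intro hdvd
  have h3 : 1 ≤ padicValNat 2 (Matrix.SpecialLinearGroup.map (n := Fin n) (F₀.subtype : F₀ →+* F)).range.index :=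
    one_le_padicValNat_of_dvd hidx hdvd
  omega

end

end Cfsg.Agent.H99
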