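import Mathlib
import Cfsg.Prelude.Def_GeometricClasses
import Cfsg.Agent.H99.SubfieldGrp
import Cfsg.Agent.H99.SLOrder
import Cfsg.Agent.H99.SubCount
import Cfsg.Agent.H99.SLConj
import Cfsg.Agent.H99.BasisConj

set_option autoImplicit false

/-! Subfield subgroups and elements of odd prime order (helper99). -/

namespace Cfsg.Agent.H99

open Module Matrix Polynomial

section
variable {F : Type*} [Field F] [Fintype F]

theorem exists_pow_eq_root {r n : ℕ} [Fact r.Prime] (hn : n ≠ 0) (hv : padicValNat r n < padicValNat r (Fintype.card F - 1))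
    (ζ : F) (hζ : ζ ^ r = 1) : ∃ w : F, w ^ n = ζ := by
  have hr : r.Prime := Fact.out
  obtain ⟨g, hg0, hg, hgen⟩ := exists_generator (F := F)
  have h1 := Fintype.one_lt_card (α := F)
  set N := Fintype.card F - 1 with hN
  have hN0 : N ≠ 0 := by omega
  obtain ⟨N', hN'⟩ := Nat.gcd_dvd_right n N
  have hd0 : Nat.gcd n N ≠ 0 := by
    intro h
    exact hn (Nat.eq_zero_of_gcd_eq_zero_left h)
  have hN'0 : N' ≠ 0 := by
    rintro rfl
    rw [mul_zero] at hN'
    exact hN0 hN'
  have hvd : padicValNat r (Nat.gcd n N) ≤ padicValNat r n := (padicValNat_dvd_iff_le hn).mp (pow_padicValNat_dvd.trans (Nat.gcd_dvd_left n N))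
  have hrN' : r ∣ N' := by
    by_contra h
    have h2 : padicValNat r N = padicValNat r (Nat.gcd n N) + padicValNat r N' := by
      conv_lhs => rw [hN']
      exact padicValNat.mul hd0 hN'0
    rw [padicValNat.eq_zero_of_not_dvd h] at h2
    omega
  have hζ0 : ζ ≠ 0 := by
    rintro rfl
    rw [zero_pow hr.ne_zero] at hζ
    exact zero_ne_one hζ
  obtain ⟨e, rfl⟩ := hgen ζ hζ0
  rw [← pow_mul, hg] at hζ
  obtain ⟨N'', rfl⟩ := hrN'
  have hde : Nat.gcd n N ∣ e := by
    rw [hN', show Nat.gcd n N * (r * N'') = (Nat.gcd n N * N'') * r by ring] at hζ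
    exact (dvd_mul_right _ _).trans (Nat.dvd_of_mul_dvd_mul_right hr.pos hζ)
  obtain ⟨t, ht⟩ := hde
  have hb := Nat.gcd_eq_gcd_ab n N
  refine ⟨g ^ ((Nat.gcdA n N) * (t : ℤ)), ?_⟩
  rw [← zpow_natCast, ← _root_.zpow_mul]
  have h2 : (Nat.gcdA n N) * (t : ℤ) * (n : ℤ) = (e : ℤ) + (N : ℤ) * (- (Nat.gcdB n N) * t) := by
    have h3 : (e : ℤ) = (Nat.gcd n N : ℤ) * t := by exact_mod_cast ht
    rw [h3, hb]
    ring
  rw [h2, zpow_add₀ hg0, _root_.zpow_mul, zpow_natCast, zpow_natCast, (hg N).mpr (dvd_refl _), _root_.one_zpow, mul_one]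

end

lemma order_pow_prime {r k q₀ : ℕ} (hk : k.Prime) :
    orderOf ((q₀ ^ k : ℕ) : ZMod r) = orderOf ((q₀ : ℕ) : ZMod r) ∨
      orderOf ((q₀ : ℕ) : ZMod r) = k * orderOf ((q₀ ^ k : ℕ) : ZMod r) := by
  push_cast
  rw [orderOf_pow' _ hk.ne_zero]
  rcases (Nat.dvd_prime hk).mp (Nat.gcd_dvd_right (orderOf ((q₀ : ℕ) : ZMod r)) k) with h | h
  · left
    rw [h, Nat.div_one]
  · right
    rw [h]
    exact (Nat.mul_div_cancel' (by rw [← h]; exact Nat.gcd_dvd_left _ _)).symm

section
variable {F : Type*} [Field F] [Fintype F] {p : ℕ} [Fact p.Prime] [CharP F p] {r : ℕ} [Fact r.Prime] {n : ℕ}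

omit [Fact p.Prime] in
/-- geometric sums prime to `r` -/
lemma not_dvd_geom {q₀ k j : ℕ} (hq₀ : 1 < q₀) (hk : k.Prime) (hrk : r ≠ k)
    (hi : orderOf ((q₀ ^ k : ℕ) : ZMod r) = orderOf ((q₀ : ℕ) : ZMod r)) : ¬ r ∣ ∑ l ∈ Finset.range k, (q₀ ^ j) ^ l := by
  have hr : r.Prime := Fact.out
  intro hd
  by_cases hj : orderOf ((q₀ : ℕ) : ZMod r) ∣ j
  · have h1 : ((∑ l ∈ Finset.range k, (q₀ ^ j) ^ l : ℕ) : ZMod r) = (k : ZMod r) := by
      push_cast
      have h2 : ((q₀ : ℕ) : ZMod r) ^ j = 1 := orderOf_dvd_iff_pow_eq_one.mp hj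
      rw [h2]
      simp
    rw [(ZMod.natCast_eq_zero_iff _ _).mpr hd] at h1
    have h3 := (ZMod.natCast_eq_zero_iff _ _).mp h1.symm
    exact hrk ((Nat.prime_dvd_prime_iff_eq hr hk).mp h3)
  · have h1 : (∑ l ∈ Finset.range k, (q₀ ^ j) ^ l) * (q₀ ^ j - 1) = (q₀ ^ j) ^ k - 1 :=
      geom_sum_mul_of_one_le (Nat.one_le_pow _ _ (by omega)) k
    have h2 : r ∣ (q₀ ^ k) ^ j - 1 := by
      rw [← pow_mul, mul_comm k j, pow_mul, ← h1]
      exact hd.mul_right _
    rw [dvd_pow_sub_one_iff (Nat.pos_of_ne_zero (by positivity)), hi] at h2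
    exact hj h2

omit [Fact p.Prime] in
lemma qfac_pow {q₀ k : ℕ} (hq₀ : 1 < q₀) (m : ℕ) :
    qfac (q₀ ^ k) m = qfac q₀ m * ∏ j ∈ Finset.range m, ∑ l ∈ Finset.range k, (q₀ ^ (j + 1)) ^ l := by
  induction m with
  | zero => simp [qfac]
  | succ m ih =>
    rw [qfac_succ, qfac_succ, ih, Finset.prod_range_succ]
    have h1 : (∑ l ∈ Finset.range k, (q₀ ^ (m + 1)) ^ l) * (q₀ ^ (m + 1) - 1) = (q₀ ^ (m + 1)) ^ k - 1 :=
      geom_sum_mul_of_one_le (Nat.one_le_pow _ _ (by omega)) k
    rw [← pow_mul, mul_comm k, pow_mul, ← h1]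
    ring

/-- the special linear group of a subfield has index prime to `r` if the orders agree -/
theorem not_dvd_index_SL (F₀ : Subfield F) {k : ℕ} (hk : k.Prime) (hcard : Fintype.card F = Nat.card F₀ ^ k) (hn : 0 < n)
    (hrp : r ≠ p) (hrk : r ≠ k) (hi : orderOf ((Fintype.card F : ℕ) : ZMod r) = orderOf ((Nat.card F₀ : ℕ) : ZMod r)) :
    ¬ r ∣ (Matrix.SpecialLinearGroup.map (n := Fin n) (F₀.subtype : F₀ →+* F)).range.index := by
  classical
  have hr : r.Prime := Fact.out
  have : Fintype F₀ := Fintype.ofFinite F₀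
  rw [Nat.card_eq_fintype_card] at hcard hi
  have h1 : 1 < Fintype.card F := Fintype.one_lt_card
  have h10 : 1 < Fintype.card F₀ := Fintype.one_lt_card
  have hinj : Function.Injective (Matrix.SpecialLinearGroup.map (n := Fin n) (F₀.subtype : F₀ →+* F)) := by
    intro a b hab
    apply Subtype.ext
    ext i j
    have h2 := congrArg (fun M : Matrix.SpecialLinearGroup (Fin n) F => (M : Matrix (Fin n) (Fin n) F) i j) hab
    exact h2
  have hc1 := Cfsg.Agent.H4.card_SL_mul (F := F) n hn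
  have hc2 := Cfsg.Agent.H4.card_SL_mul (F := F₀) n hn
  have hGL : ∀ (K : Type _) [Field K] [Fintype K], Nat.card (GL (Fin n) K) = Fintype.card K ^ (∑ j ∈ Finset.range n, j) * qfac (Fintype.card K) n := by
    intro K _ _
    have h1 := prod_sub_mul_qfac (q := Fintype.card K) (Fintype.one_lt_card) n n le_rfl
    rw [Nat.sub_self] at h1
    have h2 : qfac (Fintype.card K) 0 = 1 := by simp [qfac]
    rw [h2, mul_one] at h1
    rw [Matrix.card_GL_field, ← h1, ← Fin.prod_univ_eq_prod_range (fun j => Fintype.card K ^ n - Fintype.card K ^ j)]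
  rw [hGL] at hc1 hc2
  have hc3 := Subgroup.card_mul_index (Matrix.SpecialLinearGroup.map (n := Fin n) (F₀.subtype : F₀ →+* F)).range
  have hc4 : Nat.card (Matrix.SpecialLinearGroup.map (n := Fin n) (F₀.subtype : F₀ →+* F)).range =
      Nat.card (Matrix.SpecialLinearGroup (Fin n) F₀) :=
    (Nat.card_congr (MonoidHom.ofInjective hinj).toEquiv).symm
  rw [hc4] at hc3
  rintro ⟨t, ht⟩
  rw [ht] at hc3
  rw [← hc3] at hc1
  set q₀ := Fintype.card F₀ with hq₀
  rw [hcard, qfac_pow h10] at hc1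
  set G := ∏ j ∈ Finset.range n, ∑ l ∈ Finset.range k, (q₀ ^ (j + 1)) ^ l with hG
  set S := ∑ j ∈ Finset.range n, j with hS
  have h2 : (∑ l ∈ Finset.range k, q₀ ^ l) * (q₀ - 1) = q₀ ^ k - 1 := geom_sum_mul_of_one_le (by omega) k
  rw [← h2] at hc1
  set g1 := ∑ l ∈ Finset.range k, q₀ ^ l with hg1
  have hq0 := qfac_pos (q := q₀) (by omega) n
  have h3 : (g1 * q₀ ^ S * (r * t)) * qfac q₀ n = ((q₀ ^ k) ^ S * G) * qfac q₀ n := by
    calc (g1 * q₀ ^ S * (r * t)) * qfac q₀ n = g1 * (r * t) * (q₀ ^ S * qfac q₀ n) := by ring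
      _ = g1 * (r * t) * ((q₀ - 1) * Nat.card (Matrix.SpecialLinearGroup (Fin n) F₀)) := by rw [hc2]
      _ = g1 * (q₀ - 1) * (Nat.card (Matrix.SpecialLinearGroup (Fin n) F₀) * (r * t)) := by ring
      _ = ((q₀ ^ k) ^ S * G) * qfac q₀ n := by rw [hc1]; ring
  have h4 := Nat.eq_of_mul_eq_mul_right hq0 h3
  have h5 : r ∣ (q₀ ^ k) ^ S * G := ⟨g1 * q₀ ^ S * t, by rw [← h4]; ring⟩
  rcases hr.dvd_mul.mp h5 with h | h
  · have h6 := hr.dvd_of_dvd_pow h
    rw [← hcard] at h6
    exact prime_not_dvd_card hrp h6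
  · obtain ⟨j, -, hj⟩ := (Nat.Prime.prime hr).exists_mem_finset_dvd h
    exact not_dvd_geom h10 hk hrk (by rw [← hcard]; exact hi) hj

end

section
variable {F : Type*} [Field F] (F₀ : Subfield F) {n : ℕ}

/-- extension of scalars for coordinate vectors -/
def coeVec (v : Fin n → F₀) : Fin n → F := fun j => (v j : F)

lemma map_mulVec_coe (M : Matrix (Fin n) (Fin n) F₀) (v : Fin n → F₀) :
    (M.map (fun a => (a : F))) *ᵥ coeVec F₀ v = coeVec F₀ (M *ᵥ v) := by
  funext j
  simp only [Matrix.mulVec, dotProduct, coeVec, Matrix.map_apply]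
  push_cast
  rfl

lemma li_coeVec {ι : Type*} {v : ι → (Fin n → F₀)} (h : LinearIndependent F₀ v) : LinearIndependent F (fun i => coeVec F₀ (v i)) := by
  rw [linearIndependent_iff'] at h ⊢
  intro s g hg i hi
  rw [← Module.forall_dual_apply_eq_zero_iff F₀ (g i)]
  intro φ
  apply h s (fun i => φ (g i)) _ i hi
  funext j
  have h1 := congrArg φ (congrFun hg j)
  simp only [Finset.sum_apply, Pi.smul_apply, smul_eq_mul, coeVec, Pi.zero_apply, map_zero, map_sum] at h1 ⊢
  rw [← h1]
  apply Finset.sum_congr rfl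
  intro i _
  have h2 := φ.map_smul (v i j) (g i)
  rw [smul_eq_mul, Subfield.smul_def, smul_eq_mul] at h2
  rw [mul_comm (g i), h2, mul_comm]

/-- dimensions of kernels do not change under extension of scalars -/
theorem finrank_ker_map (M : Matrix (Fin n) (Fin n) F₀) :
    finrank F (LinearMap.ker (Matrix.toLin' (M.map (fun a => (a : F))))) = finrank F₀ (LinearMap.ker (Matrix.toLin' M)) := by
  have h1 : finrank F₀ (LinearMap.ker (Matrix.toLin' M)) ≤ finrank F (LinearMap.ker (Matrix.toLin' (M.map (fun a => (a : F))))) := by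
    let b := Module.finBasis F₀ (LinearMap.ker (Matrix.toLin' M))
    have h2 := li_coeVec F₀ (b.linearIndependent.map' (LinearMap.ker (Matrix.toLin' M)).subtype (Submodule.ker_subtype _))
    have h3 : ∀ i, coeVec F₀ (((LinearMap.ker (Matrix.toLin' M)).subtype ∘ b) i) ∈ LinearMap.ker (Matrix.toLin' (M.map (fun a => (a : F)))) := by
      intro i
      rw [LinearMap.mem_ker, Matrix.toLin'_apply, map_mulVec_coe]
      have h4 : M *ᵥ (b i : Fin n → F₀) = 0 := (b i).2
      change coeVec F₀ (M *ᵥ (b i : Fin n → F₀)) = 0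
      rw [h4]
      rfl
    have h4 : LinearIndependent F (fun i => (⟨_, h3 i⟩ : LinearMap.ker (Matrix.toLin' (M.map (fun a => (a : F)))))) :=
      LinearIndependent.of_comp (LinearMap.ker (Matrix.toLin' (M.map (fun a => (a : F))))).subtype h2
    have h5 := h4.fintype_card_le_finrank
    simpa using h5
  have h2 : finrank F₀ (LinearMap.range (Matrix.toLin' M)) ≤ finrank F (LinearMap.range (Matrix.toLin' (M.map (fun a => (a : F))))) := by
    let b := Module.finBasis F₀ (LinearMap.range (Matrix.toLin' M))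
    have h2 := li_coeVec F₀ (b.linearIndependent.map' (LinearMap.range (Matrix.toLin' M)).subtype (Submodule.ker_subtype _))
    have h3 : ∀ i, coeVec F₀ (((LinearMap.range (Matrix.toLin' M)).subtype ∘ b) i) ∈ LinearMap.range (Matrix.toLin' (M.map (fun a => (a : F)))) := by
      intro i
      obtain ⟨u, hu⟩ := (b i).2
      refine ⟨coeVec F₀ u, ?_⟩
      rw [Matrix.toLin'_apply, map_mulVec_coe]
      change _ = coeVec F₀ (b i : Fin n → F₀)
      rw [← hu]
      rfl
    have h4 : LinearIndependent F (fun i => (⟨_, h3 i⟩ : LinearMap.range (Matrix.toLin' (M.map (fun a => (a : F)))))) :=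
      LinearIndependent.of_comp (LinearMap.range (Matrix.toLin' (M.map (fun a => (a : F))))).subtype h2
    have h5 := h4.fintype_card_le_finrank
    simpa using h5
  have h3 := (Matrix.toLin' M).finrank_range_add_finrank_ker
  have h4 := (Matrix.toLin' (M.map (fun a => (a : F)))).finrank_range_add_finrank_ker
  have h5 : finrank F₀ (Fin n → F₀) = n := by simp
  have h6 : finrank F (Fin n → F) = n := by simp
  omega

/-- membership in the subfield group from a basis in which the matrix has entries in the subfield -/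
theorem exists_conj_mem_subfield (hn : 0 < n) (x : Matrix.SpecialLinearGroup (Fin n) F) (hx : CentSurj (x : Matrix (Fin n) (Fin n) F))
    {κ : Type*} [Fintype κ] (b : Basis κ F (Fin n → F)) (w : F)
    (h : ∀ i j, ∃ t : F₀, b.repr (Matrix.toLin' (x : Matrix (Fin n) (Fin n) F) (b j)) i = w * t) :
    ∃ P : Matrix.SpecialLinearGroup (Fin n) F,
      P⁻¹ * x * P ∈ (Cfsg.Geo.subfieldSubgroup F₀ 1).comap (Matrix.SpecialLinearGroup.toGL : Matrix.SpecialLinearGroup (Fin n) F →* GL (Fin n) F) := by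
  classical
  have hc : Fintype.card κ = n := by
    rw [← finrank_eq_card_basis b]
    simp
  let ε : κ ≃ Fin n := Fintype.equivFinOfCardEq hc
  let b' : Basis (Fin n) F (Fin n → F) := b.reindex ε
  have h' : ∀ i j, ∃ t : F₀, b'.repr (Matrix.toLin' (x : Matrix (Fin n) (Fin n) F) (b' j)) i = w * t := by
    intro i j
    obtain ⟨t, ht⟩ := h (ε.symm i) (ε.symm j)
    exact ⟨t, by rw [Basis.repr_reindex_apply, Basis.reindex_apply]; exact ht⟩
  choose t ht using h'
  let T : Matrix (Fin n) (Fin n) F₀ := Matrix.of t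
  apply exists_conj_mem_comap' x hx _ (Matrix.toLin' (w • T.map (fun a => (a : F)))) _ b'.equivFun.symm
  · intro v
    have h1 : b'.equivFun.symm.toLinearMap ∘ₗ Matrix.toLin' (w • T.map (fun a => (a : F))) =
        Matrix.toLin' (x : Matrix (Fin n) (Fin n) F) ∘ₗ b'.equivFun.symm.toLinearMap := by
      apply (Pi.basisFun F (Fin n)).ext
      intro j
      simp only [Pi.basisFun_apply, LinearMap.comp_apply, LinearEquiv.coe_coe]
      have e1 : b'.equivFun.symm (Pi.single j 1) = b' j := by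
        rw [LinearEquiv.symm_apply_eq]
        funext y
        rw [Basis.equivFun_self, Pi.single_apply]
        by_cases h : j = y
        · rw [if_pos h, if_pos h.symm]
        · rw [if_neg h, if_neg (Ne.symm h)]
      rw [e1, LinearEquiv.symm_apply_eq]
      funext i
      rw [Basis.equivFun_apply, ht, Matrix.toLin'_apply, Matrix.mulVec_single_one]
      rfl
    exact LinearMap.congr_fun h1 v
  · intro g hg
    apply mem_subfieldSubgroup_of_eq F₀ g w T _ hn
    ext i j
    have h2 := congrFun (hg (Pi.single j 1)) i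
    rw [Matrix.toLin'_apply, Matrix.mulVec_single_one, Matrix.mulVec_single_one] at h2
    exact h2

end

end Cfsg.Agent.H99
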