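import Mathlib
import Cfsg.Agent.H99.SubfieldR
import Cfsg.Agent.H99.PrimeElt
import Cfsg.Agent.H99.ConjType

set_option autoImplicit false

/-! Elements of the subfield groups: factors, pairs of eigenvalues, Frobenius (helper99). -/

namespace Cfsg.Agent.H99
open Module Matrix Polynomial

section
variable {F : Type*} [Field F] [Fintype F] {p : ℕ} [Fact p.Prime] [CharP F p] {r : ℕ} [Fact r.Prime] {n : ℕ}

omit [Fintype F] [Fact p.Prime] [CharP F p] in
lemma exists_factor_of_dvd_map (F₀ : Subfield F) {P : F[X]} (hPi : Irreducible P) (A : F₀[X]) (hA : A ≠ 0)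
    (h : P ∣ A.map F₀.subtype) : ∃ Q : F₀[X], Q.Monic ∧ Irreducible Q ∧ Q ∣ A ∧ P ∣ Q.map F₀.subtype := by
  classical
  revert hA h
  refine WfDvdMonoid.induction_on_irreducible (motive := fun A => A ≠ 0 → P ∣ A.map F₀.subtype →
    ∃ Q : F₀[X], Q.Monic ∧ Irreducible Q ∧ Q ∣ A ∧ P ∣ Q.map F₀.subtype) A ?_ ?_ ?_
  · intro h
    exact absurd rfl h
  · intro u hu _ h
    exfalso
    exact hPi.not_isUnit (isUnit_of_dvd_unit h (hu.map (mapRingHom F₀.subtype)))
  · intro a i ha hi ih _ h
    rw [Polynomial.map_mul] at h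
    rcases hPi.prime.dvd_or_dvd h with h | h
    · refine ⟨normalize i, monic_normalize hi.ne_zero, ?_, ?_, ?_⟩
      · exact (associated_normalize i).irreducible hi
      · exact (associated_normalize i).symm.dvd.trans (dvd_mul_right _ _)
      · exact h.trans (_root_.map_dvd (mapRingHom F₀.subtype) (associated_normalize i).dvd)
    · obtain ⟨Q, h1, h2, h3, h4⟩ := ih ha h
      exact ⟨Q, h1, h2, h3.trans (dvd_mul_left _ _), h4⟩

/-- factors of the cyclotomic polynomial are defined over the subfield if the orders agree -/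
theorem factor_of_order_eq (F₀ : Subfield F) (hrp : r ≠ p)
    (hi : orderOf ((Fintype.card F : ℕ) : ZMod r) = orderOf ((Nat.card F₀ : ℕ) : ZMod r)) {P : F[X]} (hPm : P.Monic)
    (hPi : Irreducible P) (hd : P ∣ cyclotomic r F) (hdeg : P.natDegree = orderOf ((Fintype.card F : ℕ) : ZMod r)) :
    ∃ Q : F₀[X], Q.map F₀.subtype = P := by
  classical
  have hr : r.Prime := Fact.out
  have : Fintype F₀ := Fintype.ofFinite F₀
  have hc0 : CharP F₀ p := (algebraMap F₀ F).charP (algebraMap F₀ F).injective p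
  obtain ⟨Q, h1, h2, h3, h4⟩ := exists_factor_of_dvd_map F₀ hPi (cyclotomic r F₀) (cyclotomic_ne_zero r F₀) (by
    rw [map_cyclotomic]
    exact hd)
  refine ⟨Q, ?_⟩
  obtain ⟨e, he⟩ := FiniteField.card F₀ p
  have hc : p.Coprime r := by
    rw [Nat.coprime_primes Fact.out Fact.out]
    exact hrp.symm
  have h5 : Q.natDegree = orderOf ((Nat.card F₀ : ℕ) : ZMod r) := by
    rw [natDegree_of_dvd_cyclotomic_of_irreducible he.2 hc h3 h2, ← orderOf_units]
    congr 1
    rw [ZMod.coe_unitOfCoprime, Nat.card_eq_fintype_card, he.2]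
  symm
  apply eq_of_dvd_of_natDegree_le_of_leadingCoeff h4
  · rw [natDegree_map, h5, hdeg, hi]
  · rw [hPm.leadingCoeff, (h1.map F₀.subtype).leadingCoeff]

/-- coordinates of images of basis vectors of a cyclic decomposition -/
lemma CycDecomp.repr_mem {V : Type*} [AddCommGroup V] [Module F V] {f : V →ₗ[F] V} {ι : Type*} {P : ι → F[X]} (D : CycDecomp f P)
    (F₀ : Subfield F) (hP : ∀ j s, (P j).coeff s ∈ F₀) (x y : Σ j, Fin (P j).natDegree) :
    D.basis.repr (f (D.basis x)) y ∈ F₀ := by
  classical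
  obtain ⟨j, s⟩ := x
  rcases Nat.lt_or_ge ((s : ℕ) + 1) (P j).natDegree with h | h
  · rw [D.apply_basis_lt j s h, Basis.repr_self, Finsupp.single_apply]
    split_ifs
    · exact F₀.one_mem
    · exact F₀.zero_mem
  · rw [D.apply_basis_last j s (by have := s.2; omega), map_neg, map_sum, Finsupp.neg_apply, Finsupp.finsetSum_apply]
    apply F₀.neg_mem
    apply F₀.sum_mem
    intro t _
    rw [map_smul, Finsupp.smul_apply, Basis.repr_self, Finsupp.single_apply, smul_eq_mul]
    apply F₀.mul_mem (hP j t)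
    split_ifs
    · exact F₀.one_mem
    · exact F₀.zero_mem

/-- pairs of inverse eigenvalues -/
theorem exists_pair_basis {V : Type*} [AddCommGroup V] [Module F V] [FiniteDimensional F V] (f : V →ₗ[F] V) {ι : Type} [Fintype ι]
    (b : Basis ι F V) (c : ι → F) (hb : ∀ j, f (b j) = c j • b j) (hr2 : r ≠ 2) (hc : ∀ j, c j ^ r = 1)
    (hN : ∀ z, Nat.card {j // c j = z} = Nat.card {j // c j = z⁻¹}) (F₀ : Subfield F) (hF₀ : ∀ j, c j + (c j)⁻¹ ∈ F₀) :
    ∃ (κ : Type) (_ : Fintype κ) (b' : Basis κ F V), ∀ x y, b'.repr (f (b' x)) y ∈ F₀ := by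
  classical
  have hr : r.Prime := Fact.out
  have hc0 : ∀ j, c j ≠ 0 := by
    intro j h
    have := hc j
    rw [h, zero_pow hr.ne_zero] at this
    exact zero_ne_one this
  let e := Fintype.equivFin F
  let Sp := {j // e (c j) < e (c j)⁻¹}
  let Sm := {j // e (c j)⁻¹ < e (c j)}
  let S0 := {j // c j = (c j)⁻¹}
  obtain ⟨φ, hφ⟩ : ∃ φ : Sp ≃ Sm, ∀ j, (c (φ j))⁻¹ = c j := by
    apply exists_equiv_of_card_fiber (fun j : Sp => c j) (fun j : Sm => (c j)⁻¹)
    intro z
    by_cases hz : e z < e z⁻¹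
    · have e1 : {j : Sp // c j = z} ≃ {j // c j = z} :=
        { toFun := fun x => ⟨x.1.1, x.2⟩
          invFun := fun x => ⟨⟨x.1, by rw [x.2]; exact hz⟩, x.2⟩
          left_inv := fun x => rfl
          right_inv := fun x => rfl }
      have e2 : {j : Sm // (c j)⁻¹ = z} ≃ {j // c j = z⁻¹} :=
        { toFun := fun x => ⟨x.1.1, inv_eq_iff_eq_inv.mp x.2⟩
          invFun := fun x => ⟨⟨x.1, by rw [x.2, inv_inv]; exact hz⟩, by
            change (c x.1)⁻¹ = z
            rw [x.2, inv_inv]⟩
          left_inv := fun x => rfl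
          right_inv := fun x => rfl }
      rw [Nat.card_congr e1, Nat.card_congr e2, hN]
    · have e1 : IsEmpty {j : Sp // c j = z} := ⟨fun x => hz (by have := x.1.2; rw [x.2] at this; exact this)⟩
      have e2 : IsEmpty {j : Sm // (c j)⁻¹ = z} := ⟨fun x => hz (by
        have h1 := x.1.2
        have h2 : c x.1.1 = z⁻¹ := inv_eq_iff_eq_inv.mp x.2
        rw [h2, inv_inv] at h1
        exact h1)⟩
      rw [Nat.card_of_isEmpty, Nat.card_of_isEmpty]
  let vec : (Sp ⊕ Sp) ⊕ S0 → V := Sum.elim (Sum.elim (fun j => b j + b (φ j)) (fun j => c j • b j + (c j)⁻¹ • b (φ j))) (fun j => b j)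
  have hne : ∀ j : Sp, c j ≠ (c j)⁻¹ := by
    intro j h
    have := j.2
    rw [← h] at this
    exact lt_irrefl _ this
  have hspan : ⊤ ≤ Submodule.span F (Set.range vec) := by
    rw [← b.span_eq, Submodule.span_le]
    have hu : ∀ j : Sp, b j ∈ Submodule.span F (Set.range vec) := by
      intro j
      have h1 : vec (Sum.inl (Sum.inr j)) - (c j)⁻¹ • vec (Sum.inl (Sum.inl j)) = (c j - (c j)⁻¹) • b j := by
        simp only [vec, Sum.elim_inl, Sum.elim_inr]
        module
      have h2 : (c j - (c j)⁻¹) • b j ∈ Submodule.span F (Set.range vec) := by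
        rw [← h1]
        exact Submodule.sub_mem _ (Submodule.subset_span ⟨_, rfl⟩) (Submodule.smul_mem _ _ (Submodule.subset_span ⟨_, rfl⟩))
      have h3 := Submodule.smul_mem _ (c j - (c j)⁻¹)⁻¹ h2
      rwa [smul_smul, inv_mul_cancel₀ (sub_ne_zero.mpr (hne j)), one_smul] at h3
    rintro _ ⟨j, rfl⟩
    rw [SetLike.mem_coe]
    rcases lt_trichotomy (e (c j)) (e (c j)⁻¹) with h | h | h
    · exact hu ⟨j, h⟩
    · exact Submodule.subset_span ⟨Sum.inr ⟨j, e.injective h⟩, rfl⟩
    · obtain ⟨i, hi⟩ := φ.surjective ⟨j, h⟩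
      have h1 : b j = vec (Sum.inl (Sum.inl i)) - b i := by
        simp only [vec, Sum.elim_inl, hi, add_sub_cancel_left]
      rw [h1]
      exact Submodule.sub_mem _ (Submodule.subset_span ⟨_, rfl⟩) (hu i)
  have hcard : Fintype.card ((Sp ⊕ Sp) ⊕ S0) = finrank F V := by
    rw [finrank_eq_card_basis b, Fintype.card_sum, Fintype.card_sum]
    have h1 : Fintype.card Sp = Fintype.card Sm := Fintype.card_congr φ
    have h2 : Fintype.card Sp + Fintype.card Sm + Fintype.card S0 = Fintype.card ι := by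
      have e1 : (Sp ⊕ Sm) ⊕ S0 ≃ ι := Equiv.ofBijective (Sum.elim (Sum.elim (fun j => j.1) (fun j => j.1)) (fun j => j.1)) (by
        constructor
        · rintro ((x | x) | x) ((y | y) | y) h
          · exact congrArg _ (congrArg _ (Subtype.ext h))
          · exfalso
            have h1 := x.2
            have h2 := y.2
            have h3 : x.1 = y.1 := h
            rw [← h3] at h2
            exact lt_asymm h1 h2
          · exfalso
            have h1 := x.2
            have h2 := y.2
            have h3 : x.1 = y.1 := h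
            rw [← h3] at h2
            rw [← h2] at h1
            exact lt_irrefl _ h1
          · exfalso
            have h1 := x.2
            have h2 := y.2
            have h3 : x.1 = y.1 := h
            rw [← h3] at h2
            exact lt_asymm h1 h2
          · exact congrArg _ (congrArg _ (Subtype.ext h))
          · exfalso
            have h1 := x.2
            have h2 := y.2
            have h3 : x.1 = y.1 := h
            rw [← h3] at h2
            rw [← h2] at h1
            exact lt_irrefl _ h1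
          · exfalso
            have h1 := x.2
            have h2 := y.2
            have h3 : x.1 = y.1 := h
            rw [h3] at h1
            rw [← h1] at h2
            exact lt_irrefl _ h2
          · exfalso
            have h1 := x.2
            have h2 := y.2
            have h3 : x.1 = y.1 := h
            rw [h3] at h1
            rw [← h1] at h2
            exact lt_irrefl _ h2
          · exact congrArg _ (Subtype.ext h)
        · intro j
          rcases lt_trichotomy (e (c j)) (e (c j)⁻¹) with h | h | h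
          · exact ⟨Sum.inl (Sum.inl ⟨j, h⟩), rfl⟩
          · exact ⟨Sum.inr ⟨j, e.injective h⟩, rfl⟩
          · exact ⟨Sum.inl (Sum.inr ⟨j, h⟩), rfl⟩)
      rw [← Fintype.card_congr e1, Fintype.card_sum, Fintype.card_sum]
    omega
  let b' := basisOfTopLeSpanOfCardEqFinrank vec hspan hcard
  have hbv : ∀ x, b' x = vec x := fun x => by simp [b']
  refine ⟨(Sp ⊕ Sp) ⊕ S0, inferInstance, b', ?_⟩
  have hsingle : ∀ x y, b'.repr (b' x) y ∈ F₀ := by
    intro x y
    rw [Basis.repr_self, Finsupp.single_apply]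
    split_ifs
    · exact F₀.one_mem
    · exact F₀.zero_mem
  have hfb : ∀ j : Sp, f (b (φ j)) = (c j)⁻¹ • b (φ j) := by
    intro j
    rw [hb, ← hφ j, inv_inv]
  rintro ((j | j) | j) y
  · have h1 : f (b' (Sum.inl (Sum.inl j))) = b' (Sum.inl (Sum.inr j)) := by
      rw [hbv, hbv]
      simp only [vec, Sum.elim_inl, Sum.elim_inr, map_add, hb j.1, hfb]
    rw [h1]
    exact hsingle _ _
  · have h1 : f (b' (Sum.inl (Sum.inr j))) = (c j + (c j)⁻¹) • b' (Sum.inl (Sum.inr j)) - b' (Sum.inl (Sum.inl j)) := by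
      rw [hbv, hbv]
      simp only [vec, Sum.elim_inl, Sum.elim_inr, map_add, map_smul, hb j.1, hfb]
      have h2 : (c j.1)⁻¹ * c j.1 = 1 := inv_mul_cancel₀ (hc0 _)
      have h3 : c j.1 * (c j.1)⁻¹ = 1 := mul_inv_cancel₀ (hc0 _)
      rw [smul_add, smul_smul, smul_smul, smul_smul, smul_smul, add_mul, add_mul, h2, h3]
      module
    rw [h1, map_sub, map_smul, Finsupp.sub_apply, Finsupp.smul_apply, smul_eq_mul]
    exact F₀.sub_mem (F₀.mul_mem (hF₀ _) (hsingle _ _)) (hsingle _ _)
  · have h2 : c j = 1 := by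
      have h3 : c j ^ 2 = 1 := by
        rw [pow_two]
        nth_rw 1 [j.2]
        exact inv_mul_cancel₀ (hc0 _)
      have h4 : orderOf (c j) ∣ 2 := orderOf_dvd_of_pow_eq_one h3
      have h5 : orderOf (c j) ∣ r := orderOf_dvd_of_pow_eq_one (hc _)
      have h6 : Nat.Coprime 2 r := (Nat.coprime_primes Nat.prime_two hr).mpr (Ne.symm hr2)
      exact orderOf_eq_one_iff.mp (Nat.eq_one_of_dvd_coprimes h6 h4 h5)
    have h1 : f (b' (Sum.inr j)) = b' (Sum.inr j) := by
      rw [hbv]
      simp only [vec, Sum.elim_inr, hb]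
      rw [h2, one_smul]
    rw [h1]
    exact hsingle _ _

end

section
variable {F : Type*} [Field F] [Fintype F] {p : ℕ} [Fact p.Prime] [CharP F p] {r : ℕ} [Fact r.Prime] {n : ℕ}

omit [Fintype F] [Fact p.Prime] [CharP F p] [Fact r.Prime] in
/-- eigenspaces of diagonal matrices -/
lemma card_eigen_diagonal [Finite F] (c : Fin n → F) (l : F) :
    Nat.card {v : Fin n → F // Matrix.diagonal c *ᵥ v = l • v} = Nat.card F ^ Nat.card {j // c j = l} := by
  classical
  have := Fintype.ofFinite F
  have e1 : {v : Fin n → F // Matrix.diagonal c *ᵥ v = l • v} ≃ ({j // c j = l} → F) :=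
    { toFun := fun v j => v.1 j
      invFun := fun u => ⟨fun j => if h : c j = l then u ⟨j, h⟩ else 0, by
        funext j
        rw [Matrix.mulVec_diagonal, Pi.smul_apply, smul_eq_mul]
        by_cases h : c j = l
        · exact congrArg (fun a => a * _) h
        · rw [dif_neg h, mul_zero, mul_zero]⟩
      left_inv := fun v => by
        apply Subtype.ext
        funext j
        change (if h : c j = l then v.1 j else 0) = v.1 j
        by_cases h : c j = l
        · rw [dif_pos h]
        · rw [dif_neg h]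
          have h1 := congrFun v.2 j
          rw [Matrix.mulVec_diagonal, Pi.smul_apply, smul_eq_mul] at h1
          have h2 : (c j - l) * v.1 j = 0 := by linear_combination h1
          exact ((mul_eq_zero.mp h2).resolve_left (sub_ne_zero.mpr h)).symm
      right_inv := fun u => by
        funext j
        exact dif_pos j.2 }
  rw [Nat.card_congr e1, Nat.card_fun]

/-- the Frobenius condition for diagonal elements with a conjugate in the subfield group -/
theorem exists_frobenius_twist (F₀ : Subfield F) (hn : 0 < n) (hr0 : ¬ r ∣ Nat.card F₀ - 1) (w : F) (hw : w ≠ 0) (c : Fin n → F)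
    (hc : ∀ j, c j ^ r = 1) (x P : Matrix.SpecialLinearGroup (Fin n) F)
    (hx : (x : Matrix (Fin n) (Fin n) F) = w • Matrix.diagonal c)
    (h : P⁻¹ * x * P ∈ (Cfsg.Geo.subfieldSubgroup F₀ 1).comap (Matrix.SpecialLinearGroup.toGL : Matrix.SpecialLinearGroup (Fin n) F →* GL (Fin n) F)) :
    ∃ η : F, η ^ r = 1 ∧ ∀ l : F, l ≠ 0 → Nat.card {j // c j = l * η} = Nat.card {j // c j = l ^ (Nat.card F₀) * η} := by
  classical
  have hr : r.Prime := Fact.out
  have : Fintype F₀ := Fintype.ofFinite F₀
  rw [Subgroup.mem_comap, mem_subfieldSubgroup_iff] at h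
  obtain ⟨c₁, M, hc₁, -, hg⟩ := h
  have hPP' : (P : Matrix (Fin n) (Fin n) F) * ((P⁻¹ : Matrix.SpecialLinearGroup (Fin n) F) : Matrix (Fin n) (Fin n) F) = 1 := by
    rw [← Matrix.SpecialLinearGroup.coe_mul, mul_inv_cancel, Matrix.SpecialLinearGroup.coe_one]
  have hPP : ((P⁻¹ : Matrix.SpecialLinearGroup (Fin n) F) : Matrix (Fin n) (Fin n) F) * (P : Matrix (Fin n) (Fin n) F) = 1 := by
    rw [← Matrix.SpecialLinearGroup.coe_mul, inv_mul_cancel, Matrix.SpecialLinearGroup.coe_one]
  have hg' : ((P⁻¹ : Matrix.SpecialLinearGroup (Fin n) F) : Matrix (Fin n) (Fin n) F) * (w • Matrix.diagonal c) * (P : Matrix (Fin n) (Fin n) F) =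
      c₁ • M.map (fun a => (a : F)) := by
    rw [← hg, ← hx, ← Matrix.SpecialLinearGroup.coe_mul, ← Matrix.SpecialLinearGroup.coe_mul]
    rfl
  have hmappow : ∀ k : ℕ, (M ^ k).map (fun a => (a : F)) = (M.map (fun a => (a : F))) ^ k := fun k => by
    have := map_pow (F₀.subtype.mapMatrix : Matrix (Fin n) (Fin n) F₀ →+* Matrix (Fin n) (Fin n) F) M k
    exact this
  have hpow : ∀ k : ℕ, (c₁ • M.map (fun a => (a : F))) ^ k =
      ((P⁻¹ : Matrix.SpecialLinearGroup (Fin n) F) : Matrix (Fin n) (Fin n) F) * ((w • Matrix.diagonal c) ^ k) * (P : Matrix (Fin n) (Fin n) F) := by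
    intro k
    rw [← hg']
    induction k with
    | zero => rw [pow_zero, pow_zero, mul_one, hPP]
    | succ k ih =>
      rw [pow_succ, ih, pow_succ]
      calc _ = ((P⁻¹ : Matrix.SpecialLinearGroup (Fin n) F) : Matrix (Fin n) (Fin n) F) * ((w • Matrix.diagonal c) ^ k) *
            ((P : Matrix (Fin n) (Fin n) F) * ((P⁻¹ : Matrix.SpecialLinearGroup (Fin n) F) : Matrix (Fin n) (Fin n) F)) * (w • Matrix.diagonal c) * (P : Matrix (Fin n) (Fin n) F) := by
            simp only [mul_assoc]
        _ = _ := by rw [hPP', mul_one]; simp only [mul_assoc]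
  have hdr : (Matrix.diagonal c) ^ r = 1 := by
    rw [Matrix.diagonal_pow, ← Matrix.diagonal_one]
    congr 1
    funext j
    exact hc j
  let i0 : Fin n := ⟨0, hn⟩
  have hs : c₁ ^ r * ((M ^ r) i0 i0 : F₀) = w ^ r := by
    have h1 := hpow r
    rw [_root_.smul_pow, _root_.smul_pow, hdr, ← hmappow, mul_smul_comm, mul_one, smul_mul_assoc, hPP] at h1
    have h2 := congrFun (congrFun h1 i0) i0
    rw [Matrix.smul_apply, Matrix.smul_apply, Matrix.one_apply_eq, Matrix.map_apply, smul_eq_mul, smul_eq_mul, mul_one] at h2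
    exact h2
  obtain ⟨d, hd⟩ := exists_root_of_not_dvd (F := F₀) (r := r) (by rw [← Nat.card_eq_fintype_card]; exact hr0) ((M ^ r) i0 i0)
  have hd' : (d : F) ^ r = ((M ^ r) i0 i0 : F₀) := by
    rw [← hd]
    rfl
  have hd0 : (d : F) ≠ 0 := by
    intro h0
    rw [h0, zero_pow hr.ne_zero] at hd'
    rw [← hd', mul_zero] at hs
    exact pow_ne_zero r hw hs.symm
  set θ : F := w * (c₁ * d)⁻¹ with hθ
  have hcd : c₁ * (d : F) ≠ 0 := mul_ne_zero hc₁ hd0
  have hθ0 : θ ≠ 0 := mul_ne_zero hw (inv_ne_zero hcd)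
  have hθr : θ ^ r = 1 := by
    rw [hθ, mul_pow, inv_pow, mul_pow, hd', hs, mul_inv_cancel₀ (pow_ne_zero r hw)]
  -- the matrix over the subfield
  let M' : Matrix (Fin n) (Fin n) F₀ := d⁻¹ • M
  have hM' : M'.map (fun a => (a : F)) = ((P⁻¹ : Matrix.SpecialLinearGroup (Fin n) F) : Matrix (Fin n) (Fin n) F) * (θ • Matrix.diagonal c) * (P : Matrix (Fin n) (Fin n) F) := by
    have h1 : M'.map (fun a => (a : F)) = (d : F)⁻¹ • M.map (fun a => (a : F)) := by
      ext i j
      simp [M']
    have h2 : M.map (fun a => (a : F)) = c₁⁻¹ • (((P⁻¹ : Matrix.SpecialLinearGroup (Fin n) F) : Matrix (Fin n) (Fin n) F) * (w • Matrix.diagonal c) * (P : Matrix (Fin n) (Fin n) F)) := by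
      rw [hg', smul_smul, inv_mul_cancel₀ hc₁, one_smul]
    rw [h1, h2, mul_smul_comm, mul_smul_comm, smul_mul_assoc, smul_mul_assoc, smul_smul, smul_smul]
    congr 1
    rw [hθ, mul_inv]
    ring
  -- eigenspaces of the matrix over the subfield
  have hcount : ∀ l : F, Nat.card {v : Fin n → F // M'.map (fun a => (a : F)) *ᵥ v = l • v} = Nat.card F ^ Nat.card {j // c j = l * θ⁻¹} := by
    intro l
    rw [← card_eigen_diagonal c (l * θ⁻¹)]
    apply Nat.card_congr
    exact
      { toFun := fun v => ⟨(P : Matrix (Fin n) (Fin n) F) *ᵥ v.1, by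
          have h1 := congrArg (fun u => (P : Matrix (Fin n) (Fin n) F) *ᵥ u) v.2
          simp only [hM', Matrix.mulVec_mulVec, Matrix.mulVec_smul] at h1
          rw [← mul_assoc, ← mul_assoc, hPP', one_mul, smul_mul_assoc, Matrix.smul_mulVec] at h1
          rw [Matrix.mulVec_mulVec, mul_comm l, mul_smul, ← h1, smul_smul, inv_mul_cancel₀ hθ0, one_smul]⟩
        invFun := fun v => ⟨((P⁻¹ : Matrix.SpecialLinearGroup (Fin n) F) : Matrix (Fin n) (Fin n) F) *ᵥ v.1, by
          rw [hM', Matrix.mulVec_mulVec, mul_assoc, hPP', mul_one, mul_smul_comm, Matrix.smul_mulVec, ← Matrix.mulVec_mulVec, v.2,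
            Matrix.mulVec_smul, smul_smul]
          congr 1
          field_simp⟩
        left_inv := fun v => by
          apply Subtype.ext
          change ((P⁻¹ : Matrix.SpecialLinearGroup (Fin n) F) : Matrix (Fin n) (Fin n) F) *ᵥ ((P : Matrix (Fin n) (Fin n) F) *ᵥ v.1) = v.1
          rw [Matrix.mulVec_mulVec, hPP, Matrix.one_mulVec]
        right_inv := fun v => by
          apply Subtype.ext
          change (P : Matrix (Fin n) (Fin n) F) *ᵥ (((P⁻¹ : Matrix.SpecialLinearGroup (Fin n) F) : Matrix (Fin n) (Fin n) F) *ᵥ v.1) = v.1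
          rw [Matrix.mulVec_mulVec, hPP', Matrix.one_mulVec] }
  -- the Frobenius map
  obtain ⟨p, hpc⟩ := CharP.exists F
  have hpp : Fact p.Prime := ⟨CharP.char_is_prime F p⟩
  have hc0 : CharP F₀ p := (algebraMap F₀ F).charP (algebraMap F₀ F).injective p
  obtain ⟨e0, he0⟩ := FiniteField.card F₀ p
  have hcard0 : Nat.card F₀ = p ^ (e0 : ℕ) := by rw [Nat.card_eq_fintype_card, he0.2]
  let σ : F →+* F := iterateFrobenius F p e0
  have hσ : ∀ a : F, σ a = a ^ Nat.card F₀ := fun a => by
    rw [hcard0]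
    exact iterateFrobenius_def p (e0 : ℕ) a
  have hσ0 : ∀ a : F₀, σ (a : F) = a := fun a => by
    rw [hσ, Nat.card_eq_fintype_card]
    have := FiniteField.pow_card a
    exact congrArg Subtype.val this
  let E : F ≃ F := Equiv.ofBijective σ (Finite.injective_iff_bijective.mp σ.injective)
  have hEv : ∀ v : Fin n → F, M'.map (fun a => (a : F)) *ᵥ (fun j => σ (v j)) = fun j => σ ((M'.map (fun a => (a : F)) *ᵥ v) j) := by
    intro v
    funext j
    simp only [Matrix.mulVec, dotProduct, Matrix.map_apply, map_sum, map_mul, hσ0]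
  have hiff : ∀ (l : F) (v : Fin n → F), M'.map (fun a => (a : F)) *ᵥ v = l • v ↔
      M'.map (fun a => (a : F)) *ᵥ (fun j => σ (v j)) = (l ^ Nat.card F₀) • (fun j => σ (v j)) := by
    intro l v
    rw [hEv]
    constructor
    · intro h
      rw [h]
      funext j
      rw [Pi.smul_apply, smul_eq_mul, map_mul, hσ l]
      rfl
    · intro h
      funext j
      apply σ.injective
      have := congrFun h j
      rw [this, Pi.smul_apply, Pi.smul_apply, smul_eq_mul, smul_eq_mul, map_mul, hσ l]
  refine ⟨θ⁻¹, by rw [inv_pow, hθr, inv_one], ?_⟩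
  intro l hl
  have h1 := hcount l
  have h2 := hcount (l ^ Nat.card F₀)
  have h3 : Nat.card {v : Fin n → F // M'.map (fun a => (a : F)) *ᵥ v = l • v} =
      Nat.card {v : Fin n → F // M'.map (fun a => (a : F)) *ᵥ v = (l ^ Nat.card F₀) • v} :=
    Nat.card_congr (Equiv.subtypeEquiv (Equiv.arrowCongr (Equiv.refl _) E) (fun v => hiff l v))
  rw [h1, h2] at h3
  exact Nat.pow_right_injective (by
    rw [Nat.card_eq_fintype_card]
    exact Fintype.one_lt_card) h3

end

end Cfsg.Agent.H99
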