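import Mathlib
import Cfsg.Agent.H99.SympRed

set_option autoImplicit false
set_option linter.unusedVariables false
set_option linter.unusedSectionVars false

/-! Orthogonal decompositions of symplectic spaces (helper99). -/

namespace Cfsg.Agent.H99

open Module Polynomial Matrix

/-- `t!` divides the number of injective families closed under permutations -/
theorem factorial_dvd_card_of_injective {Y : Type*} {t : ℕ} (pr : (Fin t → Y) → Prop)
    (hperm : ∀ (D : Fin t → Y) (σ : Equiv.Perm (Fin t)), pr D → pr (fun j => D (σ j))) (hinj : ∀ D, pr D → Function.Injective D) :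
    Nat.factorial t ∣ Nat.card {D : Fin t → Y // pr D} := by
  let act : MulAction (Equiv.Perm (Fin t)) {D : Fin t → Y // pr D} :=
    { smul := fun σ D => ⟨fun j => D.1 (σ⁻¹ j), hperm D.1 σ⁻¹ D.2⟩
      one_smul := fun D => by
        apply Subtype.ext
        funext j
        rfl
      mul_smul := fun σ τ D => by
        apply Subtype.ext
        funext j
        change D.1 ((σ * τ)⁻¹ j) = D.1 (τ⁻¹ (σ⁻¹ j))
        rw [_root_.mul_inv_rev]
        rfl }
  have hfree : ∀ D : {D : Fin t → Y // pr D}, MulAction.stabilizer (Equiv.Perm (Fin t)) D = ⊥ := by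
    intro D
    rw [eq_bot_iff]
    intro σ hσ
    rw [MulAction.mem_stabilizer_iff] at hσ
    rw [Subgroup.mem_bot]
    have h1 : ∀ j, D.1 (σ⁻¹ j) = D.1 j := fun j => congrFun (congrArg Subtype.val hσ) j
    have h3 : σ⁻¹ = 1 := by
      ext j
      rw [hinj D.1 D.2 (h1 j)]
      rfl
    rwa [inv_eq_one] at h3
  have h1 := Nat.card_congr (MulAction.selfEquivOrbitsQuotientProd hfree)
  rw [h1, Nat.card_prod]
  have h2 : Nat.card (Equiv.Perm (Fin t)) = Nat.factorial t := by
    rw [Nat.card_eq_fintype_card, Fintype.card_perm, Fintype.card_fin]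
  rw [h2]
  exact dvd_mul_left _ _

section
variable {F V : Type*} [Field F] [AddCommGroup V] [Module F V] [FiniteDimensional F V]

/-- pairwise orthogonal nondegenerate subspaces are independent -/
lemma indep_of_orth {B : V → V → F} (hB : OForm B) {ι : Type*} {D : ι → Submodule F V} (hND : ∀ j, ND B (D j))
    (ho : ∀ j j', j ≠ j' → ∀ u ∈ D j, ∀ v ∈ D j', B u v = 0) : iSupIndep D := by
  intro j
  have h1 := (ND_iff_disjoint hB (D j)).mp (hND j)
  apply h1.mono_right
  apply iSup_le
  intro j'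
  apply iSup_le
  intro hj' u hu v hv
  exact ho j' j hj' u hu v hv

/-- isometries between orthogonal decompositions -/
theorem exists_isometry_decomp {B : V → V → F} (hA : AltForm B) {ι : Type*} [DecidableEq ι] {D D' : ι → Submodule F V} {m : ℕ}
    (hD1 : iSupIndep D) (hD2 : iSup D = ⊤) (hD3 : ∀ j, ND B (D j)) (hD4 : ∀ j j', j ≠ j' → ∀ u ∈ D j, ∀ v ∈ D j', B u v = 0)
    (hD5 : ∀ j, finrank F (D j) = 2 * m)
    (hD1' : iSupIndep D') (hD2' : iSup D' = ⊤) (hD3' : ∀ j, ND B (D' j)) (hD4' : ∀ j j', j ≠ j' → ∀ u ∈ D' j, ∀ v ∈ D' j', B u v = 0)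
    (hD5' : ∀ j, finrank F (D' j) = 2 * m) :
    ∃ g : V ≃ₗ[F] V, (∀ u v, B (g u) (g v) = B u v) ∧ ∀ j, (D j).map g.toLinearMap = D' j := by
  have hres : ∀ W : Submodule F V, ND B W → ND (fun u v : W => B (u : V) (v : V)) (⊤ : Submodule F W) := by
    intro W hW u _ hu
    apply Subtype.ext
    exact hW u u.2 (fun v hv => hu ⟨v, hv⟩ Submodule.mem_top)
  have h1 := DirectSum.isInternal_submodule_of_iSupIndep_of_iSup_eq_top hD1 hD2
  have h2 := DirectSum.isInternal_submodule_of_iSupIndep_of_iSup_eq_top hD1' hD2'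
  choose E hE using fun j => exists_equiv_sympForm (hA.comp (D j).subtype) (hres (D j) (hD3 j)) (hD5 j)
  choose E' hE' using fun j => exists_equiv_sympForm (hA.comp (D' j).subtype) (hres (D' j) (hD3' j)) (hD5' j)
  let v : ∀ j, Basis (Fin m ⊕ Fin m) F (D j) := fun j => (Pi.basisFun F _).map (E j)
  let v' : ∀ j, Basis (Fin m ⊕ Fin m) F (D' j) := fun j => (Pi.basisFun F _).map (E' j)
  have hv : ∀ j s, v j s = E j (Pi.single s 1) := fun j s => by
    rw [Basis.map_apply, Pi.basisFun_apply]
  have hv' : ∀ j s, v' j s = E' j (Pi.single s 1) := fun j s => by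
    rw [Basis.map_apply, Pi.basisFun_apply]
  let b := h1.collectedBasis v
  let b' := h2.collectedBasis v'
  have hb : ∀ j s, b ⟨j, s⟩ = (v j s : V) := fun j s => by rw [h1.collectedBasis_coe]
  have hb' : ∀ j s, b' ⟨j, s⟩ = (v' j s : V) := fun j s => by rw [h2.collectedBasis_coe]
  let e := b.equiv b' (Equiv.refl _)
  have he : ∀ j s, e (v j s : V) = (v' j s : V) := by
    intro j s
    rw [← hb, ← hb', Basis.equiv_apply, Equiv.refl_apply]
  refine ⟨e, ?_, ?_⟩
  · apply AltForm.eq_of_basis (hA.comp e.toLinearMap) hA b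
    rintro ⟨j, s⟩ ⟨j', s'⟩
    rw [hb, hb, LinearEquiv.coe_coe, he, he]
    by_cases hjj : j = j'
    · subst hjj
      have e1 := hE j (Pi.single s 1) (Pi.single s' 1)
      have e2 := hE' j (Pi.single s 1) (Pi.single s' 1)
      rw [← hv, ← hv] at e1
      rw [← hv', ← hv'] at e2
      exact e2.trans e1.symm
    · rw [hD4 j j' hjj _ (v j s).2 _ (v j' s').2, hD4' j j' hjj _ (v' j s).2 _ (v' j' s').2]
  · intro j
    have hspan : ∀ (W : Submodule F V) (v : Basis (Fin m ⊕ Fin m) F W), W = Submodule.span F (Set.range (fun s => (v s : V))) := by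
      intro W v
      have h3 := congrArg (Submodule.map W.subtype) v.span_eq
      rw [Submodule.map_span, ← Set.range_comp] at h3
      rw [Submodule.map_subtype_top] at h3
      exact h3.symm
    rw [hspan (D j) (v j), hspan (D' j) (v' j), Submodule.map_span, ← Set.range_comp]
    congr 2
    funext s
    exact he j s

end

section
variable {F V : Type*} [Field F] [Fintype F] [AddCommGroup V] [Module F V] [FiniteDimensional F V]
variable {p : ℕ} [Fact p.Prime] [CharP F p] {r : ℕ} [Fact r.Prime]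

/-- invariant nondegenerate subspaces with prescribed numbers of blocks -/
theorem exists_inv_ND (hr2 : r ≠ 2) (hrp : r ≠ p) {B : V → V → F} (hA : AltForm B) {x : V →ₗ[F] V} (hx : ∀ u v, B (x u) (x v) = B u v)
    (hr : x ^ r = 1) {W : Submodule F V} (hW : ∀ v ∈ W, x v ∈ W) (hND : ND B W) (j e : ℕ)
    (hj : finrank F (W ⊓ LinearMap.ker (x - 1) : Submodule F V) + j * blk r (Fintype.card F) ≤ finrank F W)
    (he : 2 * e ≤ finrank F (W ⊓ LinearMap.ker (x - 1) : Submodule F V)) :
    ∃ U ≤ W, (∀ v ∈ U, x v ∈ U) ∧ ND B U ∧ finrank F U = j * blk r (Fintype.card F) + 2 * e ∧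
      finrank F (U ⊓ LinearMap.ker (x - 1) : Submodule F V) = 2 * e ∧
      finrank F ((W ⊓ orth hA.oform U) ⊓ LinearMap.ker (x - 1) : Submodule F V) + 2 * e = finrank F (W ⊓ LinearMap.ker (x - 1) : Submodule F V) := by
  have hQ : ¬ r ∣ Fintype.card F := prime_not_dvd_card hrp
  obtain ⟨h1, h2, h3, h4, h5⟩ := split_fixed hrp hA.eform hx hr hW hND
  obtain ⟨-, h6⟩ := exists_isoBlocks hr2 hrp hA.eform (N := 1) ⟨0, (pow_zero p).symm⟩ (fun a => (pow_one a).symm) (blk_spec hr2 hQ) hx hr _ h2 h3 h4 rfl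
  obtain ⟨U1, g1, g2, g3, g4⟩ := h6 j (by omega)
  obtain ⟨U2, k1, k2, k3⟩ := hA.exists_ND_sub e _ h1 he
  have hkermem : ∀ v, v ∈ LinearMap.ker (x - 1) ↔ x v = v := by
    intro v
    rw [LinearMap.mem_ker, LinearMap.sub_apply, Module.End.one_apply, sub_eq_zero]
  have hU12 : U1 ≤ orth hA.oform U2 := by
    intro u hu v hv
    exact (g1 hu).2 v (k1 hv)
  have hdisj : Disjoint U1 U2 := ((ND_iff_disjoint hA.oform U2).mp k2).symm.mono_left hU12
  refine ⟨U1 ⊔ U2, sup_le (g1.trans inf_le_left) (k1.trans inf_le_left), ?_, ND_sup hA.oform g3 k2 hU12, ?_, ?_, ?_⟩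
  · intro v hv
    obtain ⟨a, ha, b, hb, rfl⟩ := Submodule.mem_sup.mp hv
    rw [map_add]
    apply Submodule.add_mem_sup (g2 a ha)
    rw [(hkermem b).mp (k1 hb).2]
    exact hb
  · have h8 := Submodule.finrank_sup_add_finrank_inf_eq U1 U2
    rw [disjoint_iff.mp hdisj, finrank_bot, g4, k3] at h8
    omega
  · have h8 : (U1 ⊔ U2) ⊓ LinearMap.ker (x - 1) = U2 := by
      apply le_antisymm
      · rintro v ⟨hv1, hv2⟩
        obtain ⟨a, ha, b, hb, rfl⟩ := Submodule.mem_sup.mp hv1
        rw [SetLike.mem_coe, hkermem, map_add, (hkermem b).mp (k1 hb).2, add_right_cancel_iff] at hv2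
        rw [h4 a (g1 ha) hv2, zero_add]
        exact hb
      · intro v hv
        exact ⟨Submodule.mem_sup_right hv, (k1 hv).2⟩
    rw [h8, k3]
  · have h8 : (W ⊓ orth hA.oform (U1 ⊔ U2)) ⊓ LinearMap.ker (x - 1) = (W ⊓ LinearMap.ker (x - 1)) ⊓ orth hA.oform U2 := by
      rw [orth_sup]
      apply le_antisymm
      · rintro v ⟨⟨hv1, -, hv2⟩, hv3⟩
        exact ⟨⟨hv1, hv3⟩, hv2⟩
      · rintro v ⟨⟨hv1, hv3⟩, hv2⟩
        refine ⟨⟨hv1, ?_, hv2⟩, hv3⟩
        intro u hu
        exact hA.oform.refl _ _ ((g1 hu).2 v ⟨hv1, hv3⟩)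
    rw [h8]
    have h9 := split_finrank hA.oform k2 k1
    rw [k3] at h9
    omega

/-- invariant orthogonal decompositions -/
theorem exists_inv_decomp (hr2 : r ≠ 2) (hrp : r ≠ p) {B : V → V → F} (hA : AltForm B) {x : V →ₗ[F] V} (hx : ∀ u v, B (x u) (x v) = B u v)
    (hr : x ^ r = 1) {a a' l : ℕ} (ha : a = blk r (Fintype.card F) * a' + 2 * l) (s : ℕ) :
    ∀ W : Submodule F V, (∀ v ∈ W, x v ∈ W) → ND B W → finrank F W = s * a →
      s * (2 * l) ≤ finrank F (W ⊓ LinearMap.ker (x - 1) : Submodule F V) →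
    ∃ D : Fin s → Submodule F V, (∀ j, D j ≤ W ∧ (∀ v ∈ D j, x v ∈ D j) ∧ ND B (D j) ∧ finrank F (D j) = a) ∧
      (∀ j j', j ≠ j' → ∀ u ∈ D j, ∀ v ∈ D j', B u v = 0) ∧ iSup D = W := by
  have hQ : ¬ r ∣ Fintype.card F := prime_not_dvd_card hrp
  induction s with
  | zero =>
    intro W _ _ hW0 _
    rw [zero_mul] at hW0
    refine ⟨fun j => j.elim0, fun j => j.elim0, fun j => j.elim0, ?_⟩
    rw [iSup_of_empty, Submodule.finrank_eq_zero.mp hW0]
  | succ s ih =>
    intro W hW hND hd hl
    -- number of blocks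
    obtain ⟨h1, h2, h3, h4, h5⟩ := split_fixed hrp hA.eform hx hr hW hND
    obtain ⟨⟨k, hk⟩, h6⟩ := exists_isoBlocks hr2 hrp hA.eform (N := 1) ⟨0, (pow_zero p).symm⟩ (fun a => (pow_one a).symm) (blk_spec hr2 hQ) hx hr _ h2 h3 h4 rfl
    set K := finrank F (W ⊓ LinearMap.ker (x - 1) : Submodule F V) with hK
    set c := blk r (Fintype.card F) with hc
    have hcpos : 0 < c := by
      have hpos := orderOf_pos_of_not_dvd (r := r) hQ
      rcases blk_spec hr2 hQ with ⟨-, h⟩ | ⟨-, h⟩ <;> rw [← hc] at h <;> omega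
    have hKe : Even K := hA.even_finrank_sub h1
    obtain ⟨K', hK'⟩ := hKe
    obtain ⟨c', hc'⟩ := even_blk r (Fintype.card F)
    rw [← hc] at hc'
    rw [hk, hd] at h5
    -- choose the number of blocks in the first summand
    obtain ⟨j, e, hj1, hj2, hj3, hj4⟩ : ∃ j e : ℕ, j * c + 2 * e = a ∧ K + j * c ≤ (s + 1) * a ∧ 2 * e ≤ K ∧ s * (2 * l) + 2 * e ≤ K := by
      rcases Nat.le_total k a' with h | h
      · -- all blocks
        obtain ⟨w, rfl⟩ := Nat.exists_eq_add_of_le h
        have e1 : a = k * c + 2 * (c' * w + l) := by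
          rw [ha, hc']
          ring
        have e2 : K = s * a + 2 * (c' * w + l) := by
          have : K + c * k = s * a + (k * c + 2 * (c' * w + l)) := by
            rw [h5]
            conv_lhs => rw [add_mul, one_mul]
            congr 1
          have h7 : c * k = k * c := mul_comm _ _
          omega
        refine ⟨k, c' * w + l, e1.symm, ?_, by omega, ?_⟩
        · rw [mul_comm k c, h5]
        · have h7 : s * (2 * l) ≤ s * a := Nat.mul_le_mul_left _ (by omega)
          omega
      · -- `a'` blocks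
        refine ⟨a', l, ?_, ?_, ?_, ?_⟩
        · rw [ha]; ring
        · have h7 : a' * c ≤ k * c := Nat.mul_le_mul_right _ h
          have h8 : c * k = k * c := mul_comm _ _
          omega
        · rw [add_mul, one_mul] at hl
          omega
        · rw [add_mul, one_mul] at hl
          exact hl
    obtain ⟨U, g1, g2, g3, g4, g5, g6⟩ := exists_inv_ND hr2 hrp hA hx hr hW hND j e (by rw [hd]; exact hj2) hj3
    rw [hj1] at g4
    have h7 := split_ND_compl hA.oform hND g3 g1
    have h8 := split_finrank hA.oform g3 g1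
    have h9 : ∀ v ∈ W ⊓ orth hA.oform U, x v ∈ W ⊓ orth hA.oform U := by
      rintro v ⟨hv1, hv2⟩
      exact ⟨hW v hv1, orth_inter_invariant hA.eform hx hr g2 v hv2⟩
    obtain ⟨D, hD1, hD2, hD3⟩ := ih (W ⊓ orth hA.oform U) h9 h7 (by rw [add_mul, one_mul] at hd; omega) (by omega)
    refine ⟨Fin.cons U D, ?_, ?_, ?_⟩
    · intro j
      refine Fin.cases ?_ (fun j => ?_) j
      · rw [Fin.cons_zero]
        exact ⟨g1, g2, g3, g4⟩
      · rw [Fin.cons_succ]
        exact ⟨(hD1 j).1.trans inf_le_left, (hD1 j).2⟩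
    · intro j j'
      refine Fin.cases ?_ (fun j => ?_) j
      · refine Fin.cases ?_ (fun j' => ?_) j'
        · intro h; exact absurd rfl h
        · intro _ u hu v hv
          rw [Fin.cons_zero] at hu
          rw [Fin.cons_succ] at hv
          exact hA.oform.refl _ _ (((hD1 j').1 hv).2 u hu)
      · refine Fin.cases ?_ (fun j' => ?_) j'
        · intro _ u hu v hv
          rw [Fin.cons_succ] at hu
          rw [Fin.cons_zero] at hv
          exact ((hD1 j).1 hu).2 v hv
        · intro h u hu v hv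
          rw [Fin.cons_succ] at hu hv
          exact hD2 j j' (fun h' => h (by rw [h'])) u hu v hv
    · apply le_antisymm
      · apply iSup_le
        intro j
        refine Fin.cases ?_ (fun j => ?_) j
        · rw [Fin.cons_zero]
          exact g1
        · rw [Fin.cons_succ]
          exact (hD1 j).1.trans inf_le_left
      · rw [← split_ND hA.oform g3 g1]
        apply sup_le
        · exact le_iSup_of_le 0 (by rw [Fin.cons_zero])
        · rw [← hD3]
          apply iSup_le
          intro j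
          exact le_iSup_of_le j.succ (by rw [Fin.cons_succ])

end

end Cfsg.Agent.H99
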