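import Mathlib
import Cfsg.Agent.H99.SympRed
import Cfsg.Agent.H99.SympTrans
import Cfsg.Agent.H99.SympCard

set_option autoImplicit false
set_option linter.unusedVariables false
set_option linter.unusedSectionVars false

/-! Embedding smaller symplectic groups; orbits of nondegenerate subspaces (helper99). -/

namespace Cfsg.Agent.H99

open Module Polynomial Matrix

attribute [local instance] spAct

section
variable {F : Type*} [Field F] {d : ℕ}

theorem exists_symp_embed {U : Submodule F (Fin d ⊕ Fin d → F)} (hU : ND (Cfsg.sympForm d F) U) {l : ℕ} (hl : finrank F U + 2 * l = 2 * d) :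
    ∃ ψ : Matrix.symplecticGroup (Fin l) F →* Matrix.symplecticGroup (Fin d) F, Function.Injective ψ ∧
      ∀ g, ∀ u ∈ U, Matrix.toLin' (ψ g : Matrix (Fin d ⊕ Fin d) (Fin d ⊕ Fin d) F) u = u := by
  have hA := sympForm_altForm (F := F) d
  have hND := sympForm_ND (F := F) d
  have h1 := split_finrank hA.oform hU le_top
  have h2 := split_ND_compl hA.oform hND hU le_top
  have h3 := split_disjoint hA.oform hU (W := ⊤)
  rw [top_inf_eq] at h1 h2 h3
  rw [finrank_top, finrank_symp] at h1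
  have hc : IsCompl U (orth hA.oform U) := by
    refine ⟨h3, ?_⟩
    rw [codisjoint_iff]
    have h4 := split_ND hA.oform hU (le_top : U ≤ ⊤)
    rw [top_inf_eq] at h4
    exact h4
  set U' := orth hA.oform U with hU'
  have hres : ND (fun u v : U' => Cfsg.sympForm d F (u : Fin d ⊕ Fin d → F) (v : Fin d ⊕ Fin d → F)) (⊤ : Submodule F U') := by
    intro u _ hu
    apply Subtype.ext
    exact h2 u u.2 (fun v hv => hu ⟨v, hv⟩ Submodule.mem_top)
  obtain ⟨E, hE⟩ := exists_equiv_sympForm (hA.comp U'.subtype) hres (m := l) (by omega)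
  have hE' : ∀ u v, Cfsg.sympForm d F ((E u : U') : Fin d ⊕ Fin d → F) ((E v : U') : Fin d ⊕ Fin d → F) = Cfsg.sympForm l F u v := hE
  let Λ : Matrix (Fin l ⊕ Fin l) (Fin l ⊕ Fin l) F → ((Fin d ⊕ Fin d → F) →ₗ[F] (Fin d ⊕ Fin d → F)) := fun g =>
    glue hc 1 (E.toLinearMap ∘ₗ Matrix.toLin' g ∘ₗ E.symm.toLinearMap)
  have hΛ : ∀ g, Λ g = glue hc 1 (E.toLinearMap ∘ₗ Matrix.toLin' g ∘ₗ E.symm.toLinearMap) := fun g => rfl
  have hΛmul : ∀ g h, Λ (g * h) = Λ g * Λ h := by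
    intro g h
    apply LinearMap.ext
    intro v
    obtain ⟨u, u', rfl⟩ := exists_add_of_isCompl hc v
    rw [Module.End.mul_apply, hΛ, hΛ, hΛ, glue_apply, glue_apply, glue_apply]
    congr 2
    simp [Matrix.toLin'_mul]
  have hΛi : ∀ g ∈ Matrix.symplecticGroup (Fin l) F, ∀ u v, Cfsg.sympForm d F (Λ g u) (Λ g v) = Cfsg.sympForm d F u v := by
    intro g hg u v
    rw [hΛ]
    apply glue_isom hA.eform hc
    · intro a ha b hb
      exact hA.oform.refl _ _ (hb a ha)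
    · intro a b
      rfl
    · intro a b
      have h5 := hE' (Matrix.toLin' g (E.symm a)) (Matrix.toLin' g (E.symm b))
      rw [sympForm_toLin' l hg, ← hE' (E.symm a) (E.symm b), E.apply_symm_apply, E.apply_symm_apply] at h5
      exact h5
  have hmem : ∀ g ∈ Matrix.symplecticGroup (Fin l) F, LinearMap.toMatrix' (Λ g) ∈ Matrix.symplecticGroup (Fin d) F := by
    intro g hg
    rw [Cfsg.Agent.ClGeo.mem_symplecticGroup_iff]
    intro u v
    rw [← Matrix.toLin'_apply, ← Matrix.toLin'_apply, Matrix.toLin'_toMatrix']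
    exact hΛi g hg u v
  let ψ : Matrix.symplecticGroup (Fin l) F →* Matrix.symplecticGroup (Fin d) F := MonoidHom.mk' (fun g => ⟨_, hmem g g.2⟩) (by
    intro g h
    apply Subtype.ext
    change LinearMap.toMatrix' (Λ ((g * h : Matrix.symplecticGroup (Fin l) F) : Matrix (Fin l ⊕ Fin l) (Fin l ⊕ Fin l) F)) = LinearMap.toMatrix' (Λ (g : Matrix (Fin l ⊕ Fin l) (Fin l ⊕ Fin l) F)) * LinearMap.toMatrix' (Λ (h : Matrix (Fin l ⊕ Fin l) (Fin l ⊕ Fin l) F))
    rw [← LinearMap.toMatrix'_mul, ← hΛmul]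
    rfl)
  have hψ : ∀ g, Matrix.toLin' (ψ g : Matrix (Fin d ⊕ Fin d) (Fin d ⊕ Fin d) F) = Λ (g : Matrix (Fin l ⊕ Fin l) (Fin l ⊕ Fin l) F) := by
    intro g
    exact Matrix.toLin'_toMatrix' _
  refine ⟨ψ, ?_, ?_⟩
  · intro g h hgh
    apply Subtype.ext
    apply Matrix.toLin'.injective
    apply LinearMap.ext
    intro v
    have h4 : Λ (g : Matrix (Fin l ⊕ Fin l) (Fin l ⊕ Fin l) F) = Λ (h : Matrix (Fin l ⊕ Fin l) (Fin l ⊕ Fin l) F) := by
      rw [← hψ, ← hψ, hgh]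
    have h5 : Λ (g : Matrix (Fin l ⊕ Fin l) (Fin l ⊕ Fin l) F) ((E v : U') : Fin d ⊕ Fin d → F) = Λ (h : Matrix (Fin l ⊕ Fin l) (Fin l ⊕ Fin l) F) ((E v : U') : Fin d ⊕ Fin d → F) := by rw [h4]
    rw [hΛ, hΛ, glue_right, glue_right] at h5
    have h6 : Matrix.toLin' (g : Matrix (Fin l ⊕ Fin l) (Fin l ⊕ Fin l) F) (E.symm (E v)) = Matrix.toLin' (h : Matrix (Fin l ⊕ Fin l) (Fin l ⊕ Fin l) F) (E.symm (E v)) :=
      E.injective (Subtype.ext h5)
    rwa [E.symm_apply_apply] at h6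
  · intro g u hu
    rw [hψ, hΛ]
    exact glue_left hc 1 _ ⟨u, hu⟩

variable [Fintype F]

lemma ND_iff {W : Submodule F (Fin d ⊕ Fin d → F)} : (∀ u ∈ W, u ≠ 0 → ∃ v ∈ W, Cfsg.sympForm d F u v ≠ 0) ↔ ND (Cfsg.sympForm d F) W := by
  constructor
  · intro h u hu hu2
    by_contra hne
    obtain ⟨v, hv, hv2⟩ := h u hu hne
    exact hv2 (hu2 v hv)
  · intro h u hu hne
    by_contra hcon
    push Not at hcon
    exact hne (h u hu hcon)

lemma card_symp_ratio {l d : ℕ} (h : l ≤ d) :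
    (Fintype.card F ^ (d ^ 2 - l ^ 2) * ∏ j ∈ Finset.Ico l d, (Fintype.card F ^ (2 * (j + 1)) - 1)) * Nat.card (Matrix.symplecticGroup (Fin l) F)
      = Nat.card (Matrix.symplecticGroup (Fin d) F) := by
  rw [Cfsg.Agent.ClassSp.card_fin, Cfsg.Agent.ClassSp.card_fin, ← Finset.prod_range_mul_prod_Ico _ h]
  have h1 : Fintype.card F ^ (d ^ 2) = Fintype.card F ^ (d ^ 2 - l ^ 2) * Fintype.card F ^ (l ^ 2) := by
    rw [← pow_add, Nat.sub_add_cancel (Nat.pow_le_pow_left h 2)]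
  rw [h1]
  ring

/-- `r` divides the number of nondegenerate `2e`-spaces -/
theorem dvd_of_dvd_ND_card {p : ℕ} [Fact p.Prime] [CharP F p] {r : ℕ} [Fact r.Prime] (hrp : r ≠ p) {e : ℕ} (hed : e ≤ d)
    (h : r ∣ Nat.card {W : Submodule F (Fin d ⊕ Fin d → F) // finrank F W = 2 * e ∧ (∀ u ∈ W, u ≠ 0 → ∃ v ∈ W, Cfsg.sympForm d F u v ≠ 0)}) :
    ∃ j, d - e < j ∧ j ≤ d ∧ orderOf ((Fintype.card F : ℕ) : ZMod r) ∣ 2 * j := by
  have hr : r.Prime := Fact.out
  have hA := sympForm_altForm (F := F) d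
  have hND := sympForm_ND (F := F) d
  obtain ⟨U, -, hU, hUd⟩ := hA.exists_ND_sub e ⊤ hND (by rw [finrank_top, finrank_symp]; omega)
  rw [card_eq_index_stabilizer (G := Matrix.symplecticGroup (Fin d) F) U] at h
  · obtain ⟨ψ, hψ1, hψ2⟩ := exists_symp_embed hU (l := d - e) (by omega)
    have h1 := dvd_of_dvd_index _ ψ hψ1 (fun g => by
      rw [MulAction.mem_stabilizer_iff, spAct_def]
      apply le_antisymm
      · rintro _ ⟨u, hu, rfl⟩
        rw [hψ2 g u hu]
        exact hu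
      · intro u hu
        exact ⟨u, hu, hψ2 g u hu⟩) h (card_symp_ratio (Nat.sub_le d e))
    rcases hr.dvd_mul.mp h1 with h2 | h2
    · exact absurd (hr.dvd_of_dvd_pow h2) (prime_not_dvd_card hrp)
    · obtain ⟨j, hj, h3⟩ := (Prime.dvd_finsetProd_iff hr.prime _).mp h2
      rw [dvd_pow_sub_one_iff Fintype.card_pos] at h3
      rw [Finset.mem_Ico] at hj
      exact ⟨j + 1, by omega, by omega, h3⟩
  · intro W
    constructor
    · rintro ⟨h1, h2⟩
      rw [ND_iff] at h2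
      obtain ⟨φ, hφ⟩ := exists_isometry_ND hA hU h2 (by rw [hUd, h1])
      obtain ⟨x, hx, -⟩ := exists_symp_extend φ hφ
      exact ⟨x, hx⟩
    · rintro ⟨g, hg⟩
      have hg' : U.map (Matrix.toLin' (g : Matrix (Fin d ⊕ Fin d) (Fin d ⊕ Fin d) F)) = W := hg
      subst hg'
      have hinj := isom_injective hA.oform hND _ (sympForm_toLin' d g.2)
      refine ⟨?_, ?_⟩
      · rw [← LinearEquiv.finrank_eq (Submodule.equivMapOfInjective _ hinj _), hUd]
      · rw [ND_iff]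
        rintro _ ⟨u, hu, rfl⟩ h
        have h2 : u = 0 := by
          apply hU u hu
          intro v hv
          rw [← sympForm_toLin' d g.2]
          exact h _ ⟨v, hv, rfl⟩
        rw [h2, map_zero]

end

end Cfsg.Agent.H99
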