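import Cfsg.Agent.H99.UniTI3
import Cfsg.Agent.Uni.Stab

set_option autoImplicit false
set_option linter.unusedSectionVars false
open scoped MatrixGroups
open Cfsg

namespace Cfsg.Agent.H99.UT

open Module Matrix Polynomial Cfsg.Agent.H99

section count
open Finset Cfsg.Agent.Uni

variable {F : Type*} [Field F] [Fintype F] {q n : ℕ}

theorem isON_cons_iff2 {m : ℕ} (hF : Fintype.card F = q ^ 2) (w : Fin m → Fin n → F) :
    Uni.IsON q (Fin.cons (Pi.single 0 1) (fun i => Fin.cons 0 (w i)) : Fin (m + 1) → Fin (n + 1) → F)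
      ↔ Uni.IsON q w := by
  have key : ∀ i j, hermForm (n + 1) F q (Fin.cons 0 (w i)) (Fin.cons 0 (w j)) =
      hermForm n F q (w i) (w j) := by
    intro i j
    rw [hermForm_def, Fin.sum_univ_succ]
    simp [hermForm_def]
  constructor
  · intro h i j
    have := h i.succ j.succ
    simp only [Fin.cons_succ, Fin.succ_inj] at this
    rwa [key] at this
  · intro h i j
    induction i using Fin.cases with
    | zero =>
      induction j using Fin.cases with
      | zero => simpa using Uni.IsON.single hF (0 : Fin (n + 1)) 0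
      | succ j =>
        rw [Fin.cons_zero, Fin.cons_succ, hermForm_single_left, Fin.cons_zero, zero_pow_q hF,
          if_neg (Fin.succ_ne_zero j).symm]
    | succ i =>
      induction j using Fin.cases with
      | zero =>
        rw [Fin.cons_zero, Fin.cons_succ, hermForm_single_right' hF, Fin.cons_zero,
          if_neg (Fin.succ_ne_zero i)]
      | succ j =>
        rw [Fin.cons_succ, Fin.cons_succ, key, h i j]
        simp [Fin.succ_inj]

theorem card_ON_succ2 (hF : Fintype.card F = q ^ 2) (m n : ℕ) :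
    Nat.card {b : Fin (m + 1) → Fin (n + 1) → F // Uni.IsON q b} =
      cnt (n + 1) F q 1 * Nat.card {b : Fin m → Fin n → F // Uni.IsON q b} := by
  have hfib : ∀ u : {u : Fin (n + 1) → F // hermForm (n + 1) F q u u = 1},
      Nonempty ({b : {b : Fin (m + 1) → Fin (n + 1) → F // Uni.IsON q b} // b.1 0 = u.1} ≃
        {b : Fin m → Fin n → F // Uni.IsON q b}) := by
    intro u
    have he : hermForm (n + 1) F q (Pi.single 0 1) (Pi.single 0 1) = 1 := by
      simpa using Uni.IsON.single hF (0 : Fin (n + 1)) 0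
    obtain ⟨g, hg⟩ := exists_GU_of_unit hF he u.2
    have hgg := (mem_GU.1 g.2)
    have hgi := (mem_GU.1 (g⁻¹).2)
    have hinv : (((g⁻¹ : GU (n + 1) F q) : GL (Fin (n + 1)) F) :
        Matrix (Fin (n + 1)) (Fin (n + 1)) F) *ᵥ u.1 = Pi.single 0 1 := by
      rw [← hg, Subgroup.coe_inv, gl_inv_mulVec]
    have hcancel : ∀ x, (((g : GU (n + 1) F q) : GL (Fin (n + 1)) F) :
        Matrix (Fin (n + 1)) (Fin (n + 1)) F) *ᵥ ((((g⁻¹ : GU (n + 1) F q) :
        GL (Fin (n + 1)) F) : Matrix (Fin (n + 1)) (Fin (n + 1)) F) *ᵥ x) = x := by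
      intro x
      simp [Matrix.mulVec_mulVec]
    have hcancel' : ∀ x, (((g⁻¹ : GU (n + 1) F q) : GL (Fin (n + 1)) F) :
        Matrix (Fin (n + 1)) (Fin (n + 1)) F) *ᵥ ((((g : GU (n + 1) F q) :
        GL (Fin (n + 1)) F) : Matrix (Fin (n + 1)) (Fin (n + 1)) F) *ᵥ x) = x := by
      intro x
      simp [Matrix.mulVec_mulVec]
    have hform : ∀ b : {b : {b : Fin (m + 1) → Fin (n + 1) → F // Uni.IsON q b} // b.1 0 = u.1},
        (Fin.cons (Pi.single 0 1) (fun i : Fin m => Fin.cons 0
          (fun r : Fin n => ((((g⁻¹ : GU (n + 1) F q) : GL (Fin (n + 1)) F) :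
            Matrix (Fin (n + 1)) (Fin (n + 1)) F) *ᵥ (b.1.1 i.succ)) r.succ)) :
              Fin (m + 1) → Fin (n + 1) → F) =
          fun i => (((g⁻¹ : GU (n + 1) F q) : GL (Fin (n + 1)) F) :
            Matrix (Fin (n + 1)) (Fin (n + 1)) F) *ᵥ (b.1.1 i) := by
      intro b
      funext i
      induction i using Fin.cases with
      | zero => rw [Fin.cons_zero, b.2, hinv]
      | succ i =>
        rw [Fin.cons_succ]
        funext r
        induction r using Fin.cases with
        | zero =>
          have h3 := hgi (b.1.1 i.succ) (b.1.1 0)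
          rw [b.1.2 i.succ 0, if_neg (Fin.succ_ne_zero i), b.2, hinv,
            hermForm_single_right' hF] at h3
          rw [Fin.cons_zero, h3]
        | succ r => rw [Fin.cons_succ]
    refine ⟨⟨fun b => ⟨fun i r => ((((g⁻¹ : GU (n + 1) F q) : GL (Fin (n + 1)) F) :
            Matrix (Fin (n + 1)) (Fin (n + 1)) F) *ᵥ (b.1.1 i.succ)) r.succ, ?_⟩,
      fun w => ⟨⟨fun i => (((g : GU (n + 1) F q) : GL (Fin (n + 1)) F) :
            Matrix (Fin (n + 1)) (Fin (n + 1)) F) *ᵥ ((Fin.cons (Pi.single 0 1)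
              (fun i => Fin.cons 0 (w.1 i)) : Fin (m + 1) → Fin (n + 1) → F) i), ?_⟩, ?_⟩,
        ?_, ?_⟩⟩
    · rw [← isON_cons_iff2 hF, hform b]
      intro i j
      simp only
      rw [hgi]
      exact b.1.2 i j
    · intro i j
      simp only
      rw [hgg]
      exact (isON_cons_iff2 hF w.1).2 w.2 i j
    · simp only [Fin.cons_zero]
      exact hg
    · intro b
      apply Subtype.ext
      apply Subtype.ext
      funext i
      simp only
      rw [hform b]
      exact hcancel _
    · intro w
      apply Subtype.ext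
      funext i r
      simp only
      rw [hcancel', Fin.cons_succ, Fin.cons_succ]
  have hmap : ∀ b : {b : Fin (m + 1) → Fin (n + 1) → F // Uni.IsON q b},
      hermForm (n + 1) F q (b.1 0) (b.1 0) = 1 := fun b => by simpa using b.2 0 0
  let f : {b : Fin (m + 1) → Fin (n + 1) → F // Uni.IsON q b} →
      {u : Fin (n + 1) → F // hermForm (n + 1) F q u u = 1} := fun b => ⟨b.1 0, hmap b⟩
  have e1 : {b : Fin (m + 1) → Fin (n + 1) → F // Uni.IsON q b} ≃
      {u : Fin (n + 1) → F // hermForm (n + 1) F q u u = 1} ×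
        {b : Fin m → Fin n → F // Uni.IsON q b} :=
    (Equiv.sigmaFiberEquiv f).symm.trans
      ((Equiv.sigmaCongrRight fun u =>
        (Equiv.subtypeEquivRight fun b => by exact Subtype.ext_iff).trans
          (Classical.choice (hfib u))).trans (Equiv.sigmaEquivProd _ _))
  rw [Nat.card_congr e1, Nat.card_prod]
  rfl

theorem card_ON_frames (hF : Fintype.card F = q ^ 2) (m : ℕ) : ∀ n, m ≤ n →
    Nat.card {b : Fin m → Fin n → F // Uni.IsON q b} = ∏ i ∈ Finset.range m, cnt (n - i) F q 1 := by
  induction m with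
  | zero =>
    intro n _
    rw [Finset.range_zero, Finset.prod_empty, Nat.card_eq_one_iff_unique]
    exact ⟨inferInstance, ⟨⟨fun i => i.elim0, fun i => i.elim0⟩⟩⟩
  | succ m ih =>
    intro n hn
    obtain ⟨n, rfl⟩ : ∃ k, n = k + 1 := ⟨n - 1, by omega⟩
    rw [card_ON_succ2 hF, ih n (by omega), Finset.prod_range_succ', mul_comm]
    congr 1
    apply Finset.prod_congr rfl
    intro i _
    congr 1
    omega

theorem exists_ON_of_ND (hF : Fintype.card F = q ^ 2) {m : ℕ} {W : Submodule F (Fin n → F)} (hW : H99.ND (Cfsg.hermForm n F q) W) (hd : finrank F W = m) :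
    ∃ v : Fin m → Fin n → F, Uni.IsON q v ∧ Submodule.span F (Set.range v) = W := by
  have hA := herm_eform (n := n) hF
  obtain ⟨T, hT⟩ := exists_herm_std hF (V := W) (hA.restrict W) (by
    intro u _ h
    apply Subtype.ext
    exact hW u u.2 (fun v hv => h ⟨v, hv⟩ Submodule.mem_top)) hd
  have hON : Uni.IsON q (fun i : Fin m => ((T (Pi.single i 1) : W) : Fin n → F)) := by
    intro i j
    change Cfsg.hermForm n F q ((T (Pi.single i 1) : W) : Fin n → F) ((T (Pi.single j 1) : W) : Fin n → F) = _
    rw [hT]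
    exact Uni.IsON.single hF i j
  refine ⟨_, hON, ?_⟩
  apply Submodule.eq_of_le_of_finrank_eq
  · rw [Submodule.span_le]
    rintro _ ⟨i, rfl⟩
    exact (T (Pi.single i 1)).2
  · rw [finrank_span_eq_card (hON.linearIndependent hF), Fintype.card_fin, hd]

theorem nd_count_dvd (hF : Fintype.card F = q ^ 2) {m : ℕ} (hmn : m ≤ n) :
    Nat.card {W : Submodule F (Fin n → F) // finrank F W = m ∧ H99.ND (Cfsg.hermForm n F q) W} ∣ ∏ i ∈ Finset.range m, cnt (n - i) F q 1 := by
  classical
  rw [← card_ON_frames hF m n hmn]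
  have hA := herm_eform (n := n) hF
  let v0 : Fin m → Fin n → F := fun i => Pi.single (Fin.castLE hmn i) 1
  have hv0 : Uni.IsON q v0 := by
    intro i j
    have h := Uni.IsON.single (F := F) hF (Fin.castLE hmn i) (Fin.castLE hmn j)
    simp only [v0]
    rw [h]
    simp [Fin.castLE_inj]
  have hsp : ∀ {v : Fin m → Fin n → F}, Uni.IsON q v → finrank F (Submodule.span F (Set.range v)) = m ∧ H99.ND (Cfsg.hermForm n F q) (Submodule.span F (Set.range v)) := by
    intro v hv
    refine ⟨by rw [finrank_span_eq_card (hv.linearIndependent hF), Fintype.card_fin], ?_⟩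
    have h := nd_span_ON hF hv
    intro u hu h2
    exact h u hu h2
  have hmapspan : ∀ (g : GU n F q) (v : Fin m → Fin n → F), (Submodule.span F (Set.range v)).map (gmap g) = Submodule.span F (Set.range (fun i => gact g (v i))) := by
    intro g v
    rw [Submodule.map_span, ← Set.range_comp]
    rfl
  have hONg : ∀ (g : GU n F q) {v : Fin m → Fin n → F}, Uni.IsON q v → Uni.IsON q (fun i => gact g (v i)) := by
    intro g v hv i j
    change Cfsg.hermForm n F q (gact g (v i)) (gact g (v j)) = _
    rw [gact_form]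
    exact hv i j
  let W0 : Submodule F (Fin n → F) := Submodule.span F (Set.range v0)
  let φ : GU n F q → {W : Submodule F (Fin n → F) // finrank F W = m ∧ H99.ND (Cfsg.hermForm n F q) W} := fun g =>
    ⟨W0.map (gmap g), by rw [hmapspan]; exact hsp (hONg g hv0)⟩
  let ψ : GU n F q → {b : Fin m → Fin n → F // Uni.IsON q b} := fun g => ⟨fun i => gact g (v0 i), hONg g hv0⟩
  have hφ : Function.Surjective φ := by
    rintro ⟨W, hW1, hW2⟩
    obtain ⟨v, hv, hvW⟩ := exists_ON_of_ND hF hW2 hW1
    obtain ⟨g, hg⟩ := exists_GU_of_ON hF hv0 hv hmn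
    refine ⟨g, Subtype.ext ?_⟩
    change W0.map (gmap g) = W
    rw [hmapspan, ← hvW]
    congr 2
    funext i
    exact hg i
  have hψ : Function.Surjective ψ := by
    rintro ⟨v, hv⟩
    obtain ⟨g, hg⟩ := exists_GU_of_ON hF hv0 hv hmn
    exact ⟨g, Subtype.ext (funext hg)⟩
  let T : Subgroup (GU n F q) :=
    { carrier := {g | ∀ i, gact g (v0 i) = v0 i}
      mul_mem' := by
        intro a b ha hb i
        rw [gact_mul, hb i, ha i]
      one_mem' := fun i => gact_one _
      inv_mem' := by
        intro a ha i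
        have h := gact_inv_gact a (v0 i)
        rw [ha i] at h
        exact h }
  have h1 : Nat.card {W : Submodule F (Fin n → F) // finrank F W = m ∧ H99.ND (Cfsg.hermForm n F q) W} = (gstab q W0).index := by
    apply card_eq_index φ hφ
    intro g k
    rw [Subtype.ext_iff]
    change W0.map (gmap g) = W0.map (gmap k) ↔ _
    rw [eq_comm, map_gmap_eq_iff, eq_gmap_iff, mem_gstab]
  have h2 : Nat.card {b : Fin m → Fin n → F // Uni.IsON q b} = T.index := by
    apply card_eq_index ψ hψ
    intro g k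
    rw [Subtype.ext_iff]
    constructor
    · intro h i
      have h3 := congrFun h i
      change gact g (v0 i) = gact k (v0 i) at h3
      rw [gact_mul, ← h3, gact_inv_gact]
    · intro h
      funext i
      change gact g (v0 i) = gact k (v0 i)
      have h3 := h i
      rw [gact_mul] at h3
      rw [← h3, gact_gact_inv, h3]
  rw [h1, h2]
  apply Subgroup.index_dvd_of_le
  intro g hg
  have h3 : φ g = φ 1 := by
    apply Subtype.ext
    change W0.map (gmap g) = W0.map (gmap 1)
    rw [hmapspan, hmapspan]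
    congr 2
    funext i
    rw [hg i, gact_one]
  have h4 := congrArg Subtype.val h3
  change W0.map (gmap g) = W0.map (gmap 1) at h4
  rw [map_gmap_eq_iff, eq_gmap_iff, ← mem_gstab] at h4
  simpa using h4

theorem nd_count_prime (hF : Fintype.card F = q ^ 2) {m : ℕ} (hmn : m ≤ n) {r : ℕ} [Fact r.Prime] (hrq : ¬ r ∣ q)
    (hr : r ∣ Nat.card {W : Submodule F (Fin n → F) // finrank F W = m ∧ H99.ND (Cfsg.hermForm n F q) W}) :
    ∃ j, 1 ≤ j ∧ j ≤ n ∧ n < j + m ∧ ((q : ℕ) : ZMod r) ^ j = (-1) ^ j := by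
  have hrp : r.Prime := Fact.out
  obtain ⟨i, hi, h2⟩ := (Prime.dvd_finsetProd_iff hrp.prime _).mp (hr.trans (nd_count_dvd hF hmn))
  rw [Finset.mem_range] at hi
  have h3 : n - i = (n - i - 1) + 1 := by omega
  rw [h3, cnt_succ_one_eq hF] at h2
  rcases (Nat.Prime.dvd_mul hrp).mp h2 with h4 | h4
  · exact absurd (hrp.dvd_of_dvd_pow h4) hrq
  · refine ⟨n - i - 1 + 1, by omega, by omega, by omega, ?_⟩
    split_ifs at h4 with he
    · rw [zmod_add] at h4
      rw [h4, pow_succ (-1 : ZMod r), he.neg_one_pow, one_mul]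
    · rw [zmod_sub _ _ (q_pos hF)] at h4
      rw [h4, pow_succ (-1 : ZMod r), (Nat.not_even_iff_odd.mp he).neg_one_pow]
      ring

end count

end Cfsg.Agent.H99.UT
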