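import Cfsg.Agent.H99.UniTI3
import Cfsg.Agent.H99.SLConj

set_option autoImplicit false
open scoped MatrixGroups
open Cfsg

/-! Involutions in unitary groups and isotropic subspaces (helper99). -/

namespace Cfsg.Agent.H99.UT

open Module Matrix Polynomial Cfsg.Agent.H99

section
variable {F : Type*} [Field F] [Fintype F] {q n m : ℕ}

theorem exists_order (hF : Fintype.card F = q ^ 2) {k : ℕ} (hk : k ∣ q + 1) : ∃ ζ : F, orderOf ζ = k ∧ ζ ^ (q + 1) = 1 := by
  obtain ⟨g, hg⟩ := IsCyclic.exists_generator (α := Fˣ)
  have h1 : orderOf g = (q + 1) * (q - 1) := by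
    rw [← Uni.card_units hF, orderOf_eq_card_of_forall_mem_zpowers hg]
  obtain ⟨l, hl⟩ := hk
  have hq := Uni.two_le_q hF
  have hl0 : l ≠ 0 := by
    rintro rfl
    omega
  have h2 : orderOf (g ^ (l * (q - 1))) = k := by
    have h3 : orderOf g = k * (l * (q - 1)) := by rw [h1, hl, mul_assoc]
    rw [orderOf_pow_of_dvd (Nat.mul_ne_zero hl0 (by omega)) (by rw [h3]; exact Dvd.intro_left k rfl), h3,
      Nat.mul_div_cancel _ (Nat.mul_pos (by omega) (by omega))]
  refine ⟨((g ^ (l * (q - 1)) : Fˣ) : F), by rw [orderOf_units, h2], ?_⟩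
  rw [← Units.val_pow_eq_pow_val, hl, pow_mul]
  rw [← h2, pow_orderOf_eq_one, one_pow, Units.val_one]

omit [Fintype F] in
theorem exists_sub_le {V : Type*} [AddCommGroup V] [Module F V] [FiniteDimensional F V] {W : Submodule F V} {m : ℕ} (h : m ≤ finrank F W) :
    ∃ U ≤ W, finrank F U = m := by
  have hli : LinearIndependent F (fun i : Fin m => ((finBasis F W (Fin.castLE h i) : W) : V)) :=
    ((finBasis F W).linearIndependent.map' W.subtype W.ker_subtype).comp _ (Fin.castLE_injective h)
  refine ⟨Submodule.span F (Set.range (fun i : Fin m => ((finBasis F W (Fin.castLE h i) : W) : V))), ?_, ?_⟩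
  · rw [Submodule.span_le]
    rintro _ ⟨i, rfl⟩
    exact (finBasis F W (Fin.castLE h i)).2
  · rw [finrank_span_eq_card hli, Fintype.card_fin]

omit [Fintype F] in
theorem det_invol {V : Type*} [AddCommGroup V] [Module F V] [FiniteDimensional F V] {f : V →ₗ[F] V} {A B : Submodule F V} (h : IsCompl A B)
    (hA : ∀ v ∈ A, f v = v) (hB : ∀ v ∈ B, f v = -v) : LinearMap.det f = (-1) ^ finrank F B := by
  classical
  let b := ((finBasis F A).prod (finBasis F B)).map (Submodule.prodEquivOfIsCompl A B h)
  rw [det_of_eigenbasis b f (Sum.elim (fun _ => 1) (fun _ => -1))]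
  · rw [Fintype.prod_sum_type]
    simp
  · rintro (i | i)
    · simp only [b, Basis.map_apply, Basis.prod_apply_inl_fst, Submodule.coe_prodEquivOfIsCompl', Sum.elim_inl, one_smul, Basis.prod_apply_inl_snd, Submodule.coe_zero, add_zero]
      exact hA _ (finBasis F A i).2
    · simp only [b, Basis.map_apply, Submodule.coe_prodEquivOfIsCompl', Sum.elim_inr, Basis.prod_apply_inr_fst, Basis.prod_apply_inr_snd, Submodule.coe_zero, zero_add, neg_smul, one_smul]
      exact hB _ (finBasis F B i).2

theorem case_two (hF : Fintype.card F = q ^ 2) (h2F : (2 : F) ≠ 0) (hn : 3 ≤ n) (hm : 1 ≤ m) (hmn : 2 * m ≤ n) :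
    (∀ x : Matrix.SpecialLinearGroup (Fin n) F, x ∈ Cfsg.SU n F q →
      (∃ z : F, ((x ^ 2 : Matrix.SpecialLinearGroup (Fin n) F) : Matrix (Fin n) (Fin n) F) = z • (1 : Matrix (Fin n) (Fin n) F)) →
      (∀ z : F, (x : Matrix (Fin n) (Fin n) F) ≠ z • (1 : Matrix (Fin n) (Fin n) F)) →
      ∃ W : Submodule F (Fin n → F), Module.finrank F ↥W = m ∧ (∀ u ∈ W, ∀ v ∈ W, Cfsg.hermForm n F q u v = 0) ∧
        W.map (Matrix.toLin' (x : Matrix (Fin n) (Fin n) F)) ≤ W) ↔
    (2 * m < n ∨ padicValNat 2 (q + 1) ≤ padicValNat 2 n) := by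
  classical
  have hA := herm_eform (n := n) hF
  have hND := herm_ND (n := n) hF
  have hfd : finrank F (Fin n → F) = n := by rw [finrank_fintype_fun_eq_card, Fintype.card_fin]
  have hq := Uni.two_le_q hF
  have hneg1 : (-1 : F) ≠ 1 := by
    intro h
    apply h2F
    linear_combination -h
  constructor
  · intro hfix
    by_contra hcon
    push Not at hcon
    obtain ⟨hc1, hc2⟩ := hcon
    have hmn' : n = 2 * m := by omega
    set s := padicValNat 2 n with hs
    have hdvd : 2 ^ (s + 1) ∣ q + 1 := (padicValNat_dvd_iff_le (by omega)).mpr (by omega)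
    obtain ⟨w, hw, hwq⟩ := exists_order hF hdvd
    have hw0 : w ≠ 0 := by
      rintro rfl
      rw [zero_pow (by omega)] at hwq
      exact zero_ne_one hwq
    have hw2 : w ^ 2 ^ s = -1 := by
      have h1 : w ^ 2 ^ s * w ^ 2 ^ s = 1 := by
        rw [← pow_add, ← two_mul, ← pow_succ', ← hw, pow_orderOf_eq_one]
      rcases mul_self_eq_one_iff.mp h1 with h2 | h2
      · exfalso
        have h3 := orderOf_dvd_iff_pow_eq_one.mpr h2
        rw [hw] at h3
        have h4 := Nat.le_of_dvd (by positivity) h3
        rw [pow_succ] at h4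
        have : 0 < 2 ^ s := by positivity
        omega
      · exact h2
    have hwn : w ^ n = -1 := by
      obtain ⟨u, hu⟩ : 2 ^ s ∣ n := (padicValNat_dvd_iff_le (by omega)).mpr le_rfl
      have hodd : Odd u := by
        by_contra he
        rw [Nat.not_odd_iff_even] at he
        obtain ⟨v, hv⟩ := he
        have h3 : 2 ^ (s + 1) ∣ n := ⟨v, by rw [hu, hv, pow_succ]; ring⟩
        have h4 := (padicValNat_dvd_iff_le (p := 2) (by omega)).mp h3
        omega
      rw [hu, pow_mul, hw2, hodd.neg_one_pow]
    let i₀ : Fin n := ⟨0, by omega⟩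
    let d : Fin n → F := fun i => if i = i₀ then -w else w
    have hdq : ∀ i, d i ^ (q + 1) = 1 := by
      intro i
      simp only [d]
      split_ifs
      · rw [pow_succ', Uni.neg_pow_q hF, neg_mul_neg, ← pow_succ', hwq]
      · exact hwq
    have hdet : (Matrix.diagonal d).det = 1 := by
      rw [Matrix.det_diagonal, ← Finset.mul_prod_erase _ _ (Finset.mem_univ i₀)]
      have h1 : ∏ i ∈ Finset.univ.erase i₀, d i = w ^ (n - 1) := by
        rw [Finset.prod_congr rfl (g := fun _ => w), Finset.prod_const, Finset.card_erase_of_mem (Finset.mem_univ _), Finset.card_univ, Fintype.card_fin]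
        intro i hi
        simp only [d]
        rw [if_neg (Finset.ne_of_mem_erase hi)]
      rw [h1]
      simp only [d, if_true]
      have h2 : w * w ^ (n - 1) = -1 := by rw [← pow_succ', Nat.sub_add_cancel (by omega), hwn]
      linear_combination -h2
    obtain ⟨x, hx⟩ : ∃ x : Matrix.SpecialLinearGroup (Fin n) F, (x : Matrix (Fin n) (Fin n) F) = Matrix.diagonal d := ⟨⟨_, hdet⟩, rfl⟩
    obtain ⟨W, g1, g2, g3⟩ := hfix x (by rw [Uni.mem_SU, hx]; exact Uni.pres_diagonal d hdq) ⟨w ^ 2, by
      rw [Matrix.SpecialLinearGroup.coe_pow, hx, Matrix.diagonal_pow, ← Matrix.diagonal_one, ← Matrix.diagonal_smul]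
      congr 1
      funext i
      simp only [Pi.pow_apply, Pi.smul_apply, d, smul_eq_mul, mul_one]
      split_ifs
      · ring
      · rfl⟩ (by
      intro z hz
      rw [hx] at hz
      have h1 := congrFun (congrFun hz i₀) i₀
      have h2 := congrFun (congrFun hz ⟨1, by omega⟩) ⟨1, by omega⟩
      rw [Matrix.diagonal_apply_eq, Matrix.smul_apply, Matrix.one_apply_eq, smul_eq_mul, mul_one] at h1 h2
      simp only [d, if_true] at h1
      simp only [d] at h2
      rw [if_neg (by intro h; simp [i₀] at h)] at h2
      rw [← h2] at h1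
      apply hneg1
      apply mul_right_cancel₀ hw0
      linear_combination h1)
    rw [hx] at g3
    -- `W` lies in the hyperplane
    have hW0 : ∀ v ∈ W, v i₀ = 0 := by
      intro v hv
      by_contra hv0
      have h1 : Matrix.toLin' (Matrix.diagonal d) v ∈ W := g3 ⟨v, hv, rfl⟩
      have h2 : w • v - Matrix.toLin' (Matrix.diagonal d) v ∈ W := W.sub_mem (W.smul_mem _ hv) h1
      have h3 : w • v - Matrix.toLin' (Matrix.diagonal d) v = (2 * w * v i₀) • (Pi.single i₀ 1 : Fin n → F) := by
        funext i
        rw [Pi.sub_apply, Pi.smul_apply, Pi.smul_apply, Matrix.toLin'_apply, Matrix.mulVec_diagonal, Pi.single_apply]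
        simp only [d, smul_eq_mul]
        split_ifs with hi
        · rw [hi]; ring
        · ring
      rw [h3] at h2
      have h4 : (Pi.single i₀ 1 : Fin n → F) ∈ W := by
        have h5 := W.smul_mem (2 * w * v i₀)⁻¹ h2
        rwa [smul_smul, inv_mul_cancel₀ (mul_ne_zero (mul_ne_zero h2F hw0) hv0), one_smul] at h5
      have h5 := g2 _ h4 _ h4
      rw [Uni.hermForm_single_left, Pi.single_eq_same, one_pow] at h5
      exact one_ne_zero h5
    have h1 : W ⊔ Submodule.span F {(Pi.single i₀ 1 : Fin n → F)} ≤ orth hA.oform W := by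
      apply sup_le
      · intro u hu v hv
        exact g2 u hu v hv
      · rw [Submodule.span_singleton_le_iff_mem]
        intro v hv
        rw [Uni.hermForm_single_left, hW0 v hv, Uni.zero_pow_q hF]
    have h2 := hA.finrank_add_orth hND W
    have h3 := Submodule.finrank_mono h1
    have h4 := Submodule.finrank_sup_add_finrank_inf_eq W (Submodule.span F {(Pi.single i₀ 1 : Fin n → F)})
    have h5 : W ⊓ Submodule.span F {(Pi.single i₀ 1 : Fin n → F)} = ⊥ := by
      rw [eq_bot_iff]
      rintro v ⟨hv1, hv2⟩
      obtain ⟨a, rfl⟩ := Submodule.mem_span_singleton.mp hv2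
      have h6 := hW0 _ hv1
      rw [Pi.smul_apply, Pi.single_eq_same, smul_eq_mul, mul_one] at h6
      rw [h6, zero_smul]
      exact Submodule.zero_mem _
    rw [h5, finrank_bot, finrank_span_singleton (by
      intro h
      have := congrFun h i₀
      rw [Pi.single_eq_same] at this
      exact one_ne_zero this)] at h4
    rw [hfd, g1] at h2
    rw [g1] at h4
    omega
  · rintro hcond x hx ⟨z, hz⟩ hns
    have hpr : Uni.Pres q ((x ^ 2 : Matrix.SpecialLinearGroup (Fin n) F) : Matrix (Fin n) (Fin n) F) := Subgroup.pow_mem _ hx 2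
    have hzn := scalar_norm (by omega) hpr hz
    have hz0 : z ≠ 0 := by
      rintro rfl
      rw [zero_pow (by omega)] at hzn
      exact zero_ne_one hzn
    -- a square root of `z`
    obtain ⟨w, hw⟩ : ∃ w : F, w ^ 2 = z := by
      have h1 : IsSquare z := by
        rw [FiniteField.isSquare_iff (by
          intro h
          apply h2F
          have := ringChar.of_eq h
          exact CharTwo.two_eq_zero) hz0, hF]
        have hodd : Odd q := by
          rcases Nat.even_or_odd q with h | h
          · exfalso
            apply h2F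
            obtain ⟨p, e, hp, hcp, he, hqe⟩ := Uni.q_prime_pow hF
            have h4 : 2 ∣ p := Nat.prime_two.dvd_of_dvd_pow (by rw [← hqe]; exact h.two_dvd)
            have h5 : p = 2 := ((Nat.prime_dvd_prime_iff_eq Nat.prime_two hp).mp h4).symm
            subst h5
            exact CharTwo.two_eq_zero
          · exact h
        obtain ⟨k, hk⟩ := hodd
        have h3 : q ^ 2 / 2 = (q + 1) * k := by
          rw [hk]
          have : (2 * k + 1) ^ 2 = 2 * ((2 * k + 1 + 1) * k) + 1 := by ring
          rw [this]
          omega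
        rw [h3, pow_mul, hzn, one_pow]
      obtain ⟨w, hw⟩ := h1
      exact ⟨w, by rw [hw, pow_two]⟩
    have hw0 : w ≠ 0 := by
      rintro rfl
      apply hz0
      rw [← hw]
      ring
    set y := w⁻¹ • Matrix.toLin' (x : Matrix (Fin n) (Fin n) F) with hy
    have hyy : ∀ v, y (y v) = v := by
      intro v
      have h1 : (x : Matrix (Fin n) (Fin n) F) * (x : Matrix (Fin n) (Fin n) F) = z • (1 : Matrix (Fin n) (Fin n) F) := by
        rw [← hz, Matrix.SpecialLinearGroup.coe_pow, pow_two]
      rw [hy, LinearMap.smul_apply, LinearMap.smul_apply, map_smul, Matrix.toLin'_apply, Matrix.toLin'_apply, Matrix.mulVec_mulVec, h1, Matrix.smul_mulVec, Matrix.one_mulVec,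
        smul_smul, smul_smul, ← hw]
      have : w⁻¹ * w⁻¹ * w ^ 2 = 1 := by field_simp
      rw [this, one_smul]
    have hmapW : ∀ W : Submodule F (Fin n → F), (∀ v ∈ W, y v ∈ W) → W.map (Matrix.toLin' (x : Matrix (Fin n) (Fin n) F)) ≤ W :=
      fun W hW => map_le_of_smul (inv_ne_zero hw0) hW
    set δ : F := (w ^ (q + 1))⁻¹ with hδ
    have hδδ : δ * δ = 1 := by
      rw [hδ, ← mul_inv, ← pow_two, ← pow_mul, mul_comm (q + 1), pow_mul, hw, hzn, inv_one]
    have hyB : ∀ u v, Cfsg.hermForm n F q (y u) (y v) = δ * Cfsg.hermForm n F q u v := by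
      intro u v
      rw [hy, LinearMap.smul_apply, LinearMap.smul_apply, Uni.hermForm_smul_left, Uni.hermForm_smul_right, Matrix.toLin'_apply, Matrix.toLin'_apply]
      have h5 := (Uni.mem_SU.mp hx) u v
      rw [h5, hδ, pow_succ', mul_inv, inv_pow]
      ring
    set P := LinearMap.ker (y - 1) with hP
    set N := LinearMap.ker (y + 1) with hN
    have hmP : ∀ v, v ∈ P ↔ y v = v := by
      intro v
      rw [hP, LinearMap.mem_ker, LinearMap.sub_apply, sub_eq_zero]
      rfl
    have hmN : ∀ v, v ∈ N ↔ y v = -v := by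
      intro v
      rw [hN, LinearMap.mem_ker, LinearMap.add_apply, add_eq_zero_iff_eq_neg]
      rfl
    have hc : IsCompl P N := by
      constructor
      · rw [Submodule.disjoint_def]
        intro v h1 h2
        rw [hmP] at h1
        rw [hmN, h1] at h2
        have h3 : (2 : F) • v = 0 := by
          rw [two_smul]
          nth_rewrite 2 [h2]
          exact add_neg_cancel v
        exact (smul_eq_zero.mp h3).resolve_left h2F
      · rw [codisjoint_iff, eq_top_iff]
        intro v _
        have h1 : v = (2 : F)⁻¹ • (v + y v) + (2 : F)⁻¹ • (v - y v) := by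
          rw [← smul_add]
          have : v + y v + (v - y v) = (2 : F) • v := by rw [two_smul]; abel
          rw [this, smul_smul, inv_mul_cancel₀ h2F, one_smul]
        rw [h1]
        apply Submodule.add_mem_sup
        · rw [hmP, map_smul, map_add, hyy, add_comm]
        · rw [hmN, map_smul, map_sub, hyy, ← smul_neg, neg_sub]
    have hdim := Submodule.finrank_add_eq_of_isCompl hc
    rw [hfd] at hdim
    rcases mul_self_eq_one_iff.mp hδδ with h1 | h1
    · -- orthogonal eigenspaces
      rw [h1] at hyB
      simp only [one_mul] at hyB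
      have hPN : ∀ u ∈ P, ∀ v ∈ N, Cfsg.hermForm n F q u v = 0 := by
        intro u hu v hv
        have h3 := hyB u v
        rw [(hmP u).mp hu, (hmN v).mp hv, hA.neg_right] at h3
        have h4 : 2 * Cfsg.hermForm n F q u v = 0 := by linear_combination -h3
        exact (mul_eq_zero.mp h4).resolve_left h2F
      have hNDP : ND (Cfsg.hermForm n F q) P := by
        intro u hu h3
        apply hND u Submodule.mem_top
        intro v _
        obtain ⟨a, ha, b, hb, rfl⟩ := Submodule.mem_sup.mp (show v ∈ P ⊔ N by rw [hc.sup_eq_top]; exact Submodule.mem_top)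
        rw [hA.add_right, h3 a ha, hPN u hu b hb, add_zero]
      have hNDN : ND (Cfsg.hermForm n F q) N := by
        intro u hu h3
        apply hND u Submodule.mem_top
        intro v _
        obtain ⟨a, ha, b, hb, rfl⟩ := Submodule.mem_sup.mp (show v ∈ P ⊔ N by rw [hc.sup_eq_top]; exact Submodule.mem_top)
        rw [hA.add_right, h3 b hb, hA.oform.refl _ _ (hPN a ha u hu), add_zero]
      have hbound : m ≤ finrank F P / 2 + finrank F N / 2 := by
        rcases hcond with h3 | h3
        · omega
        · -- both dimensions are even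
          by_contra hcon
          have hoN : Odd (finrank F N) := by
            rw [Nat.odd_iff]
            omega
          have hoP : n = 2 * m := by omega
          have hdet : LinearMap.det y = -1 := by
            rw [det_invol hc (fun v hv => (hmP v).mp hv) (fun v hv => (hmN v).mp hv), hoN.neg_one_pow]
          rw [hy, LinearMap.det_smul, LinearMap.det_toLin', Matrix.SpecialLinearGroup.det_coe, mul_one, hfd, inv_pow] at hdet
          have hwn : w ^ n = -1 := by
            have h4 : w ^ n ≠ 0 := pow_ne_zero _ hw0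
            field_simp at hdet
            linear_combination hdet
          have hwq : w ^ (q + 1) = 1 := by
            rw [hδ] at h1
            exact inv_eq_one.mp h1
          obtain ⟨v, hv⟩ : 2 ^ (padicValNat 2 (q + 1)) ∣ q + 1 := (padicValNat_dvd_iff_le (by omega)).mpr le_rfl
          obtain ⟨k, hk⟩ : 2 ^ (padicValNat 2 (q + 1)) ∣ n := (padicValNat_dvd_iff_le (by omega)).mpr h3
          have hvodd : Odd v := by
            by_contra he
            rw [Nat.not_odd_iff_even] at he
            obtain ⟨u, hu⟩ := he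
            have h5 : 2 ^ (padicValNat 2 (q + 1) + 1) ∣ q + 1 := ⟨u, by
              nth_rewrite 1 [hv]
              rw [hu, pow_succ]; ring⟩
            have h6 := (padicValNat_dvd_iff_le (p := 2) (by omega)).mp h5
            omega
          have h5 : w ^ (n * v) = -1 := by rw [pow_mul, hwn, hvodd.neg_one_pow]
          have h6 : w ^ (n * v) = 1 := by
            have h7 : n * v = (q + 1) * k := by
              rw [hk]
              nth_rewrite 2 [hv]
              ring
            rw [h7, pow_mul, hwq, one_pow]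
          rw [h5] at h6
          exact hneg1 h6
      obtain ⟨j1, j2, hj, hj1, hj2⟩ : ∃ j1 j2, j1 + j2 = m ∧ 2 * j1 ≤ finrank F P ∧ 2 * j2 ≤ finrank F N := by
        rcases Nat.le_total m (finrank F P / 2) with h3 | h3
        · exact ⟨m, 0, by omega, by omega, by omega⟩
        · exact ⟨finrank F P / 2, m - finrank F P / 2, by omega, by omega, by omega⟩
      obtain ⟨U1, a1, a2, a3⟩ := exists_iso_sub' hF hA hNDP hj1
      obtain ⟨U2, b1, b2, b3⟩ := exists_iso_sub' hF hA hNDN hj2
      refine ⟨U1 ⊔ U2, ?_, ?_, hmapW _ ?_⟩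
      · have h8 := Submodule.finrank_sup_add_finrank_inf_eq U1 U2
        rw [disjoint_iff.mp (hc.disjoint.mono a1 b1), finrank_bot, a3, b3] at h8
        omega
      · exact orth_two' hF hA (fun a ha b hb => hPN a (a1 ha) b (b1 hb)) a2 b2
      · intro v hv
        obtain ⟨a, ha, b, hb, rfl⟩ := Submodule.mem_sup.mp hv
        rw [map_add]
        apply Submodule.add_mem_sup
        · rw [(hmP a).mp (a1 ha)]; exact ha
        · rw [(hmN b).mp (b1 hb)]; exact U2.neg_mem hb
    · -- isotropic eigenspaces
      rw [h1] at hyB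
      have hPi : ∀ u ∈ P, ∀ v ∈ P, Cfsg.hermForm n F q u v = 0 := by
        intro u hu v hv
        have h3 := hyB u v
        rw [(hmP u).mp hu, (hmP v).mp hv] at h3
        have h4 : 2 * Cfsg.hermForm n F q u v = 0 := by linear_combination h3
        exact (mul_eq_zero.mp h4).resolve_left h2F
      have hNi : ∀ u ∈ N, ∀ v ∈ N, Cfsg.hermForm n F q u v = 0 := by
        intro u hu v hv
        have h3 := hyB u v
        rw [(hmN u).mp hu, (hmN v).mp hv, hA.neg_right, hA.oform.neg_left] at h3
        have h4 : 2 * Cfsg.hermForm n F q u v = 0 := by linear_combination h3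
        exact (mul_eq_zero.mp h4).resolve_left h2F
      have h3 := hA.two_mul_finrank_le hND N hNi
      rw [hfd] at h3
      obtain ⟨U, hU1, hU2⟩ := exists_sub_le (show m ≤ finrank F P by omega)
      refine ⟨U, hU2, fun u hu v hv => hPi u (hU1 hu) v (hU1 hv), hmapW _ ?_⟩
      intro v hv
      rw [(hmP v).mp (hU1 hv)]
      exact hv

end

end Cfsg.Agent.H99.UT
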