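import Cfsg.Agent.H99.UniTI3
import Cfsg.Agent.H99.PrimeSL

set_option autoImplicit false
open scoped MatrixGroups
open Cfsg

/-! Elements of order dividing `q + 1` (modulo scalars) of unitary groups (helper99). -/

namespace Cfsg.Agent.H99.UT

open Module Matrix Polynomial Cfsg.Agent.H99

section
variable {F : Type*} [Field F] [Fintype F] {q n m : ℕ}

theorem exists_order' (hF : Fintype.card F = q ^ 2) {k : ℕ} (hk : k ∣ q + 1) : ∃ ζ : F, orderOf ζ = k ∧ ζ ^ (q + 1) = 1 := by
  obtain ⟨g, hg⟩ := IsCyclic.exists_generator (α := Fˣ)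
  have h1 : orderOf g = (q + 1) * (q - 1) := by
    rw [← Uni.card_units hF, orderOf_eq_card_of_forall_mem_zpowers hg]
  obtain ⟨l, hl⟩ := hk
  have hq := Uni.two_le_q hF
  have hl0 : l ≠ 0 := by
    rintro rfl
    omega
  have h2 : orderOf (g ^ (l * (q - 1))) = k := by
    have h3 : orderOf g = k * (l * (q - 1)) := by rw [h1, hl, mul_assoc]
    rw [orderOf_pow_of_dvd (Nat.mul_ne_zero hl0 (by omega)) (by rw [h3]; exact Dvd.intro_left k rfl), h3,
      Nat.mul_div_cancel _ (Nat.mul_pos (by omega) (by omega))]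
  refine ⟨((g ^ (l * (q - 1)) : Fˣ) : F), by rw [orderOf_units, h2], ?_⟩
  rw [← Units.val_pow_eq_pow_val, hl, pow_mul]
  rw [← h2, pow_orderOf_eq_one, one_pow, Units.val_one]

def exq (r e k : ℕ) : ℕ := if k < e then k + 1 else if k < 2 * e then r - (k - e + 1) else 0

variable {p : ℕ} [Fact p.Prime] [CharP F p] {r : ℕ} [Fact r.Prime]

theorem ord_one_of_dvd (hF : Fintype.card F = q ^ 2) (hrq : r ∣ q + 1) : orderOf ((Fintype.card F : ℕ) : ZMod r) = 1 := by
  rw [orderOf_eq_one_iff, hF]
  rw [← CharP.cast_eq_zero_iff (ZMod r) r] at hrq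
  push_cast at hrq ⊢
  have : (q : ZMod r) = -1 := eq_neg_of_add_eq_zero_left hrq
  rw [this]
  ring

theorem der_a (hF : Fintype.card F = q ^ 2) (hr2 : r ≠ 2) (hrp : r ≠ p) (hrq : r ∣ q + 1) (hn : 2 ≤ n) (hm : 1 ≤ m) (hmn : 2 * m ≤ n)
    (h : n < (r - 1) + 2 * m)
    (hfix : ∀ x : Matrix.SpecialLinearGroup (Fin n) F, x ∈ Cfsg.SU n F q →
      (∃ z : F, ((x ^ r : Matrix.SpecialLinearGroup (Fin n) F) : Matrix (Fin n) (Fin n) F) = z • (1 : Matrix (Fin n) (Fin n) F)) →
      (∀ z : F, (x : Matrix (Fin n) (Fin n) F) ≠ z • (1 : Matrix (Fin n) (Fin n) F)) →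
      ∃ W : Submodule F (Fin n → F), Module.finrank F ↥W = m ∧ (∀ u ∈ W, ∀ v ∈ W, Cfsg.hermForm n F q u v = 0) ∧
        W.map (Matrix.toLin' (x : Matrix (Fin n) (Fin n) F)) ≤ W) : False := by
  classical
  have hr : r.Prime := Fact.out
  have hA := herm_eform (n := n) hF
  have hND := herm_ND (n := n) hF
  have hrodd : Odd r := hr.odd_of_ne_two hr2
  rw [Nat.odd_iff] at hrodd
  set e := (n - 2 * m + 2) / 2 with he
  have he1 : 1 ≤ e := by omega
  have he2 : 2 * e ≤ n := by omega
  have he3 : n - 2 * e ≤ 2 * m - 1 := by omega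
  have he4 : 2 * e ≤ r - 1 := by omega
  clear_value e
  obtain ⟨ζ, hζ, hζq⟩ := exists_order' hF hrq
  have hζr : ζ ^ r = 1 := by rw [← hζ]; exact pow_orderOf_eq_one ζ
  let d : Fin n → F := fun i => ζ ^ exq r e (i : ℕ)
  have hdr : ∀ i, d i ^ r = 1 := fun i => by simp only [d]; rw [← pow_mul, mul_comm, pow_mul, hζr, one_pow]
  have hdq : ∀ i, d i ^ (q + 1) = 1 := fun i => by simp only [d]; rw [← pow_mul, mul_comm, pow_mul, hζq, one_pow]
  have hex : ∀ k, exq r e k < r := by
    intro k
    unfold exq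
    split_ifs <;> omega
  have hinj : ∀ i j : Fin n, d i ≠ 1 → d i = d j → i = j := by
    intro i j h1 h2
    have h3 : exq r e (i : ℕ) = exq r e (j : ℕ) := by
      apply pow_injOn_Iio_orderOf (x := ζ)
      · rw [Set.mem_Iio, hζ]; exact hex _
      · rw [Set.mem_Iio, hζ]; exact hex _
      · exact h2
    have h4 : exq r e (i : ℕ) ≠ 0 := by
      intro h5
      apply h1
      simp only [d]
      rw [h5, pow_zero]
    apply Fin.ext
    unfold exq at h3 h4
    split_ifs at h3 h4 <;> omega
  have hdet : (Matrix.diagonal d).det = 1 := by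
    rw [Matrix.det_diagonal, Fin.prod_univ_eq_prod_range (fun k => ζ ^ exq r e k) n, Finset.prod_pow_eq_pow_sum]
    have h1 : ∑ k ∈ Finset.range n, exq r e k = r * e := by
      have h2 : n = 2 * e + (n - 2 * e) := by omega
      rw [h2, Finset.sum_range_add]
      have h3 : ∑ x ∈ Finset.range (n - 2 * e), exq r e (2 * e + x) = 0 := by
        apply Finset.sum_eq_zero
        intro x _
        unfold exq
        rw [if_neg (by omega), if_neg (by omega)]
      rw [h3, add_zero, two_mul, Finset.sum_range_add, ← Finset.sum_add_distrib, Finset.sum_congr rfl (g := fun _ => r)]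
      · rw [Finset.sum_const, Finset.card_range, smul_eq_mul, mul_comm]
      · intro x hx
        rw [Finset.mem_range] at hx
        unfold exq
        rw [if_pos hx, if_neg (by omega), if_pos (by omega)]
        omega
    rw [h1, pow_mul, hζr, one_pow]
  obtain ⟨x, hx⟩ : ∃ x : Matrix.SpecialLinearGroup (Fin n) F, (x : Matrix (Fin n) (Fin n) F) = Matrix.diagonal d := ⟨⟨_, hdet⟩, rfl⟩
  have hdr' : (Matrix.diagonal d) ^ r = 1 := by
    rw [Matrix.diagonal_pow, ← Matrix.diagonal_one]
    congr 1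
    funext i
    exact hdr i
  obtain ⟨W, g1, g2, g3⟩ := hfix x (by rw [Uni.mem_SU, hx]; exact Uni.pres_diagonal d hdq) ⟨1, by
    rw [Matrix.SpecialLinearGroup.coe_pow, hx, hdr', one_smul]⟩ (by
    intro z hz
    rw [hx] at hz
    have h1 := congrFun (congrFun hz ⟨0, by omega⟩) ⟨0, by omega⟩
    have h2 := congrFun (congrFun hz ⟨1, by omega⟩) ⟨1, by omega⟩
    rw [Matrix.diagonal_apply_eq, Matrix.smul_apply, Matrix.one_apply_eq, smul_eq_mul, mul_one] at h1 h2
    have h3 := hinj ⟨0, by omega⟩ ⟨1, by omega⟩ (by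
      simp only [d]
      intro h4
      have h5 := orderOf_dvd_iff_pow_eq_one.mpr h4
      rw [hζ] at h5
      have h6 := Nat.le_of_dvd (by unfold exq; rw [if_pos (by omega)]; omega) h5
      have := hex 0
      omega) (by rw [h1, h2])
    simp at h3)
  rw [hx] at g3
  set y := Matrix.toLin' (Matrix.diagonal d) with hy
  have hyr : y ^ r = 1 := by
    rw [hy, ← Matrix.toLin'_pow, hdr', Matrix.toLin'_one]
    rfl
  have hyi : ∀ u v, Cfsg.hermForm n F q (y u) (y v) = Cfsg.hermForm n F q u v := Uni.pres_diagonal d hdq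
  obtain ⟨e0, he0⟩ := q_pow_p hF (p := p)
  have hord := ord_one_of_dvd hF hrq
  have hsd : SelfDualE p r (Uni.conjHom hF) := SelfDual.toE (N := q) ⟨e0, he0⟩ (fun a => rfl) ⟨0, by rw [pow_zero, mul_one]; exact hrq⟩
  have h1 := le_ker_of_types hrp hA hND hsd hyi hyr (by
    intro Q hQ
    have hnd := natDegree_of_mem_cycFac hrp hQ
    rw [hord] at hnd ⊢
    rw [mem_cycFac] at hQ
    have hQ1 := hQ.1.eq_X_add_C hnd
    set a := -(Q.coeff 0) with ha
    have hker : aeval y Q = y - a • 1 := by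
      rw [hQ1, map_add, aeval_X, aeval_C, ha]
      apply LinearMap.ext
      intro v
      rw [LinearMap.add_apply, LinearMap.sub_apply, Module.algebraMap_end_apply, LinearMap.smul_apply, Module.End.one_apply, neg_smul, sub_neg_eq_add]
    have ha1 : a ≠ 1 := by
      intro ha1
      obtain ⟨G, hG⟩ := hQ.2.2
      have h2 := congrArg (eval 1) hG
      rw [eval_mul, eval_one_cyclotomic_prime] at h2
      have h3 : eval 1 Q = 0 := by
        rw [hQ1, eval_add, eval_X, eval_C]
        rw [ha] at ha1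
        linear_combination -ha1
      rw [h3, zero_mul] at h2
      exact natCast_ne_zero_of_ne hr hrp h2
    rw [hker, hy, finrank_ker_diagonal]
    have hsub : Subsingleton {i // d i = a} := by
      constructor
      rintro ⟨i, hi⟩ ⟨j, hj⟩
      apply Subtype.ext
      exact hinj i j (by rw [hi]; exact ha1) (by rw [hi, hj])
    exact Finite.card_le_one_iff_subsingleton.mpr hsub) (fun v hv => g3 ⟨v, hv, rfl⟩) g2
  have h2 := fix_bound hF hrp hA hND hyi hyr h1 g2
  rw [g1] at h2
  have h3 : finrank F (LinearMap.ker (y - 1)) ≤ n - 2 * e := by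
    have h4 : (y - 1 : (Fin n → F) →ₗ[F] (Fin n → F)) = y - (1 : F) • 1 := by rw [one_smul]
    rw [h4, hy, finrank_ker_diagonal, Nat.card_eq_fintype_card, Fintype.card_subtype]
    have h5 : (Finset.univ.filter (fun i : Fin n => d i = 1)) ⊆ Finset.univ.filter (fun i : Fin n => ¬ (i : ℕ) < 2 * e) := by
      intro i hi
      rw [Finset.mem_filter] at hi ⊢
      refine ⟨hi.1, ?_⟩
      intro h6
      have h7 := orderOf_dvd_iff_pow_eq_one.mpr hi.2
      rw [hζ] at h7
      have h8 := Nat.le_of_dvd (by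
        unfold exq
        split_ifs <;> omega) h7
      have := hex i
      omega
    have h6 := Finset.card_le_card h5
    have h7 := Finset.card_filter_add_card_filter_not (s := (Finset.univ : Finset (Fin n))) (fun i : Fin n => (i : ℕ) < 2 * e)
    rw [Finset.card_univ, Fintype.card_fin] at h7
    have h8 : (Finset.univ.filter (fun i : Fin n => (i : ℕ) < 2 * e)).card = 2 * e := by
      have := Fin.card_filter_val_lt (m := 2 * e) (n := n)
      rw [this]
      omega
    omega
  omega


omit [Field F] in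
theorem padic_eq (hF : Fintype.card F = q ^ 2) (hq : 2 ≤ q) (hr2 : r ≠ 2) (hrq : r ∣ q + 1) :
    padicValNat r (Fintype.card F - 1) = padicValNat r (q + 1) ∧ r ∣ Fintype.card F - 1 ∧ Nat.Coprime r (q - 1) := by
  have hr : r.Prime := Fact.out
  have h1 : q ^ 2 - 1 = (q + 1) * (q - 1) := Nat.sq_sub_sq q 1
  have h2 : ¬ r ∣ q - 1 := by
    intro h
    have h3 := (Nat.dvd_sub hrq h)
    have h4 : q + 1 - (q - 1) = 2 := by omega
    rw [h4] at h3
    exact hr2 ((Nat.prime_dvd_prime_iff_eq hr Nat.prime_two).mp h3)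
  rw [hF, h1]
  refine ⟨?_, hrq.mul_right _, (Nat.Prime.coprime_iff_not_dvd hr).mpr h2⟩
  rw [padicValNat.mul (by omega) (by omega), padicValNat.eq_zero_of_not_dvd h2, add_zero]

theorem der_b (hF : Fintype.card F = q ^ 2) (hr2 : r ≠ 2) (hrp : r ≠ p) (hrq : r ∣ q + 1) (hn : 0 < n)
    (hv : padicValNat r (q + 1) < padicValNat r n) (hrm : ¬ r ∣ m)
    (hfix : ∀ x : Matrix.SpecialLinearGroup (Fin n) F, x ∈ Cfsg.SU n F q →
      (∃ z : F, ((x ^ r : Matrix.SpecialLinearGroup (Fin n) F) : Matrix (Fin n) (Fin n) F) = z • (1 : Matrix (Fin n) (Fin n) F)) →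
      (∀ z : F, (x : Matrix (Fin n) (Fin n) F) ≠ z • (1 : Matrix (Fin n) (Fin n) F)) →
      ∃ W : Submodule F (Fin n → F), Module.finrank F ↥W = m ∧ (∀ u ∈ W, ∀ v ∈ W, Cfsg.hermForm n F q u v = 0) ∧
        W.map (Matrix.toLin' (x : Matrix (Fin n) (Fin n) F)) ≤ W) : False := by
  classical
  have hr : r.Prime := Fact.out
  have hq := Uni.two_le_q hF
  have hodd : Odd r := hr.odd_of_ne_two hr2
  obtain ⟨hp1, hp2, hp3⟩ := padic_eq (F := F) hF hq hr2 hrq
  obtain ⟨hrn, z₀, hz₀0, hz₀, hz₀d⟩ := exists_nonpower_of_not_cond (F := F) (r := r) hn hp2 (by rw [hp1]; rintro ⟨h, -⟩; omega)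
  have hsgn : (-1 : F) ^ (r + 1) = 1 := (hodd.add_one).neg_one_pow
  rw [hsgn, one_mul] at hz₀d
  set z := z₀ ^ (q - 1) with hz
  have hcardpow : ∀ a : F, a ≠ 0 → a ^ ((q - 1) * (q + 1)) = 1 := by
    intro a ha
    have h1 : (q - 1) * (q + 1) = Fintype.card F - 1 := by
      rw [hF, mul_comm]
      exact (Nat.sq_sub_sq q 1).symm
    rw [h1]
    exact FiniteField.pow_card_sub_one_eq_one a ha
  have hzq : z ^ (q + 1) = 1 := by rw [hz, ← pow_mul]; exact hcardpow z₀ hz₀0
  have hz0 : z ≠ 0 := pow_ne_zero _ hz₀0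
  have hznp : ∀ w : F, w ^ r ≠ z := by
    intro w hw
    have hw0 : w ≠ 0 := by
      rintro rfl
      rw [zero_pow hr.ne_zero] at hw
      exact hz0 hw.symm
    obtain ⟨t, -, ht⟩ := Nat.exists_mul_mod_eq_one_of_coprime hp3.symm hr.one_lt
    have h4 := Nat.div_add_mod ((q - 1) * t) r
    rw [ht] at h4
    apply hz₀ (w ^ t * (z₀⁻¹) ^ ((q - 1) * t / r))
    have h5 : z₀ * (z₀ ^ ((q - 1) * t / r)) ^ r = z ^ t := by
      rw [← pow_mul, ← pow_succ', hz, ← pow_mul]
      congr 1
      rw [mul_comm ((q - 1) * t / r)]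
      exact h4
    rw [mul_pow, ← pow_mul, mul_comm t, pow_mul, hw, ← h5, mul_assoc, ← mul_pow, inv_pow, mul_inv_cancel₀ (pow_ne_zero _ hz₀0), one_pow, mul_one]
  have hzd : z ^ (n / r) = 1 := by rw [hz, ← pow_mul, mul_comm, pow_mul, hz₀d, one_pow]
  obtain ⟨k, hk⟩ := hrn
  haveI : NeZero r := ⟨hr.ne_zero⟩
  have hcard : Fintype.card (Fin n) = Fintype.card (Fin k × ZMod r) := by
    rw [Fintype.card_fin, Fintype.card_prod, Fintype.card_fin, ZMod.card, hk, mul_comm]
  let e : Fin n ≃ Fin k × ZMod r := Fintype.equivOfCardEq hcard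
  let D : ZMod r → F := fun s => if s = 0 then z else 1
  have hDq : ∀ s, D s ^ (q + 1) = 1 := by
    intro s
    simp only [D]
    split_ifs
    · exact hzq
    · exact one_pow _
  let π : Fin n ≃ Fin n := (e.trans ((Equiv.refl (Fin k)).prodCongr (Equiv.addRight (1 : ZMod r)))).trans e.symm
  have hπ : ∀ i, π i = e.symm ((e i).1, (e i).2 + 1) := fun i => rfl
  let f : (Fin n → F) →ₗ[F] (Fin n → F) :=
    { toFun := fun v i => D (e i).2 * v (π i)
      map_add' := fun u v => by
        funext i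
        rw [Pi.add_apply, Pi.add_apply, mul_add]
      map_smul' := fun a v => by
        funext i
        rw [Pi.smul_apply, Pi.smul_apply, RingHom.id_apply, smul_eq_mul, smul_eq_mul]
        ring }
  have hf : ∀ v i, f v i = D (e i).2 * v (π i) := fun _ _ => rfl
  have hfi : ∀ u v, Cfsg.hermForm n F q (f u) (f v) = Cfsg.hermForm n F q u v := by
    intro u v
    rw [Uni.hermForm_def, Uni.hermForm_def, ← Equiv.sum_comp π (fun i => u i * v i ^ q)]
    apply Finset.sum_congr rfl
    intro i _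
    rw [hf, hf, mul_pow]
    have h1 := hDq (e i).2
    rw [pow_succ'] at h1
    calc D (e i).2 * u (π i) * (D (e i).2 ^ q * v (π i) ^ q) = (D (e i).2 * D (e i).2 ^ q) * (u (π i) * v (π i) ^ q) := by ring
      _ = _ := by rw [h1, one_mul]
  have hfl : ∀ (l : ℕ) v i, (f ^ l) v i = (∏ t ∈ Finset.range l, D ((e i).2 + (t : ZMod r))) * v (e.symm ((e i).1, (e i).2 + (l : ZMod r))) := by
    intro l
    induction l with
    | zero =>
      intro v i
      rw [pow_zero, Finset.range_zero, Finset.prod_empty, one_mul, Nat.cast_zero, add_zero]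
      simp
    | succ l ih =>
      intro v i
      rw [pow_succ', Module.End.mul_apply, hf, ih, hπ, Equiv.apply_symm_apply, Finset.prod_range_succ']
      have h1 : ∏ k_1 ∈ Finset.range l, D ((e i).2 + ((k_1 + 1 : ℕ) : ZMod r)) = ∏ t ∈ Finset.range l, D ((e i).2 + 1 + (t : ZMod r)) := by
        apply Finset.prod_congr rfl
        intro t _
        congr 1
        push_cast
        ring
      rw [h1, Nat.cast_zero, add_zero]
      have h2 : (e i).2 + 1 + (l : ZMod r) = (e i).2 + ((l + 1 : ℕ) : ZMod r) := by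
        push_cast
        ring
      rw [h2]
      ring
  have hfr : f ^ r = z • (1 : (Fin n → F) →ₗ[F] (Fin n → F)) := by
    apply LinearMap.ext
    intro v
    funext i
    rw [hfl, ZMod.natCast_self, add_zero]
    have h1 : ∏ t ∈ Finset.range r, D ((e i).2 + (t : ZMod r)) = z := by
      rw [Finset.prod_eq_single (-(e i).2).val]
      · rw [ZMod.natCast_zmod_val, add_neg_cancel]
        simp only [D, if_true]
      · intro t ht hne
        rw [Finset.mem_range] at ht
        simp only [D]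
        rw [if_neg]
        intro h2
        apply hne
        have h3 : (t : ZMod r) = -(e i).2 := eq_neg_of_add_eq_zero_right h2
        rw [← h3, ZMod.val_natCast, Nat.mod_eq_of_lt ht]
      · intro h
        exact absurd (Finset.mem_range.mpr (ZMod.val_lt _)) h
    rw [h1]
    simp
  obtain ⟨-, hdet⟩ := det_of_nonpower hr z hznp f hfr
  rw [hsgn, one_mul, finrank_fintype_fun_eq_card, Fintype.card_fin, hzd] at hdet
  obtain ⟨x, hx1, hx2⟩ := exists_sl_of_endo f hdet z hfr
  obtain ⟨W, g1, -, g3⟩ := hfix x (by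
    rw [Uni.mem_SU]
    intro u v
    rw [← Matrix.toLin'_apply, ← Matrix.toLin'_apply, hx1]
    exact hfi u v) ⟨z, hx2⟩ (by
    intro c hc
    apply hznp c
    have h3 := hx2
    rw [Matrix.SpecialLinearGroup.coe_pow, hc, _root_.smul_pow, one_pow] at h3
    have h4 := congrFun (congrFun h3 ⟨0, hn⟩) ⟨0, hn⟩
    rw [Matrix.smul_apply, Matrix.smul_apply, Matrix.one_apply_eq, smul_eq_mul, smul_eq_mul, mul_one, mul_one] at h4
    exact h4)
  rw [hx1] at g3
  apply hrm
  rw [← g1]
  exact natDegree_dvd_finrank f r hr.pos z (X_pow_sub_C_irreducible_of_prime hr hznp) hfr W (fun v hv => g3 ⟨v, hv, rfl⟩)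

/-- pairs of equal eigenvalues give isotropic invariant subspaces -/
theorem pairs_sub (hF : Fintype.card F = q ^ 2) (hr : r.Prime) {f : (Fin n → F) →ₗ[F] (Fin n → F)} {v : Fin n → (Fin n → F)} (hON : Uni.IsON q v) {c : Fin n → F}
    (hvc : ∀ i, f (v i) = c i • v i) (hcr : ∀ i, c i ^ r = 1) (m : ℕ) : ∀ s : Finset (Fin n), (r - 1) + 2 * m ≤ s.card →
    ∃ U ≤ Submodule.span F (v '' s), finrank F U = m ∧ (∀ a ∈ U, ∀ b ∈ U, Cfsg.hermForm n F q a b = 0) ∧ ∀ a ∈ U, f a ∈ U := by
  classical
  have hA := herm_eform (n := n) hF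
  induction m with
  | zero =>
    intro s _
    refine ⟨⊥, bot_le, finrank_bot F _, ?_, ?_⟩
    · intro a ha b _
      rw [(Submodule.mem_bot F).mp ha, hA.oform.zero_left]
    · intro a ha
      rw [(Submodule.mem_bot F).mp ha, map_zero]
      exact Submodule.zero_mem _
  | succ m ih =>
    intro s hs
    have hr1 := hr.two_le
    obtain ⟨i, hi, j, hj, hij, hcij⟩ := Finset.exists_ne_map_eq_of_card_lt_of_maps_to (s := s) (t := (nthRoots r (1 : F)).toFinset) (f := c) (by
      have h1 := Multiset.toFinset_card_le (nthRoots r (1 : F))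
      have h2 := card_nthRoots r (1 : F)
      omega) (by
      intro a _
      rw [Finset.mem_coe, Multiset.mem_toFinset, mem_nthRoots hr.pos]
      exact hcr a)
    obtain ⟨a, ha⟩ := Uni.exists_norm_neg_one hF
    set s' := (s.erase i).erase j with hs'
    have hcard : s'.card = s.card - 2 := by
      rw [hs', Finset.card_erase_of_mem (Finset.mem_erase.mpr ⟨hij.symm, hj⟩), Finset.card_erase_of_mem hi]
      omega
    obtain ⟨U', h1, h2, h3, h4⟩ := ih s' (by omega)
    set u₀ := v i + a • v j with hu₀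
    have hperp : ∀ l, l ≠ i → l ≠ j → Cfsg.hermForm n F q u₀ (v l) = 0 := by
      intro l hl1 hl2
      rw [hu₀, hA.add_left, hA.smul_left, hON, hON, if_neg (Ne.symm hl1), if_neg (Ne.symm hl2)]
      ring
    have hself : Cfsg.hermForm n F q u₀ u₀ = 0 := by
      rw [hu₀, hA.add_left, hA.add_right, hA.add_right, hA.smul_left, hA.smul_left, hA.smul_right, hA.smul_right, hON, hON, hON, hON,
        if_pos rfl, if_neg hij, if_neg hij.symm, if_pos rfl, Uni.conjHom_apply]
      rw [pow_succ'] at ha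
      linear_combination ha
    have hsp : ∀ w ∈ Submodule.span F (v '' (s' : Set (Fin n))), Cfsg.hermForm n F q w u₀ = 0 ∧ Cfsg.hermForm n F q w (v i) = 0 := by
      intro w hw
      induction hw using Submodule.span_induction with
      | mem x hx =>
        obtain ⟨l, hl, rfl⟩ := hx
        rw [Finset.mem_coe, hs', Finset.mem_erase, Finset.mem_erase] at hl
        refine ⟨hA.oform.refl _ _ (hperp l hl.2.1 hl.1), ?_⟩
        rw [hON, if_neg hl.2.1]
      | zero => exact ⟨hA.oform.zero_left _, hA.oform.zero_left _⟩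
      | add x y _ _ hx hy => exact ⟨by rw [hA.add_left, hx.1, hy.1, add_zero], by rw [hA.add_left, hx.2, hy.2, add_zero]⟩
      | smul t x _ hx => exact ⟨by rw [hA.smul_left, hx.1, mul_zero], by rw [hA.smul_left, hx.2, mul_zero]⟩
    have hu₀i : Cfsg.hermForm n F q u₀ (v i) = 1 := by
      rw [hu₀, hA.add_left, hA.smul_left, hON, hON, if_pos rfl, if_neg hij.symm, mul_zero, add_zero]
    have hu₀0 : u₀ ≠ 0 := by
      intro h
      rw [h, hA.oform.zero_left] at hu₀i
      exact zero_ne_one hu₀i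
    have hs's : (s' : Set (Fin n)) ⊆ s := by
      intro l hl
      rw [Finset.mem_coe, hs', Finset.mem_erase, Finset.mem_erase] at hl
      exact hl.2.2
    refine ⟨U' ⊔ Submodule.span F {u₀}, ?_, ?_, ?_, ?_⟩
    · apply sup_le (h1.trans (Submodule.span_mono (Set.image_mono hs's)))
      rw [Submodule.span_singleton_le_iff_mem, hu₀]
      apply Submodule.add_mem
      · exact Submodule.subset_span ⟨i, hi, rfl⟩
      · exact Submodule.smul_mem _ _ (Submodule.subset_span ⟨j, hj, rfl⟩)
    · have h8 := Submodule.finrank_sup_add_finrank_inf_eq U' (Submodule.span F {u₀})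
      have h9 : U' ⊓ Submodule.span F {u₀} = ⊥ := by
        rw [eq_bot_iff]
        rintro w ⟨hw1, hw2⟩
        obtain ⟨t, rfl⟩ := Submodule.mem_span_singleton.mp hw2
        have h10 := (hsp _ (h1 hw1)).2
        rw [hA.smul_left, hu₀i, mul_one] at h10
        rw [h10, zero_smul]
        exact Submodule.zero_mem _
      rw [h9, finrank_bot, finrank_span_singleton hu₀0, h2] at h8
      omega
    · apply orth_two' hF hA _ h3
      · intro x hx y hy
        obtain ⟨t, rfl⟩ := Submodule.mem_span_singleton.mp hx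
        obtain ⟨t', rfl⟩ := Submodule.mem_span_singleton.mp hy
        rw [hA.smul_left, hA.smul_right, hself]
        ring
      · intro x hx y hy
        obtain ⟨t', rfl⟩ := Submodule.mem_span_singleton.mp hy
        rw [hA.smul_right, (hsp x (h1 hx)).1, mul_zero]
    · intro x hx
      obtain ⟨b, hb, w, hw, rfl⟩ := Submodule.mem_sup.mp hx
      obtain ⟨t, rfl⟩ := Submodule.mem_span_singleton.mp hw
      rw [map_add]
      apply Submodule.add_mem_sup (h4 b hb)
      rw [map_smul]
      apply Submodule.smul_mem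
      have h10 : f u₀ = c i • u₀ := by
        rw [hu₀, map_add, map_smul, hvc, hvc, ← hcij, smul_add, smul_smul, smul_smul, mul_comm]
      rw [h10]
      exact Submodule.smul_mem _ _ (Submodule.mem_span_singleton_self _)

end

end Cfsg.Agent.H99.UT
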