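import Cfsg.Agent.H99.UniTI3
import Cfsg.Agent.H99.FieldExtA

set_option autoImplicit false
set_option linter.style.haveILetI false
open scoped MatrixGroups
open Cfsg

/-! Isotropic invariant subspaces for elements of unitary groups with non-power scalar (helper99). -/

namespace Cfsg.Agent.H99.UT

open Module Matrix Polynomial Cfsg.Agent.H99

section
universe u
variable {F : Type u} [Field F]

theorem exists_ext {ι : Type} [Fintype ι] [DecidableEq ι] {P : F[X]} (hP : Irreducible P) {M : Matrix ι ι F} (hM : aeval M P = 0) :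
    ∃ (E : Type u) (_ : Field E) (_ : Algebra F E) (φ : E →ₐ[F] Matrix ι ι F) (θ : E), φ θ = M ∧ FiniteDimensional F E ∧
      finrank F E = P.natDegree ∧ (∀ e : E, ∃ f : F[X], e = aeval θ f) ∧ aeval θ P = 0 := by
  have hfact : Fact (Irreducible P) := ⟨hP⟩
  have hP0 : P ≠ 0 := hP.ne_zero
  let φ : AdjoinRoot P →ₐ[F] Matrix ι ι F := Ideal.Quotient.liftₐ (Ideal.span {P}) (aeval M) (by
    intro a ha
    obtain ⟨b, rfl⟩ := Ideal.mem_span_singleton.mp ha
    rw [map_mul, hM, zero_mul])
  refine ⟨AdjoinRoot P, inferInstance, inferInstance, φ, AdjoinRoot.root P, ?_, (AdjoinRoot.powerBasis hP0).finite, ?_, ?_, ?_⟩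
  · have : φ (AdjoinRoot.root P) = aeval M (X : F[X]) := rfl
    rw [this, aeval_X]
  · rw [(AdjoinRoot.powerBasis hP0).finrank, AdjoinRoot.powerBasis_dim]
  · intro e
    obtain ⟨f, rfl⟩ := AdjoinRoot.mk_surjective e
    exact ⟨f, (AdjoinRoot.aeval_eq f).symm⟩
  · rw [AdjoinRoot.aeval_eq, AdjoinRoot.mk_self]

end

section
variable {F E V : Type*} [Field F] [Fintype F] [Field E] [Fintype E] [Algebra F E] [FiniteDimensional F E] [AddCommGroup V] [Module F V] [Module E V]
  [IsScalarTower F E V] {q Q : ℕ}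

/-- the hermitian form over the extension field -/
theorem exists_trace_herm (hF : Fintype.card F = q ^ 2) (hE : Fintype.card E = Q ^ 2) {B : V → V → F} (hB : EForm (Uni.conjHom hF) 1 B)
    (hND : ND B (⊤ : Submodule F V)) (hτ : ∀ a : F, (algebraMap F E a) ^ Q = algebraMap F E (a ^ q))
    (hadj : ∀ (e : E) u v, B u (e • v) = B (e ^ Q • u) v) :
    ∃ g : V → V → E, (∀ (e : E) u v, B (e • u) v = Algebra.trace F E (g u v * e)) ∧ EForm (Uni.conjHom hE) 1 g ∧
      ND g (⊤ : Submodule E V) := by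
  have hex : ∀ u v : V, ∃ c : E, ∀ e : E, B (e • u) v = Algebra.trace F E (c * e) := by
    intro u v
    exact trE_exists F
      { toFun := fun e => B (e • u) v
        map_add' := fun k l => by rw [add_smul, hB.add_left]
        map_smul' := fun c k => by rw [smul_assoc, hB.smul_left]; rfl }
  choose g hg using hex
  have htr : ∀ x : E, (Algebra.trace F E x) ^ q = Algebra.trace F E (x ^ Q) := by
    intro x
    let e₁ : F ≃+* F := RingEquiv.ofBijective (Uni.conjHom hF) (Finite.injective_iff_bijective.mp (Uni.conjHom hF).injective)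
    let e₂ : E ≃+* E := RingEquiv.ofBijective (Uni.conjHom hE) (Finite.injective_iff_bijective.mp (Uni.conjHom hE).injective)
    have h1 := Algebra.trace_eq_of_equiv_equiv e₁ e₂ (by
      ext a
      exact (hτ a).symm) x
    have h2 := congrArg e₁ h1
    rw [RingEquiv.apply_symm_apply] at h2
    exact h2
  refine ⟨g, fun e u v => hg u v e, ⟨?_, ?_, ?_, by ring⟩, ?_⟩
  · intro x y v
    apply trE_ext F
    intro k
    rw [← hg, add_mul, map_add, ← hg, ← hg, smul_add, hB.add_left]
  · intro c x v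
    apply trE_ext F
    intro k
    rw [← hg, smul_smul, hg]
    congr 1
    ring
  · intro x y
    apply trE_ext F
    intro k
    rw [← hg, hB.symm x (k • y), hadj, hg, one_mul, one_mul, Uni.conjHom_apply, Uni.conjHom_apply, htr, mul_pow, ← pow_mul, ← pow_two Q, ← hE, FiniteField.pow_card]
  · intro u _ hu
    apply hND u Submodule.mem_top
    intro v _
    have h1 := hg u v 1
    rw [one_smul, hu v Submodule.mem_top, zero_mul, map_zero] at h1
    exact h1

end

theorem dvd_pow_add {q r : ℕ} (hr : Odd r) (hrq : r ∣ q + 1) : r * (q + 1) ∣ q ^ r + 1 := by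
  have h1 : (∑ i ∈ Finset.range r, (-(q : ℤ)) ^ i) * (-(q : ℤ) - 1) = (-(q : ℤ)) ^ r - 1 := geom_sum_mul _ _
  rw [hr.neg_pow] at h1
  have h2 : (r : ℤ) ∣ ∑ i ∈ Finset.range r, (-(q : ℤ)) ^ i := by
    have h3 : (∑ i ∈ Finset.range r, (-(q : ℤ)) ^ i) ≡ ∑ i ∈ Finset.range r, 1 [ZMOD r] := by
      apply Int.ModEq.sum
      intro i _
      have h4 : (-(q : ℤ)) ≡ 1 [ZMOD r] := by
        apply Int.ModEq.symm
        rw [Int.modEq_iff_dvd]
        have : (-(q : ℤ) - 1) = -((q + 1 : ℕ) : ℤ) := by push_cast; ring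
        rw [this, dvd_neg]
        exact_mod_cast hrq
      have h5 := h4.pow i
      rw [one_pow] at h5
      exact h5
    rw [Finset.sum_const, Finset.card_range, nsmul_eq_mul, mul_one] at h3
    exact (Int.modEq_zero_iff_dvd.mp (h3.trans (Int.modEq_zero_iff_dvd.mpr dvd_rfl)))
  obtain ⟨t, ht⟩ := h2
  have h3 : ((q ^ r + 1 : ℕ) : ℤ) = ((r * (q + 1) : ℕ) : ℤ) * t := by
    push_cast
    rw [ht] at h1
    linear_combination h1
  exact Int.natCast_dvd_natCast.mp ⟨t, h3⟩

section
universe u
variable {F : Type u} [Field F] [Fintype F] {q n : ℕ}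

theorem iso_of_nonpower (hF : Fintype.card F = q ^ 2) {r : ℕ} (hr : r.Prime) (hr2 : r ≠ 2) (hrq : r ∣ q + 1)
    {M : Matrix (Fin n) (Fin n) F} (hM : Uni.Pres q M)
    {z : F} (hz : M ^ r = z • (1 : Matrix (Fin n) (Fin n) F)) (hzn : z ^ (q + 1) = 1) (hnp : ∀ w : F, w ^ r ≠ z) {l : ℕ} (hl : 2 * (r * l) ≤ n) :
    ∃ W : Submodule F (Fin n → F), finrank F W = r * l ∧ (∀ u ∈ W, ∀ v ∈ W, Cfsg.hermForm n F q u v = 0) ∧ ∀ v ∈ W, M *ᵥ v ∈ W := by
  classical
  have hodd : Odd r := hr.odd_of_ne_two hr2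
  have hA := herm_eform (n := n) hF
  have hND := herm_ND (n := n) hF
  have hirr := X_pow_sub_C_irreducible_of_prime hr hnp
  obtain ⟨E, _, _, φ, θ, hθ, hfd, hfr, hgen, hroot⟩ := exists_ext (ι := Fin n) hirr (M := M) (by
    rw [map_sub, map_pow, aeval_X, aeval_C, hz, Algebra.algebraMap_eq_smul_one, sub_self])
  rw [natDegree_X_pow_sub_C] at hfr
  have hEfin : Finite E := Module.finite_of_finite F
  have : Fintype E := Fintype.ofFinite E
  set Q := q ^ r with hQ
  have hcE : Fintype.card E = Q ^ 2 := by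
    have := Module.card_eq_pow_finrank (K := F) (V := E)
    rw [this, hfr, hF, hQ, ← pow_mul, ← pow_mul, mul_comm]
  have hθr : θ ^ r = algebraMap F E z := by
    rw [map_sub, map_pow, aeval_X, aeval_C, sub_eq_zero] at hroot
    exact hroot
  have hθQ : θ ^ Q * θ = 1 := by
    obtain ⟨t, ht⟩ := dvd_pow_add hodd hrq
    rw [← pow_succ, hQ, ht, mul_assoc, pow_mul, hθr, pow_mul, ← map_pow, hzn, map_one, one_pow]
  have hτ : ∀ a : F, (algebraMap F E a) ^ Q = algebraMap F E (a ^ q) := by
    intro a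
    rw [← map_pow]
    congr 1
    obtain ⟨k, hk⟩ := hodd
    rw [hQ, hk, pow_succ', pow_mul, pow_mul, ← hF, FiniteField.pow_card_pow]
  letI := modOf φ
  haveI := modOf_tower φ
  haveI : FiniteDimensional E (Fin n → F) := FiniteDimensional.right F E (Fin n → F)
  have hadj : ∀ (e : E) u v, Cfsg.hermForm n F q u (e • v) = Cfsg.hermForm n F q (e ^ Q • u) v := by
    intro e
    obtain ⟨f, rfl⟩ := hgen e
    induction f using Polynomial.induction_on' with
    | add f g hf hg =>
      intro u v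
      have h1 : (aeval θ f + aeval θ g) ^ Q = (aeval θ f) ^ Q + (aeval θ g) ^ Q := Uni.add_pow_q hcE _ _
      rw [map_add, h1, add_smul, add_smul, hA.add_right, hA.add_left, hf, hg]
    | monomial k a =>
      intro u v
      have hk : ∀ (k : ℕ) (u v : Fin n → F), Cfsg.hermForm n F q u (θ ^ k • v) = Cfsg.hermForm n F q ((θ ^ k) ^ Q • u) v := by
        intro k
        induction k with
        | zero => intro u v; rw [pow_zero, one_pow, one_smul, one_smul]
        | succ k ih =>
          intro u v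
          rw [pow_succ, mul_smul, ih, mul_pow, mul_comm, mul_smul]
          set u' := (θ ^ k) ^ Q • u
          have h2 : ∀ w : Fin n → F, θ • w = M *ᵥ w := fun w => by rw [modOf_smul, hθ]
          rw [h2]
          have h3 : u' = M *ᵥ (θ ^ Q • u') := by
            rw [← h2, smul_smul, mul_comm, hθQ, one_smul]
          nth_rewrite 1 [h3]
          exact hM _ _
      rw [aeval_monomial, mul_smul, mul_pow, mul_smul, hτ, algebraMap_smul, algebraMap_smul, hA.smul_right, hA.smul_left, hk, Uni.conjHom_apply]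
  obtain ⟨g, hg1, hg2, hg3⟩ := exists_trace_herm hF hcE hA hND hτ hadj
  have hdim := Module.finrank_mul_finrank F E (Fin n → F)
  rw [hfr, finrank_fintype_fun_eq_card, Fintype.card_fin] at hdim
  obtain ⟨U, hU1, hU2⟩ := exists_iso_sub_top hcE hg2 hg3 (j := l) (by
    rw [← hdim] at hl
    have h1 : r * (2 * l) ≤ r * finrank E (Fin n → F) := by
      calc r * (2 * l) = 2 * (r * l) := by ring
        _ ≤ _ := hl
    exact Nat.le_of_mul_le_mul_left h1 hr.pos)
  refine ⟨U.restrictScalars F, ?_, ?_, ?_⟩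
  · have h1 := Module.finrank_mul_finrank F E U
    rw [hU2, hfr] at h1
    exact h1.symm
  · intro u hu v hv
    have h1 := hg1 1 u v
    rw [one_smul, hU1 u hu v hv, zero_mul, map_zero] at h1
    exact h1
  · intro v hv
    have h2 : θ • v ∈ U := U.smul_mem θ hv
    rw [modOf_smul, hθ] at h2
    exact h2

end

end Cfsg.Agent.H99.UT
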