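import Cfsg.Agent.H99.UniND1
import Cfsg.Agent.H99.UniTI4
import Cfsg.Agent.H99.UniTI5
import Cfsg.Agent.H99.UniTI6

set_option autoImplicit false
set_option linter.unusedSectionVars false
open scoped MatrixGroups
open Cfsg

namespace Cfsg.Agent.H99.UT

open Module Matrix Polynomial Cfsg.Agent.H99

section
variable {F : Type*} [Field F] [Fintype F] {q n m : ℕ} {p : ℕ} [Fact p.Prime] [CharP F p] {r : ℕ} [Fact r.Prime]

theorem exists_uni_nonpower (hF : Fintype.card F = q ^ 2) (hr2 : r ≠ 2) (hrp : r ≠ p) (hrq : r ∣ q + 1) (hn : 0 < n)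
    (hv : padicValNat r (q + 1) < padicValNat r n) :
    ∃ x : Matrix.SpecialLinearGroup (Fin n) F, x ∈ Cfsg.SU n F q ∧
      (∃ z : F, ((x ^ r : Matrix.SpecialLinearGroup (Fin n) F) : Matrix (Fin n) (Fin n) F) = z • (1 : Matrix (Fin n) (Fin n) F)) ∧
      (∀ z : F, (x : Matrix (Fin n) (Fin n) F) ≠ z • (1 : Matrix (Fin n) (Fin n) F)) ∧
      ∀ W : Submodule F (Fin n → F), W.map (Matrix.toLin' (x : Matrix (Fin n) (Fin n) F)) ≤ W → r ∣ finrank F W := by
  classical
  have hr : r.Prime := Fact.out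
  have hq := Uni.two_le_q hF
  have hodd : Odd r := hr.odd_of_ne_two hr2
  obtain ⟨hp1, hp2, hp3⟩ := padic_eq (F := F) hF hq hr2 hrq
  obtain ⟨hrn, z₀, hz₀0, hz₀, hz₀d⟩ := exists_nonpower_of_not_cond (F := F) (r := r) hn hp2 (by rw [hp1]; rintro ⟨h, -⟩; omega)
  have hsgn : (-1 : F) ^ (r + 1) = 1 := (hodd.add_one).neg_one_pow
  rw [hsgn, one_mul] at hz₀d
  set z := z₀ ^ (q - 1) with hz
  have hcardpow : ∀ a : F, a ≠ 0 → a ^ ((q - 1) * (q + 1)) = 1 := by
    intro a ha
    have h1 : (q - 1) * (q + 1) = Fintype.card F - 1 := by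
      rw [hF, mul_comm]
      exact (Nat.sq_sub_sq q 1).symm
    rw [h1]
    exact FiniteField.pow_card_sub_one_eq_one a ha
  have hzq : z ^ (q + 1) = 1 := by rw [hz, ← pow_mul]; exact hcardpow z₀ hz₀0
  have hz0 : z ≠ 0 := pow_ne_zero _ hz₀0
  have hznp : ∀ w : F, w ^ r ≠ z := by
    intro w hw
    have hw0 : w ≠ 0 := by
      rintro rfl
      rw [zero_pow hr.ne_zero] at hw
      exact hz0 hw.symm
    obtain ⟨t, -, ht⟩ := Nat.exists_mul_mod_eq_one_of_coprime hp3.symm hr.one_lt
    have h4 := Nat.div_add_mod ((q - 1) * t) r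
    rw [ht] at h4
    apply hz₀ (w ^ t * (z₀⁻¹) ^ ((q - 1) * t / r))
    have h5 : z₀ * (z₀ ^ ((q - 1) * t / r)) ^ r = z ^ t := by
      rw [← pow_mul, ← pow_succ', hz, ← pow_mul]
      congr 1
      rw [mul_comm ((q - 1) * t / r)]
      exact h4
    rw [mul_pow, ← pow_mul, mul_comm t, pow_mul, hw, ← h5, mul_assoc, ← mul_pow, inv_pow, mul_inv_cancel₀ (pow_ne_zero _ hz₀0), one_pow, mul_one]
  have hzd : z ^ (n / r) = 1 := by rw [hz, ← pow_mul, mul_comm, pow_mul, hz₀d, one_pow]
  obtain ⟨k, hk⟩ := hrn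
  haveI : NeZero r := ⟨hr.ne_zero⟩
  have hcard : Fintype.card (Fin n) = Fintype.card (Fin k × ZMod r) := by
    rw [Fintype.card_fin, Fintype.card_prod, Fintype.card_fin, ZMod.card, hk, mul_comm]
  let e : Fin n ≃ Fin k × ZMod r := Fintype.equivOfCardEq hcard
  let D : ZMod r → F := fun s => if s = 0 then z else 1
  have hDq : ∀ s, D s ^ (q + 1) = 1 := by
    intro s
    simp only [D]
    split_ifs
    · exact hzq
    · exact one_pow _
  let π : Fin n ≃ Fin n := (e.trans ((Equiv.refl (Fin k)).prodCongr (Equiv.addRight (1 : ZMod r)))).trans e.symm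
  have hπ : ∀ i, π i = e.symm ((e i).1, (e i).2 + 1) := fun i => rfl
  let f : (Fin n → F) →ₗ[F] (Fin n → F) :=
    { toFun := fun v i => D (e i).2 * v (π i)
      map_add' := fun u v => by
        funext i
        rw [Pi.add_apply, Pi.add_apply, mul_add]
      map_smul' := fun a v => by
        funext i
        rw [Pi.smul_apply, Pi.smul_apply, RingHom.id_apply, smul_eq_mul, smul_eq_mul]
        ring }
  have hf : ∀ v i, f v i = D (e i).2 * v (π i) := fun _ _ => rfl
  have hfi : ∀ u v, Cfsg.hermForm n F q (f u) (f v) = Cfsg.hermForm n F q u v := by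
    intro u v
    rw [Uni.hermForm_def, Uni.hermForm_def, ← Equiv.sum_comp π (fun i => u i * v i ^ q)]
    apply Finset.sum_congr rfl
    intro i _
    rw [hf, hf, mul_pow]
    have h1 := hDq (e i).2
    rw [pow_succ'] at h1
    calc D (e i).2 * u (π i) * (D (e i).2 ^ q * v (π i) ^ q) = (D (e i).2 * D (e i).2 ^ q) * (u (π i) * v (π i) ^ q) := by ring
      _ = _ := by rw [h1, one_mul]
  have hfl : ∀ (l : ℕ) v i, (f ^ l) v i = (∏ t ∈ Finset.range l, D ((e i).2 + (t : ZMod r))) * v (e.symm ((e i).1, (e i).2 + (l : ZMod r))) := by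
    intro l
    induction l with
    | zero =>
      intro v i
      rw [pow_zero, Finset.range_zero, Finset.prod_empty, one_mul, Nat.cast_zero, add_zero]
      simp
    | succ l ih =>
      intro v i
      rw [pow_succ', Module.End.mul_apply, hf, ih, hπ, Equiv.apply_symm_apply, Finset.prod_range_succ']
      have h1 : ∏ k_1 ∈ Finset.range l, D ((e i).2 + ((k_1 + 1 : ℕ) : ZMod r)) = ∏ t ∈ Finset.range l, D ((e i).2 + 1 + (t : ZMod r)) := by
        apply Finset.prod_congr rfl
        intro t _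
        congr 1
        push_cast
        ring
      rw [h1, Nat.cast_zero, add_zero]
      have h2 : (e i).2 + 1 + (l : ZMod r) = (e i).2 + ((l + 1 : ℕ) : ZMod r) := by
        push_cast
        ring
      rw [h2]
      ring
  have hfr : f ^ r = z • (1 : (Fin n → F) →ₗ[F] (Fin n → F)) := by
    apply LinearMap.ext
    intro v
    funext i
    rw [hfl, ZMod.natCast_self, add_zero]
    have h1 : ∏ t ∈ Finset.range r, D ((e i).2 + (t : ZMod r)) = z := by
      rw [Finset.prod_eq_single (-(e i).2).val]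
      · rw [ZMod.natCast_zmod_val, add_neg_cancel]
        simp only [D, if_true]
      · intro t ht hne
        rw [Finset.mem_range] at ht
        simp only [D]
        rw [if_neg]
        intro h2
        apply hne
        have h3 : (t : ZMod r) = -(e i).2 := eq_neg_of_add_eq_zero_right h2
        rw [← h3, ZMod.val_natCast, Nat.mod_eq_of_lt ht]
      · intro h
        exact absurd (Finset.mem_range.mpr (ZMod.val_lt _)) h
    rw [h1]
    simp
  obtain ⟨-, hdet⟩ := det_of_nonpower hr z hznp f hfr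
  rw [hsgn, one_mul, finrank_fintype_fun_eq_card, Fintype.card_fin, hzd] at hdet
  obtain ⟨x, hx1, hx2⟩ := exists_sl_of_endo f hdet z hfr
  refine ⟨x, ?_, ⟨z, hx2⟩, ?_, ?_⟩
  · rw [Uni.mem_SU]
    intro u v
    rw [← Matrix.toLin'_apply, ← Matrix.toLin'_apply, hx1]
    exact hfi u v
  · intro c hc
    apply hznp c
    have h3 := hx2
    rw [Matrix.SpecialLinearGroup.coe_pow, hc, _root_.smul_pow, one_pow] at h3
    have h4 := congrFun (congrFun h3 ⟨0, hn⟩) ⟨0, hn⟩
    rw [Matrix.smul_apply, Matrix.smul_apply, Matrix.one_apply_eq, smul_eq_mul, smul_eq_mul, mul_one, mul_one] at h4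
    exact h4
  · intro W g3
    rw [hx1] at g3
    exact natDegree_dvd_finrank f r hr.pos z (X_pow_sub_C_irreducible_of_prime hr hznp) hfr W (fun v hv => g3 ⟨v, hv, rfl⟩)

end

section
universe u
variable {F : Type u} [Field F] [Fintype F] {q n : ℕ}

theorem nd_of_nonpower (hF : Fintype.card F = q ^ 2) {r : ℕ} (hr : r.Prime) (hr2 : r ≠ 2) (hrq : r ∣ q + 1)
    {M : Matrix (Fin n) (Fin n) F} (hM : Uni.Pres q M)
    {z : F} (hz : M ^ r = z • (1 : Matrix (Fin n) (Fin n) F)) (hzn : z ^ (q + 1) = 1) (hnp : ∀ w : F, w ^ r ≠ z) {l : ℕ} (hl : r * l ≤ n) :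
    ∃ W : Submodule F (Fin n → F), finrank F W = r * l ∧ ND (Cfsg.hermForm n F q) W ∧ ∀ v ∈ W, M *ᵥ v ∈ W := by
  classical
  have hodd : Odd r := hr.odd_of_ne_two hr2
  have hA := herm_eform (n := n) hF
  have hND := herm_ND (n := n) hF
  have hirr := X_pow_sub_C_irreducible_of_prime hr hnp
  obtain ⟨E, _, _, φ, θ, hθ, hfd, hfr, hgen, hroot⟩ := exists_ext (ι := Fin n) hirr (M := M) (by
    rw [map_sub, map_pow, aeval_X, aeval_C, hz, Algebra.algebraMap_eq_smul_one, sub_self])
  rw [natDegree_X_pow_sub_C] at hfr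
  have hEfin : Finite E := Module.finite_of_finite F
  have : Fintype E := Fintype.ofFinite E
  set Q := q ^ r with hQ
  have hcE : Fintype.card E = Q ^ 2 := by
    have := Module.card_eq_pow_finrank (K := F) (V := E)
    rw [this, hfr, hF, hQ, ← pow_mul, ← pow_mul, mul_comm]
  have hθr : θ ^ r = algebraMap F E z := by
    rw [map_sub, map_pow, aeval_X, aeval_C, sub_eq_zero] at hroot
    exact hroot
  have hθQ : θ ^ Q * θ = 1 := by
    obtain ⟨t, ht⟩ := dvd_pow_add hodd hrq
    rw [← pow_succ, hQ, ht, mul_assoc, pow_mul, hθr, pow_mul, ← map_pow, hzn, map_one, one_pow]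
  have hτ : ∀ a : F, (algebraMap F E a) ^ Q = algebraMap F E (a ^ q) := by
    intro a
    rw [← map_pow]
    congr 1
    obtain ⟨k, hk⟩ := hodd
    rw [hQ, hk, pow_succ', pow_mul, pow_mul, ← hF, FiniteField.pow_card_pow]
  letI := modOf φ
  haveI := modOf_tower φ
  haveI : FiniteDimensional E (Fin n → F) := FiniteDimensional.right F E (Fin n → F)
  have hadj : ∀ (e : E) u v, Cfsg.hermForm n F q u (e • v) = Cfsg.hermForm n F q (e ^ Q • u) v := by
    intro e
    obtain ⟨f, rfl⟩ := hgen e
    induction f using Polynomial.induction_on' with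
    | add f g hf hg =>
      intro u v
      have h1 : (aeval θ f + aeval θ g) ^ Q = (aeval θ f) ^ Q + (aeval θ g) ^ Q := Uni.add_pow_q hcE _ _
      rw [map_add, h1, add_smul, add_smul, hA.add_right, hA.add_left, hf, hg]
    | monomial k a =>
      intro u v
      have hk : ∀ (k : ℕ) (u v : Fin n → F), Cfsg.hermForm n F q u (θ ^ k • v) = Cfsg.hermForm n F q ((θ ^ k) ^ Q • u) v := by
        intro k
        induction k with
        | zero => intro u v; rw [pow_zero, one_pow, one_smul, one_smul]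
        | succ k ih =>
          intro u v
          rw [pow_succ, mul_smul, ih, mul_pow, mul_comm, mul_smul]
          set u' := (θ ^ k) ^ Q • u
          have h2 : ∀ w : Fin n → F, θ • w = M *ᵥ w := fun w => by rw [modOf_smul, hθ]
          rw [h2]
          have h3 : u' = M *ᵥ (θ ^ Q • u') := by
            rw [← h2, smul_smul, mul_comm, hθQ, one_smul]
          nth_rewrite 1 [h3]
          exact hM _ _
      rw [aeval_monomial, mul_smul, mul_pow, mul_smul, hτ, algebraMap_smul, algebraMap_smul, hA.smul_right, hA.smul_left, hk, Uni.conjHom_apply]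
  obtain ⟨g, hg1, hg2, hg3⟩ := exists_trace_herm hF hcE hA hND hτ hadj
  have hdim := Module.finrank_mul_finrank F E (Fin n → F)
  rw [hfr, finrank_fintype_fun_eq_card, Fintype.card_fin] at hdim
  obtain ⟨U, hU1, hU2⟩ := exists_ND_sub' hcE hg2 hg3 (k := l) (by
    rw [← hdim] at hl
    exact Nat.le_of_mul_le_mul_left hl hr.pos)
  refine ⟨U.restrictScalars F, ?_, ?_, ?_⟩
  · have h1 := Module.finrank_mul_finrank F E U
    rw [hU2, hfr] at h1
    exact h1.symm
  · intro u hu h
    apply hU1 u hu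
    intro v hv
    by_contra hne
    have h1 : ∀ e : E, Algebra.trace F E (g u v * e) = 0 := by
      intro e
      rw [← hg1]
      have hmem : e ^ Q • v ∈ U.restrictScalars F := U.smul_mem (e ^ Q) hv
      have h2 := h (e ^ Q • v) hmem
      rw [hadj, ← pow_mul, ← pow_two, ← hcE, FiniteField.pow_card] at h2
      exact h2
    have h3 := (traceForm_nondegenerate F E).1 (g u v) (fun e => by rw [Algebra.traceForm_apply]; exact h1 e)
    exact hne h3
  · intro v hv
    have h2 : θ • v ∈ U := U.smul_mem θ hv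
    rw [modOf_smul, hθ] at h2
    exact h2

end

end Cfsg.Agent.H99.UT
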