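import Cfsg.Agent.H99.UniND3

set_option autoImplicit false
set_option linter.unusedSectionVars false
open scoped MatrixGroups
open Cfsg

namespace Cfsg.Agent.H99.UT

open Module Matrix Polynomial Cfsg.Agent.H99

section
variable {F : Type*} [Field F] [Fintype F] {p : ℕ} [Fact p.Prime] [CharP F p] {q n m : ℕ}

theorem nd_case_odd (hF : Fintype.card F = q ^ 2) (hn : 0 < n) (hm : 1 ≤ m) (hmn : m ≤ n)
    {r : ℕ} [Fact r.Prime] (hr2 : r ≠ 2) (hrp : r ≠ p) (hrq : ¬ r ∣ q + 1)
    {i b c : ℕ} (hi : i = orderOf (q : ZMod r)) (hb : b = if Even i then i / 2 else i)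
    (hc : c = if i % 4 = 0 then i else if i % 4 = 2 then i / 2 else 2 * i)
    {j₀ : ℕ} (hj0 : 1 ≤ j₀) (hjn : j₀ ≤ n) (hjm : n < j₀ + m) (hj : ((q : ℕ) : ZMod r) ^ j₀ = (-1) ^ j₀) :
    (∀ x : Matrix.SpecialLinearGroup (Fin n) F, x ∈ Cfsg.SU n F q →
      (∃ z : F, ((x ^ r : Matrix.SpecialLinearGroup (Fin n) F) : Matrix (Fin n) (Fin n) F) = z • (1 : Matrix (Fin n) (Fin n) F)) →
      (∀ z : F, (x : Matrix (Fin n) (Fin n) F) ≠ z • (1 : Matrix (Fin n) (Fin n) F)) →
      ∃ W : Submodule F (Fin n → F), Module.finrank F ↥W = m ∧ ND (Cfsg.hermForm n F q) W ∧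
        W.map (Matrix.toLin' (x : Matrix (Fin n) (Fin n) F)) ≤ W) ↔
    (c ≤ m ∧ m % c ≤ n % c) := by
  classical
  have hr : r.Prime := Fact.out
  have hA := herm_eform (n := n) hF
  have hND := herm_ND (n := n) hF
  have hfd : finrank F (Fin n → F) = n := by rw [finrank_fintype_fun_eq_card, Fintype.card_fin]
  have hQ : ¬ r ∣ q := not_dvd_q hF hrp
  have hcb : UBlk r q c := uBlk hr2 hQ hi hb hc
  have hord2 : orderOf ((q ^ 2 : ℕ) : ZMod r) = b := ord_sq hQ hi hb
  have hipos : 0 < i := by rw [hi]; exact orderOf_pos_of_not_dvd hQ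
  have hbpos : 0 < b := by
    rw [← hord2, ← hF]
    exact orderOf_pos_of_not_dvd (prime_not_dvd_card (F := F) hrp)
  have hdiv := blk_div (q := q) hr2 (Uni.q_pos hF) hipos hi hc
  have hcpos : 0 < c := by
    rcases hcb with ⟨-, h⟩ | ⟨-, h⟩ <;> rw [hord2] at h <;> omega
  have hcj : c ∣ j₀ := dvd_of_norm hr2 hi hc hj
  have hdc := Nat.div_add_mod n c
  have hmc := Nat.div_add_mod m c
  have hmodd : n % c < c := Nat.mod_lt _ hcpos
  -- the dimension formula
  have hdim : ∀ (y : (Fin n → F) →ₗ[F] (Fin n → F)), (∀ u v, Cfsg.hermForm n F q (y u) (y v) = Cfsg.hermForm n F q u v) → y ^ r = 1 →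
      ∀ W : Submodule F (Fin n → F), (∀ v ∈ W, y v ∈ W) → ND (Cfsg.hermForm n F q) W →
      ∃ j, finrank F (W ⊓ LinearMap.ker (y - 1) : Submodule F (Fin n → F)) + j * c = finrank F W := by
    intro y hy hyr W hW hWN
    obtain ⟨s1, s2, s3, s4, s5⟩ := split_fixed hrp hA hy hyr hW hWN
    obtain ⟨⟨j, hj⟩, -⟩ := isoBlocks hF hr2 hrp hcb hA hy hyr s2 s3 s4
    refine ⟨j, ?_⟩
    rw [hj] at s5
    rw [mul_comm j]
    exact s5
  constructor
  · intro hfix
    have hkey : m % c ≤ n % c := by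
      by_contra hcon
      push Not at hcon
      obtain ⟨y, hy1, hyr, hy3⟩ := exists_uni_blocks hF hr2 hrp hcb hdiv (n / c) (Fin n → F) (Cfsg.hermForm n F q) hA hND (by
        rw [hfd]; exact Nat.div_mul_le_self _ _)
      rw [hfd] at hy3
      obtain ⟨x, hx, hxy, hxr⟩ := exists_SU_of_isom hF hr hrq hy1 hyr
      have hK : 0 < n / c := Nat.div_pos ((Nat.le_of_dvd (by omega) hcj).trans hjn) hcpos
      have hx1' : x ≠ 1 := by
        rintro rfl
        rw [Matrix.SpecialLinearGroup.coe_one, Matrix.toLin'_one] at hxy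
        have h4 : (y - 1 : (Fin n → F) →ₗ[F] (Fin n → F)) = 0 := by
          rw [← hxy]
          exact sub_self _
        rw [h4, LinearMap.ker_zero, finrank_top, hfd] at hy3
        have := Nat.mul_pos hK hcpos
        omega
      obtain ⟨W, g1, g2, g3⟩ := hfix x hx ⟨1, by rw [hxr, one_smul]; rfl⟩ (uni_not_scalar hF hn hr hrq hx hxr hx1')
      rw [hxy] at g3
      have hWi : ∀ v ∈ W, y v ∈ W := fun v hv => g3 ⟨v, hv, rfl⟩
      obtain ⟨j', hj'⟩ := hdim y hy1 hyr W hWi g2
      have h1 := Submodule.finrank_mono (inf_le_right : W ⊓ LinearMap.ker (y - 1) ≤ LinearMap.ker (y - 1))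
      have h3 : finrank F (LinearMap.ker (y - 1)) = n % c := by
        rw [mul_comm c] at hdc
        omega
      rw [g1] at hj'
      rw [h3] at h1
      have hmod : m % c = finrank F (W ⊓ LinearMap.ker (y - 1) : Submodule F (Fin n → F)) := by
        rw [← hj', Nat.add_mul_mod_self_right, Nat.mod_eq_of_lt (by omega)]
      omega
    refine ⟨?_, hkey⟩
    by_contra hcm
    push Not at hcm
    rw [Nat.mod_eq_of_lt hcm] at hkey
    obtain ⟨t, ht⟩ := hcj
    have h5 : t ≤ n / c := by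
      rw [Nat.le_div_iff_mul_le hcpos, mul_comm, ← ht]
      exact hjn
    have h6 : c * t ≤ c * (n / c) := Nat.mul_le_mul_left c h5
    omega
  · rintro ⟨-, h2⟩ x hx ⟨z, hz⟩ hns
    obtain ⟨w, hw, hwr, hwi⟩ := uni_reduce hF hn hr hrq hx hz
    have hw0 : w ≠ 0 := by
      rintro rfl
      rw [zero_pow (by omega)] at hw
      exact zero_ne_one hw
    set y := w • Matrix.toLin' (x : Matrix (Fin n) (Fin n) F) with hy
    obtain ⟨s1, s2, s3, s4, s5⟩ := split_fixed hrp hA hwi hwr (W := ⊤) (fun _ _ => Submodule.mem_top) hND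
    clear s5
    simp only [top_inf_eq] at s1 s2 s3 s4
    have s5 := Submodule.finrank_add_eq_of_isCompl (isCompl_orth hA.oform s1)
    rw [hfd] at s5
    set C := LinearMap.ker (y - 1) with hC
    set M := orth hA.oform C with hM
    have hCM : Disjoint C M := (ND_iff_disjoint hA.oform C).mp s1
    obtain ⟨⟨k, hk⟩, hblk⟩ := isoBlocks hF hr2 hrp hcb hA hwi hwr s2 s3 s4
    rw [hk] at s5 hblk
    have hconstr : ∀ j, j ≤ k → j * c ≤ m → m - j * c ≤ finrank F C →
        ∃ W : Submodule F (Fin n → F), Module.finrank F ↥W = m ∧ ND (Cfsg.hermForm n F q) W ∧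
          W.map (Matrix.toLin' (x : Matrix (Fin n) (Fin n) F)) ≤ W := by
      intro j hj1 hj2 hj3
      obtain ⟨U, u1, u2, u3, u4⟩ := hblk j (by rw [mul_comm]; exact Nat.mul_le_mul_left c hj1)
      obtain ⟨S, v1, v2, v3⟩ := exists_ND_sub_in hF hA s1 hj3
      refine ⟨S ⊔ U, ?_, ?_, map_le_of_smul hw0 ?_⟩
      · have h8 := Submodule.finrank_sup_add_finrank_inf_eq S U
        rw [disjoint_iff.mp (hCM.mono v1 u1), finrank_bot, v3, u4] at h8
        omega
      · apply ND_sup hA.oform v2 u3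
        intro a ha b hb
        exact hA.oform.refl _ _ ((u1 hb) a (v1 ha))
      · intro v hv
        obtain ⟨a, ha, b, hb, rfl⟩ := Submodule.mem_sup.mp hv
        rw [← hy, map_add]
        apply Submodule.add_mem_sup _ (u2 b hb)
        have h5 := v1 ha
        rw [hC, LinearMap.mem_ker, LinearMap.sub_apply, Module.End.one_apply, sub_eq_zero] at h5
        rw [h5]
        exact ha
    rcases Nat.le_total (m / c) k with h | h
    · apply hconstr (m / c) h (by rw [mul_comm]; omega)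
      have h5 : n % c ≤ finrank F C := by
        have h6 : n % c = (finrank F C + c * k) % c := by rw [s5]
        rw [h6, Nat.add_mul_mod_self_left]
        exact Nat.mod_le _ _
      rw [mul_comm] 
      omega
    · have h3 := Nat.mul_le_mul_left c h
      apply hconstr k le_rfl (by rw [mul_comm]; omega)
      rw [mul_comm]
      omega

theorem nd_i2_back (hF : Fintype.card F = q ^ 2) (hn : 0 < n) {r : ℕ} [Fact r.Prime] (hr2 : r ≠ 2) (hrp : r ≠ p) (hrq : r ∣ q + 1) (hmn : m ≤ n)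
    (h2 : r ∣ m ∨ padicValNat r n ≤ padicValNat r (q + 1))
    {x : Matrix.SpecialLinearGroup (Fin n) F} (hx : x ∈ Cfsg.SU n F q) {z : F}
    (hz : ((x ^ r : Matrix.SpecialLinearGroup (Fin n) F) : Matrix (Fin n) (Fin n) F) = z • (1 : Matrix (Fin n) (Fin n) F)) :
    ∃ W : Submodule F (Fin n → F), Module.finrank F ↥W = m ∧ ND (Cfsg.hermForm n F q) W ∧
        W.map (Matrix.toLin' (x : Matrix (Fin n) (Fin n) F)) ≤ W := by
  classical
  have hr : r.Prime := Fact.out
  have hq := Uni.two_le_q hF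
  have hodd : Odd r := hr.odd_of_ne_two hr2
  obtain ⟨hp1, hp2, hp3⟩ := padic_eq (F := F) hF hq hr2 hrq
  have hpr : Uni.Pres q ((x ^ r : Matrix.SpecialLinearGroup (Fin n) F) : Matrix (Fin n) (Fin n) F) := Subgroup.pow_mem _ hx r
  have hzn := scalar_norm hn hpr hz
  have hz0 : z ≠ 0 := by
    rintro rfl
    rw [zero_pow (by omega)] at hzn
    exact zero_ne_one hzn
  have hsgn : (-1 : F) ^ (r + 1) = 1 := (hodd.add_one).neg_one_pow
  rw [Matrix.SpecialLinearGroup.coe_pow] at hz
  by_cases hw : ∃ w : F, w ^ r = z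
  · obtain ⟨w, hw⟩ := hw
    have hw0 : w ≠ 0 := by
      rintro rfl
      rw [zero_pow hr.ne_zero] at hw
      exact hz0 hw.symm
    have hwq : w ^ (q + 1) = 1 := by
      have h3 : (w ^ (q + 1)) ^ r = 1 := by rw [← pow_mul, mul_comm, pow_mul, hw, hzn]
      have h4 : (w ^ (q + 1)) ^ (q - 1) = 1 := by
        have h5 : (q + 1) * (q - 1) = Fintype.card F - 1 := by
          rw [hF]
          exact (Nat.sq_sub_sq q 1).symm
        rw [← pow_mul, h5]
        exact FiniteField.pow_card_sub_one_eq_one w hw0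
      have h5 := pow_gcd_eq_one.mpr ⟨h3, h4⟩
      rw [hp3, pow_one] at h5
      exact h5
    set M : Matrix (Fin n) (Fin n) F := w⁻¹ • (x : Matrix (Fin n) (Fin n) F) with hM
    have hMp : Uni.Pres q M := by
      intro u v
      rw [hM, Matrix.smul_mulVec, Matrix.smul_mulVec, Uni.hermForm_smul_left, Uni.hermForm_smul_right, (Uni.mem_SU.mp hx) u v, inv_pow]
      rw [pow_succ'] at hwq
      have h3 : w⁻¹ * (w ^ q)⁻¹ = 1 := by rw [← mul_inv, hwq, inv_one]
      rw [← mul_assoc, h3, one_mul]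
    have hMr : M ^ r = 1 := by
      rw [hM, _root_.smul_pow, hz, smul_smul, inv_pow, hw, inv_mul_cancel₀ hz0, one_smul]
    obtain ⟨v, c, hON, hvc, -⟩ := exists_ON_eigen hF hrp hrq hMp hMr m hmn
    refine ⟨Submodule.span F (Set.range v), ?_, ?_, map_le_of_smul (inv_ne_zero hw0) (f := Matrix.toLin' (x : Matrix (Fin n) (Fin n) F)) ?_⟩
    · rw [finrank_span_eq_card (hON.linearIndependent hF), Fintype.card_fin]
    · intro u hu h
      exact nd_span_ON hF hON u hu h
    · intro u hu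
      have hle : (Submodule.span F (Set.range v)) ≤ (Submodule.span F (Set.range v)).comap (w⁻¹ • Matrix.toLin' (x : Matrix (Fin n) (Fin n) F)) := by
        rw [Submodule.span_le]
        rintro _ ⟨i, rfl⟩
        have h5 : (w⁻¹ • Matrix.toLin' (x : Matrix (Fin n) (Fin n) F)) (v i) = c i • v i := by
          rw [← hvc i, hM, LinearMap.smul_apply, Matrix.toLin'_apply, Matrix.smul_mulVec]
        change (w⁻¹ • Matrix.toLin' (x : Matrix (Fin n) (Fin n) F)) (v i) ∈ Submodule.span F (Set.range v)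
        rw [h5]
        exact Submodule.smul_mem _ _ (Submodule.subset_span ⟨i, rfl⟩)
      exact hle hu
  · push Not at hw
    have hf : (Matrix.toLin' (x : Matrix (Fin n) (Fin n) F)) ^ r = z • (1 : (Fin n → F) →ₗ[F] (Fin n → F)) := toLin_pow_eq hz
    obtain ⟨hrn, hdet⟩ := det_of_nonpower hr z hw _ hf
    rw [LinearMap.det_toLin', Matrix.SpecialLinearGroup.det_coe, finrank_fintype_fun_eq_card, Fintype.card_fin] at hdet
    rw [finrank_fintype_fun_eq_card, Fintype.card_fin] at hrn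
    rcases h2 with h2 | h2
    · obtain ⟨l, rfl⟩ := h2
      obtain ⟨W, g1, g2, g3⟩ := nd_of_nonpower hF hr hr2 hrq (Uni.mem_SU.mp hx) hz hzn hw hmn
      refine ⟨W, g1, g2, ?_⟩
      rintro _ ⟨v, hv, rfl⟩
      exact g3 v hv
    · exfalso
      exact no_nonpower_of_cond (F := F) (r := r) hn hrn hp2 ⟨by rw [hp1]; exact h2, fun h => absurd h hr2⟩ z hz0 hw hdet.symm

end

end Cfsg.Agent.H99.UT
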