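import Cfsg.Agent.H99.UniND3
import Cfsg.Agent.H99.SympUnip
import Cfsg.Agent.H99.SympInvol

set_option autoImplicit false
set_option linter.unusedSectionVars false
open scoped MatrixGroups
open Cfsg

namespace Cfsg.Agent.H99.UT

open Module Matrix Polynomial Cfsg.Agent.H99

universe u

section
variable {F : Type u} [Field F] [Fintype F] {q n m : ℕ}

theorem uni_unip_decomp (hF : Fintype.card F = q ^ 2) {V : Type*} [AddCommGroup V] [Module F V] [FiniteDimensional F V] {B : V → V → F}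
    (hE : EForm (Uni.conjHom hF) 1 B) (hND : ND B (⊤ : Submodule F V)) {x : V →ₗ[F] V} (hx : ∀ u v, B (x u) (x v) = B u v) {P : ℕ}
    {W : Submodule F V} (hW : ∀ v ∈ W, x v ∈ W) (hWN : ND B W) (hP : (x - 1) ^ P = 0) :
    ∃ μ : Multiset ℕ, (∀ a ∈ μ, a ≤ P) ∧ JT (x - 1) W μ ∧
      ∀ ν ≤ μ, ∃ U ≤ W, (∀ v ∈ U, x v ∈ U) ∧ ND B U ∧ JT (x - 1) U ν := by
  obtain ⟨c, hc⟩ := Uni.exists_pow_q_ne hF
  obtain ⟨μ, h3, -, h5, h6⟩ := exists_unip_decomp hE (isom_injective hE.oform hND x hx) hx (P := P) (fun _ => True) (by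
    intro W n _ _ _ _ h u hu w hw
    set N := (x - 1 : V →ₗ[F] V) ^ (n - 1) with hN
    have h1 := h (u + w) (W.add_mem hu hw)
    rw [map_add, hE.add_left, hE.add_right, hE.add_right, h u hu, h w hw] at h1
    have h2 := h (u + c • w) (W.add_mem hu (W.smul_mem c hw))
    rw [map_add, map_smul, hE.add_left, hE.add_right, hE.add_right, hE.smul_left, hE.smul_left, hE.smul_right, hE.smul_right, h u hu, h w hw, Uni.conjHom_apply] at h2
    have h3 : (c ^ q - c) * B u (N w) = 0 := by linear_combination h2 - c * h1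
    exact (mul_eq_zero.mp h3).resolve_left (sub_ne_zero.mpr hc)) (by
    intro W n _ _ _ h
    exact absurd trivial h) (finrank F W) W hW hWN (fun v _ => by rw [hP]; rfl) rfl
  exact ⟨μ, h3, h5, fun ν hν => h6 ν hν (fun a ha => absurd trivial ha)⟩

theorem exists_uni_jordan (hF : Fintype.card F = q ^ 2) (h2 : (2 : F) ≠ 0) (μ : Multiset ℕ) (hpos : ∀ a ∈ μ, 0 < a) (hsum : μ.sum = n)
    {P : ℕ} (hP : ∀ a ∈ μ, a ≤ P) :
    ∃ x : (Fin n → F) →ₗ[F] (Fin n → F), (∀ u v, Cfsg.hermForm n F q (x u) (x v) = Cfsg.hermForm n F q u v) ∧ (x - 1) ^ P = 0 ∧ JT (x - 1) ⊤ μ := by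
  have hσσ : ∀ a, Uni.conjHom hF (Uni.conjHom hF a) = a := fun a => Uni.pow_q_pow_q hF a
  have hm : SModel (Uni.conjHom hF) 1 μ := by
    apply exists_smodel (by simp) hσσ (by ring) (fun _ => True) _ (Multiset.card μ) μ rfl hpos
    · intro a ha
      exact absurd trivial ha
    · intro n hn _
      have h3 := smodel_base (σ := Uni.conjHom hF) hσσ n hn
      rcases Nat.even_or_odd (n - 1) with h4 | h4
      · rwa [h4.neg_one_pow] at h3
      · rw [h4.neg_one_pow] at h3
        obtain ⟨c, hc0, hc⟩ := Uni.exists_skew hF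
        exact h3.scale hc0 (by rw [Uni.conjHom_apply, hc]; ring) (by ring)
  obtain ⟨W, _, _, _, B, T, hE, hN, hs, hJ⟩ := hm
  obtain ⟨x, h3, h4, h5⟩ := exists_cayley hE h2 hs (hJ.pow_eq_zero hP)
  have h6 := h5 μ hJ
  have hdim : finrank F W = n := by
    rw [← finrank_top F W, hJ.finrank_eq, hsum]
  obtain ⟨E, hE'⟩ := exists_herm_std hF hE hN hdim
  refine ⟨E.symm.toLinearMap ∘ₗ x ∘ₗ E.toLinearMap, ?_, ?_, ?_⟩
  · intro u v
    rw [← hE', ← hE']
    simp [h3]
  · have h7 : ∀ (k : ℕ) v, ((E.symm.toLinearMap ∘ₗ x ∘ₗ E.toLinearMap - 1 : (Fin n → F) →ₗ[F] (Fin n → F)) ^ k) v = E.symm (((x - 1) ^ k) (E v)) := by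
      intro k v
      induction k with
      | zero => simp
      | succ k ih =>
        rw [pow_succ', Module.End.mul_apply, ih, pow_succ', Module.End.mul_apply]
        simp
    ext1 v
    ext1
    rw [LinearMap.comp_apply, LinearMap.comp_apply, h7, h4]
    simp
  · apply h6.transfer E.symm
    intro v
    simp

theorem two_mul_le_of_ND {V : Type*} [AddCommGroup V] [Module F V] [FiniteDimensional F V] {σ : F →+* F} {ε : F} {B : V → V → F} (hA : EForm σ ε B)
    {W K : Submodule F V} (hW : ND B W) (hK : K ≤ W) (hKi : ∀ u ∈ K, ∀ v ∈ K, B u v = 0) : 2 * finrank F K ≤ finrank F W := by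
  have h := (hA.restrict W).two_mul_finrank_le (by
    intro u _ hu
    apply Subtype.ext
    exact hW u u.2 (fun v hv => hu ⟨v, hv⟩ Submodule.mem_top)) (K.comap W.subtype) (fun u hu v hv => hKi u hu v hv)
  have h2 : finrank F (K.comap W.subtype) = finrank F K := by
    rw [← Submodule.finrank_map_subtype_eq, Submodule.map_comap_subtype, inf_eq_right.mpr hK]
  rwa [h2] at h

variable {p : ℕ} [Fact p.Prime] [CharP F p]

theorem not_dvd_q_add (hF : Fintype.card F = q ^ 2) : ¬ p ∣ q + 1 := by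
  have hp : p.Prime := Fact.out
  obtain ⟨e, he⟩ := q_pow_p hF (p := p)
  have hq := Uni.two_le_q hF
  have h1 : p ∣ q := by
    rw [he]
    apply dvd_pow_self
    rintro rfl
    rw [pow_zero] at he
    omega
  intro h
  have := (Nat.dvd_add_right h1).mp h
  exact hp.one_lt.ne' (Nat.dvd_one.mp this)

theorem sub_one_pow_char {V : Type*} [AddCommGroup V] [Module F V] [Nontrivial V] (y : V →ₗ[F] V) : (y - 1) ^ p = y ^ p - 1 := by
  have : CharP (V →ₗ[F] V) p := charP_of_injective_algebraMap (algebraMap F (V →ₗ[F] V)).injective p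
  rw [sub_pow_char_of_commute p (Commute.one_right y), one_pow]

theorem nd_case_p (hF : Fintype.card F = q ^ 2) (h2F : (2 : F) ≠ 0) (hn : 0 < n) (hmn : m ≤ n) :
    (∀ x : Matrix.SpecialLinearGroup (Fin n) F, x ∈ Cfsg.SU n F q →
      (∃ z : F, ((x ^ p : Matrix.SpecialLinearGroup (Fin n) F) : Matrix (Fin n) (Fin n) F) = z • (1 : Matrix (Fin n) (Fin n) F)) →
      (∀ z : F, (x : Matrix (Fin n) (Fin n) F) ≠ z • (1 : Matrix (Fin n) (Fin n) F)) →
      ∃ W : Submodule F (Fin n → F), Module.finrank F ↥W = m ∧ ND (Cfsg.hermForm n F q) W ∧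
        W.map (Matrix.toLin' (x : Matrix (Fin n) (Fin n) F)) ≤ W) ↔
    (∀ μ : Multiset ℕ, (∀ a ∈ μ, 0 < a ∧ a ≤ p) → μ.sum = n → ∃ ν : Multiset ℕ, ν ≤ μ ∧ ν.sum = m) := by
  classical
  have hp : p.Prime := Fact.out
  have hA := herm_eform (n := n) hF
  have hND := herm_ND (n := n) hF
  have hfd : finrank F (Fin n → F) = n := by rw [finrank_fintype_fun_eq_card, Fintype.card_fin]
  have hpq := not_dvd_q_add (p := p) hF
  haveI : Nonempty (Fin n) := ⟨⟨0, hn⟩⟩
  have hpw : ∀ y : (Fin n → F) →ₗ[F] (Fin n → F), (y - 1) ^ p = y ^ p - 1 := fun y => sub_one_pow_char y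
  constructor
  · intro hfix μ hμ1 hμ3
    by_cases hall : ∀ a ∈ μ, a = 1
    · refine ⟨Multiset.replicate m 1, ?_, by rw [Multiset.sum_replicate, smul_eq_mul, mul_one]⟩
      rw [← Multiset.le_count_iff_replicate_le]
      have h1 := Multiset.eq_replicate_of_mem hall
      rw [h1, Multiset.sum_replicate, smul_eq_mul, mul_one] at hμ3
      rw [h1, Multiset.count_replicate_self, hμ3]
      exact hmn
    · push Not at hall
      obtain ⟨a, ha, ha1⟩ := hall
      obtain ⟨y, k0, k1, k2⟩ := exists_uni_jordan (n := n) hF h2F μ (fun a ha => (hμ1 a ha).1) hμ3 (P := p) (fun a ha => (hμ1 a ha).2)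
      have hyp : y ^ p = 1 := by
        rw [hpw] at k1
        exact sub_eq_zero.mp k1
      obtain ⟨x, hx, hxy, hxr⟩ := exists_SU_of_isom hF hp hpq k0 hyp
      have hx1 : x ≠ 1 := by
        rintro rfl
        rw [Matrix.SpecialLinearGroup.coe_one, Matrix.toLin'_one] at hxy
        have h3 := k2.2 1
        have h4 : (y - 1 : (Fin n → F) →ₗ[F] (Fin n → F)) = 0 := by
          rw [← hxy]
          exact sub_self _
        rw [h4, pow_one, Submodule.map_zero, finrank_bot] at h3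
        have h5 := Multiset.sum_eq_zero_iff.mp h3.symm (a - 1) (Multiset.mem_map_of_mem _ ha)
        have := (hμ1 a ha).1
        omega
      obtain ⟨W, g1, g2, g3⟩ := hfix x hx ⟨1, by rw [hxr, one_smul]; rfl⟩ (uni_not_scalar hF hn hp hpq hx hxr hx1)
      rw [hxy] at g3
      have hWi : ∀ v ∈ W, y v ∈ W := fun v hv => g3 ⟨v, hv, rfl⟩
      have hinj := isom_injective hA.oform hND y k0
      have hWi' := orth_inv_of_isom hA.oform hinj k0 hWi
      have h1 := split_ND_compl hA.oform hND g2 le_top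
      have h2 := split_disjoint hA.oform g2 (W := ⊤)
      have h3 := split_ND hA.oform g2 (le_top : W ≤ ⊤)
      rw [top_inf_eq] at h1 h2 h3
      obtain ⟨μ₁, -, s2, -⟩ := uni_unip_decomp hF hA hND k0 hWi g2 k1
      obtain ⟨μ₂, -, t2, -⟩ := uni_unip_decomp hF hA hND k0 hWi' h1 k1
      have h4 := JT.add (fun v hv => W.sub_mem (hWi v hv) hv) (fun v hv => Submodule.sub_mem _ (hWi' v hv) hv) h2 s2 t2
      rw [h3] at h4
      have h5 := k2.unique h4
      refine ⟨μ₁, ?_, ?_⟩
      · rw [h5]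
        exact Multiset.le_add_right _ _
      · rw [← s2.finrank_eq, g1]
  · intro h x hx ⟨z, hz⟩ _
    obtain ⟨w, hw, hwr, hwi⟩ := uni_reduce hF hn hp hpq hx hz
    have hw0 : w ≠ 0 := by
      rintro rfl
      rw [zero_pow (by omega)] at hw
      exact zero_ne_one hw
    set y := w • Matrix.toLin' (x : Matrix (Fin n) (Fin n) F) with hy
    obtain ⟨μ, k1, k3, k4⟩ := uni_unip_decomp hF hA hND hwi (W := ⊤) (fun _ _ => Submodule.mem_top) hND (P := p) (by rw [hpw, hwr, sub_self])
    obtain ⟨ν, n1, n2⟩ := h μ (fun a ha => ⟨k3.1 a ha, k1 a ha⟩) (by rw [← k3.finrank_eq, finrank_top, hfd])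
    obtain ⟨U, -, g1, g2, g3⟩ := k4 ν n1
    exact ⟨U, by rw [g3.finrank_eq, n2], g2, map_le_of_smul hw0 g1⟩

theorem exists_sub_two {μ : Multiset ℕ} (hμ : ∀ a ∈ μ, 0 < a ∧ a ≤ 2) (hmn : m ≤ μ.sum) (h : Odd μ.sum ∨ Even m) :
    ∃ ν ≤ μ, ν.sum = m := by
  have h1 : μ = Multiset.replicate (μ.count 2) 2 + Multiset.replicate (μ.count 1) 1 := by
    ext a
    rw [Multiset.count_add, Multiset.count_replicate, Multiset.count_replicate]
    by_cases h2 : a = 2
    · subst h2; simp
    · by_cases h3 : a = 1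
      · subst h3; simp
      · rw [if_neg (Ne.symm h2), if_neg (Ne.symm h3), Multiset.count_eq_zero]
        intro h4
        have := hμ a h4
        omega
  set a := μ.count 2 with ha
  set b := μ.count 1 with hb
  have h2 : μ.sum = 2 * a + b := by
    rw [h1, Multiset.sum_add, Multiset.sum_replicate, Multiset.sum_replicate, smul_eq_mul, smul_eq_mul, mul_one, mul_comm]
  rw [h2] at hmn h
  obtain ⟨k, l, hk, hl, hkl⟩ : ∃ k l, k ≤ a ∧ l ≤ b ∧ 2 * k + l = m := by
    rcases Nat.even_or_odd m with h3 | h3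
    · obtain ⟨j, hj⟩ := h3
      rcases Nat.le_total j a with h4 | h4
      · exact ⟨j, 0, h4, by omega, by omega⟩
      · exact ⟨a, m - 2 * a, le_rfl, by omega, by omega⟩
    · have h5 : Odd (2 * a + b) := h.resolve_right (Nat.not_even_iff_odd.mpr h3)
      rw [Nat.odd_iff] at h5
      obtain ⟨j, hj⟩ := h3
      rcases Nat.le_total j a with h4 | h4
      · exact ⟨j, 1, h4, by omega, by omega⟩
      · exact ⟨a, m - 2 * a, le_rfl, by omega, by omega⟩
  refine ⟨Multiset.replicate k 2 + Multiset.replicate l 1, ?_, ?_⟩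
  · rw [h1]
    exact add_le_add (Multiset.replicate_mono 2 hk) (Multiset.replicate_mono 1 hl)
  · rw [Multiset.sum_add, Multiset.sum_replicate, Multiset.sum_replicate, smul_eq_mul, smul_eq_mul, mul_one, mul_comm, hkl]

theorem nd_case_p2 [CharP F 2] (hF : Fintype.card F = q ^ 2) (hn : 3 ≤ n) (hmn : m ≤ n) :
    (∀ x : Matrix.SpecialLinearGroup (Fin n) F, x ∈ Cfsg.SU n F q →
      (∃ z : F, ((x ^ 2 : Matrix.SpecialLinearGroup (Fin n) F) : Matrix (Fin n) (Fin n) F) = z • (1 : Matrix (Fin n) (Fin n) F)) →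
      (∀ z : F, (x : Matrix (Fin n) (Fin n) F) ≠ z • (1 : Matrix (Fin n) (Fin n) F)) →
      ∃ W : Submodule F (Fin n → F), Module.finrank F ↥W = m ∧ ND (Cfsg.hermForm n F q) W ∧
        W.map (Matrix.toLin' (x : Matrix (Fin n) (Fin n) F)) ≤ W) ↔
    (Odd n ∨ Even m) := by
  classical
  have hp : Nat.Prime 2 := Nat.prime_two
  haveI : Fact (Nat.Prime 2) := ⟨hp⟩
  have hA := herm_eform (n := n) hF
  have hND := herm_ND (n := n) hF
  have hfd : finrank F (Fin n → F) = n := by rw [finrank_fintype_fun_eq_card, Fintype.card_fin]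
  have hpq := not_dvd_q_add (p := 2) hF
  haveI : Nonempty (Fin n) := ⟨⟨0, by omega⟩⟩
  have hpw : ∀ y : (Fin n → F) →ₗ[F] (Fin n → F), (y - 1) ^ 2 = y ^ 2 - 1 := fun y => sub_one_pow_char y
  constructor
  · intro hfix
    by_contra hcon
    push Not at hcon
    obtain ⟨hc1, hc2⟩ := hcon
    obtain ⟨n', hn'⟩ := Nat.not_odd_iff_even.mp (fun h => hc1 h)
    let f : (Fin n → F) →ₗ[F] (Fin n → F) := LinearMap.funLeft F F Fin.rev
    have hf : ∀ v i, f v i = v (Fin.rev i) := fun _ _ => rfl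
    have hff : f ^ 2 = 1 := by
      apply LinearMap.ext
      intro v
      funext i
      rw [pow_two, Module.End.mul_apply, hf, hf, Fin.rev_rev]
      rfl
    have hfB : ∀ u v, Cfsg.hermForm n F q (f u) (f v) = Cfsg.hermForm n F q u v := by
      intro u v
      rw [Uni.hermForm_def, Uni.hermForm_def, ← Equiv.sum_comp Fin.revPerm (fun i => u i * v i ^ q)]
      rfl
    have hfix0 : ∀ u ∈ LinearMap.ker (f - 1), ∀ v ∈ LinearMap.ker (f - 1), Cfsg.hermForm n F q u v = 0 := by
      intro u hu v hv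
      rw [mem_eig_pos] at hu hv
      have hu' : ∀ i, u (Fin.rev i) = u i := fun i => congrFun hu i
      have hv' : ∀ i, v (Fin.rev i) = v i := fun i => congrFun hv i
      rw [Uni.hermForm_def]
      apply Finset.sum_involution (fun i _ => Fin.rev i)
      · intro i _
        rw [hu', hv', ← two_mul, CharTwo.two_eq_zero, zero_mul]
      · intro i _ _ h
        have h1 := congrArg Fin.val h
        rw [Fin.val_rev] at h1
        have := i.2
        omega
      · intro i _
        exact Finset.mem_univ _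
      · intro i _
        exact Fin.rev_rev i
    obtain ⟨x, hx, hxy, hxr⟩ := exists_SU_of_isom hF hp hpq hfB hff
    have hx1 : x ≠ 1 := by
      rintro rfl
      rw [Matrix.SpecialLinearGroup.coe_one, Matrix.toLin'_one] at hxy
      have h1 := congrFun (LinearMap.congr_fun hxy (Pi.single ⟨0, by omega⟩ 1)) ⟨0, by omega⟩
      rw [hf, LinearMap.id_apply, Pi.single_eq_same, Pi.single_eq_of_ne] at h1
      · exact one_ne_zero h1
      · intro h
        have h1 := congrArg Fin.val h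
        rw [Fin.val_rev] at h1
        simp only at h1
        omega
    obtain ⟨W, g1, g2, g3⟩ := hfix x hx ⟨1, by rw [hxr, one_smul]; rfl⟩ (uni_not_scalar hF (by omega) hp hpq hx hxr hx1)
    rw [hxy] at g3
    have hWi : ∀ v ∈ W, f v ∈ W := fun v hv => g3 ⟨v, hv, rfl⟩
    have h1 := two_mul_le_of_ND hA g2 (K := W ⊓ LinearMap.ker (f - 1)) inf_le_left (fun u hu v hv => hfix0 u hu.2 v hv.2)
    have h2 := finrank_map_add_inf_ker (f - 1) W
    have h3 : W.map (f - 1) ≤ W ⊓ LinearMap.ker (f - 1) := by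
      rintro _ ⟨v, hv, rfl⟩
      refine ⟨W.sub_mem (hWi v hv) hv, ?_⟩
      change (f - 1) ((f - 1) v) = 0
      rw [← Module.End.mul_apply, ← pow_two, hpw, hff, sub_self, LinearMap.zero_apply]
    have h4 := Submodule.finrank_mono h3
    apply hc2
    exact ⟨finrank F (W ⊓ LinearMap.ker (f - 1) : Submodule F (Fin n → F)), by omega⟩
  · intro h x hx ⟨z, hz⟩ _
    obtain ⟨w, hw, hwr, hwi⟩ := uni_reduce hF (by omega) hp hpq hx hz
    have hw0 : w ≠ 0 := by
      rintro rfl
      rw [zero_pow (by omega)] at hw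
      exact zero_ne_one hw
    set y := w • Matrix.toLin' (x : Matrix (Fin n) (Fin n) F) with hy
    obtain ⟨μ, k1, k3, k4⟩ := uni_unip_decomp hF hA hND hwi (W := ⊤) (fun _ _ => Submodule.mem_top) hND (P := 2) (by rw [hpw, hwr, sub_self])
    have hsum : μ.sum = n := by rw [← k3.finrank_eq, finrank_top, hfd]
    obtain ⟨ν, n1, n2⟩ := exists_sub_two (m := m) (fun a ha => ⟨k3.1 a ha, k1 a ha⟩) (by rw [hsum]; exact hmn) (by rw [hsum]; exact h)
    obtain ⟨U, -, g1, g2, g3⟩ := k4 ν n1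
    exact ⟨U, by rw [g3.finrank_eq, n2], g2, map_le_of_smul hw0 g1⟩

end

end Cfsg.Agent.H99.UT
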