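import Mathlib
import Cfsg.Agent.H99.UniElt
import Cfsg.Agent.H99.IsoTypes
import Cfsg.Agent.H98.UniSim
import Cfsg.Agent.Uni.IsoCount

set_option autoImplicit false
set_option linter.unusedVariables false
set_option linter.style.haveILetI false

/-! Isometries of odd prime order of hermitian spaces (helper99). -/

namespace Cfsg.Agent.H99.UT

open Module Polynomial Cfsg.Agent.H99

section
variable {F : Type*} [Field F] [Fintype F] {q n : ℕ}

theorem herm_eform (hF : Fintype.card F = q ^ 2) : EForm (Uni.conjHom hF) 1 (Cfsg.hermForm n F q) where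
  add_left := fun x y v => Uni.hermForm_add_left x y v
  smul_left := fun c x v => Uni.hermForm_smul_left c x v
  symm := fun x y => by
    rw [Uni.conjHom_apply, one_mul]
    exact (Uni.hermForm_symm hF x y).symm
  eps := by ring

theorem herm_ND (hF : Fintype.card F = q ^ 2) : ND (Cfsg.hermForm n F q) (⊤ : Submodule F (Fin n → F)) :=
  Uni.nd_top hF

theorem q_pow_p (hF : Fintype.card F = q ^ 2) {p : ℕ} [Fact p.Prime] [CharP F p] : ∃ e, q = p ^ e := by
  obtain ⟨m, hp, hm⟩ := FiniteField.card F p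
  rw [hF] at hm
  obtain ⟨k, -, hk⟩ := (Nat.dvd_prime_pow hp).mp (Dvd.intro (q) (by rw [← pow_two]; exact hm))
  exact ⟨k, hk⟩

/-- a non-degenerate hermitian space is standard -/
theorem exists_herm_std (hF : Fintype.card F = q ^ 2) {V : Type*} [AddCommGroup V] [Module F V] [FiniteDimensional F V] {B : V → V → F}
    (hB : EForm (Uni.conjHom hF) 1 B) (hND : ND B (⊤ : Submodule F V)) (hd : finrank F V = n) :
    ∃ T : (Fin n → F) ≃ₗ[F] V, ∀ u v, B (T u) (T v) = Cfsg.hermForm n F q u v := by
  classical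
  let T₀ : (Fin n → F) ≃ₗ[F] V := (finBasisOfFinrankEq F V hd).equivFun.symm
  let σ : F ≃+* F := RingEquiv.ofBijective (Uni.conjHom hF) (Finite.injective_iff_bijective.mp (Uni.conjHom hF).injective)
  have hσ : ∀ a, σ a = a ^ q := fun a => rfl
  have hf : Cfsg.Geo.IsUnitaryForm σ (fun u v => B (T₀ u) (T₀ v)) := by
    refine ⟨?_, fun a => Uni.pow_q_pow_q hF a, ?_, ?_, ?_, ?_⟩
    · intro h
      obtain ⟨a, ha⟩ := Uni.exists_pow_q_ne hF
      apply ha
      exact congrArg (fun s : F ≃+* F => s a) h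
    · intro x y v
      rw [map_add, hB.add_left]
    · intro c x v
      rw [map_smul, hB.smul_left]
    · intro v w
      rw [hB.symm (T₀ w) (T₀ v), one_mul]
      rfl
    · intro v hv
      constructor
      · by_contra h
        push Not at h
        apply hv
        have h1 : T₀ v = 0 := by
          apply hND _ Submodule.mem_top
          intro w _
          obtain ⟨w', rfl⟩ := T₀.surjective w
          rw [hB.symm (T₀ w') (T₀ v), h w', map_zero, mul_zero]
        exact (LinearEquiv.map_eq_zero_iff _).mp h1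
      · by_contra h
        push Not at h
        apply hv
        have h1 : T₀ v = 0 := by
          apply hND _ Submodule.mem_top
          intro w _
          obtain ⟨w', rfl⟩ := T₀.surjective w
          exact h w'
        exact (LinearEquiv.map_eq_zero_iff _).mp h1
  obtain ⟨q', hq', hs, S, hS⟩ := H98.UniMax.exists_std_form hf
  have h2 : q' = q := by
    rw [hF] at hq'
    exact (Nat.pow_left_injective (n := 2) (by norm_num) hq').symm
  rw [h2] at hS
  have hu : Function.Bijective (Matrix.toLin' (S : Matrix (Fin n) (Fin n) F)) := by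
    refine ⟨?_, ?_⟩
    · intro a b hab
      have h3 := congrArg (fun v => Matrix.mulVec ((S⁻¹ : Matrix.GeneralLinearGroup (Fin n) F) : Matrix (Fin n) (Fin n) F) v) hab
      simp only [Matrix.toLin'_apply, Matrix.mulVec_mulVec] at h3
      rw [← Units.val_mul, inv_mul_cancel, Units.val_one, Matrix.one_mulVec, Matrix.one_mulVec] at h3
      exact h3
    · intro b
      refine ⟨Matrix.mulVec ((S⁻¹ : Matrix.GeneralLinearGroup (Fin n) F) : Matrix (Fin n) (Fin n) F) b, ?_⟩
      rw [Matrix.toLin'_apply, Matrix.mulVec_mulVec, ← Units.val_mul, mul_inv_cancel, Units.val_one, Matrix.one_mulVec]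
  exact ⟨(LinearEquiv.ofBijective _ hu).trans T₀, fun u v => hS u v⟩

theorem exists_ND_sub' (hF : Fintype.card F = q ^ 2) {V : Type*} [AddCommGroup V] [Module F V] [FiniteDimensional F V] {B : V → V → F}
    (hB : EForm (Uni.conjHom hF) 1 B) (hND : ND B (⊤ : Submodule F V)) {k : ℕ} (hk : k ≤ finrank F V) :
    ∃ U : Submodule F V, ND B U ∧ finrank F U = k := by
  classical
  obtain ⟨T, hT⟩ := exists_herm_std hF hB hND rfl
  have hON : Uni.IsON q (fun i : Fin k => (Pi.single (Fin.castLE hk i) 1 : Fin (finrank F V) → F)) := by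
    intro i j
    rw [Uni.hermForm_single_left]
    change (Pi.single (Fin.castLE hk j) 1 : Fin (finrank F V) → F) (Fin.castLE hk i) ^ q = _
    rw [Pi.single_apply]
    by_cases hij : i = j
    · subst hij
      simp
    · rw [if_neg (fun h => hij ((Fin.castLE_injective hk h))), if_neg hij]
      simp [Uni.zero_pow_q hF]
  have h1 := nd_span_ON hF hON
  have h2 := hON.linearIndependent hF
  refine ⟨(Submodule.span F (Set.range (fun i : Fin k => (Pi.single (Fin.castLE hk i) 1 : Fin (finrank F V) → F)))).map T.toLinearMap, ?_, ?_⟩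
  · rintro _ ⟨u, hu, rfl⟩ h
    have h3 : u = 0 := by
      apply h1 u hu
      intro v hv
      rw [← hT]
      exact h _ ⟨v, hv, rfl⟩
    rw [h3, map_zero]
  · rw [LinearEquiv.finrank_map_eq, finrank_span_eq_card h2, Fintype.card_fin]

theorem exists_iso_sub_top (hF : Fintype.card F = q ^ 2) {V : Type*} [AddCommGroup V] [Module F V] [FiniteDimensional F V] {B : V → V → F}
    (hB : EForm (Uni.conjHom hF) 1 B) (hND : ND B (⊤ : Submodule F V)) {j : ℕ} (hj : 2 * j ≤ finrank F V) :
    ∃ U : Submodule F V, (∀ a ∈ U, ∀ b ∈ U, B a b = 0) ∧ finrank F U = j := by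
  classical
  obtain ⟨U, hU, hUd⟩ := exists_ND_sub' hF hB hND hj
  have hB' : EForm (Uni.conjHom hF) 1 (fun u v : U => B (u : V) (v : V)) := hB.restrict U
  have hND' : ND (fun u v : U => B (u : V) (v : V)) (⊤ : Submodule F U) := by
    intro u _ hu
    apply Subtype.ext
    exact hU u u.2 (fun v hv => hu ⟨v, hv⟩ Submodule.mem_top)
  obtain ⟨T, hT⟩ := exists_herm_std hF hB' hND' hUd
  obtain ⟨W₁, W₂, h1, h2, h3, h4, h5⟩ := uni_hyperbolic hF j (W := (⊤ : Submodule F (Fin (2 * j) → F))) (Uni.nd_top hF) (by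
    rw [finrank_top, finrank_fintype_fun_eq_card, Fintype.card_fin])
  refine ⟨(W₁.map T.toLinearMap).map U.subtype, ?_, ?_⟩
  · rintro _ ⟨_, ⟨a, ha, rfl⟩, rfl⟩ _ ⟨_, ⟨b, hb, rfl⟩, rfl⟩
    have := hT a b
    rw [h1 a ha b hb] at this
    exact this
  · rw [Submodule.finrank_map_subtype_eq, LinearEquiv.finrank_map_eq, h4]


theorem exists_iso_sub' (hF : Fintype.card F = q ^ 2) {V : Type*} [AddCommGroup V] [Module F V] [FiniteDimensional F V] {B : V → V → F}
    (hB : EForm (Uni.conjHom hF) 1 B) {W : Submodule F V} (hW : ND B W) {j : ℕ} (hj : 2 * j ≤ finrank F W) :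
    ∃ U ≤ W, (∀ a ∈ U, ∀ b ∈ U, B a b = 0) ∧ finrank F U = j := by
  have hND' : ND (fun u v : W => B (u : V) (v : V)) (⊤ : Submodule F W) := by
    intro u _ hu
    apply Subtype.ext
    exact hW u u.2 (fun v hv => hu ⟨v, hv⟩ Submodule.mem_top)
  obtain ⟨U, h1, h2⟩ := exists_iso_sub_top hF (hB.restrict W) hND' hj
  refine ⟨U.map W.subtype, Submodule.map_subtype_le W U, ?_, by rw [Submodule.finrank_map_subtype_eq, h2]⟩
  rintro _ ⟨a, ha, rfl⟩ _ ⟨b, hb, rfl⟩
  exact h1 a ha b hb

end

section
variable {F : Type*} [Field F] [Fintype F] {q n : ℕ} {p : ℕ} [Fact p.Prime] [CharP F p] {r : ℕ} [Fact r.Prime]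

/-- the hypothesis that `c` is the block size of `r` for hermitian forms -/
def UBlk (r q c : ℕ) : Prop :=
  (SelfDual r q (q ^ 2) ∧ c = orderOf ((q ^ 2 : ℕ) : ZMod r)) ∨ (¬ SelfDual r q (q ^ 2) ∧ c = 2 * orderOf ((q ^ 2 : ℕ) : ZMod r))

theorem isoBlocks (hF : Fintype.card F = q ^ 2) (hr2 : r ≠ 2) (hrp : r ≠ p) {c : ℕ} (hc : UBlk r q c) {V : Type*} [AddCommGroup V] [Module F V] [FiniteDimensional F V] {B : V → V → F}
    (hE : EForm (Uni.conjHom hF) 1 B) {x : V →ₗ[F] V} (hx : ∀ u v, B (x u) (x v) = B u v) (hr : x ^ r = 1)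
    {W : Submodule F V} (hW : ∀ v ∈ W, x v ∈ W) (hND : ND B W) (hfix : ∀ v ∈ W, x v = v → v = 0) :
    c ∣ finrank F W ∧ ∀ j, j * c ≤ finrank F W → ∃ U ≤ W, (∀ v ∈ U, x v ∈ U) ∧ ND B U ∧ finrank F U = j * c := by
  apply exists_isoBlocks hr2 hrp hE (N := q) (q_pow_p hF (p := p)) (fun a => rfl) _ hx hr _ hW hND hfix rfl
  rw [hF]
  exact hc

/-- a fixed-point-free isometry of order `r` of a hermitian space of dimension `c` -/
theorem exists_uni_full (hF : Fintype.card F = q ^ 2) (hr2 : r ≠ 2) (hrp : r ≠ p) {c : ℕ} (hc : UBlk r q c)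
    (hdiv : r ∣ (if Even (c - 1) then q ^ c + 1 else q ^ c - 1))
    {V : Type*} [AddCommGroup V] [Module F V] [FiniteDimensional F V] {B : V → V → F}
    (hE : EForm (Uni.conjHom hF) 1 B) (hND : ND B (⊤ : Submodule F V)) (hd : finrank F V = c) :
    ∃ x : V →ₗ[F] V, (∀ u v, B (x u) (x v) = B u v) ∧ x ^ r = 1 ∧ finrank F (LinearMap.ker (x - 1)) = 0 := by
  classical
  have hr : r.Prime := Fact.out
  have hQ : ¬ r ∣ Fintype.card F := prime_not_dvd_card hrp
  have hpos := orderOf_pos_of_not_dvd (r := r) hQ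
  rw [hF] at hpos
  have hcpos : 0 < c := by
    rcases hc with ⟨-, h⟩ | ⟨-, h⟩ <;> omega
  obtain ⟨T, hT⟩ := exists_herm_std hF hE hND hd
  have hdvd : r ∣ Nat.card (Cfsg.GU c F q) := by
    rw [Uni.card_GU hF]
    apply Dvd.dvd.mul_left
    have h1 := Finset.dvd_prod_of_mem (fun i => if Even i then q ^ (i + 1) + 1 else q ^ (i + 1) - 1) (Finset.mem_range.mpr (show c - 1 < c by omega))
    simp only [Nat.sub_add_cancel hcpos] at h1
    exact hdiv.trans h1
  obtain ⟨g, hg⟩ := exists_prime_orderOf_dvd_card' r hdvd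
  set y := Matrix.toLin' (((g : Matrix.GeneralLinearGroup (Fin c) F)) : Matrix (Fin c) (Fin c) F) with hy
  have hyr : y ^ r = 1 := by
    rw [hy, ← Matrix.toLin'_pow]
    have h1 : (((g : Matrix.GeneralLinearGroup (Fin c) F)) : Matrix (Fin c) (Fin c) F) ^ r = 1 := by
      rw [← Units.val_pow_eq_pow_val, ← SubmonoidClass.coe_pow, ← hg, pow_orderOf_eq_one]
      rfl
    rw [h1, Matrix.toLin'_one]
    rfl
  let x : V →ₗ[F] V := T.toLinearMap ∘ₗ y ∘ₗ T.symm.toLinearMap
  have hxT : ∀ v, x (T v) = T (y v) := by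
    intro v
    change T (y (T.symm (T v))) = _
    rw [T.symm_apply_apply]
  have hxpow : ∀ k v, (x ^ k) (T v) = T ((y ^ k) v) := by
    intro k
    induction k with
    | zero => intro v; rfl
    | succ k ih => intro v; rw [pow_succ', Module.End.mul_apply, ih, hxT, pow_succ', Module.End.mul_apply]
  have hxr : x ^ r = 1 := by
    ext v
    obtain ⟨w, rfl⟩ := T.surjective v
    rw [hxpow, hyr]
    rfl
  have hxi : ∀ u v, B (x u) (x v) = B u v := by
    intro u v
    obtain ⟨u, rfl⟩ := T.surjective u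
    obtain ⟨v, rfl⟩ := T.surjective v
    rw [hxT, hxT, hT, hT, hy]
    exact g.2 u v
  refine ⟨x, hxi, hxr, ?_⟩
  obtain ⟨h1, h2, h3, h4, h5⟩ := split_fixed hrp hE hxi hxr (W := ⊤) (fun _ _ => Submodule.mem_top) hND
  have h6 := (isoBlocks hF hr2 hrp hc hE hxi hxr h2 h3 h4).1
  rw [finrank_top, hd] at h5
  have h7 : finrank F (⊤ ⊓ orth hE.oform (⊤ ⊓ LinearMap.ker (x - 1)) : Submodule F V) ≠ 0 := by
    intro h8
    rw [h8, add_zero] at h5
    have h9 : (⊤ ⊓ LinearMap.ker (x - 1) : Submodule F V) = ⊤ := Submodule.eq_top_of_finrank_eq (by rw [h5, hd])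
    rw [top_inf_eq] at h9
    have h10 : x = 1 := by
      rw [LinearMap.ker_eq_top, sub_eq_zero] at h9
      exact h9
    have h11 : g = 1 := by
      apply Subtype.ext
      apply Units.ext
      apply Matrix.toLin'.injective
      apply LinearMap.ext
      intro v
      have h12 := hxT v
      rw [h10, Module.End.one_apply] at h12
      have h13 := T.injective h12
      rw [← hy, ← h13]
      change _ = Matrix.toLin' (1 : Matrix (Fin c) (Fin c) F) _
      rw [Matrix.toLin'_one]
      rfl
    rw [h11, orderOf_one] at hg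
    exact hr.one_lt.ne hg
  have h8 := Nat.le_of_dvd (Nat.pos_of_ne_zero h7) h6
  have h9 : finrank F (⊤ ⊓ LinearMap.ker (x - 1) : Submodule F V) = finrank F (LinearMap.ker (x - 1)) := by rw [top_inf_eq]
  omega

/-- isometries with a given number of blocks -/
theorem exists_uni_blocks.{v} (hF : Fintype.card F = q ^ 2) (hr2 : r ≠ 2) (hrp : r ≠ p) {c : ℕ} (hc : UBlk r q c)
    (hdiv : r ∣ (if Even (c - 1) then q ^ c + 1 else q ^ c - 1)) (j : ℕ) : ∀ (V : Type v) [AddCommGroup V] [Module F V] [FiniteDimensional F V]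
    (B : V → V → F), EForm (Uni.conjHom hF) 1 B → ND B (⊤ : Submodule F V) → j * c ≤ finrank F V →
    ∃ x : V →ₗ[F] V, (∀ u v, B (x u) (x v) = B u v) ∧ x ^ r = 1 ∧
      finrank F (LinearMap.ker (x - 1)) + j * c = finrank F V := by
  induction j with
  | zero =>
    intro V _ _ _ B hA hND _
    refine ⟨1, fun _ _ => rfl, one_pow r, ?_⟩
    rw [sub_self, LinearMap.ker_zero, finrank_top]
    ring
  | succ j ih =>
    intro V _ _ _ B hA hND hj
    rw [add_mul, one_mul] at hj ⊢
    obtain ⟨U, hU, hUd⟩ := exists_ND_sub' hF hA hND (k := c) (by omega)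
    have hcc := isCompl_orth hA.oform hU
    have hU' : ND B (orth hA.oform U) := by
      have := split_ND_compl hA.oform hND hU le_top
      rwa [top_inf_eq] at this
    have hd2 := Submodule.finrank_add_eq_of_isCompl hcc
    have hres : ∀ W : Submodule F V, ND B W → ND (fun u v : W => B (u : V) (v : V)) (⊤ : Submodule F W) := by
      intro W hW u _ hu
      apply Subtype.ext
      exact hW u u.2 (fun v hv => hu ⟨v, hv⟩ Submodule.mem_top)
    obtain ⟨x₁, h1, h2, h3⟩ := exists_uni_full (V := U) hF hr2 hrp hc hdiv (hA.restrict U) (hres U hU) hUd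
    obtain ⟨x₂, g1, g2, g3⟩ := ih (orth hA.oform U) (fun u v => B (u : V) (v : V)) (hA.restrict (orth hA.oform U)) (hres _ hU') (by omega)
    refine ⟨glue hcc x₁ x₂, ?_, ?_, ?_⟩
    · apply glue_isom hA hcc _ x₁ x₂ h1 g1
      intro u hu v hv
      exact hA.oform.refl _ _ (hv u hu)
    · rw [glue_pow, h2, g2, glue_one]
    · rw [finrank_ker_glue, h3]
      omega

/-- isometries with pairwise different types -/
theorem exists_uni_types.{v} (hF : Fintype.card F = q ^ 2) (hr2 : r ≠ 2) (hrp : r ≠ p) (hsd : SelfDual r q (q ^ 2))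
    {c : ℕ} (hcord : c = orderOf ((q ^ 2 : ℕ) : ZMod r))
    (hdiv : r ∣ (if Even (c - 1) then q ^ c + 1 else q ^ c - 1)) (T : Finset F[X]) (hT : T ⊆ cycFac r F) :
    ∀ (V : Type v) [AddCommGroup V] [Module F V] [FiniteDimensional F V]
    (B : V → V → F), EForm (Uni.conjHom hF) 1 B → ND B (⊤ : Submodule F V) → T.card * c ≤ finrank F V →
    ∃ x : V →ₗ[F] V, (∀ u v, B (x u) (x v) = B u v) ∧ x ^ r = 1 ∧
      finrank F (LinearMap.ker (x - 1)) + T.card * c = finrank F V ∧
      ∀ Q ∈ cycFac r F, finrank F (LinearMap.ker (aeval x Q)) ≤ c ∧ (Q ∉ T → finrank F (LinearMap.ker (aeval x Q)) = 0) := by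
  classical
  have hc : UBlk r q c := Or.inl ⟨hsd, hcord⟩
  have hcF : c = orderOf ((Fintype.card F : ℕ) : ZMod r) := by rw [hF]; exact hcord
  induction T using Finset.induction_on with
  | empty =>
    intro V _ _ _ B hA hND _
    refine ⟨1, fun _ _ => rfl, one_pow r, ?_, ?_⟩
    · rw [sub_self, LinearMap.ker_zero, finrank_top, Finset.card_empty, zero_mul, add_zero]
    · intro Q hQ
      have h0 : finrank F (LinearMap.ker (aeval (1 : V →ₗ[F] V) Q)) = 0 := by
        rw [mem_cycFac] at hQ
        have h1 : eval 1 Q ≠ 0 := by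
          intro h1
          obtain ⟨G, hG⟩ := hQ.2.2
          have h2 := congrArg (eval 1) hG
          rw [eval_mul, h1, zero_mul, eval_one_cyclotomic_prime] at h2
          exact natCast_ne_zero_of_ne (Fact.out : r.Prime) hrp h2
        have h2 : aeval (1 : V →ₗ[F] V) Q = algebraMap F _ (eval 1 Q) := by
          have := aeval_algebraMap_apply_eq_algebraMap_eval (A := V →ₗ[F] V) (1 : F) Q
          rw [map_one] at this
          exact this
        rw [h2]
        have h3 : LinearMap.ker (algebraMap F (V →ₗ[F] V) (eval 1 Q)) = ⊥ := by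
          rw [LinearMap.ker_eq_bot']
          intro v hv
          rw [Module.algebraMap_end_apply, smul_eq_zero] at hv
          exact hv.resolve_left h1
        rw [h3, finrank_bot]
      exact ⟨by rw [h0]; exact Nat.zero_le _, fun _ => h0⟩
  | insert P T hP ih =>
    intro V _ _ _ B hA hND hj
    rw [Finset.card_insert_of_notMem hP, add_mul, one_mul] at hj ⊢
    obtain ⟨U, hU, hUd⟩ := exists_ND_sub' hF hA hND (k := c) (by omega)
    have hcc := isCompl_orth hA.oform hU
    have hU' : ND B (orth hA.oform U) := by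
      have := split_ND_compl hA.oform hND hU le_top
      rwa [top_inf_eq] at this
    have hd2 := Submodule.finrank_add_eq_of_isCompl hcc
    have hres : ∀ W : Submodule F V, ND B W → ND (fun u v : W => B (u : V) (v : V)) (⊤ : Submodule F W) := by
      intro W hW u _ hu
      apply Subtype.ext
      exact hW u u.2 (fun v hv => hu ⟨v, hv⟩ Submodule.mem_top)
    obtain ⟨x₁, h1, h2, h3⟩ := exists_uni_full (V := U) hF hr2 hrp hc hdiv (hA.restrict U) (hres U hU) hUd
    obtain ⟨x₂, g1, g2, g3, g4⟩ := ih (fun _ h => hT (Finset.mem_insert_of_mem h)) (orth hA.oform U) (fun u v => B (u : V) (v : V)) (hA.restrict (orth hA.oform U)) (hres _ hU') (by omega)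
    have hPc : P ∈ cycFac r F := hT (Finset.mem_insert_self P T)
    have hfix1 : ∀ v : U, x₁ v = v → v = 0 := by
      intro v hv
      have h4 : v ∈ LinearMap.ker (x₁ - 1) := by rw [LinearMap.mem_ker, LinearMap.sub_apply, Module.End.one_apply, hv, sub_self]
      rw [Submodule.finrank_eq_zero.mp h3] at h4
      exact (Submodule.mem_bot F).mp h4
    obtain ⟨k, hk⟩ := exists_pow_type hrp h2 hfix1 (by rw [hUd]; exact hcF) hPc
    have hyr : (x₁ ^ k) ^ r = 1 := by rw [← pow_mul, mul_comm, pow_mul, h2, one_pow]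
    have hyker : finrank F (LinearMap.ker (x₁ ^ k - 1)) = 0 := by
      rw [mem_cycFac] at hPc
      have hcop : IsCoprime P (X - 1 : F[X]) := by
        rw [hPc.2.1.coprime_iff_not_dvd]
        intro h4
        have h5 : eval 1 P = 0 := by
          have h6 : (X - 1 : F[X]) ∣ P := by
            have h7 : Irreducible (X - 1 : F[X]) := by
              have := irreducible_X_sub_C (1 : F)
              rwa [C_1] at this
            exact (hPc.2.1.associated_of_dvd h7 h4).symm.dvd
          obtain ⟨G, hG⟩ := h6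
          rw [hG, eval_mul, eval_sub, eval_X, eval_one, sub_self, zero_mul]
        obtain ⟨G, hG⟩ := hPc.2.2
        have h2 := congrArg (eval 1) hG
        rw [eval_mul, h5, zero_mul, eval_one_cyclotomic_prime] at h2
        exact natCast_ne_zero_of_ne (Fact.out : r.Prime) hrp h2
      have h5 := ker_aeval_bot hcop hk
      rw [map_sub, aeval_X, map_one] at h5
      rw [h5, finrank_bot]
    refine ⟨glue hcc (x₁ ^ k) x₂, ?_, ?_, ?_, ?_⟩
    · apply glue_isom hA hcc _ (x₁ ^ k) x₂ _ g1
      · intro u hu v hv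
        exact hA.oform.refl _ _ (hv u hu)
      · exact isom_pow (B := fun u v : U => B (u : V) (v : V)) h1 k
    · rw [glue_pow, hyr, g2, glue_one]
    · rw [finrank_ker_glue, hyker]
      omega
    · intro Q hQ
      rw [aeval_glue, finrank_ker_glue']
      obtain ⟨g5, g6⟩ := g4 Q hQ
      by_cases hQP : Q = P
      · subst hQP
        have h4 := g6 hP
        have h5 := Submodule.finrank_le (LinearMap.ker (aeval (x₁ ^ k) Q))
        rw [hUd] at h5
        refine ⟨by omega, fun h => absurd (Finset.mem_insert_self Q T) h⟩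
      · have hcop := coprime_cycFac (Finset.mem_coe.mpr hPc) (Finset.mem_coe.mpr hQ) (fun h => hQP h.symm)
        have h4 : finrank F (LinearMap.ker (aeval (x₁ ^ k) Q)) = 0 := by
          rw [ker_aeval_bot hcop hk, finrank_bot]
        rw [h4, zero_add]
        exact ⟨g5, fun h => g6 (fun h' => h (Finset.mem_insert_of_mem h'))⟩

end

end Cfsg.Agent.H99.UT
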