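import Mathlib
import Cfsg.Agent.H99.UniTI

set_option autoImplicit false
set_option linter.unusedVariables false

/-! Arithmetic, counting and reductions for unitary groups (helper99). -/

namespace Cfsg.Agent.H99.UT

open Module Polynomial Cfsg.Agent.H99

section arith
variable {q r : ℕ} [Fact r.Prime]

theorem one_ne_neg (hr2 : r ≠ 2) : (1 : ZMod r) ≠ -1 := by
  have hr : r.Prime := Fact.out
  intro h
  have h1 : ((2 : ℕ) : ZMod r) = 0 := by
    push_cast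
    linear_combination h
  rw [CharP.cast_eq_zero_iff (ZMod r) r] at h1
  exact hr2 ((Nat.prime_dvd_prime_iff_eq hr Nat.prime_two).mp h1)

theorem zmod_sub (q n : ℕ) (hq : 0 < q) : r ∣ q ^ n - 1 ↔ ((q : ℕ) : ZMod r) ^ n = 1 := by
  rw [← CharP.cast_eq_zero_iff (ZMod r) r, Nat.cast_sub (Nat.one_le_pow _ _ hq), Nat.cast_pow, Nat.cast_one, sub_eq_zero]

theorem zmod_add (q n : ℕ) : r ∣ q ^ n + 1 ↔ ((q : ℕ) : ZMod r) ^ n = -1 := by
  rw [← CharP.cast_eq_zero_iff (ZMod r) r, Nat.cast_add, Nat.cast_pow, Nat.cast_one, add_eq_zero_iff_eq_neg]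

theorem ord_sq (hQ : ¬ r ∣ q) {i b : ℕ} (hi : i = orderOf (q : ZMod r)) (hb : b = if Even i then i / 2 else i) :
    orderOf ((q ^ 2 : ℕ) : ZMod r) = b := by
  rw [Nat.cast_pow, orderOf_pow' _ (by norm_num), ← hi, hb]
  split_ifs with he
  · rw [Nat.gcd_eq_right he.two_dvd]
  · rw [Nat.not_even_iff_odd] at he
    rw [(Nat.coprime_two_right.mpr he : Nat.gcd _ _ = 1), Nat.div_one]

theorem neg_case (hr2 : r ≠ 2) {i j : ℕ} (hi : i = orderOf (q : ZMod r)) (h : ((q : ℕ) : ZMod r) ^ j = -1) (hj : Odd j) :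
    i % 4 = 2 ∧ i / 2 ∣ j := by
  have h1 : i ∣ 2 * j := by
    rw [hi]
    apply orderOf_dvd_iff_pow_eq_one.mpr
    rw [mul_comm, pow_mul, h]
    ring
  have h2 : ¬ i ∣ j := by
    intro h3
    rw [hi] at h3
    rw [orderOf_dvd_iff_pow_eq_one.mp h3] at h
    exact one_ne_neg hr2 h
  have he : Even i := by
    by_contra ho
    rw [Nat.not_even_iff_odd] at ho
    exact h2 ((Nat.Coprime.dvd_mul_left (Nat.coprime_two_right.mpr ho)).mp h1)
  obtain ⟨k, hk⟩ := he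
  have h3 : i / 2 = k := by omega
  have h4 : k ∣ j := by
    have h5 : 2 * k ∣ 2 * j := by
      rw [two_mul, ← hk]
      exact h1
    exact Nat.dvd_of_mul_dvd_mul_left (by norm_num) h5
  refine ⟨?_, by rw [h3]; exact h4⟩
  have h5 : Odd k := Odd.of_dvd_nat hj h4
  obtain ⟨l, hl⟩ := h5
  omega

theorem half_pow (hr2 : r ≠ 2) {i : ℕ} (hi : i = orderOf (q : ZMod r)) (h : i % 4 = 2) : ((q : ℕ) : ZMod r) ^ (i / 2) = -1 := by
  have h1 : (((q : ℕ) : ZMod r) ^ (i / 2)) * (((q : ℕ) : ZMod r) ^ (i / 2)) = 1 := by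
    rw [← pow_add]
    apply orderOf_dvd_iff_pow_eq_one.mp
    rw [← hi]
    exact Dvd.intro 1 (by omega)
  rcases mul_self_eq_one_iff.mp h1 with h2 | h2
  · exfalso
    have h3 := orderOf_dvd_iff_pow_eq_one.mpr h2
    rw [← hi] at h3
    have := Nat.le_of_dvd (by omega) h3
    omega
  · exact h2

theorem selfDual_iff (hr2 : r ≠ 2) {i : ℕ} (hi : i = orderOf (q : ZMod r)) : SelfDual r q (q ^ 2) ↔ i % 4 = 2 := by
  have h0 : ∀ t, q * (q ^ 2) ^ t = q ^ (2 * t + 1) := fun t => by rw [← pow_mul, pow_succ, mul_comm]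
  constructor
  · rintro ⟨t, ht⟩
    rw [h0, zmod_add] at ht
    exact (neg_case hr2 hi ht ⟨t, rfl⟩).1
  · intro h
    refine ⟨(i / 2) / 2, ?_⟩
    rw [h0, zmod_add]
    have : 2 * (i / 2 / 2) + 1 = i / 2 := by omega
    rw [this]
    exact half_pow hr2 hi h

theorem uBlk (hr2 : r ≠ 2) (hQ : ¬ r ∣ q) {i b c : ℕ} (hi : i = orderOf (q : ZMod r)) (hb : b = if Even i then i / 2 else i)
    (hc : c = if i % 4 = 0 then i else if i % 4 = 2 then i / 2 else 2 * i) : UBlk r q c := by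
  unfold UBlk
  rw [ord_sq hQ hi hb, selfDual_iff hr2 hi]
  rcases Nat.even_or_odd i with he | ho
  · rw [if_pos he] at hb
    obtain ⟨k, hk⟩ := he
    by_cases h2 : i % 4 = 2
    · left
      refine ⟨h2, ?_⟩
      rw [hc, if_neg (by omega), if_pos h2, hb]
    · right
      refine ⟨h2, ?_⟩
      rw [hc, if_pos (by omega), hb]
      omega
  · rw [if_neg (Nat.not_even_iff_odd.mpr ho)] at hb
    rw [Nat.odd_iff] at ho
    right
    refine ⟨by omega, ?_⟩
    rw [hc, if_neg (by omega), if_neg (by omega), hb]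

theorem dvd_of_norm (hr2 : r ≠ 2) {i c j : ℕ} (hi : i = orderOf (q : ZMod r))
    (hc : c = if i % 4 = 0 then i else if i % 4 = 2 then i / 2 else 2 * i) (h : ((q : ℕ) : ZMod r) ^ j = (-1) ^ j) : c ∣ j := by
  rcases Nat.even_or_odd j with he | ho
  · rw [he.neg_one_pow] at h
    have h1 : i ∣ j := by rw [hi]; exact orderOf_dvd_iff_pow_eq_one.mpr h
    rw [hc]
    split_ifs with h2 h3
    · exact h1
    · exact (Nat.div_dvd_of_dvd (by omega)).trans h1
    · have h4 : Nat.Coprime 2 i := by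
        rw [Nat.coprime_two_left]
        rcases Nat.even_or_odd i with h5 | h5
        · obtain ⟨k, hk⟩ := h5
          omega
        · exact h5
      exact h4.mul_dvd_of_dvd_of_dvd he.two_dvd h1
  · rw [ho.neg_one_pow] at h
    obtain ⟨h1, h2⟩ := neg_case hr2 hi h ho
    rw [hc, if_neg (by omega), if_pos h1]
    exact h2

theorem blk_div (hr2 : r ≠ 2) (hq : 0 < q) {i c : ℕ} (hi0 : 0 < i) (hi : i = orderOf (q : ZMod r))
    (hc : c = if i % 4 = 0 then i else if i % 4 = 2 then i / 2 else 2 * i) : r ∣ (if Even (c - 1) then q ^ c + 1 else q ^ c - 1) := by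
  have h0 : ((q : ℕ) : ZMod r) ^ i = 1 := by rw [hi]; exact pow_orderOf_eq_one _
  by_cases h4 : i % 4 = 0
  · rw [if_pos h4] at hc
    rw [if_neg (by rw [Nat.not_even_iff_odd, Nat.odd_iff]; omega), zmod_sub _ _ hq, hc]
    exact h0
  by_cases h2 : i % 4 = 2
  · rw [if_neg h4, if_pos h2] at hc
    rw [if_pos (by rw [Nat.even_iff]; omega), zmod_add, hc]
    exact half_pow hr2 hi h2
  · rw [if_neg h4, if_neg h2] at hc
    rw [if_neg (by rw [Nat.not_even_iff_odd, Nat.odd_iff]; omega), zmod_sub _ _ hq, hc, mul_comm, pow_mul, h0, one_pow]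

end arith

section
variable {F : Type*} [Field F] [Fintype F] {q n : ℕ}

theorem uni_count (hF : Fintype.card F = q ^ 2) {m : ℕ} (hmn : 2 * m ≤ n) :
    Nat.card {W : Submodule F (Fin n → F) // finrank F W = m ∧ ∀ u ∈ W, ∀ v ∈ W, Cfsg.hermForm n F q u v = 0} * qfac (q ^ 2) m
      = ∏ i ∈ Finset.range m, (Uni.cnt (n - 2 * i) F q 0 - 1) := by
  have h1 := Uni.card_TIsub_mul (n := n) hF m
  rw [Uni.card_TI hF hmn, Fin.prod_univ_eq_prod_range (fun j => (q ^ 2) ^ m - (q ^ 2) ^ j), Finset.prod_mul_distrib] at h1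
  have hq := Uni.two_le_q hF
  have hq2 : 2 ≤ q ^ 2 := by nlinarith
  have h6 := prod_sub_mul_qfac hq2 m m le_rfl
  rw [Nat.sub_self] at h6
  have h7 : qfac (q ^ 2) 0 = 1 := by simp [qfac]
  rw [h7, mul_one] at h6
  rw [h6] at h1
  have h3 : ∏ i ∈ Finset.range m, q ^ (2 * i) = (q ^ 2) ^ ∑ j ∈ Finset.range m, j := by
    rw [← Finset.prod_pow_eq_pow_sum]
    apply Finset.prod_congr rfl
    intro i _
    rw [pow_mul]
  rw [h3] at h1
  have h8 : 0 < (q ^ 2) ^ ∑ j ∈ Finset.range m, j := pow_pos (by omega) _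
  apply Nat.eq_of_mul_eq_mul_left h8
  rw [← h1]
  ring

theorem uni_count_dvd (hF : Fintype.card F = q ^ 2) {m : ℕ} (hmn : 2 * m ≤ n) {r : ℕ} [Fact r.Prime]
    (hr : r ∣ Nat.card {W : Submodule F (Fin n → F) // finrank F W = m ∧ ∀ u ∈ W, ∀ v ∈ W, Cfsg.hermForm n F q u v = 0}) :
    ∃ j, 1 ≤ j ∧ j ≤ n ∧ n < j + 2 * m ∧ ((q : ℕ) : ZMod r) ^ j = (-1) ^ j := by
  have hrp : r.Prime := Fact.out
  have h1 : r ∣ ∏ i ∈ Finset.range m, (Uni.cnt (n - 2 * i) F q 0 - 1) := by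
    rw [← uni_count hF hmn]
    exact hr.mul_right _
  obtain ⟨i, hi, h2⟩ := (Prime.dvd_finsetProd_iff hrp.prime _).mp h1
  rw [Finset.mem_range] at hi
  have h3 : n - 2 * i = (n - 2 * i - 1) + 1 := by omega
  rw [h3] at h2
  have h4 : ((r : ℕ) : ℤ) ∣ ((Uni.cnt ((n - 2 * i - 1) + 1) F q 0 - 1 : ℕ) : ℤ) := by exact_mod_cast h2
  rw [Uni.cnt_zero_sub_one hF] at h4
  rcases (Nat.prime_iff_prime_int.mp hrp).dvd_or_dvd h4 with h5 | h5
  · refine ⟨n - 2 * i - 1 + 1, by omega, by omega, by omega, ?_⟩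
    rw [← ZMod.intCast_zmod_eq_zero_iff_dvd] at h5
    push_cast at h5
    exact sub_eq_zero.mp h5
  · refine ⟨n - 2 * i - 1, by omega, by omega, by omega, ?_⟩
    rw [← ZMod.intCast_zmod_eq_zero_iff_dvd] at h5
    push_cast at h5
    rw [pow_succ] at h5
    linear_combination h5

theorem ne_p_of_norm (hF : Fintype.card F = q ^ 2) {p : ℕ} [Fact p.Prime] [CharP F p] {r : ℕ} [Fact r.Prime] {j : ℕ} (hj : 1 ≤ j)
    (h : ((q : ℕ) : ZMod r) ^ j = (-1) ^ j) : r ≠ p := by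
  rintro rfl
  have hrp : r.Prime := Fact.out
  obtain ⟨e, he⟩ := q_pow_p hF (p := r)
  have hq := Uni.two_le_q hF
  have he0 : e ≠ 0 := by
    rintro rfl
    rw [pow_zero] at he
    omega
  have h1 : ((q : ℕ) : ZMod r) = 0 := by
    rw [CharP.cast_eq_zero_iff (ZMod r) r, he]
    exact dvd_pow_self r he0
  rw [h1, zero_pow (by omega)] at h
  exact (pow_ne_zero j (neg_ne_zero.mpr one_ne_zero)) h.symm

theorem not_dvd_q (hF : Fintype.card F = q ^ 2) {p : ℕ} [Fact p.Prime] [CharP F p] {r : ℕ} [Fact r.Prime] (hrp : r ≠ p) : ¬ r ∣ q := by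
  intro h
  apply prime_not_dvd_card (F := F) hrp
  rw [hF]
  exact h.trans (dvd_pow_self q two_ne_zero)

theorem exists_SU_of_isom (hF : Fintype.card F = q ^ 2) {r : ℕ} (hr : r.Prime) (hrq : ¬ r ∣ q + 1) {x : (Fin n → F) →ₗ[F] (Fin n → F)}
    (hx : ∀ u v, Cfsg.hermForm n F q (x u) (x v) = Cfsg.hermForm n F q u v) (hxr : x ^ r = 1) :
    ∃ M : Matrix.SpecialLinearGroup (Fin n) F, M ∈ Cfsg.SU n F q ∧ Matrix.toLin' (M : Matrix (Fin n) (Fin n) F) = x ∧ M ^ r = 1 := by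
  set A := LinearMap.toMatrix' x with hA
  have hAx : Matrix.toLin' A = x := Matrix.toLin'_toMatrix' x
  have hpres : Uni.Pres q A := by
    intro u v
    rw [← Matrix.toLin'_apply, ← Matrix.toLin'_apply, hAx]
    exact hx u v
  have hAr : A ^ r = 1 := by
    apply Matrix.toLin'.injective
    rw [Matrix.toLin'_pow, hAx, hxr, Matrix.toLin'_one]
    rfl
  have hdet : A.det = 1 := by
    have h1 := hpres.det_norm hF
    have h2 : A.det ^ r = 1 := by rw [← Matrix.det_pow, hAr, Matrix.det_one]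
    have h3 : Nat.Coprime r (q + 1) := (Nat.Prime.coprime_iff_not_dvd hr).mpr hrq
    have h4 := pow_gcd_eq_one.mpr ⟨h2, h1⟩
    rw [h3] at h4
    rwa [pow_one] at h4
  obtain ⟨M, hM⟩ : ∃ M : Matrix.SpecialLinearGroup (Fin n) F, (M : Matrix (Fin n) (Fin n) F) = A := ⟨⟨A, hdet⟩, rfl⟩
  refine ⟨M, ?_, by rw [hM]; exact hAx, ?_⟩
  · rw [Uni.mem_SU, hM]
    exact hpres
  apply Subtype.ext
  rw [Matrix.SpecialLinearGroup.coe_pow, hM]
  exact hAr

theorem scalar_norm (hn : 0 < n) {M : Matrix (Fin n) (Fin n) F} (hM : Uni.Pres q M) {z : F} (hz : M = z • (1 : Matrix (Fin n) (Fin n) F)) :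
    z ^ (q + 1) = 1 := by
  let i₀ : Fin n := ⟨0, hn⟩
  have h1 := hM (Pi.single i₀ 1) (Pi.single i₀ 1)
  rw [hz, Matrix.smul_mulVec, Matrix.one_mulVec, Uni.hermForm_smul_left, Uni.hermForm_smul_right, Uni.hermForm_single_left, Pi.single_eq_same, one_pow] at h1
  rw [pow_succ']
  linear_combination h1

theorem uni_reduce (hF : Fintype.card F = q ^ 2) (hn : 0 < n) {r : ℕ} (hr : r.Prime) (hrq : ¬ r ∣ q + 1) {x : Matrix.SpecialLinearGroup (Fin n) F}
    (hx : x ∈ Cfsg.SU n F q) {z : F}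
    (hz : ((x ^ r : Matrix.SpecialLinearGroup (Fin n) F) : Matrix (Fin n) (Fin n) F) = z • (1 : Matrix (Fin n) (Fin n) F)) :
    ∃ w : F, w ^ (q + 1) = 1 ∧ (w • Matrix.toLin' (x : Matrix (Fin n) (Fin n) F)) ^ r = 1 ∧
      ∀ u v, Cfsg.hermForm n F q ((w • Matrix.toLin' (x : Matrix (Fin n) (Fin n) F)) u) ((w • Matrix.toLin' (x : Matrix (Fin n) (Fin n) F)) v) = Cfsg.hermForm n F q u v := by
  have hpow : ∀ k, ((x ^ k : Matrix.SpecialLinearGroup (Fin n) F) : Matrix (Fin n) (Fin n) F) = (x : Matrix (Fin n) (Fin n) F) ^ k :=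
    fun k => Matrix.SpecialLinearGroup.coe_pow x k
  have hpr : Uni.Pres q ((x ^ r : Matrix.SpecialLinearGroup (Fin n) F) : Matrix (Fin n) (Fin n) F) := Subgroup.pow_mem _ hx r
  have hzn := scalar_norm hn hpr hz
  have hz0 : z ≠ 0 := by
    rintro rfl
    rw [zero_pow (by omega)] at hzn
    exact zero_ne_one hzn
  -- an `r`-th root of `z⁻¹`
  obtain ⟨w, hw1, hw2⟩ : ∃ w : F, w ^ (q + 1) = 1 ∧ w ^ r * z = 1 := by
    have h3 : Nat.Coprime r (q + 1) := (Nat.Prime.coprime_iff_not_dvd hr).mpr hrq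
    obtain ⟨t, ht⟩ := Nat.exists_mul_mod_eq_one_of_coprime h3 (by have := Uni.two_le_q hF; omega)
    refine ⟨(z⁻¹) ^ t, ?_, ?_⟩
    · rw [← pow_mul, mul_comm t, pow_mul, inv_pow, hzn, inv_one, one_pow]
    · rw [← pow_mul, mul_comm t]
      have h4 := Nat.div_add_mod (r * t) (q + 1)
      rw [ht.2] at h4
      rw [← h4, pow_add, pow_mul, inv_pow z, hzn, inv_one, one_pow, one_mul, pow_one, inv_mul_cancel₀ hz0]
  refine ⟨w, hw1, ?_, ?_⟩
  · rw [_root_.smul_pow, ← Matrix.toLin'_pow, ← hpow, hz, map_smul, smul_smul, hw2, one_smul, Matrix.toLin'_one]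
    rfl
  · intro u v
    rw [LinearMap.smul_apply, LinearMap.smul_apply, Uni.hermForm_smul_left, Uni.hermForm_smul_right, Matrix.toLin'_apply, Matrix.toLin'_apply]
    have h5 := hx u v
    rw [pow_succ'] at hw1
    rw [← mul_assoc, hw1, one_mul]
    exact h5

/-- isotropic subspaces of the fixed space -/
theorem fix_bound (hF : Fintype.card F = q ^ 2) {p : ℕ} [Fact p.Prime] [CharP F p] {r : ℕ} [Fact r.Prime] (hrp : r ≠ p) {V : Type*} [AddCommGroup V] [Module F V] [FiniteDimensional F V]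
    {B : V → V → F} (hE : EForm (Uni.conjHom hF) 1 B) (hND : ND B (⊤ : Submodule F V)) {y : V →ₗ[F] V} (hy : ∀ u v, B (y u) (y v) = B u v) (hyr : y ^ r = 1)
    {W : Submodule F V} (hW : W ≤ LinearMap.ker (y - 1)) (hWi : ∀ u ∈ W, ∀ v ∈ W, B u v = 0) : 2 * finrank F W ≤ finrank F (LinearMap.ker (y - 1)) := by
  obtain ⟨s1, -⟩ := split_fixed hrp hE hy hyr (W := ⊤) (fun _ _ => Submodule.mem_top) hND
  rw [top_inf_eq] at s1
  have h1 := (hE.restrict (LinearMap.ker (y - 1))).two_mul_finrank_le (by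
    intro u _ hu
    apply Subtype.ext
    exact s1 u u.2 (fun v hv => hu ⟨v, hv⟩ Submodule.mem_top)) (W.comap (LinearMap.ker (y - 1)).subtype) (by
    intro u hu v hv
    exact hWi u hu v hv)
  have h2 : finrank F (W.comap (LinearMap.ker (y - 1)).subtype) = finrank F W := by
    have h7 : (W.comap (LinearMap.ker (y - 1)).subtype).map (LinearMap.ker (y - 1)).subtype = W := by
      rw [Submodule.map_comap_subtype, inf_eq_right.mpr hW]
    rw [LinearEquiv.finrank_eq (Submodule.equivMapOfInjective (LinearMap.ker (y - 1)).subtype (LinearMap.ker (y - 1)).injective_subtype (W.comap (LinearMap.ker (y - 1)).subtype)), h7]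
  rw [h2] at h1
  exact h1

theorem orth_two' (hF : Fintype.card F = q ^ 2) {V : Type*} [AddCommGroup V] [Module F V] {B : V → V → F} (hE : EForm (Uni.conjHom hF) 1 B) {a b : Submodule F V} (h : ∀ u ∈ a, ∀ v ∈ b, B u v = 0)
    (ha : ∀ u ∈ a, ∀ v ∈ a, B u v = 0) (hb : ∀ u ∈ b, ∀ v ∈ b, B u v = 0) : ∀ u ∈ a ⊔ b, ∀ v ∈ a ⊔ b, B u v = 0 := by
  intro u hu v hv
  obtain ⟨a1, ha1, b1, hb1, rfl⟩ := Submodule.mem_sup.mp hu
  obtain ⟨a2, ha2, b2, hb2, rfl⟩ := Submodule.mem_sup.mp hv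
  rw [hE.add_left, hE.add_right, hE.add_right, ha a1 ha1 a2 ha2, h a1 ha1 b2 hb2, hE.oform.refl _ _ (h a2 ha2 b1 hb1), hb b1 hb1 b2 hb2]
  ring

end

end Cfsg.Agent.H99.UT
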