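import Cfsg.Agent.H99.UniTI2
import Cfsg.Agent.H99.SympRed

set_option autoImplicit false
open scoped MatrixGroups
open Cfsg

namespace Cfsg.Agent.H99.UT

open Module Matrix Polynomial Cfsg.Agent.H99

section
variable {F : Type*} [Field F] [Fintype F] {p : ℕ} [Fact p.Prime] [CharP F p] {q n m : ℕ}

theorem uni_not_scalar (hF : Fintype.card F = q ^ 2) (hn : 0 < n) {r : ℕ} (hr : r.Prime) (hrq : ¬ r ∣ q + 1) {x : Matrix.SpecialLinearGroup (Fin n) F}
    (hx : x ∈ Cfsg.SU n F q) (hxr : x ^ r = 1) (hx1 : x ≠ 1) (z : F) : (x : Matrix (Fin n) (Fin n) F) ≠ z • (1 : Matrix (Fin n) (Fin n) F) := by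
  intro hz
  have h1 := scalar_norm hn (Uni.mem_SU.mp hx) hz
  have hpow : ∀ k, ((x ^ k : Matrix.SpecialLinearGroup (Fin n) F) : Matrix (Fin n) (Fin n) F) = (x : Matrix (Fin n) (Fin n) F) ^ k :=
    fun k => Matrix.SpecialLinearGroup.coe_pow x k
  have h2 : z ^ r = 1 := by
    have h3 := hpow r
    rw [hxr, hz, _root_.smul_pow, one_pow] at h3
    have h4 := congrFun (congrFun h3 ⟨0, hn⟩) ⟨0, hn⟩
    rw [Matrix.smul_apply, Matrix.SpecialLinearGroup.coe_one, Matrix.one_apply_eq, smul_eq_mul, mul_one] at h4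
    exact h4.symm
  have h3 : Nat.Coprime r (q + 1) := (Nat.Prime.coprime_iff_not_dvd hr).mpr hrq
  have h4 := pow_gcd_eq_one.mpr ⟨h2, h1⟩
  rw [h3, pow_one] at h4
  apply hx1
  apply Subtype.ext
  change (x : Matrix (Fin n) (Fin n) F) = ((1 : Matrix.SpecialLinearGroup (Fin n) F) : Matrix (Fin n) (Fin n) F)
  rw [hz, h4, one_smul, Matrix.SpecialLinearGroup.coe_one]

theorem case_odd (hF : Fintype.card F = q ^ 2) (hn : 0 < n) (hm : 1 ≤ m) (hmn : 2 * m ≤ n)
    {r : ℕ} [Fact r.Prime] (hr2 : r ≠ 2) (hrp : r ≠ p) (hrq : ¬ r ∣ q + 1)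
    {i b c : ℕ} (hi : i = orderOf (q : ZMod r)) (hb : b = if Even i then i / 2 else i)
    (hc : c = if i % 4 = 0 then i else if i % 4 = 2 then i / 2 else 2 * i)
    {j₀ : ℕ} (hj0 : 1 ≤ j₀) (hjn : j₀ ≤ n) (hjm : n < j₀ + 2 * m) (hj : ((q : ℕ) : ZMod r) ^ j₀ = (-1) ^ j₀) :
    (∀ x : Matrix.SpecialLinearGroup (Fin n) F, x ∈ Cfsg.SU n F q →
      (∃ z : F, ((x ^ r : Matrix.SpecialLinearGroup (Fin n) F) : Matrix (Fin n) (Fin n) F) = z • (1 : Matrix (Fin n) (Fin n) F)) →
      (∀ z : F, (x : Matrix (Fin n) (Fin n) F) ≠ z • (1 : Matrix (Fin n) (Fin n) F)) →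
      ∃ W : Submodule F (Fin n → F), Module.finrank F ↥W = m ∧ (∀ u ∈ W, ∀ v ∈ W, Cfsg.hermForm n F q u v = 0) ∧
        W.map (Matrix.toLin' (x : Matrix (Fin n) (Fin n) F)) ≤ W) ↔
    (b ≤ m ∧ 2 * (m % b) ≤ n % c ∧ (i % 4 ≠ 2 ∨ (r - 1) / b + 2 * (m / b) ≤ n / b)) := by
  classical
  have hr : r.Prime := Fact.out
  have hA := herm_eform (n := n) hF
  have hND := herm_ND (n := n) hF
  have hfd : finrank F (Fin n → F) = n := by rw [finrank_fintype_fun_eq_card, Fintype.card_fin]
  have hQ : ¬ r ∣ q := not_dvd_q hF hrp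
  have hcb : UBlk r q c := uBlk hr2 hQ hi hb hc
  have hord : orderOf ((Fintype.card F : ℕ) : ZMod r) = b := by rw [hF]; exact ord_sq hQ hi hb
  have hord2 : orderOf ((q ^ 2 : ℕ) : ZMod r) = b := ord_sq hQ hi hb
  have hipos : 0 < i := by rw [hi]; exact orderOf_pos_of_not_dvd hQ
  have hbpos : 0 < b := by
    rw [← hord]
    exact orderOf_pos_of_not_dvd (prime_not_dvd_card (F := F) hrp)
  have hdiv := blk_div (q := q) hr2 (Uni.q_pos hF) hipos hi hc
  have hcpos : 0 < c := by
    rcases hcb with ⟨-, h⟩ | ⟨-, h⟩ <;> rw [hord2] at h <;> omega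
  have hcj : c ∣ j₀ := dvd_of_norm hr2 hi hc hj
  have hbc : c = b ∨ c = 2 * b := by
    rcases hcb with ⟨-, h⟩ | ⟨-, h⟩ <;> rw [hord2] at h <;> omega
  have hmi := Nat.div_add_mod m b
  have hdc := Nat.div_add_mod n c
  have hmodm : m % b < b := Nat.mod_lt _ hbpos
  have hmodd : n % c < c := Nat.mod_lt _ hcpos
  obtain ⟨e0, he0⟩ := q_pow_p hF (p := p)
  constructor
  · intro hfix
    have hkey1 : 2 * (m % b) ≤ n % c := by
      by_contra hcon
      push Not at hcon
      obtain ⟨y, hy1, hyr, hy3⟩ := exists_uni_blocks hF hr2 hrp hcb hdiv (n / c) (Fin n → F) (Cfsg.hermForm n F q) hA hND (by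
        rw [hfd]; exact Nat.div_mul_le_self _ _)
      rw [hfd] at hy3
      obtain ⟨x, hx, hxy, hxr⟩ := exists_SU_of_isom hF hr hrq hy1 hyr
      have hK : 0 < n / c := Nat.div_pos ((Nat.le_of_dvd (by omega) hcj).trans hjn) hcpos
      have hx1' : x ≠ 1 := by
        rintro rfl
        rw [Matrix.SpecialLinearGroup.coe_one, Matrix.toLin'_one] at hxy
        have h4 : (y - 1 : (Fin n → F) →ₗ[F] (Fin n → F)) = 0 := by
          rw [← hxy]
          exact sub_self _
        rw [h4, LinearMap.ker_zero, finrank_top, hfd] at hy3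
        have := Nat.mul_pos hK hcpos
        omega
      obtain ⟨W, g1, g2, g3⟩ := hfix x hx ⟨1, by rw [hxr, one_smul]; rfl⟩ (uni_not_scalar hF hn hr hrq hx hxr hx1')
      rw [hxy] at g3
      have hWi : ∀ v ∈ W, y v ∈ W := fun v hv => g3 ⟨v, hv, rfl⟩
      have h1 := finrank_modEq_fixed_sub hrp y hyr W hWi
      rw [hord, g1] at h1
      have h2 := fix_bound hF hrp hA hND hy1 hyr (W := W ⊓ LinearMap.ker (y - 1)) inf_le_right (fun u hu v hv => g2 u hu.1 v hv.1)
      have h3 : finrank F (LinearMap.ker (y - 1)) = n % c := by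
        rw [mul_comm c] at hdc
        omega
      rw [h3] at h2
      have h4 : m % b ≤ finrank F (W ⊓ LinearMap.ker (y - 1) : Submodule F (Fin n → F)) := by
        rw [Nat.ModEq] at h1
        rw [h1]
        exact Nat.mod_le _ _
      omega
    have him : b ≤ m := by
      by_contra hcon
      push Not at hcon
      rw [Nat.mod_eq_of_lt hcon] at hkey1
      obtain ⟨t, ht⟩ := hcj
      have h5 : t ≤ n / c := by
        rw [Nat.le_div_iff_mul_le hcpos, mul_comm, ← ht]
        exact hjn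
      have h6 : c * t ≤ c * (n / c) := Nat.mul_le_mul_left c h5
      omega
    refine ⟨him, hkey1, ?_⟩
    by_contra hcon
    push Not at hcon
    obtain ⟨hev, ht⟩ := hcon
    have hsd : SelfDual r q (q ^ 2) := (selfDual_iff hr2 hi).mpr hev
    have hci : c = b := by
      rcases hcb with ⟨-, h⟩ | ⟨h, -⟩
      · rw [h, hord2]
      · exact absurd hsd h
    rw [hci] at hkey1 hdc hmodd hdiv
    set n' := n / b with hn'
    set m' := m / b with hm'
    have hm'1 : 1 ≤ m' := Nat.div_pos him hbpos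
    have h2m : 2 * m' ≤ n' := by
      rw [hn', Nat.le_div_iff_mul_le hbpos]
      have h1 := Nat.div_mul_le_self m b
      rw [← hm'] at h1
      calc 2 * m' * b = 2 * (m' * b) := by ring
        _ ≤ 2 * m := by omega
        _ ≤ n := by omega
    obtain ⟨o, ho⟩ : ∃ o, o + 2 * m' = n' + 1 := ⟨n' + 1 - 2 * m', by omega⟩
    have hcf := card_cycFac (F := F) (p := p) hrp
    rw [hord] at hcf
    have hto : o ≤ (cycFac r F).card := by
      have h1 : (cycFac r F).card = (r - 1) / b := by
        rw [← hcf, Nat.mul_div_cancel _ hbpos]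
      rw [h1]
      omega
    obtain ⟨T, hT1, hT2⟩ := Finset.exists_subset_card_eq hto
    have hoi : o * b + 2 * (b * m') = b * n' + b := by
      calc o * b + 2 * (b * m') = (o + 2 * m') * b := by ring
        _ = (n' + 1) * b := by rw [ho]
        _ = b * n' + b := by ring
    have him' : b ≤ b * m' := Nat.le_mul_of_pos_right b hm'1
    obtain ⟨g, k1, k2, k3, k4⟩ := exists_uni_types hF hr2 hrp hsd (c := b) hord2.symm hdiv T hT1 (Fin n → F) (Cfsg.hermForm n F q) hA hND (by
      rw [hT2, hfd]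
      omega)
    rw [hT2, hfd] at k3
    obtain ⟨x, hx, hxy, hxr⟩ := exists_SU_of_isom hF hr hrq k1 k2
    have hx1 : x ≠ 1 := by
      rintro rfl
      rw [Matrix.SpecialLinearGroup.coe_one, Matrix.toLin'_one] at hxy
      have h4 : (g - 1 : (Fin n → F) →ₗ[F] (Fin n → F)) = 0 := by
        rw [← hxy]
        exact sub_self _
      rw [h4, LinearMap.ker_zero, finrank_top, hfd] at k3
      have h5 : 0 < o * b := Nat.mul_pos (by omega) hbpos
      omega
    obtain ⟨W, g1, g2, g3⟩ := hfix x hx ⟨1, by rw [hxr, one_smul]; rfl⟩ (uni_not_scalar hF hn hr hrq hx hxr hx1)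
    rw [hxy] at g3
    have hsd' : SelfDualE p r (Uni.conjHom hF) := SelfDual.toE (N := q) ⟨e0, he0⟩ (fun a => rfl) (by rw [hF]; exact hsd)
    have h1 := le_ker_of_types hrp hA hND hsd' k1 k2 (fun Q hQ => by rw [hord]; exact (k4 Q hQ).1) (fun v hv => g3 ⟨v, hv, rfl⟩) g2
    have h2 := fix_bound hF hrp hA hND k1 k2 h1 g2
    rw [g1] at h2
    omega
  · rintro ⟨him, hkey, hcase⟩ x hx ⟨z, hz⟩ hns
    obtain ⟨w, hw, hwr, hwi⟩ := uni_reduce hF hn hr hrq hx hz
    have hw0 : w ≠ 0 := by
      rintro rfl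
      rw [zero_pow (by omega)] at hw
      exact zero_ne_one hw
    set y := w • Matrix.toLin' (x : Matrix (Fin n) (Fin n) F) with hy
    obtain ⟨s1, s2, s3, s4, s5⟩ := split_fixed hrp hA hwi hwr (W := ⊤) (fun _ _ => Submodule.mem_top) hND
    clear s5
    simp only [top_inf_eq] at s1 s2 s3 s4
    have s5 := Submodule.finrank_add_eq_of_isCompl (isCompl_orth hA.oform s1)
    rw [hfd] at s5
    set C := LinearMap.ker (y - 1) with hC
    set M := orth hA.oform C with hM
    have hCM : Disjoint C M := (ND_iff_disjoint hA.oform C).mp s1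
    obtain ⟨⟨A, hAc⟩, -⟩ := isoBlocks hF hr2 hrp hcb hA hwi hwr s2 s3 s4
    -- the general construction
    have hconstr : ∀ S ≤ M, (∀ v ∈ S, y v ∈ S) → (∀ a ∈ S, ∀ b ∈ S, Cfsg.hermForm n F q a b = 0) → ∀ j, j * b ≤ finrank F S → j * b ≤ m → 2 * (m - j * b) ≤ finrank F C →
        ∃ W : Submodule F (Fin n → F), Module.finrank F ↥W = m ∧ (∀ u ∈ W, ∀ v ∈ W, Cfsg.hermForm n F q u v = 0) ∧
          W.map (Matrix.toLin' (x : Matrix (Fin n) (Fin n) F)) ≤ W := by
      intro S hSM hSi hSt j hj1 hj2 hj3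
      obtain ⟨S', t1, t2, t3⟩ := exists_inv_sub hrp hwr hSi (fun v hv => s4 v (hSM hv)) j (by rw [hord]; exact hj1)
      rw [hord] at t3
      obtain ⟨U, u1, u2, u3⟩ := exists_iso_sub' hF hA s1 hj3
      refine ⟨U ⊔ S', ?_, ?_, map_le_of_smul hw0 ?_⟩
      · have h8 := Submodule.finrank_sup_add_finrank_inf_eq U S'
        rw [disjoint_iff.mp (hCM.mono u1 (t1.trans hSM)), finrank_bot, u3, t3] at h8
        omega
      · apply orth_two' hF hA _ u2 (fun a ha b hb => hSt a (t1 ha) b (t1 hb))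
        intro a ha b hb
        exact hA.oform.refl _ _ ((hSM (t1 hb)) a (u1 ha))
      · intro v hv
        obtain ⟨a, ha, b, hb, rfl⟩ := Submodule.mem_sup.mp hv
        rw [← hy, map_add]
        apply Submodule.add_mem_sup _ (t2 b hb)
        have h5 := u1 ha
        rw [hC, LinearMap.mem_ker, LinearMap.sub_apply, Module.End.one_apply, sub_eq_zero] at h5
        rw [h5]
        exact ha
    by_cases hev : i % 4 = 2
    · -- self-dual case
      have hsd : SelfDual r q (q ^ 2) := (selfDual_iff hr2 hi).mpr hev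
      have hci : c = b := by
        rcases hcb with ⟨-, h⟩ | ⟨h, -⟩
        · rw [h, hord2]
        · exact absurd hsd h
      rw [hci] at hkey hdc hmodd hAc
      have ht := hcase.resolve_left (fun h => h hev)
      have hsd' : SelfDualE p r (Uni.conjHom hF) := SelfDual.toE (N := q) ⟨e0, he0⟩ (fun a => rfl) (by rw [hF]; exact hsd)
      obtain ⟨S, q1, q2, q3, q4⟩ := exists_max_iso hrp hr2 hA hsd' hwi hwr _ s2 s3 s4 rfl
      have hSi := dvd_finrank_of_fix hrp hwr q2 (fun v hv => s4 v (q1 hv))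
      rw [hord] at hSi
      obtain ⟨s, hs⟩ := hSi
      have hcf := card_cycFac (F := F) (p := p) hrp
      rw [hord] at hcf
      have htt : (r - 1) / b * b = r - 1 := by
        rw [← hcf, Nat.mul_div_cancel _ hbpos]
      have hmul : ((r - 1) / b) * b + 2 * (m / b * b) ≤ n / b * b := by
        have := Nat.mul_le_mul_right b ht
        calc ((r - 1) / b) * b + 2 * (m / b * b) = ((r - 1) / b + 2 * (m / b)) * b := by ring
          _ ≤ _ := this
      rw [mul_comm b] at hmi hdc
      rcases Nat.le_total (m / b) s with h | h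
      · apply hconstr S q1 q2 q3 (m / b)
        · rw [hs, mul_comm b]
          exact Nat.mul_le_mul_right b h
        · omega
        · have h5 : n % b ≤ finrank F C := by
            have h6 : n % b = (finrank F C + b * A) % b := by rw [← hAc, s5]
            rw [h6, Nat.add_mul_mod_self_left]
            exact Nat.mod_le _ _
          omega
      · apply hconstr S q1 q2 q3 s
        · rw [hs, mul_comm]
        · have := Nat.mul_le_mul_right b h
          omega
        · rw [mul_comm] at hs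
          have := Nat.mul_le_mul_right b h
          omega
    · -- non-self-dual case
      have hsd : ¬ SelfDual r q (q ^ 2) := fun h => hev ((selfDual_iff hr2 hi).mp h)
      have hci : c = 2 * b := by
        rcases hcb with ⟨h, -⟩ | ⟨-, h⟩
        · exact absurd h hsd
        · rw [h, hord2]
      obtain ⟨S, q1, q2, q3, q4⟩ := exists_max_iso' hrp hA (N := q) ⟨e0, he0⟩ (fun a => rfl) (by rw [hF]; exact hsd) hwi hwr _ s2 s3 s4 rfl
      have hSi := dvd_finrank_of_fix hrp hwr q2 (fun v hv => s4 v (q1 hv))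
      rw [hord] at hSi
      obtain ⟨s, hs⟩ := hSi
      rw [mul_comm b] at hmi
      rcases Nat.le_total (m / b) s with h | h
      · apply hconstr S q1 q2 q3 (m / b)
        · rw [hs, mul_comm b]
          exact Nat.mul_le_mul_right b h
        · omega
        · have h5 : n % c ≤ finrank F C := by
            have h6 : n % c = (finrank F C + c * A) % c := by rw [← hAc, s5]
            rw [h6, Nat.add_mul_mod_self_left]
            exact Nat.mod_le _ _
          omega
      · apply hconstr S q1 q2 q3 s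
        · rw [hs, mul_comm]
        · have := Nat.mul_le_mul_right b h
          omega
        · rw [mul_comm] at hs
          have := Nat.mul_le_mul_right b h
          omega

end

end Cfsg.Agent.H99.UT
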